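import Cfsg.Agent.MaxSub.OrthFour.Defs
import Mathlib.LinearAlgebra.Matrix.SchurComplement
import Mathlib.FieldTheory.Finite.Basic

/-!
Two tensor sites, each of dimension four and minus type: the centraliser in an overgroup of the
monomial group of a product of two half turns is monomial.

Everything is read off from traces.  If `a`, `b` are the products of two reflections centralising
the involution `z`, then `trace (z a) = 4` and `trace (z b) = -4`, so the dihedral group they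
generate has a central involution `w`, and `w a` is again a product of two reflections.
-/

set_option autoImplicit false
set_option linter.unusedSectionVars false

namespace Cfsg.Agent.MaxSub.OrthFour.BadTwo

open Matrix Cfsg.Geo Cfsg.Agent.NotMax Cfsg.Agent.GeoClasses
open Cfsg.Agent.MaxSub.TensorPowSp (gV fG)
open Cfsg.Agent.MaxSub.OrthWreathBig (gB cr sieM)
open scoped MatrixGroups Matrix

variable {F : Type*} [Field F] {δ : F}

/-! ### Dihedral groups -/

theorem dihedral {G : Type*} [Group G] [Finite G] {H : Subgroup G} {a b z : G} (ha : a ∈ H)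
    (hb : b ∈ H) (haa : a * a = 1) (hbb : b * b = 1) (hza : Commute a z) (hzb : Commute b z)
    (hno : ∀ e ∈ H, Commute e z → e * a * e⁻¹ ≠ b) :
    ∃ w ∈ H, w ≠ 1 ∧ w * w = 1 ∧ Commute w a ∧ Commute w b ∧ Commute w z ∧
      ((∃ d ∈ H, Commute d z ∧ d * d = w ∧ w * a = d * a * d⁻¹ ∧ w * b = d * b * d⁻¹) ∨
        ∃ e ∈ H, Commute e z ∧ w * a = e * b * e⁻¹) := by
  have hai : a⁻¹ = a := inv_eq_of_mul_eq_one_right haa
  have hbi : b⁻¹ = b := inv_eq_of_mul_eq_one_right hbb
  have sa : SemiconjBy a (a * b)⁻¹ (a * b) := by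
    show a * (a * b)⁻¹ = a * b * a
    rw [_root_.mul_inv_rev, hai, hbi, mul_assoc]
  have sb : SemiconjBy b (a * b)⁻¹ (a * b) := by
    show b * (a * b)⁻¹ = a * b * b
    rw [_root_.mul_inv_rev, hai, hbi, mul_assoc a b b, hbb, mul_one, ← mul_assoc, hbb, one_mul]
  have conj : ∀ x, SemiconjBy x (a * b)⁻¹ (a * b) → ∀ j : ℕ,
      (a * b) ^ j * x * ((a * b) ^ j)⁻¹ = (a * b) ^ (j + j) * x := by
    intro x hx j
    have := (hx.pow_right j).eq
    rw [inv_pow] at this
    rw [mul_assoc, this, ← mul_assoc, ← pow_add]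
  have hH : ∀ j : ℕ, (a * b) ^ j ∈ H := fun j => H.pow_mem (H.mul_mem ha hb) j
  have hz : ∀ j : ℕ, Commute ((a * b) ^ j) z := fun j => (hza.mul_left hzb).pow_left j
  have ho := orderOf_pos (a * b)
  have hone := pow_orderOf_eq_one (a * b)
  rcases Nat.even_or_odd (orderOf (a * b)) with ⟨k, hk⟩ | ⟨j, hj⟩
  swap
  · exfalso
    refine hno ((a * b) ^ j) (hH j) (hz j) ?_
    rw [conj a sa]
    have h1 : (a * b) ^ (j + j) = (a * b)⁻¹ := by
      refine eq_inv_of_mul_eq_one_left ?_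
      rw [← pow_succ, show j + j + 1 = orderOf (a * b) by omega, hone]
    rw [h1, _root_.mul_inv_rev, hai, hbi, mul_assoc, haa, mul_one]
  have hk1 : (a * b) ^ k * (a * b) ^ k = 1 := by rw [← pow_add, ← hk, hone]
  have hk0 : (a * b) ^ k ≠ 1 := fun h => by
    have := Nat.le_of_dvd (by omega) (orderOf_dvd_of_pow_eq_one h)
    omega
  have hci : ((a * b)⁻¹) ^ k = (a * b) ^ k := by rw [inv_pow]; exact inv_eq_of_mul_eq_one_right hk1
  refine ⟨(a * b) ^ k, hH k, hk0, hk1, ?_, ?_, hz k, ?_⟩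
  · have := (sa.pow_right k).eq
    rw [hci] at this
    exact this.symm
  · have := (sb.pow_right k).eq
    rw [hci] at this
    exact this.symm
  rcases Nat.even_or_odd k with ⟨j, rfl⟩ | ⟨j, rfl⟩
  · exact Or.inl ⟨(a * b) ^ j, hH j, hz j, (pow_add _ _ _).symm, (conj a sa j).symm,
      (conj b sb j).symm⟩
  · refine Or.inr ⟨(a * b) ^ j * a, H.mul_mem (hH j) ha, (hz j).mul_left hza, ?_⟩
    calc (a * b) ^ (2 * j + 1) * a
        = a * b * ((a * b) ^ (j + j) * a) := by rw [← two_mul, pow_succ', mul_assoc]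
      _ = a * b * ((a * b) ^ j * a * ((a * b) ^ j)⁻¹) := by rw [conj a sa]
      _ = a * b * (a * b) ^ j * (a * ((a * b) ^ j)⁻¹) := by simp only [mul_assoc]
      _ = (a * b) ^ j * (a * b) * (a * ((a * b) ^ j)⁻¹) := by rw [← pow_succ', pow_succ]
      _ = (a * b) ^ j * a * b * ((a * b) ^ j * a)⁻¹ := by
          rw [_root_.mul_inv_rev, hai]; simp only [mul_assoc]

/-! ### Matrices of two sites -/

/-- The tensor product of two matrices of one site. -/
def pr (A B : M4 F) : MV F 2 := site 0 A * site 1 B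

theorem pr_eq (A B : M4 F) : pr A B = pureMat ![A, B] := by
  rw [pr, site, site, pureMat_mul]
  congr 1
  funext i
  fin_cases i <;> simp

theorem pr_mul (A B C D : M4 F) : pr A B * pr C D = pr (A * C) (B * D) := by
  rw [pr_eq, pr_eq, pr_eq, pureMat_mul]
  congr 1
  funext i
  fin_cases i <;> simp

theorem pr_one : pr (1 : M4 F) 1 = 1 := by rw [pr, site_one, site_one, one_mul]

theorem pr_one_right (A : M4 F) : pr A 1 = site 0 A := by rw [pr, site_one, mul_one]

theorem pr_one_left (B : M4 F) : pr 1 B = site 1 B := by rw [pr, site_one, one_mul]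

theorem pr_smul_left (c : F) (A B : M4 F) : pr (c • A) B = c • pr A B := by
  rw [pr, site_smul, smul_mul_assoc, pr]

theorem trace_pr (A B : M4 F) : Matrix.trace (pr A B) = Matrix.trace A * Matrix.trace B := by
  rw [pr_eq]
  simp only [Matrix.trace, Matrix.diag, pureMat]
  rw [← Fintype.prod_sum fun (i : Fin 2) (k : Fin 4) => (![A, B] i) k k, Fin.prod_univ_two]
  simp

theorem pr_inj {A B C D : M4 F} (h : pr A B = pr C D) (hA : A ≠ 0) (hB : B ≠ 0) :
    ∃ c : F, A = c • C ∧ D = c • B := by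
  have key : ∀ i j k l, A i j * B k l = C i j * D k l := fun i j k l => by
    have := congrFun (congrFun h ![i, k]) ![j, l]
    simpa [pr_eq, pureMat, Fin.prod_univ_two] using this
  obtain ⟨k, l, hkl⟩ : ∃ k l, B k l ≠ 0 := by
    by_contra h0; push Not at h0; exact hB (Matrix.ext h0)
  obtain ⟨i, j, hij⟩ : ∃ i j, A i j ≠ 0 := by
    by_contra h0; push Not at h0; exact hA (Matrix.ext h0)
  have hA' : A = (D k l / B k l) • C := by
    ext a b
    rw [Matrix.smul_apply, smul_eq_mul, div_mul_eq_mul_div, eq_div_iff hkl, key, mul_comm]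
  refine ⟨D k l / B k l, hA', ?_⟩
  have h1 : A i j = (D k l / B k l) * C i j := by
    conv_lhs => rw [hA']
    rfl
  ext a b
  refine mul_left_cancel₀ (show C i j ≠ 0 from fun e => hij (by rw [h1, e, mul_zero])) ?_
  rw [← key, h1, Matrix.smul_apply, smul_eq_mul]
  ring

theorem factorPerm_swap_pr (A B : M4 F) :
    pr A B * factorPerm 4 (Equiv.swap 0 1) = factorPerm 4 (Equiv.swap 0 1) * pr B A := by
  rw [pr_eq, pr_eq, pureMat_mul_factorPerm]
  congr 2
  funext i
  fin_cases i <;> simp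

/-- The invertible tensor product. -/
def prU (A B : GL (Fin 4) F) : GV F 2 := glPure ![A, B]

theorem prU_val (A B : GL (Fin 4) F) : (prU A B : MV F 2) = pr (A : M4 F) (B : M4 F) := by
  ext x y
  simp [prU, glPure, pr_eq, pureMat, Fin.prod_univ_two]

theorem prU_mem (A B : GL (Fin 4) F) : prU A B ∈ Wr F 2 :=
  Subgroup.subset_closure (Or.inl ⟨![A, B], fun _ _ => rfl⟩)

/-- Conjugation of pairs of matrices of trace two. -/
theorem conj_pr (h2 : (2 : F) ≠ 0) {A A' Ai Ai' C C' D D' : M4 F} (hA : Ai * A = 1)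
    (_hA' : A' * Ai' = 1) (hAi : A * Ai = 1) (hA'i : Ai' * A' = 1)
    (h : pr A A' * pr C C' = pr D D' * pr A A') (hC : C.trace = 2) (hC' : C'.trace = 2)
    (hD : D.trace = 2) : A * C = D * A ∧ A' * C' = D' * A' := by
  rw [pr_mul, pr_mul] at h
  have n1 : A * C ≠ 0 := fun e => h2 <| by
    rw [← hC, ← one_mul C, ← hA, mul_assoc, e, mul_zero, Matrix.trace_zero]
  have n2 : A' * C' ≠ 0 := fun e => h2 <| by
    rw [← hC', ← one_mul C', ← hA'i, mul_assoc, e, mul_zero, Matrix.trace_zero]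
  obtain ⟨c, h1, h1'⟩ := pr_inj h n1 n2
  have hc : c = 1 := by
    have h3 : C = c • (Ai * (D * A)) := by
      rw [← mul_smul_comm, ← h1, ← mul_assoc, hA, one_mul]
    have h4 := congrArg Matrix.trace h3
    rw [hC, Matrix.trace_smul, Matrix.trace_mul_comm, mul_assoc, hAi, mul_one, hD, smul_eq_mul] at h4
    exact (mul_eq_right₀ h2).1 h4.symm
  subst hc
  rw [one_smul] at h1 h1'
  exact ⟨h1, h1'.symm⟩

/-! ### One site -/

theorem cr_transpose (δ : F) (a b : Fin 4 → F) : (cr (G4 δ) a b)ᵀ * G4 δ = G4 δ * cr (G4 δ) b a := by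
  ext i j
  simp only [cr, G4, Matrix.transpose_apply, Matrix.mul_diagonal, Matrix.diagonal_mul,
    Matrix.vecMulVec_apply, Matrix.vecMul_diagonal]
  ring

theorem trace_cr (δ : F) (a b : Fin 4 → F) : (cr (G4 δ) a b).trace = gB (G4 δ) b a := by
  rw [gB_diag]
  simp only [cr, G4, Matrix.trace, Matrix.diag, Matrix.vecMulVec_apply, Matrix.vecMul_diagonal,
    Fin.sum_univ_four, wt, Matrix.cons_val_zero, Matrix.cons_val_one, Matrix.cons_val]
  ring

theorem gB_smul_left (c : F) (a b : Fin 4 → F) : gB (G4 δ) (c • a) b = c * gB (G4 δ) a b := by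
  rw [map_smul, LinearMap.smul_apply, smul_eq_mul]

theorem gB_smul_right (c : F) (a b : Fin 4 → F) : gB (G4 δ) a (c • b) = c * gB (G4 δ) a b := by
  rw [map_smul, smul_eq_mul]

theorem gB_eq (u v : Fin 4 → F) : gB (G4 δ) u v = u ⬝ᵥ (G4 δ *ᵥ v) := by
  rw [gB_diag]
  simp only [G4, dotProduct, Matrix.mulVec_diagonal, Fin.sum_univ_four, wt, Matrix.cons_val_zero,
    Matrix.cons_val_one, Matrix.cons_val]
  ring

theorem gB_mulVec (X : M4 F) (u v : Fin 4 → F) :
    gB (G4 δ) (X *ᵥ u) (X *ᵥ v) = u ⬝ᵥ ((Xᵀ * G4 δ * X) *ᵥ v) := by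
  rw [gB_eq, ← Matrix.mulVec_mulVec, ← Matrix.mulVec_mulVec, Matrix.dotProduct_mulVec u Xᵀ,
    Matrix.vecMul_transpose]

theorem simW_gB {A : M4 F} {ν : F} (hA : SimW δ A ν) (u v : Fin 4 → F) :
    gB (G4 δ) (A *ᵥ u) (A *ᵥ v) = ν * gB (G4 δ) u v := by
  rw [gB_mulVec, hA.2, Matrix.smul_mulVec, dotProduct_smul, ← gB_eq, smul_eq_mul]

theorem isoW_gB {A : M4 F} (hA : IsoW δ A) (u v : Fin 4 → F) :
    gB (G4 δ) (A *ᵥ u) (A *ᵥ v) = gB (G4 δ) u v := by
  rw [gB_mulVec, hA, ← gB_eq]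

theorem isoW_one : IsoW δ (1 : M4 F) := by simp [IsoW]

theorem isoW_mul {A B : M4 F} (hA : IsoW δ A) (hB : IsoW δ B) : IsoW δ (A * B) := by
  show (A * B)ᵀ * G4 δ * (A * B) = G4 δ
  rw [Matrix.transpose_mul, show Bᵀ * Aᵀ * G4 δ * (A * B) = Bᵀ * (Aᵀ * G4 δ * A) * B by
    simp only [mul_assoc], hA, hB]

theorem refl_mulVec (δ : F) (r v : Fin 4 → F) :
    reflW δ r *ᵥ v = v - (2 / gB (G4 δ) r r * gB (G4 δ) r v) • r := by
  rw [reflW, Matrix.sub_mulVec, Matrix.one_mulVec, Matrix.smul_mulVec, OrthWreathBig.cr_mulVec,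
    smul_smul]

theorem refl_self {r : Fin 4 → F} (hr : gB (G4 δ) r r ≠ 0) : reflW δ r *ᵥ r = -r := by
  rw [refl_mulVec, div_mul_cancel₀ _ hr, two_smul]
  abel

theorem refl_fix {r v : Fin 4 → F} (h : gB (G4 δ) r v = 0) : reflW δ r *ᵥ v = v := by
  rw [refl_mulVec, h, mul_zero, zero_smul, sub_zero]

theorem refl_sq {r : Fin 4 → F} (hr : gB (G4 δ) r r ≠ 0) : reflW δ r * reflW δ r = 1 := by
  rw [reflW, sub_mul, one_mul, smul_mul_assoc, mul_sub, mul_one, mul_smul_comm,
    OrthWreathBig.cr_mul, smul_smul (2 / gB (G4 δ) r r) (gB (G4 δ) r r), div_mul_cancel₀ _ hr,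
    smul_sub, smul_smul, mul_comm (2 / gB (G4 δ) r r) 2, ← smul_smul, two_smul]
  abel

theorem refl_trace {r : Fin 4 → F} (hr : gB (G4 δ) r r ≠ 0) : (reflW δ r).trace = 2 := by
  rw [reflW, Matrix.trace_sub, Matrix.trace_one, Matrix.trace_smul, trace_cr, smul_eq_mul,
    div_mul_cancel₀ _ hr, Fintype.card_fin]
  norm_num

theorem refl_isoW {r : Fin 4 → F} (hr : gB (G4 δ) r r ≠ 0) : IsoW δ (reflW δ r) := by
  have h : (reflW δ r)ᵀ * G4 δ = G4 δ * reflW δ r := by
    rw [reflW, Matrix.transpose_sub, Matrix.transpose_one, Matrix.transpose_smul, sub_mul, one_mul,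
      smul_mul_assoc, cr_transpose, mul_sub, mul_one, mul_smul_comm]
  show (reflW δ r)ᵀ * G4 δ * reflW δ r = G4 δ
  rw [h, mul_assoc, refl_sq hr, mul_one]

theorem refl_det {r : Fin 4 → F} (hr : gB (G4 δ) r r ≠ 0) : (reflW δ r).det = -1 := by
  have h : reflW δ r = 1 + Matrix.replicateCol Unit (-(2 / gB (G4 δ) r r) • r) *
      Matrix.replicateRow Unit (r ᵥ* G4 δ) := by
    rw [← Matrix.vecMulVec_eq, Matrix.smul_vecMulVec, reflW, sub_eq_add_neg, cr, neg_smul]
  rw [h, Matrix.det_one_add_replicateCol_mul_replicateRow, dotProduct_smul, ← Matrix.dotProduct_mulVec,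
    ← gB_eq, smul_eq_mul, neg_mul, div_mul_cancel₀ _ hr]
  norm_num

theorem refl_smul {r : Fin 4 → F} {k : F} (hk : k ≠ 0) (hr : gB (G4 δ) r r ≠ 0) :
    reflW δ (k • r) = reflW δ r := by
  rw [reflW, reflW, gB_smul_left, gB_smul_right, OrthWreathBig.cr_smul_left,
    OrthWreathBig.cr_smul_right, smul_smul, smul_smul]
  congr 2
  field_simp

/-- A reflection, as an invertible matrix. -/
noncomputable def reflU {r : Fin 4 → F} (hr : gB (G4 δ) r r ≠ 0) : GL (Fin 4) F :=
  ⟨reflW δ r, reflW δ r, refl_sq hr, refl_sq hr⟩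

theorem eigen_of_commute (h2 : (2 : F) ≠ 0) {X : M4 F} {x r : Fin 4 → F}
    (hr : gB (G4 δ) r r ≠ 0) (h : X * reflW δ r = reflW δ x * X) :
    ∃ k : F, X *ᵥ r = k • x := by
  have h1 := congrArg (· *ᵥ r) h
  simp only [← Matrix.mulVec_mulVec, refl_self hr, Matrix.mulVec_neg, refl_mulVec δ x (X *ᵥ r)] at h1
  refine ⟨2 / gB (G4 δ) x x * gB (G4 δ) x (X *ᵥ r) / 2, ?_⟩
  set c := 2 / gB (G4 δ) x x * gB (G4 δ) x (X *ᵥ r)
  have h3 : (2 : F) • (X *ᵥ r) = c • x := by
    rw [two_smul, ← sub_eq_zero]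
    have := sub_eq_zero.2 h1.symm
    rw [← this]
    abel
  rw [div_eq_inv_mul, ← smul_smul, ← h3, inv_smul_smul₀ h2]

theorem sign_of_commute (h2 : (2 : F) ≠ 0) {X : M4 F} {x : Fin 4 → F}
    (hx : gB (G4 δ) x x ≠ 0) (hX : X * X = 1) (h : X * reflW δ x = reflW δ x * X) :
    X *ᵥ x = x ∨ X *ᵥ x = -x := by
  obtain ⟨k, hk⟩ := eigen_of_commute h2 hx h
  have h1 : (k * k) • x = (1 : F) • x := by
    rw [one_smul, ← smul_smul, ← hk, ← Matrix.mulVec_smul, ← hk, Matrix.mulVec_mulVec, hX,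
      Matrix.one_mulVec]
  have hx0 : x ≠ 0 := fun e => hx (by rw [e]; simp)
  rcases mul_self_eq_one_iff.1 (smul_left_injective F hx0 h1) with rfl | rfl
  · exact Or.inl (by rw [hk, one_smul])
  · exact Or.inr (by rw [hk, neg_smul, one_smul])

/-- A half turn and its properties. -/
theorem half_facts (_h2 : (2 : F) ≠ 0) {r s : Fin 4 → F} (hr : gB (G4 δ) r r ≠ 0)
    (hs : gB (G4 δ) s s ≠ 0) (hrs : gB (G4 δ) r s = 0) :
    reflW δ r * reflW δ s = reflW δ s * reflW δ r ∧
      (reflW δ r * reflW δ s) * (reflW δ r * reflW δ s) = 1 ∧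
      (reflW δ r * reflW δ s).trace = 0 ∧
      (reflW δ r * reflW δ s) *ᵥ r = -r ∧ (reflW δ r * reflW δ s) *ᵥ s = -s := by
  have hsr : gB (G4 δ) s r = 0 := by rw [gB_symm, hrs]
  have hc : reflW δ r * reflW δ s = reflW δ r + reflW δ s - 1 := by
    rw [reflW, reflW, sub_mul, one_mul, smul_mul_assoc, mul_sub, mul_one, mul_smul_comm,
      OrthWreathBig.cr_mul, hrs, zero_smul, smul_zero, sub_zero]
    abel
  have hc' : reflW δ s * reflW δ r = reflW δ r + reflW δ s - 1 := by
    rw [reflW, reflW, sub_mul, one_mul, smul_mul_assoc, mul_sub, mul_one, mul_smul_comm,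
      OrthWreathBig.cr_mul, hsr, zero_smul, smul_zero, sub_zero]
    abel
  have hcm := hc.trans hc'.symm
  refine ⟨hcm, ?_, ?_, ?_, ?_⟩
  · calc reflW δ r * reflW δ s * (reflW δ r * reflW δ s)
        = reflW δ r * (reflW δ s * reflW δ r) * reflW δ s := by simp only [mul_assoc]
      _ = reflW δ r * (reflW δ r * reflW δ s) * reflW δ s := by rw [hcm]
      _ = 1 := by rw [← mul_assoc, refl_sq hr, one_mul, refl_sq hs]
  · rw [hc, Matrix.trace_sub, Matrix.trace_add, refl_trace hr, refl_trace hs, Matrix.trace_one,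
      Fintype.card_fin]
    norm_num
  · rw [← Matrix.mulVec_mulVec, refl_fix hsr, refl_self hr]
  · rw [← Matrix.mulVec_mulVec, refl_self hs, Matrix.mulVec_neg, refl_fix hrs]

theorem half_mulVec {r s v : Fin 4 → F} (h1 : gB (G4 δ) r v = 0) (h2 : gB (G4 δ) s v = 0) :
    (reflW δ r * reflW δ s) *ᵥ v = v := by
  rw [← Matrix.mulVec_mulVec, refl_fix h2, refl_fix h1]

/-- The trace of a product with a reflection in an eigenvector. -/
theorem trace_mul_refl {X : M4 F} {x : Fin 4 → F} {ε : F} (hx : gB (G4 δ) x x ≠ 0)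
    (hε : X *ᵥ x = ε • x) : (X * reflW δ x).trace = X.trace - 2 * ε := by
  have h : X * cr (G4 δ) x x = ε • cr (G4 δ) x x := by
    rw [cr, Matrix.mul_vecMulVec, hε, Matrix.smul_vecMulVec]
  rw [reflW, mul_sub, mul_one, mul_smul_comm, h, Matrix.trace_sub, Matrix.trace_smul,
    Matrix.trace_smul, trace_cr, smul_eq_mul, smul_eq_mul]
  field_simp

theorem eq_neg_self (h2 : (2 : F) ≠ 0) {a : F} (h : a = -a) : a = 0 := by
  have : (2 : F) * a = 0 := by linear_combination h
  exact (mul_eq_zero.1 this).resolve_left h2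

/-- Commuting reflections are equal or have perpendicular vectors. -/
theorem refl_eq_or_perp (h2 : (2 : F) ≠ 0) {r x : Fin 4 → F} (hr : gB (G4 δ) r r ≠ 0)
    (hx : gB (G4 δ) x x ≠ 0) (h : reflW δ r * reflW δ x = reflW δ x * reflW δ r) :
    reflW δ x = reflW δ r ∨ gB (G4 δ) r x = 0 := by
  rcases sign_of_commute h2 hx (refl_sq hr) h with h1 | h1
  · right
    by_contra hne
    rw [refl_mulVec, sub_eq_self, smul_eq_zero] at h1
    rcases h1 with h1 | h1
    · exact (mul_ne_zero (div_ne_zero h2 hr) hne) h1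
    · exact hr (by rw [h1]; simp)
  · left
    rw [refl_mulVec] at h1
    set c := 2 / gB (G4 δ) r r * gB (G4 δ) r x
    have h3 : (2 : F) • x = c • r := by
      rw [two_smul, ← sub_eq_zero]
      have := sub_eq_zero.2 h1
      rw [← this]
      abel
    have h4 : x = ((2 : F)⁻¹ * c) • r := by rw [← smul_smul, ← h3, inv_smul_smul₀ h2]
    have h5 : (2 : F)⁻¹ * c ≠ 0 := fun e => hx (by rw [h4, e, zero_smul]; simp)
    rw [h4, refl_smul h5 hr]

/-- The reflection of an eigenvector of a half turn for `-1`. -/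
theorem refl_eq_partner (h2 : (2 : F) ≠ 0) {r s x : Fin 4 → F} (hr : gB (G4 δ) r r ≠ 0)
    (hs : gB (G4 δ) s s ≠ 0) (_hrs : gB (G4 δ) r s = 0) (hx : gB (G4 δ) x x ≠ 0)
    (hrx : gB (G4 δ) r x = 0) (h : (reflW δ r * reflW δ s) *ᵥ x = -x) :
    reflW δ x = reflW δ s := by
  have h1 : reflW δ s *ᵥ x = -x := by
    have := congrArg (reflW δ r *ᵥ ·) h
    simpa only [← Matrix.mulVec_mulVec, Matrix.mulVec_neg, refl_fix hrx,
      Matrix.mulVec_mulVec (v := reflW δ s *ᵥ x), refl_sq hr, Matrix.one_mulVec] using this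
  rw [refl_mulVec] at h1
  set c := 2 / gB (G4 δ) s s * gB (G4 δ) s x
  have h3 : (2 : F) • x = c • s := by
    rw [two_smul, ← sub_eq_zero]
    have := sub_eq_zero.2 h1
    rw [← this]
    abel
  have h4 : x = ((2 : F)⁻¹ * c) • s := by rw [← smul_smul, ← h3, inv_smul_smul₀ h2]
  have h5 : (2 : F)⁻¹ * c ≠ 0 := fun e => hx (by rw [h4, e, zero_smul]; simp)
  rw [h4, refl_smul h5 hs]

/-- An orthogonal family of fewer than four vectors extends. -/
theorem exists_perp (h2 : (2 : F) ≠ 0) (hd : ¬ IsSquare δ) {n : ℕ} (hn : n < 4)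
    (f : Fin n → Fin 4 → F) (hf : ∀ i, gB (G4 δ) (f i) (f i) ≠ 0)
    (ho : ∀ i j, i ≠ j → gB (G4 δ) (f i) (f j) = 0) :
    ∃ v, gB (G4 δ) v v ≠ 0 ∧ ∀ i, gB (G4 δ) (f i) v = 0 := by
  by_contra hno
  push Not at hno
  let π : (Fin 4 → F) → (Fin 4 → F) := fun v =>
    v - ∑ i, (gB (G4 δ) (f i) v / gB (G4 δ) (f i) (f i)) • f i
  have hπ : ∀ v i, gB (G4 δ) (f i) (π v) = 0 := by
    intro v i
    simp only [π, map_sub, map_sum, map_smul, smul_eq_mul]
    rw [Finset.sum_eq_single i (fun j _ hj => by rw [ho i j hj.symm, mul_zero]) (by simp),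
      div_mul_cancel₀ _ (hf i), sub_self]
  have hsing : ∀ v, gB (G4 δ) (π v) (π v) = 0 := fun v => by
    by_contra h
    obtain ⟨i, hi⟩ := hno _ h
    exact hi (hπ v i)
  have hK : ∀ v, (∀ i, gB (G4 δ) (f i) v = 0) → gB (G4 δ) v v = 0 := fun v hv => by
    by_contra h
    obtain ⟨i, hi⟩ := hno _ h
    exact hi (hv i)
  have hzero : ∀ v, π v = 0 := by
    intro v
    funext l
    set u : Fin 4 → F := Pi.single l 1 with hu
    have h0 : gB (G4 δ) (π u) (π v) = 0 := by
      have h1 := hK (π u + π v) fun i => by rw [map_add, hπ, hπ, add_zero]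
      simp only [map_add, LinearMap.add_apply, hsing, zero_add, add_zero,
        gB_symm δ (π v) (π u)] at h1
      rw [← two_mul] at h1
      exact (mul_eq_zero.1 h1).resolve_left h2
    have h1 : gB (G4 δ) u (π v) = 0 := by
      have : u = π u + ∑ i, (gB (G4 δ) (f i) u / gB (G4 δ) (f i) (f i)) • f i := by
        simp only [π, sub_add_cancel]
      rw [this, map_add, LinearMap.add_apply, h0, zero_add, map_sum, LinearMap.sum_apply]
      exact Finset.sum_eq_zero fun i _ => by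
        rw [map_smul, LinearMap.smul_apply, hπ, smul_zero]
    rw [gB_eq, hu, single_dotProduct, one_mul, G4, Matrix.mulVec_diagonal] at h1
    exact (mul_eq_zero.1 h1).resolve_left (wt_ne_zero hd l)
  have hspan : Submodule.span F (Set.range f) = ⊤ := by
    rw [eq_top_iff]
    intro v _
    have : v = ∑ i, (gB (G4 δ) (f i) v / gB (G4 δ) (f i) (f i)) • f i := sub_eq_zero.1 (hzero v)
    rw [this]
    exact Submodule.sum_mem _ fun i _ => Submodule.smul_mem _ _ (Submodule.subset_span ⟨i, rfl⟩)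
  have h4 := finrank_range_le_card (R := F) f
  rw [Set.finrank, hspan, finrank_top, Module.finrank_fin_fun, Fintype.card_fin] at h4
  omega

/-- A root element of one site commuting with a given reflection. -/
theorem exists_siteU [Finite F] (h2 : (2 : F) ≠ 0) (hd : ¬ IsSquare δ) {x : Fin 4 → F}
    (hx : gB (G4 δ) x x ≠ 0) :
    ∃ U : GL (Fin 4) F, (U : M4 F) * reflW δ x = reflW δ x * U ∧
      IsSiteU δ (site (0 : Fin 2) (U : M4 F)) := by
  classical
  have := Fintype.ofFinite F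
  obtain ⟨e₁, he₁, he₁x⟩ := exists_perp h2 hd (by norm_num : 1 < 4) ![x]
    (by intro i; fin_cases i; exact hx) (by intro i j h; exact absurd (Subsingleton.elim i j) h)
  have hx1 : gB (G4 δ) x e₁ = 0 := he₁x 0
  have h1x : gB (G4 δ) e₁ x = 0 := by rw [gB_symm, hx1]
  obtain ⟨e₂, he₂, he₂x⟩ := exists_perp h2 hd (by norm_num : 2 < 4) ![x, e₁]
    (by intro i; fin_cases i <;> assumption)
    (by intro i j h; fin_cases i <;> fin_cases j <;> first | exact absurd rfl h | assumption)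
  have hx2 : gB (G4 δ) x e₂ = 0 := he₂x 0
  have h12 : gB (G4 δ) e₁ e₂ = 0 := he₂x 1
  have h2x : gB (G4 δ) e₂ x = 0 := by rw [gB_symm, hx2]
  have h21 : gB (G4 δ) e₂ e₁ = 0 := by rw [gB_symm, h12]
  obtain ⟨e₃, he₃, he₃x⟩ := exists_perp h2 hd (by norm_num : 3 < 4) ![x, e₁, e₂]
    (by intro i; fin_cases i <;> assumption)
    (by intro i j h; fin_cases i <;> fin_cases j <;> first | exact absurd rfl h | assumption)
  have hx3 : gB (G4 δ) x e₃ = 0 := he₃x 0
  have h13 : gB (G4 δ) e₁ e₃ = 0 := he₃x 1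
  have h23 : gB (G4 δ) e₂ e₃ = 0 := he₃x 2
  have h31 : gB (G4 δ) e₃ e₁ = 0 := by rw [gB_symm, h13]
  have h32 : gB (G4 δ) e₃ e₂ = 0 := by rw [gB_symm, h23]
  set p := gB (G4 δ) e₁ e₁ with hp
  set q := gB (G4 δ) e₂ e₂ with hq
  set o := gB (G4 δ) e₃ e₃ with ho
  obtain ⟨a, b, hab⟩ : ∃ a b : F, p * a ^ 2 + (q * b ^ 2 + o) = 0 := by
    obtain ⟨a, b, h⟩ := FiniteField.exists_root_sum_quadratic
      (f := Polynomial.C p * Polynomial.X ^ 2)
      (g := Polynomial.C q * Polynomial.X ^ 2 + Polynomial.C o)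
      (Polynomial.degree_C_mul_X_pow 2 he₁)
      (by rw [Polynomial.degree_add_C (by rw [Polynomial.degree_C_mul_X_pow 2 he₂]; norm_num),
          Polynomial.degree_C_mul_X_pow 2 he₂]; rfl)
      (FiniteField.odd_card_of_char_ne_two fun h => h2 (by
        have := ringChar.charP F
        have h0 := CharP.cast_eq_zero F (ringChar F)
        rw [h] at h0
        exact_mod_cast h0))
    exact ⟨a, b, by simpa using h⟩
  set w := a • e₁ + b • e₂ + e₃ with hw
  set v := (b * q) • e₁ - (a * p) • e₂ with hv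
  have hww : gB (G4 δ) w w = 0 := by
    simp only [hw, map_add, LinearMap.add_apply, map_smul, LinearMap.smul_apply, smul_eq_mul,
      ← hp, ← hq, ← ho, h12, h21, h13, h31, h23, h32]
    linear_combination hab
  have hwv : gB (G4 δ) w v = 0 := by
    simp only [hw, hv, map_add, map_sub, LinearMap.add_apply, map_smul,
      LinearMap.smul_apply, smul_eq_mul, ← hp, ← hq, h12, h21, h31, h32]
    ring
  have hvv : gB (G4 δ) v v ≠ 0 := by
    have : gB (G4 δ) v v = -(p * q * o) := by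
      simp only [hv, map_sub, LinearMap.sub_apply, map_smul,
        LinearMap.smul_apply, smul_eq_mul, ← hp, ← hq, h12, h21]
      linear_combination (p * q) * hab
    rw [this]
    exact neg_ne_zero.2 (mul_ne_zero (mul_ne_zero he₁ he₂) he₃)
  have hw0 : w ≠ 0 := fun e => he₃ (by
    have : gB (G4 δ) e₃ w = o := by
      simp only [hw, map_add, map_smul, smul_eq_mul, h31, h32, ← ho]; ring
    rw [e, map_zero] at this
    exact this.symm)
  have hvw : gB (G4 δ) v w = 0 := by rw [gB_symm, hwv]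
  have hxw : gB (G4 δ) x w = 0 := by
    simp only [hw, map_add, map_smul, smul_eq_mul, hx1, hx2, hx3]; ring
  have hxv : gB (G4 δ) x v = 0 := by
    simp only [hv, map_sub, map_smul, smul_eq_mul, hx1, hx2]; ring
  have hwx : gB (G4 δ) w x = 0 := by rw [gB_symm, hxw]
  have hvx : gB (G4 δ) v x = 0 := by rw [gB_symm, hxv]
  have hinv : ∀ y, gB (G4 δ) w y = 0 → gB (G4 δ) y w = 0 →
      (1 + sieM (G4 δ) w y) * (1 + sieM (G4 δ) w (-y)) = 1 := by
    intro y hy hy'
    simp only [sieM, mul_add, add_mul, mul_sub, sub_mul, mul_one, one_mul, smul_mul_assoc,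
      mul_smul_comm, OrthWreathBig.cr_mul,
      ← neg_one_smul F y, OrthWreathBig.cr_smul_left, OrthWreathBig.cr_smul_right, map_smul,
      LinearMap.smul_apply, smul_eq_mul, hww, hy, hy', zero_smul, smul_zero]
    match_scalars <;> field_simp <;> ring
  have hnv : gB (G4 δ) w (-v) = 0 ∧ gB (G4 δ) (-v) w = 0 := by simp [hwv, hvw]
  refine ⟨⟨1 + sieM (G4 δ) w v, 1 + sieM (G4 δ) w (-v), hinv v hwv hvw,
    by simpa using hinv (-v) hnv.1 hnv.2⟩, ?_, 0, w, v, hw0, hww, hwv, hvv, rfl⟩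
  show (1 + sieM (G4 δ) w v) * reflW δ x = reflW δ x * (1 + sieM (G4 δ) w v)
  simp only [reflW, sieM, mul_add, add_mul, mul_sub, sub_mul, mul_one, one_mul, smul_mul_assoc,
    mul_smul_comm, OrthWreathBig.cr_mul, hxw, hxv, hwx, hvx, zero_smul, smul_zero, smul_add,
    smul_sub]
  abel

/-- A similitude does not exchange the eigenspaces of a half turn. -/
theorem false_of_anticommute (h2 : (2 : F) ≠ 0) (hd : ¬ IsSquare δ) {r s : Fin 4 → F}
    (hr : gB (G4 δ) r r ≠ 0) (hs : gB (G4 δ) s s ≠ 0) (hrs : gB (G4 δ) r s = 0) {A : M4 F}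
    {ν : F} (hA : SimW δ A ν)
    (h : A * (reflW δ r * reflW δ s) = -((reflW δ r * reflW δ s) * A)) : False := by
  obtain ⟨-, -, -, hhr, hhs⟩ := half_facts h2 hr hs hrs
  set H := reflW δ r * reflW δ s
  have hH : IsoW δ H := isoW_mul (refl_isoW hr) (refl_isoW hs)
  have hpos : ∀ e, H *ᵥ e = -e → H *ᵥ (A *ᵥ e) = A *ᵥ e := by
    intro e he
    have h1 := congrArg (· *ᵥ e) h
    simp only [Matrix.neg_mulVec, ← Matrix.mulVec_mulVec, he, Matrix.mulVec_neg] at h1
    rw [neg_inj] at h1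
    exact h1.symm
  have hperp : ∀ e e', H *ᵥ e = -e → H *ᵥ e' = -e' → gB (G4 δ) e (A *ᵥ e') = 0 := by
    intro e e' he he'
    refine eq_neg_self h2 ?_
    conv_lhs => rw [← isoW_gB hH, he, hpos e' he', map_neg, LinearMap.neg_apply]
  let C : M4 F := Matrix.of fun i j => ![r, s, A *ᵥ r, A *ᵥ s] j i
  have hC : Cᵀ * G4 δ * C = Matrix.diagonal
      ![gB (G4 δ) r r, gB (G4 δ) s s, ν * gB (G4 δ) r r, ν * gB (G4 δ) s s] := by
    ext i j
    have hsym : gB (G4 δ) s r = 0 := by rw [gB_symm, hrs]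
    have e1 := hperp r r hhr hhr
    have e2 := hperp r s hhr hhs
    have e3 := hperp s r hhs hhr
    have e4 := hperp s s hhs hhs
    have e1' : gB (G4 δ) (A *ᵥ r) r = 0 := by rw [gB_symm, e1]
    have e2' : gB (G4 δ) (A *ᵥ s) r = 0 := by rw [gB_symm, e2]
    have e3' : gB (G4 δ) (A *ᵥ r) s = 0 := by rw [gB_symm, e3]
    have e4' : gB (G4 δ) (A *ᵥ s) s = 0 := by rw [gB_symm, e4]
    have key : (Cᵀ * G4 δ * C) i j =
        gB (G4 δ) (![r, s, A *ᵥ r, A *ᵥ s] i) (![r, s, A *ᵥ r, A *ᵥ s] j) := by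
      rw [gB_diag]
      simp only [C, G4, Matrix.mul_apply, Matrix.transpose_apply, Matrix.of_apply,
        Matrix.diagonal_apply, mul_ite, mul_zero, Finset.sum_ite_eq', Finset.mem_univ, if_true,
        Fin.sum_univ_four, wt, Matrix.cons_val_zero, Matrix.cons_val_one, Matrix.cons_val]
      ring
    rw [key]
    fin_cases i <;> fin_cases j <;>
      simp [hrs, hsym, e1, e2, e3, e4, e1', e2', e3', e4', simW_gB hA]
  have hdet := congrArg Matrix.det hC
  rw [Matrix.det_mul, Matrix.det_mul, Matrix.det_transpose, Matrix.det_diagonal] at hdet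
  have hG : (G4 δ).det = δ := by simp [G4, Fin.prod_univ_four, wt]
  rw [hG] at hdet
  simp only [Fin.prod_univ_four, Matrix.cons_val_zero, Matrix.cons_val_one, Matrix.cons_val]
    at hdet
  have hne : C.det ≠ 0 := by
    intro e
    rw [e, zero_mul, zero_mul] at hdet
    exact mul_ne_zero (mul_ne_zero (mul_ne_zero hr hs) (mul_ne_zero hA.1 hr))
      (mul_ne_zero hA.1 hs) hdet.symm
  refine hd ⟨ν * gB (G4 δ) r r * gB (G4 δ) s s / C.det, ?_⟩
  rw [div_mul_div_comm, eq_div_iff (mul_ne_zero hne hne)]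
  linear_combination hdet

/-! ### The centraliser -/

theorem pairRefl_form {g : MV F 2} (h : IsPairRefl δ g) :
    ∃ r s, gB (G4 δ) r r ≠ 0 ∧ gB (G4 δ) s s ≠ 0 ∧ g = pr (reflW δ r) (reflW δ s) := by
  obtain ⟨i, j, r, s, hij, hr, hs, rfl⟩ := h
  fin_cases i <;> fin_cases j
  · exact absurd rfl hij
  · exact ⟨r, s, hr, hs, rfl⟩
  · exact ⟨s, r, hs, hr, site_comm hij _ _⟩
  · exact absurd rfl hij

theorem trace_conj (z e x : GV F 2) (h : Commute e z) :
    Matrix.trace ((z * (e * x * e⁻¹) : GV F 2) : MV F 2) =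
      Matrix.trace ((z * x : GV F 2) : MV F 2) := by
  rw [show z * (e * x * e⁻¹) = e * (z * x) * e⁻¹ by
    rw [← mul_assoc, ← mul_assoc, ← h.eq]; simp only [mul_assoc]]
  simp only [Units.val_mul]
  rw [Matrix.trace_mul_comm, ← mul_assoc, ← mul_assoc, Units.inv_mul, one_mul]

theorem trace_half_refl (h2 : (2 : F) ≠ 0) {r s x : Fin 4 → F} {ε : F}
    (hr : gB (G4 δ) r r ≠ 0) (hs : gB (G4 δ) s s ≠ 0) (hrs : gB (G4 δ) r s = 0)
    (hx : gB (G4 δ) x x ≠ 0) (hε : (reflW δ r * reflW δ s) *ᵥ x = ε • x) :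
    (reflW δ r * reflW δ s * reflW δ x).trace = -(2 * ε) := by
  rw [trace_mul_refl hx hε, (half_facts h2 hr hs hrs).2.2.1, zero_sub]

variable [Finite F] {M : Subgroup (GV F 2)}

/-- The centraliser of a product of two half turns is monomial. -/
theorem _root_.Cfsg.Agent.MaxSub.OrthFour.cenLe_bad_two (hM : Over δ M)
    (hpair : ∀ (g : GV F 2) (A B : M4 F), IsoW δ A → IsoW δ B →
      (g : MV F 2) = site 0 A * site 1 B → (g ∈ Om δ 2 ↔ A.det = B.det))
    (hUOm : ∀ g : GV F 2, IsSiteU δ (g : MV F 2) → g ∈ Om δ 2)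
    (hswap : ∀ (g : GV F 2) (A : GL (Fin 4) F) (ν ε : F), SimW δ (A : M4 F) ν →
      (ε = 1 ∨ ε = -1) →
      (g : MV F 2) = ε • (site 0 (A : M4 F) * factorPerm 4 (Equiv.swap 0 1) *
        site 0 ((A⁻¹ : GL (Fin 4) F) : M4 F)) → g ∉ Om δ 2)
    (hnf : ∀ g : GV F 2, g ∈ Wr F 2 → IsoV δ (g : MV F 2) →
      ∃ (cs : Fin 2 → GL (Fin 4) F) (π : Equiv.Perm (Fin 2)) (ν : Fin 2 → F),
        (∀ i, SimW δ (cs i : M4 F) (ν i)) ∧ ∏ i, ν i = 1 ∧ g = glPure cs * glFactorPerm 4 π)
    (hprc : ∀ g y : GV F 2, IsoV δ (g : MV F 2) → IsPairRefl δ (y : MV F 2) →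
      g * y * g⁻¹ ∈ Wr F 2 ⊓ Om δ 2 → IsPairRefl δ ((g * y * g⁻¹ : GV F 2) : MV F 2))
    (hclass : ∀ g ∈ M, ∀ u : GV F 2, IsSiteU δ (u : MV F 2) → g * u * g⁻¹ ∈ Wr F 2 → g ∈ Wr F 2)
    (hhalf : ∀ x ∈ M, IsHalf δ (x : MV F 2) → CenLe M (x : MV F 2))
    (hpr : ∀ y ∈ M, IsPairRefl δ (y : MV F 2) → CenLe M (y : MV F 2)) :
    ∀ z ∈ M, IsBad δ (z : MV F 2) → CenLe M (z : MV F 2) := by
  intro z hzM hzbad g hgM hgz
  have h2 := hM.two
  have hd := hM.nsq
  obtain ⟨r, s, r', s', hr, hs, hrs, hr', hs', hrs', hzval⟩ := hzbad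
  change (z : MV F 2) = pr _ _ at hzval
  obtain ⟨hcm, hsq, htr, hhr, hhs⟩ := half_facts h2 hr hs hrs
  obtain ⟨hcm', hsq', htr', hhr', hhs'⟩ := half_facts h2 hr' hs' hrs'
  set H := reflW δ r * reflW δ s with hH
  set H' := reflW δ r' * reflW δ s' with hH'
  obtain ⟨q, hq, hqperp⟩ := exists_perp h2 hd (by norm_num : 2 < 4) ![r', s']
    (by intro i; fin_cases i <;> assumption)
    (by intro i j h; fin_cases i <;> fin_cases j <;>
          first | exact absurd rfl h | exact hrs' | exact (gB_symm δ _ _).trans hrs')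
  have hHq : H' *ᵥ q = q := half_mulVec (hqperp 0) (hqperp 1)
  -- the products of two reflections
  set a : GV F 2 := prU (reflU hr) (reflU hr') with ha
  set y : GV F 2 := prU (reflU hr) (reflU hq) with hy
  have haval : (a : MV F 2) = pr (reflW δ r) (reflW δ r') := prU_val _ _
  have hyval : (y : MV F 2) = pr (reflW δ r) (reflW δ q) := prU_val _ _
  have hreflM : ∀ {e e' : Fin 4 → F} (he : gB (G4 δ) e e ≠ 0) (he' : gB (G4 δ) e' e' ≠ 0),
      prU (reflU he) (reflU he') ∈ M := fun he he' => hM.mem (prU_mem _ _)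
    ((hpair _ _ _ (refl_isoW he) (refl_isoW he') (prU_val (reflU he) (reflU he'))).2 (by
      rw [refl_det he, refl_det he']))
  have haM : a ∈ M := hreflM hr hr'
  have hyM : y ∈ M := hreflM hr hq
  have haP : IsPairRefl δ (a : MV F 2) :=
    ⟨0, 1, r, r', by decide, hr, hr', haval⟩
  have hyP : IsPairRefl δ (y : MV F 2) :=
    ⟨0, 1, r, q, by decide, hr, hq, hyval⟩
  have haa : a * a = 1 := Units.ext (by
    rw [Units.val_mul, Units.val_one, haval, pr_mul, refl_sq hr, refl_sq hr', pr_one])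
  have hyy : y * y = 1 := Units.ext (by
    rw [Units.val_mul, Units.val_one, hyval, pr_mul, refl_sq hr, refl_sq hq, pr_one])
  have hHr : H * reflW δ r = reflW δ r * H := by
    rw [hH, mul_assoc, ← hcm]
  have hHr' : H' * reflW δ r' = reflW δ r' * H' := by
    rw [hH', mul_assoc, ← hcm']
  have hHq' : H' * reflW δ q = reflW δ q * H' := by
    have e1 := (half_facts h2 hr' hq (hqperp 0)).1
    have e2 := (half_facts h2 hs' hq (hqperp 1)).1
    rw [hH', mul_assoc, e2, ← mul_assoc, e1, mul_assoc]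
  have haz : Commute a z := Units.ext (by
    rw [Units.val_mul, Units.val_mul, haval, hzval, pr_mul, pr_mul, hHr, hHr'])
  have hyz : Commute y z := Units.ext (by
    rw [Units.val_mul, Units.val_mul, hyval, hzval, pr_mul, pr_mul, hHr, hHq'])
  have hgz' : Commute g z := Units.ext (by rw [Units.val_mul, Units.val_mul]; exact hgz)
  set b : GV F 2 := g * y * g⁻¹ with hb
  have hbM : b ∈ M := M.mul_mem (M.mul_mem hgM hyM) (M.inv_mem hgM)
  have hbb : b * b = 1 := by
    rw [hb, show g * y * g⁻¹ * (g * y * g⁻¹) = g * (y * y) * g⁻¹ by group, hyy, mul_one,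
      mul_inv_cancel]
  have hbz : Commute b z := (hgz'.mul_left hyz).mul_left hgz'.inv_left
  -- traces
  have tzr : (H * reflW δ r).trace = 2 := by
    rw [trace_half_refl h2 hr hs hrs hr (ε := -1) (by rw [hhr, neg_smul, one_smul])]; ring
  have tzr' : (H' * reflW δ r').trace = 2 := by
    rw [trace_half_refl h2 hr' hs' hrs' hr' (ε := -1) (by rw [hhr', neg_smul, one_smul])]; ring
  have tza : Matrix.trace ((z * a : GV F 2) : MV F 2) = 4 := by
    rw [Units.val_mul, hzval, haval, pr_mul, trace_pr, tzr, tzr']; norm_num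
  have tzy : Matrix.trace ((z * y : GV F 2) : MV F 2) = -4 := by
    rw [Units.val_mul, hzval, hyval, pr_mul, trace_pr, tzr,
      trace_half_refl h2 hr' hs' hrs' hq (ε := 1) (by rw [hHq, one_smul])]
    norm_num
  have tzb : Matrix.trace ((z * b : GV F 2) : MV F 2) = -4 := by rw [hb, trace_conj z g y hgz', tzy]
  have h44 : (4 : F) ≠ -4 := fun e => mul_ne_zero (mul_ne_zero h2 h2) h2
    (show (2 : F) * 2 * 2 = 0 by linear_combination e)
  have ta : Matrix.trace (a : MV F 2) = 4 := by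
    rw [haval, trace_pr, refl_trace hr, refl_trace hr']; norm_num
  have tb : Matrix.trace (b : MV F 2) = 4 := by
    rw [hb, Units.val_mul, Units.val_mul, Matrix.trace_mul_comm, ← mul_assoc, Units.inv_mul,
      one_mul, hyval, trace_pr, refl_trace hr, refl_trace hq]
    norm_num
  -- monomial once a pair of reflections is sent to a monomial one
  have key : ∀ f ∈ M, ∀ p ∈ M, IsPairRefl δ (p : MV F 2) → f * p * f⁻¹ ∈ Wr F 2 → f ∈ Wr F 2 := by
    intro f hf p hp hpP hfp
    have hfpM : f * p * f⁻¹ ∈ M := M.mul_mem (M.mul_mem hf hp) (M.inv_mem hf)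
    obtain ⟨e, e', he, he', heq⟩ :=
      pairRefl_form (hprc f p (hM.isoV hf) hpP ⟨hfp, hM.le hfpM⟩)
    obtain ⟨U, hU, hUS⟩ := exists_siteU h2 hd he
    set u : GV F 2 := prU U 1 with hu
    have huval : (u : MV F 2) = pr (U : M4 F) 1 := by rw [hu, prU_val]; rfl
    have huS : IsSiteU δ (u : MV F 2) := by rw [huval, pr_one_right]; exact hUS
    have huM : u ∈ M := hM.mem (prU_mem _ _) (hUOm u huS)
    have hcomm : Commute u (f * p * f⁻¹) := Units.ext (by
      rw [Units.val_mul u, Units.val_mul _ u, huval, heq, pr_mul, pr_mul, hU, one_mul, mul_one])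
    have hm : f⁻¹ * u * f ∈ Wr F 2 := by
      refine hpr p hp hpP _ (M.mul_mem (M.mul_mem (M.inv_mem hf) huM) hf) ?_
      rw [← Units.val_mul, ← Units.val_mul]
      congr 1
      calc f⁻¹ * u * f * p = f⁻¹ * (u * (f * p * f⁻¹)) * f := by group
        _ = f⁻¹ * ((f * p * f⁻¹) * u) * f := by rw [hcomm.eq]
        _ = p * (f⁻¹ * u * f) := by group
    exact inv_mem_iff.1 (hclass f⁻¹ (M.inv_mem hf) u huS (by rwa [inv_inv]))
  suffices hbW : b ∈ Wr F 2 from key g hgM y hyM hyP hbW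
  obtain ⟨w, hwM, hw1, hww, hwa, hwb, hwz, hcase⟩ := dihedral haM hbM haa hbb haz hbz (by
    intro e _ hez he
    apply h44
    rw [← tzb, ← he, trace_conj z e a hez, tza])
  have hwW : w ∈ Wr F 2 := hpr a haM haP w hwM (by rw [← Units.val_mul, hwa.eq, Units.val_mul])
  have haW : a ∈ Wr F 2 := prU_mem _ _
  have hwaW : w * a ∈ Wr F 2 ⊓ Om δ 2 := ⟨mul_mem hwW haW, hM.le (M.mul_mem hwM haM)⟩
  have hwaP : IsPairRefl δ ((w * a : GV F 2) : MV F 2) := by
    rcases hcase with ⟨d, hdM, -, -, hda, -⟩ | ⟨e, heM, -, hea⟩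
    · rw [hda] at hwaW ⊢
      exact hprc d a (hM.isoV hdM) haP hwaW
    · rw [hea, hb, show e * (g * y * g⁻¹) * e⁻¹ = e * g * y * (e * g)⁻¹ by group] at hwaW ⊢
      exact hprc (e * g) y (hM.isoV (M.mul_mem heM hgM)) hyP hwaW
  obtain ⟨x, x', hx, hx', hwaval⟩ := pairRefl_form hwaP
  have hwval : (w : MV F 2) = pr (reflW δ x * reflW δ r) (reflW δ x' * reflW δ r') := by
    rw [← pr_mul, ← hwaval, ← haval, ← Units.val_mul, mul_assoc, haa, mul_one]
  have hwaa : Commute (w * a) a := hwa.mul_left (Commute.refl a)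
  have hwaz : Commute (w * a) z := hwz.mul_left haz
  have hcr : reflW δ r * reflW δ x = reflW δ x * reflW δ r ∧
      reflW δ r' * reflW δ x' = reflW δ x' * reflW δ r' := by
    have e := congrArg Units.val hwaa.eq.symm
    simp only [Units.val_mul a (w * a), Units.val_mul (w * a) a, hwaval, haval] at e
    exact conj_pr h2 (refl_sq hr) (refl_sq hr') (refl_sq hr) (refl_sq hr') e (refl_trace hx)
      (refl_trace hx') (refl_trace hx)
  have hch : H * reflW δ x = reflW δ x * H ∧ H' * reflW δ x' = reflW δ x' * H' := by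
    have e := congrArg Units.val hwaz.eq.symm
    simp only [Units.val_mul z (w * a), Units.val_mul (w * a) z, hwaval, hzval] at e
    exact conj_pr h2 hsq hsq' hsq hsq' e (refl_trace hx) (refl_trace hx') (refl_trace hx)
  have hhalfb : ∀ v : GV F 2, v ∈ M → Commute v b → IsHalf δ (v : MV F 2) → b ∈ Wr F 2 :=
    fun v hv hvb hvh => hhalf v hv hvh b hbM (by rw [← Units.val_mul, ← hvb.eq, Units.val_mul])
  rcases refl_eq_or_perp h2 hr hx hcr.1 with hex | hperp
  · rcases refl_eq_or_perp h2 hr' hx' hcr.2 with hex' | hperp'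
    · refine absurd (Units.ext ?_) hw1
      rw [hwval, hex, hex', refl_sq hr, refl_sq hr', pr_one, Units.val_one]
    · refine hhalfb w hwM hwb ⟨1, x', r', hx', hr', (gB_symm δ _ _).trans hperp', ?_⟩
      rw [hwval, hex, refl_sq hr, pr_one_left]
  rcases refl_eq_or_perp h2 hr' hx' hcr.2 with hex' | hperp'
  · refine hhalfb w hwM hwb ⟨0, x, r, hx, hr, (gB_symm δ _ _).trans hperp, ?_⟩
    rw [hwval, hex', refl_sq hr', pr_one_right]
  have hzwM : z * w ∈ M := M.mul_mem hzM hwM
  have hzwb : Commute (z * w) b := (hbz.symm).mul_left hwb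
  rcases sign_of_commute h2 hx hsq hch.1 with hpl | hmi
  swap
  · have hex := refl_eq_partner h2 hr hs hrs hx hperp hmi
    rcases sign_of_commute h2 hx' hsq' hch.2 with hpl' | hmi'
    · refine hhalfb (z * w) hzwM hzwb ⟨1, s', x', hs', hx', ?_, ?_⟩
      · refine eq_neg_self h2 ?_
        conv_lhs => rw [← isoW_gB (isoW_mul (refl_isoW hr') (refl_isoW hs')), hpl', hhs', map_neg,
          LinearMap.neg_apply]
      · rw [Units.val_mul, hzval, hwval, pr_mul, hex]
        rw [show H * (reflW δ s * reflW δ r) = 1 by rw [← hcm]; exact hsq, pr_one_left]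
        congr 1
        calc H' * (reflW δ x' * reflW δ r')
            = reflW δ s' * (reflW δ r' * (reflW δ r' * reflW δ x')) := by
              rw [← hcr.2, hcm', mul_assoc]
          _ = reflW δ s' * reflW δ x' := by
              rw [← mul_assoc (reflW δ r'), refl_sq hr', one_mul]
    · have hex' := refl_eq_partner h2 hr' hs' hrs' hx' hperp' hmi'
      have hwz' : w = z := Units.ext (by
        rw [hwval, hzval, hex, hex', ← hcm, ← hcm'])
      subst hwz'
      exfalso
      apply h44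
      rcases hcase with ⟨d, -, hdz, -, -, hdb⟩ | ⟨e, -, hez, hea⟩
      · have h3 : Matrix.trace ((w * (w * b) : GV F 2) : MV F 2) = -4 := by
          rw [hdb, trace_conj w d b hdz, tzb]
        rw [← mul_assoc, hww, one_mul, tb] at h3
        exact h3
      · have h3 : Matrix.trace ((w * (w * a) : GV F 2) : MV F 2) = -4 := by
          rw [hea, trace_conj w e b hez, tzb]
        rw [← mul_assoc, hww, one_mul, ta] at h3
        exact h3
  rcases sign_of_commute h2 hx' hsq' hch.2 with hpl' | hmi'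
  swap
  · have hex' := refl_eq_partner h2 hr' hs' hrs' hx' hperp' hmi'
    refine hhalfb (z * w) hzwM hzwb ⟨0, s, x, hs, hx, ?_, ?_⟩
    · refine eq_neg_self h2 ?_
      conv_lhs => rw [← isoW_gB (isoW_mul (refl_isoW hr) (refl_isoW hs)), hpl, hhs, map_neg,
        LinearMap.neg_apply]
    · rw [Units.val_mul, hzval, hwval, pr_mul, hex']
      rw [show H' * (reflW δ s' * reflW δ r') = 1 by rw [← hcm']; exact hsq', pr_one_right]
      congr 1
      calc H * (reflW δ x * reflW δ r)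
          = reflW δ s * (reflW δ r * (reflW δ r * reflW δ x)) := by
            rw [← hcr.1, hcm, mul_assoc]
        _ = reflW δ s * reflW δ x := by rw [← mul_assoc (reflW δ r), refl_sq hr, one_mul]
  -- both vectors are fixed by the half turns
  exfalso
  have tzwa : Matrix.trace ((z * (w * a) : GV F 2) : MV F 2) = 4 := by
    rw [Units.val_mul, hzval, hwaval, pr_mul, trace_pr,
      trace_half_refl h2 hr hs hrs hx (ε := 1) (by rw [hpl, one_smul]),
      trace_half_refl h2 hr' hs' hrs' hx' (ε := 1) (by rw [hpl', one_smul])]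
    norm_num
  rcases hcase with ⟨d, hdM, hdz, hdd, hda, -⟩ | ⟨e, -, hez, hea⟩
  swap
  · rw [hea, trace_conj z e b hez, tzb] at tzwa
    exact h44 tzwa.symm
  have hdW : d ∈ Wr F 2 := key d hdM a haM haP (by rw [← hda]; exact hwaW.1)
  obtain ⟨cs, π, ν, hν, hνp, hdnf⟩ := hnf d hdW (hM.isoV hdM)
  set A := cs 0 with hA
  set B := cs 1 with hB
  have hcs : glPure cs = prU A B := by
    rw [prU, hA, hB]
    congr 1
    funext i
    fin_cases i <;> rfl
  rw [hcs] at hdnf
  have hall : ∀ π : Equiv.Perm (Fin 2), π = 1 ∨ π = Equiv.swap 0 1 := by decide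
  rcases hall π with rfl | rfl
  · have hdval : (d : MV F 2) = pr (A : M4 F) (B : M4 F) := by
      rw [hdnf, Units.val_mul, prU_val]
      show _ * factorPerm 4 1 = _
      rw [factorPerm_one, mul_one]
    have hAr : (A : M4 F) * reflW δ r = reflW δ x * A := by
      have e : (d * a : GV F 2) = (w * a) * d := by rw [hda]; group
      have e := congrArg Units.val e
      rw [Units.val_mul d a, Units.val_mul (w * a) d, hdval, haval, hwaval] at e
      exact (conj_pr h2 (Ai := ((A⁻¹ : GL (Fin 4) F) : M4 F)) (Ai' := ((B⁻¹ : GL (Fin 4) F) : M4 F))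
        (Units.inv_mul A) (Units.mul_inv B) (Units.mul_inv A) (Units.inv_mul B) e (refl_trace hr)
        (refl_trace hr') (refl_trace hx)).1
    have e := congrArg Units.val hdz.eq
    rw [Units.val_mul, Units.val_mul, hdval, hzval, pr_mul, pr_mul] at e
    obtain ⟨c, hc, -⟩ := pr_inj e (fun h0 => one_ne_zero (α := M4 F) (by
        rw [← hsq, ← one_mul (H * H), ← mul_assoc, ← Units.inv_mul A, mul_assoc _ (A : M4 F) H,
          h0, mul_zero, zero_mul]))
      (fun h0 => one_ne_zero (α := M4 F) (by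
        rw [← hsq', ← one_mul (H' * H'), ← mul_assoc, ← Units.inv_mul B, mul_assoc _ (B : M4 F) H',
          h0, mul_zero, zero_mul]))
    have hc2 : c * c = 1 := by
      have h1 : (A : M4 F) = (c * c) • (A : M4 F) := by
        calc (A : M4 F) = (A : M4 F) * H * H := by rw [mul_assoc, hsq, mul_one]
          _ = c • (H * ((A : M4 F) * H)) := by
            conv_lhs => rw [hc]
            rw [smul_mul_assoc, mul_assoc]
          _ = (c * c) • (A : M4 F) := by
            rw [hc, mul_smul_comm, smul_smul, ← mul_assoc, hsq, one_mul]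
      obtain ⟨i, j, hij⟩ : ∃ i j, (A : M4 F) i j ≠ 0 := by
        by_contra h0; push Not at h0
        exact A.ne_zero (Matrix.ext h0)
      have h3 := congrFun (congrFun h1 i) j
      rw [Matrix.smul_apply, smul_eq_mul] at h3
      exact (mul_eq_right₀ hij).1 h3.symm
    rcases mul_self_eq_one_iff.1 hc2 with rfl | rfl
    · obtain ⟨k, hk⟩ := eigen_of_commute h2 hr hAr
      have h1 := congrArg (· *ᵥ r) hc
      simp only [one_smul, ← Matrix.mulVec_mulVec, hhr, Matrix.mulVec_neg, hk, Matrix.mulVec_smul,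
        hpl] at h1
      have hk0 : k • x = 0 := by
        have h5 : (2 : F) • (k • x) = 0 := by rw [two_smul]; nth_rw 1 [← h1]; exact neg_add_cancel _
        exact (smul_eq_zero.1 h5).resolve_left h2
      apply hr
      have h3 : r = 0 := by
        rw [← Matrix.one_mulVec r, ← Units.inv_mul A, ← Matrix.mulVec_mulVec, hk, hk0,
          Matrix.mulVec_zero]
      rw [h3]; simp
    · exact false_of_anticommute h2 hd hr hs hrs (hν 0) (by rw [hc, neg_smul, one_smul])
  · set σ : MV F 2 := factorPerm 4 (Equiv.swap 0 1) with hσ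
    have hdval : (d : MV F 2) = pr (A : M4 F) (B : M4 F) * σ := by
      rw [hdnf, Units.val_mul, prU_val]; rfl
    have hsw : Equiv.swap (0 : Fin 2) 1 * Equiv.swap 0 1 = 1 := Equiv.swap_mul_self _ _
    have hd2 : (w : MV F 2) = pr ((A : M4 F) * (B : M4 F)) ((B : M4 F) * (A : M4 F)) := by
      rw [← hdd, Units.val_mul, hdval]
      calc pr (A : M4 F) (B : M4 F) * σ * (pr (A : M4 F) (B : M4 F) * σ)
          = pr (A : M4 F) (B : M4 F) * (σ * pr (A : M4 F) (B : M4 F)) * σ := by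
            simp only [mul_assoc]
        _ = pr (A : M4 F) (B : M4 F) * (pr (B : M4 F) (A : M4 F) * σ) * σ := by
            rw [hσ, ← factorPerm_swap_pr]
        _ = _ := by
            rw [← mul_assoc, pr_mul, mul_assoc, hσ, factorPerm_mul, hsw, factorPerm_one, mul_one]
    rw [hwval] at hd2
    obtain ⟨μ, hμ, -⟩ := pr_inj hd2.symm (fun h0 => (A * B).ne_zero (by rw [Units.val_mul, h0]))
      (fun h0 => (B * A).ne_zero (by rw [Units.val_mul, h0]))
    set T := reflW δ x * reflW δ r with hT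
    have hTiso : IsoW δ T := isoW_mul (refl_isoW hx) (refl_isoW hr)
    have hμ1 : μ = 1 ∨ μ = -1 := by
      refine mul_self_eq_one_iff.1 ?_
      have e1 : gB (G4 δ) (((A : M4 F) * (B : M4 F)) *ᵥ r) (((A : M4 F) * (B : M4 F)) *ᵥ r) = gB (G4 δ) r r := by
        rw [← Matrix.mulVec_mulVec, simW_gB (hν 0), simW_gB (hν 1), ← mul_assoc,
          ← Fin.prod_univ_two, hνp, one_mul]
      rw [hμ, Matrix.smul_mulVec, gB_smul_left, gB_smul_right, isoW_gB hTiso, ← mul_assoc] at e1
      exact (mul_eq_right₀ hr).1 e1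
    set V : GV F 2 := prU (reflU hr * reflU hx) 1 with hV
    have hVval : (V : MV F 2) = pr (reflW δ r * reflW δ x) 1 := by rw [hV, prU_val]; rfl
    have hVM : V ∈ M := hM.mem (prU_mem _ _)
      ((hpair _ _ _ (isoW_mul (refl_isoW hr) (refl_isoW hx)) isoW_one hVval).2 (by
        rw [Matrix.det_mul, refl_det hr, refl_det hx, Matrix.det_one]; ring))
    refine hswap (d * V) A (ν 0) μ (hν 0) hμ1 ?_ (hM.le (M.mul_mem hdM hVM))
    rw [Units.val_mul, hdval, hVval, mul_assoc, hσ, ← factorPerm_swap_pr, ← mul_assoc, pr_mul,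
      mul_one, ← pr_one_right ((A : M4 F)), ← pr_one_right (((A⁻¹ : GL (Fin 4) F) : M4 F)),
      mul_assoc (pr (A : M4 F) 1), ← factorPerm_swap_pr, ← mul_assoc (pr (A : M4 F) 1), pr_mul, mul_one, one_mul,
      ← smul_mul_assoc]
    congr 1
    have hB' : (B : M4 F) = μ • (((A⁻¹ : GL (Fin 4) F) : M4 F) * T) := by
      rw [← mul_smul_comm, ← hμ, ← mul_assoc, Units.inv_mul, one_mul]
    have hTT : T * (reflW δ r * reflW δ x) = 1 := by
      rw [hT, mul_assoc, ← mul_assoc (reflW δ r), refl_sq hr, one_mul, refl_sq hx]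
    rw [hB', smul_mul_assoc, mul_assoc, hTT, mul_one, pr, site_smul, mul_smul_comm, pr]

end Cfsg.Agent.MaxSub.OrthFour.BadTwo
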