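import Cfsg.Agent.MaxSub.OrthWreathBig.Generate
import Cfsg.Agent.GeoClasses.Tensor
import Mathlib.LinearAlgebra.QuadraticForm.IsometryEquiv

/-!
The setting for tensor powers of an orthogonal space of dimension four and minus type, with the
diagonal Gram matrix `diag (δ, 1, 1, 1)`, `δ` a non-square.
-/

set_option autoImplicit false
set_option linter.unusedSectionVars false

namespace Cfsg.Agent.MaxSub.OrthFour

open Matrix QuadraticMap Cfsg.Geo Cfsg.Agent.NotMax Cfsg.Agent.GeoClasses Cfsg.Agent.Classical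
open Cfsg.Agent.MaxSub.TensorPowSp (gV fG Rest blk emb)
open Cfsg.Agent.MaxSub.OrthWreathBig (gB cr sieM Link)
open scoped MatrixGroups Matrix

variable {F : Type*} [Field F] {t : ℕ}

/-- Square matrices of one site. -/
abbrev M4 (F : Type*) : Type _ := Matrix (Fin 4) (Fin 4) F

/-- Square matrices of the tensor power. -/
abbrev MV (F : Type*) (t : ℕ) : Type _ := Matrix (Fin t → Fin 4) (Fin t → Fin 4) F

/-- The invertible matrices of the tensor power. -/
abbrev GV (F : Type*) [Field F] (t : ℕ) : Type _ := GL (Fin t → Fin 4) F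

/-- The vectors of the tensor power. -/
abbrev Vec (F : Type*) (t : ℕ) : Type _ := (Fin t → Fin 4) → F

/-- The Gram diagonal of one site. -/
def wt (δ : F) : Fin 4 → F := ![δ, 1, 1, 1]

/-- The Gram matrix of one site. -/
def G4 (δ : F) : M4 F := Matrix.diagonal (wt δ)

/-- The quadratic form of the tensor power. -/
noncomputable def Qd (δ : F) (t : ℕ) : QuadraticForm F (Vec F t) :=
  QuadraticMap.weightedSumSquares F fun a : Fin t → Fin 4 => ∏ i, wt δ (a i)

/-- The group `Ω` of the tensor power. -/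
noncomputable def Om [Finite F] (δ : F) (t : ℕ) : Subgroup (GV F t) :=
  (commutator (OQ (Qd δ t))).map (oqToGL (Qd δ t))

/-- The monomial group of the tensor decomposition. -/
abbrev Wr (F : Type*) [Field F] (t : ℕ) : Subgroup (GV F t) := tensorWreathStandard 4 t F

/-- Isometries of one site. -/
def IsoW (δ : F) (A : M4 F) : Prop := Aᵀ * G4 δ * A = G4 δ

/-- Similitudes of one site. -/
def SimW (δ : F) (A : M4 F) (ν : F) : Prop := ν ≠ 0 ∧ Aᵀ * G4 δ * A = ν • G4 δ

/-- Isometries of the tensor power. -/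
def IsoV (δ : F) (g : MV F t) : Prop := gᵀ * gV (G4 δ) t * g = gV (G4 δ) t

/-- The reflection of one site in an anisotropic vector. -/
noncomputable def reflW (δ : F) (r : Fin 4 → F) : M4 F :=
  1 - (2 / gB (G4 δ) r r) • cr (G4 δ) r r

/-- A site reflection. -/
def IsRefl (δ : F) (g : MV F t) : Prop :=
  ∃ i r, gB (G4 δ) r r ≠ 0 ∧ g = site i (reflW δ r)

/-- A site half turn. -/
def IsHalf (δ : F) (g : MV F t) : Prop :=
  ∃ i r s, gB (G4 δ) r r ≠ 0 ∧ gB (G4 δ) s s ≠ 0 ∧ gB (G4 δ) r s = 0 ∧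
    g = site i (reflW δ r * reflW δ s)

/-- A root element of one site. -/
def IsSiteU (δ : F) (g : MV F t) : Prop :=
  ∃ i w x, w ≠ 0 ∧ gB (G4 δ) w w = 0 ∧ gB (G4 δ) w x = 0 ∧ gB (G4 δ) x x ≠ 0 ∧
    g = site i (1 + sieM (G4 δ) w x)

/-- A product of two reflections at different sites. -/
def IsPairRefl (δ : F) (g : MV F t) : Prop :=
  ∃ i j r s, i ≠ j ∧ gB (G4 δ) r r ≠ 0 ∧ gB (G4 δ) s s ≠ 0 ∧
    g = site i (reflW δ r) * site j (reflW δ s)

/-- The skew map of two vectors of the tensor power. -/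
def skV (δ : F) (p z : Vec F t) : MV F t :=
  vecMulVec p (z ᵥ* gV (G4 δ) t) - vecMulVec z (p ᵥ* gV (G4 δ) t)

/-- The group contains a long root element. -/
def HasRoot (δ : F) (M : Subgroup (GV F t)) : Prop :=
  ∃ g ∈ M, ∃ p z : Vec F t, LinearIndependent F ![p, z] ∧
    p ⬝ᵥ gV (G4 δ) t *ᵥ p = 0 ∧ z ⬝ᵥ gV (G4 δ) t *ᵥ z = 0 ∧ p ⬝ᵥ gV (G4 δ) t *ᵥ z = 0 ∧
    (g : MV F t) = 1 + skV δ p z

/-- The centraliser of a matrix in the group is monomial. -/
def CenLe (M : Subgroup (GV F t)) (x : MV F t) : Prop :=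
  ∀ g ∈ M, (g : MV F t) * x = x * g → g ∈ Wr F t

/-- The groups between the monomial subgroup of `Ω` and `Ω`. -/
structure Over [Finite F] (δ : F) (M : Subgroup (GV F t)) : Prop where
  two : (2 : F) ≠ 0
  nsq : ¬ IsSquare δ
  ge : Wr F t ⊓ Om δ t ≤ M
  le : M ≤ Om δ t

/-- The maximality statement for `t` sites. -/
def Dicho (F : Type*) [Field F] [Finite F] (δ : F) (t : ℕ) : Prop :=
  ∀ M : Subgroup (GV F t), Over δ M → M ≤ Wr F t ∨ M = Om δ t

lemma G4_transpose (δ : F) : (G4 δ)ᵀ = G4 δ := Matrix.diagonal_transpose _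

lemma gB_diag (δ : F) (x y : Fin 4 → F) :
    gB (G4 δ) x y = δ * x 0 * y 0 + x 1 * y 1 + x 2 * y 2 + x 3 * y 3 := by
  simp only [OrthWreathBig.gB_apply, fG, G4, wt, Matrix.vecMul_diagonal, dotProduct, Fin.sum_univ_four, Matrix.cons_val_zero, Matrix.cons_val_one, Matrix.cons_val]
  ring

lemma gB_symm (δ : F) (x y : Fin 4 → F) : gB (G4 δ) x y = gB (G4 δ) y x := by
  rw [gB_diag, gB_diag]; ring

lemma wt_ne_zero {δ : F} (hδ : ¬ IsSquare δ) (i : Fin 4) : wt δ i ≠ 0 := by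
  have h0 : δ ≠ 0 := fun e => hδ (e ▸ IsSquare.zero)
  fin_cases i <;> simp [wt, h0]

lemma G4_det {δ : F} (hδ : ¬ IsSquare δ) : IsUnit (G4 δ).det := by
  rw [G4, Matrix.det_diagonal, isUnit_iff_ne_zero]
  exact Finset.prod_ne_zero_iff.2 fun i _ => wt_ne_zero hδ i

lemma gV_diag (δ : F) (t : ℕ) :
    gV (G4 δ) t = Matrix.diagonal fun a : Fin t → Fin 4 => ∏ i, wt δ (a i) := by
  ext a b
  simp only [gV, pureMat, G4, Matrix.diagonal_apply]
  by_cases h : a = b
  · subst h; simp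
  · obtain ⟨i, hi⟩ := Function.ne_iff.1 h
    simp [h, Finset.prod_eq_zero (Finset.mem_univ i), hi]

lemma link (δ : F) (t : ℕ) (h2 : (2 : F) ≠ 0) : Link (G4 δ) t (Qd δ t) 2 where
  ne := h2
  polar_eq x y := by
    rw [gV_diag]
    simp only [Qd, QuadraticMap.polar, QuadraticMap.weightedSumSquares_apply, Pi.add_apply,
      dotProduct, Matrix.mulVec_diagonal, smul_eq_mul, ← Finset.sum_sub_distrib, Finset.mul_sum]
    exact Finset.sum_congr rfl fun a _ => by ring

lemma Om_isoV [Finite F] {δ : F} (h2 : (2 : F) ≠ 0) {g : GV F t} (hg : g ∈ Om δ t) :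
    IsoV δ (g : MV F t) := by
  obtain ⟨k, -, rfl⟩ := hg
  refine Matrix.ext fun a b => ?_
  have := OQ_polar k (Pi.single a 1) (Pi.single b 1)
  rw [← oqToGL_mulVec, ← oqToGL_mulVec, (link δ t h2).polar_eq, (link δ t h2).polar_eq] at this
  have h' := mul_left_cancel₀ h2 this
  rw [Matrix.mulVec_mulVec, ← Matrix.vecMul_transpose, ← Matrix.dotProduct_mulVec,
    Matrix.mulVec_mulVec, ← mul_assoc] at h'
  simpa [Matrix.mulVec_single_one, single_dotProduct] using h'

lemma Over.isoV [Finite F] {δ : F} {M : Subgroup (GV F t)} (h : Over δ M) {g : GV F t} (hg : g ∈ M) :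
    IsoV δ (g : MV F t) := Om_isoV h.two (h.le hg)

lemma Over.mem [Finite F] {δ : F} {M : Subgroup (GV F t)} (h : Over δ M) {g : GV F t}
    (hw : g ∈ Wr F t) (ho : g ∈ Om δ t) : g ∈ M := h.ge ⟨hw, ho⟩

end Cfsg.Agent.MaxSub.OrthFour
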