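import Cfsg.Agent.MaxSub.OrthFour.Omega
import Cfsg.Agent.MaxSub.OrthWreathBig.Main
import Cfsg.Agent.CharTwo.SLPair

/-!
Orthogonal tensor powers of a four-dimensional space of minus type: the reduction of the maximality
of the stabiliser to the dichotomy for the Gram matrix `diag (δ, 1, 1, 1)`, `δ` a non-square.
-/

set_option autoImplicit false
set_option linter.unusedSectionVars false
set_option linter.unusedSimpArgs false
set_option linter.style.haveILetI false

namespace Cfsg.Agent.MaxSub.OrthFour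

open Matrix Module QuadraticMap Cfsg.Geo Cfsg.Agent.NotMax Cfsg.Agent.GeoClasses
open Cfsg.Agent.Classical
open Cfsg.Agent.MaxSub.TensorPowSp (gV fG)
open Cfsg.Agent.MaxSub.OrthWreathBig (gB Link gB_apply factorPerm_pureVec)
open scoped MatrixGroups Matrix

variable {F : Type*} [Field F] {t : ℕ} {δ : F}

/-- The quadratic form with a given Gram matrix. -/
noncomputable def gramQ {k : ℕ} (G : Matrix (Fin k) (Fin k) F) : QuadraticForm F (Fin k → F) :=
  (Matrix.toBilin' G).toQuadraticMap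

lemma gramQ_polar {k : ℕ} {G : Matrix (Fin k) (Fin k) F} (hG : Gᵀ = G) (x y : Fin k → F) :
    polar (gramQ G) x y = 2 * (x ⬝ᵥ G *ᵥ y) := by
  have h : y ⬝ᵥ G *ᵥ x = x ⬝ᵥ G *ᵥ y := by
    conv_rhs => rw [dotProduct_mulVec, dotProduct_comm, ← mulVec_transpose, hG]
  rw [gramQ, LinearMap.BilinMap.polar_toQuadraticMap, Matrix.toBilin'_apply',
    Matrix.toBilin'_apply', h, two_mul]

/-- Non-degenerate symmetric matrices of equal square class of determinant are congruent. -/
lemma exists_congr [Finite F] (h2 : (2 : F) ≠ 0) {k : ℕ} {G H : Matrix (Fin k) (Fin k) F}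
    (hG : Gᵀ = G) (hH : Hᵀ = H) (hGd : G.det ≠ 0) (hHd : H.det ≠ 0)
    (hsq : IsSquare (G.det * H.det)) :
    ∃ g : GL (Fin k) F, (g : Matrix (Fin k) (Fin k) F)ᵀ * G * (g : Matrix (Fin k) (Fin k) F) = H := by
  classical
  have hns : ∀ {K : Matrix (Fin k) (Fin k) F}, Kᵀ = K → K.det ≠ 0 →
      Forms.NonsingOn (gramQ K) ⊤ := by
    intro K hK hKd r _ h _
    have hr : r ᵥ* K = 0 := funext fun i => by
      have := h (Pi.single i 1) trivial
      rw [gramQ_polar hK, mul_eq_zero, or_iff_right h2, dotProduct_mulVec, dotProduct_single,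
        mul_one] at this
      exact this
    exact Matrix.eq_zero_of_vecMul_eq_zero hKd hr
  have hpg : ∀ {K : Matrix (Fin k) (Fin k) F}, Kᵀ = K →
      Forms.polarGram (gramQ K) (Pi.basisFun F (Fin k)) = (2 : F) • K := by
    intro K hK
    ext i j
    simp [Forms.polarGram, gramQ_polar hK, Matrix.mulVec_single_one, single_dotProduct]
  obtain ⟨g, hg⟩ := Forms.exists_equiv_of_isSquare_det_mul h2 (gramQ H) (gramQ G)
    (hns hH hHd) (hns hG hGd) (Pi.basisFun F (Fin k)) (Pi.basisFun F (Fin k)) (by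
      rw [hpg hH, hpg hG, Matrix.det_smul, Matrix.det_smul, mul_mul_mul_comm, mul_comm H.det]
      exact (IsSquare.mul_self _).mul hsq)
  refine ⟨Matrix.GeneralLinearGroup.toLin.symm
    ((LinearMap.GeneralLinearGroup.generalLinearEquiv F (Fin k → F)).symm g), ?_⟩
  set A : GL (Fin k) F := Matrix.GeneralLinearGroup.toLin.symm
    ((LinearMap.GeneralLinearGroup.generalLinearEquiv F (Fin k → F)).symm g) with hA
  have hAv : ∀ v, (A : Matrix (Fin k) (Fin k) F) *ᵥ v = g v := fun v => by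
    rw [hA]
    show LinearMap.toMatrix' (g : (Fin k → F) →ₗ[F] (Fin k → F)) *ᵥ v = g v
    rw [LinearMap.toMatrix'_mulVec]
    rfl
  ext i j
  have h1 : polar (gramQ G) (g (Pi.single i 1)) (g (Pi.single j 1)) =
      polar (gramQ H) (Pi.single i 1) (Pi.single j 1) := by
    simp only [QuadraticMap.polar, ← map_add, hg]
  rw [gramQ_polar hG, gramQ_polar hH, ← hAv, ← hAv] at h1
  have h3 := mul_left_cancel₀ h2 h1
  rw [Matrix.mulVec_mulVec, ← Matrix.vecMul_transpose, ← Matrix.dotProduct_mulVec,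
    Matrix.mulVec_mulVec, ← mul_assoc] at h3
  simpa [Matrix.mulVec_single_one, single_dotProduct] using h3

/-- A four-dimensional form of minus type is `diag (δ, 1, 1, 1)` for a non-square `δ`. -/
lemma exists_minus_congr [Fintype F] (hodd : Odd (Fintype.card F)) (h2 : (2 : F) ≠ 0) {G : M4 F}
    (hG : Gᵀ = G) (hGd : G.det ≠ 0)
    (hminus : ¬ IsPlusTypeOn (fun v : Fin 4 → F => v ⬝ᵥ G *ᵥ v) ⊤) :
    ∃ δ : F, ¬ IsSquare δ ∧ ∃ g : GL (Fin 4) F, (g : M4 F)ᵀ * G * (g : M4 F) = G4 δ := by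
  classical
  have hdet : ∀ d : F, (G4 d).det = d := fun d => by
    simp [G4, wt, Matrix.det_diagonal, Fin.prod_univ_four]
  by_cases hsq : IsSquare G.det
  · exfalso
    obtain ⟨g, hg⟩ := exists_congr h2 hG (G4_transpose 1) hGd
      (by rw [hdet]; exact one_ne_zero) (by rwa [hdet, mul_one])
    obtain ⟨a, b, hab⟩ := CharTwo.exists_sq_add_sq hodd (-1 : F)
    let u : Fin 2 → Fin 4 → F := ![![a, b, 1, 0], ![-b, a, 0, 1]]
    have hli : LinearIndependent F u := Fintype.linearIndependent_iff.2 fun c hc i => by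
      have h0 := congrFun hc 2
      have h1 := congrFun hc 3
      simp [u, Fin.sum_univ_two] at h0 h1
      fin_cases i
      · exact h0
      · exact h1
    have hv : LinearIndependent F (fun i => (g : M4 F) *ᵥ u i) :=
      hli.map' (Matrix.toLin' (g : M4 F)) (LinearMap.ker_eq_bot.2 (mulVec_injective g))
    refine hminus ⟨Submodule.span F (Set.range fun i => (g : M4 F) *ᵥ u i), le_top,
      fun w hw => ?_, ?_⟩
    · obtain ⟨c, rfl⟩ := (Submodule.mem_span_range_iff_exists_fun F).1 hw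
      show (∑ i, c i • (g : M4 F) *ᵥ u i) ⬝ᵥ G *ᵥ (∑ i, c i • (g : M4 F) *ᵥ u i) = 0
      simp only [← Matrix.mulVec_smul, ← Matrix.mulVec_sum]
      rw [mulVec_mulVec, ← vecMul_transpose, ← dotProduct_mulVec, mulVec_mulVec, ← mul_assoc, hg]
      have := gB_diag 1 (∑ i, c i • u i) (∑ i, c i • u i)
      rw [gB_apply, fG] at this
      rw [dotProduct_mulVec, this]
      simp only [Fin.sum_univ_two, u, Pi.add_apply, Pi.smul_apply, smul_eq_mul,
        Matrix.cons_val_zero, Matrix.cons_val_one, Matrix.cons_val]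
      linear_combination (c 0 * c 0 + c 1 * c 1) * hab
    · rw [finrank_span_eq_card hv, Fintype.card_fin, finrank_top, finrank_fin_fun]
  · exact ⟨G.det, hsq, exists_congr h2 hG (G4_transpose _) hGd (by rw [hdet]; exact hGd)
      (by rw [hdet]; exact IsSquare.mul_self _)⟩

variable [Finite F]

/-- An element of `Ω` which is not monomial. -/
lemma exists_not_Wr (hodd2 : ∃ a b : F, a * a + b * b = -1) (h2 : (2 : F) ≠ 0)
    (hd : ¬ IsSquare δ) (ht : 2 ≤ t) : ∃ g ∈ Om δ t, g ∉ Wr F t := by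
  classical
  obtain ⟨a, b, hab⟩ := hodd2
  have hδ : δ ≠ 0 := ne_zero_of_nsq hd
  have L := link δ t h2
  have hB : BNondeg (Qd δ t) := bNondeg_Qd h2 hd
  have h5 : 5 ≤ finrank F (Vec F t) := by
    rw [Module.finrank_fintype_fun_eq_card, Fintype.card_fun, Fintype.card_fin, Fintype.card_fin]
    calc 5 ≤ 4 ^ 2 := by norm_num
      _ ≤ 4 ^ t := Nat.pow_le_pow_right (by norm_num) ht
  set x : Fin 4 → F := ![0, a, b, 1]
  set x' : Fin 4 → F := (2 : F)⁻¹ • ![0, -a, -b, 1]
  set d : Fin 4 → F := ![1, 0, 0, 0]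
  set d' : Fin 4 → F := δ⁻¹ • d
  have hxx : gB (G4 δ) x x = 0 := by
    rw [gB_diag]; simp [x]; linear_combination hab
  have hxx' : gB (G4 δ) x x' = 1 := by
    rw [gB_diag]; simp [x, x']; field_simp; linear_combination -hab
  have hx'x' : gB (G4 δ) x' x' = 0 := by
    rw [gB_diag]; simp [x']; field_simp; linear_combination hab
  have hdd' : gB (G4 δ) d d' = 1 := by
    rw [gB_diag]; simp [d, d', hδ]
  have hxd : gB (G4 δ) x d = 0 := by rw [gB_diag]; simp [x, d]
  have hx'd : gB (G4 δ) x' d = 0 := by rw [gB_diag]; simp [x', d]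
  have hxd' : gB (G4 δ) x d' = 0 := by rw [gB_diag]; simp [x, d', d]
  have hx'd' : gB (G4 δ) x' d' = 0 := by rw [gB_diag]; simp [x', d', d]
  haveI : Nontrivial (Fin t) := Fin.nontrivial_iff_two_le.2 ht
  let q : Fin t := ⟨0, by omega⟩
  obtain ⟨j, hj⟩ := exists_ne q
  set u := Function.update (fun _ : Fin t => x) q d with hu
  set w := fun _ : Fin t => x with hw
  have hQw : Qd δ t (pureVec w) = 0 := L.singular h2 (i := q) hxx
  have hQu : Qd δ t (pureVec u) = 0 := L.singular h2 (i := j) (by simp [hu, hw, hj, hxx])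
  have hp : polar (Qd δ t) (pureVec w) ((2 : F)⁻¹ • pureVec u) = 0 := by
    rw [polar_smul_right, L.perp (i := q) (by simp [hu, hw, hxd]), smul_zero]
  refine ⟨oqToGL (Qd δ t) (siegel (Qd δ t) hQw hp), ⟨_, siegel_singular_mem_commutator hB h5 hQw hp
    (by rw [QuadraticMap.map_smul, hQu, smul_zero]), rfl⟩, fun hW => ?_⟩
  obtain ⟨gs, σ, hgs⟩ := MaxSub.tensorWreath_apply hW
  set y := fun _ : Fin t => x' with hy
  obtain ⟨T, hT⟩ : ∃ T, (siegel (Qd δ t) hQw hp).1 (pureVec y) = pureVec T := by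
    refine ⟨fun i => gs i *ᵥ x', ?_⟩
    rw [← oqToGL_mulVec, ← pureMat_mulVec]
    have : ∀ v : Fin t → Fin 4 → F, (∀ i, v i = x') →
        (oqToGL (Qd δ t) (siegel (Qd δ t) hQw hp) : MV F t) *ᵥ pureVec v =
          pureMat gs *ᵥ pureVec v := by
      intro v hv
      ext p
      simp only [Matrix.mulVec, dotProduct, hgs, pureMat, pureVec, hv]
      refine Fintype.sum_equiv (Equiv.arrowCongr σ.symm (Equiv.refl _)) _ _ fun z => ?_
      simp only [Equiv.arrowCongr_apply, Equiv.coe_refl, Equiv.symm_symm, Function.id_comp,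
        Function.comp_apply]
      congr 1
      exact (Equiv.prod_comp σ fun i => x' (z i)).symm
    exact this y fun _ => rfl
  have hwy : polar (Qd δ t) (pureVec w) (pureVec y) = 2 := by
    rw [L.pure, Finset.prod_eq_one fun i _ => by simp [hw, hy, hxx'], mul_one]
  have hval : ∀ f : Fin t → Fin 4 → F, (2 : F) * ∏ i, gB (G4 δ) (T i) (f i) =
      2 * ∏ i, gB (G4 δ) (y i) (f i) + 2 * ∏ i, gB (G4 δ) (u i) (f i) := by
    intro f
    have huy : polar (Qd δ t) (pureVec u) (pureVec y) = 0 := L.perp (i := q) (by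
      simp [hu, hy, gB_symm δ d x', hx'd])
    have := congrArg (fun X => polar (Qd δ t) X (pureVec f)) hT.symm
    rw [siegel_apply, QuadraticMap.map_smul, hQu, smul_zero, zero_mul, zero_smul, sub_zero,
      polar_smul_left, huy, smul_zero, zero_smul, sub_zero, hwy, smul_smul, mul_inv_cancel₀ h2,
      one_smul, polar_add_left, L.pure, L.pure, L.pure] at this
    exact this
  have e1 := hval (Function.update (fun _ => x) q d')
  have e3 := hval (Function.update (fun _ => x') q d')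
  rw [Finset.prod_eq_zero (s := Finset.univ) (Finset.mem_univ q) (f := fun i =>
      gB (G4 δ) (y i) (Function.update (fun _ : Fin t => x) q d' i)) (by simp [hy, hx'd']),
    Finset.prod_eq_zero (s := Finset.univ) (Finset.mem_univ j) (f := fun i =>
      gB (G4 δ) (u i) (Function.update (fun _ : Fin t => x) q d' i)) (by simp [hu, hw, hj, hxx])] at e1
  rw [Finset.prod_eq_zero (s := Finset.univ) (Finset.mem_univ q) (f := fun i =>
      gB (G4 δ) (y i) (Function.update (fun _ : Fin t => x') q d' i)) (by simp [hy, hx'd']),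
    Finset.prod_eq_one (s := Finset.univ) (f := fun i =>
      gB (G4 δ) (u i) (Function.update (fun _ : Fin t => x') q d' i)) (fun i _ => by
        by_cases hi : i = q
        · simp [hi, hu, hw, hdd']
        · simp [hi, hu, hw, hxx'])] at e3
  simp only [mul_zero, add_zero, zero_add, mul_one, mul_eq_zero, h2, false_or,
    Finset.prod_eq_zero_iff, Finset.mem_univ, true_and] at e1
  obtain ⟨i, hi⟩ := e1
  by_cases hiq : i = q
  · subst hiq
    rw [Finset.prod_eq_zero (Finset.mem_univ q) (f := fun i =>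
      gB (G4 δ) (T i) (Function.update (fun _ : Fin t => x') q d' i)) (by simpa using hi)] at e3
    simp [h2] at e3
    exact h2 e3.symm
  · have e0 := hval fun _ => x
    rw [Finset.prod_eq_zero (Finset.mem_univ i) (by simpa [hiq] using hi),
      Finset.prod_eq_one (fun l _ => by simp [hy, gB_symm δ x' x, hxx']),
      Finset.prod_eq_zero (Finset.mem_univ j) (by simp [hu, hw, hj, hxx])] at e0
    simp [h2] at e0
    exact h2 e0.symm

omit [Finite F] in
lemma two_ne_zero_of_odd [Fintype F] (hodd : Odd (Fintype.card F)) : (2 : F) ≠ 0 := by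
  intro e2
  have : CharP F 2 := (CharP.charP_iff_prime_eq_zero Nat.prime_two).2 e2
  exact (Nat.not_even_iff_odd.2 hodd) (FiniteField.even_card_iff_char_two.1
    (ringChar.eq F 2) |> Nat.even_iff.2)

end Cfsg.Agent.MaxSub.OrthFour

namespace Cfsg.Agent.MaxSub.OrthFour

open Matrix Module QuadraticMap Cfsg.Geo Cfsg.Agent.NotMax Cfsg.Agent.GeoClasses
open Cfsg.Agent.Classical
open Cfsg.Agent.MaxSub.TensorPowSp (gV)
open Cfsg.Agent.MaxSub.OrthWreathBig (Link)
open scoped MatrixGroups Matrix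

variable {F : Type*} [Field F] [Fintype F]

/-- **The stabiliser of a tensor power of a four-dimensional space of minus type is maximal in `Ω`,
given the dichotomy for the standard Gram matrix.** -/
theorem omegaGL_four_maximal (hodd : Odd (Fintype.card F)) {n : ℕ} {Q : (Fin n → F) → F}
    (hQ : IsNondegenerateQuadraticForm Q) {t : ℕ} (ht : 2 ≤ t)
    (e : Fin n ≃ (Fin t → Fin 4)) (P : GL (Fin n) F)
    (f₁ : (Fin 4 → F) → (Fin 4 → F) → F) (hf₁ : IsSymmetricForm f₁)
    (hminus : ¬ IsPlusTypeOn (fun v : Fin 4 → F => f₁ v v) ⊤)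
    (hT : IsTensorPowerFormStructure id (QuadraticMap.polar Q) f₁ e P)
    (hD : ∀ δ : F, ¬ IsSquare δ → Dicho F δ t) :
    IsMaximalIn (omegaGL Q) (tensorWreathSubgroup 4 t e P ⊓ omegaGL Q) := by
  classical
  obtain ⟨c₀, hc₀, hform⟩ := hT
  have h2 : (2 : F) ≠ 0 := two_ne_zero_of_odd hodd
  set G : M4 F := gramMatrix f₁ with hG
  have hGf : ∀ x y, f₁ x y = x ⬝ᵥ G *ᵥ y := fun x y => by
    rw [TensorMax.form_eq_sum hf₁.bilinear]
    simp only [dotProduct, Matrix.mulVec, Finset.mul_sum, mul_assoc, hG]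
  have hGsym : Gᵀ = G := Matrix.ext fun a b => hf₁.symm _ _
  have hGdet : G.det ≠ 0 := by
    intro h0
    obtain ⟨v, hv, hv0⟩ := Matrix.exists_vecMul_eq_zero_iff.2 h0
    obtain ⟨-, y, hy⟩ := hf₁.nondegenerate v hv
    exact hy (by simp [hGf, dotProduct_mulVec, hv0])
  obtain ⟨δ, hd, g, hg⟩ := exists_minus_congr hodd h2 hGsym hGdet (by simpa [← hGf] using hminus)
  set H : GV F t := glPure fun _ => g
  have hHmat : (H : MV F t) = pureMat fun _ => (g : M4 F) := rfl
  have hH : H ∈ Wr F t := Subgroup.subset_closure (Or.inl ⟨_, fun x y => rfl⟩)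
  have hHgV : (H : MV F t)ᵀ * gV G t * (H : MV F t) = gV (G4 δ) t := by
    rw [hHmat, gV, gV, pureMat_transpose, pureMat_mul, pureMat_mul, hg]
  set φ := powAlg e P
  let Φ₀ : GV F t →* GL (Fin n) F := Units.map (φ : _ →* _)
  let Φ : GV F t →* GL (Fin n) F := Φ₀.comp (MulAut.conj H).toMonoidHom
  have hΦ : ∀ u : GV F t, (Φ u : Matrix (Fin n) (Fin n) F) =
      φ ((H : MV F t) * (u : MV F t) * ((H⁻¹ : GV F t) : MV F t)) := fun u => rfl
  let ψ₀ : Vec F t ≃ₗ[F] (Fin n → F) :=
    LinearEquiv.ofBijective (powVec e P) ⟨powVec_injective e P, powVec_surjective e P⟩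
  let ψ : Vec F t ≃ₗ[F] (Fin n → F) :=
    ((Matrix.GeneralLinearGroup.toLin H).toLinearEquiv).trans ψ₀
  have hψ : ∀ x, ψ x = powVec e P ((H : MV F t) *ᵥ x) := fun x => rfl
  have L := link δ t h2
  set Qf := toQF hQ with hQf
  set s : F := c₀ / 2 with hs
  have hs0 : s ≠ 0 := div_ne_zero hc₀ h2
  have key : ∀ y z : Vec F t,
      QuadraticMap.polar Q (powVec e P y) (powVec e P z) = c₀ * (y ⬝ᵥ gV G t *ᵥ z) := fun y z => by
    rw [powVec_apply, powVec_apply, hform]
    congr 1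
    simp only [dotProduct, Matrix.mulVec, Finset.mul_sum, id_eq, gV, hG]
    exact Finset.sum_congr rfl fun a _ => Finset.sum_congr rfl fun b _ => by
      show y a * (∏ i, G (a i) (b i)) * z b = y a * ((∏ i, G (a i) (b i)) * z b)
      ring
  have hQQ : ∀ x, Qf (ψ x) = (s • Qd δ t) x := by
    intro x
    have h1 : polar Qf (ψ x) (ψ x) = c₀ * (x ⬝ᵥ gV (G4 δ) t *ᵥ x) := by
      show polar Q (ψ x) (ψ x) = _
      rw [hψ, key]
      congr 1
      rw [← hHgV, mulVec_mulVec, ← vecMul_transpose, ← dotProduct_mulVec, mulVec_mulVec,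
        ← mul_assoc]
    have h3 := L.polar_eq x x
    rw [polar_self, two_smul, ← two_mul] at h1 h3
    rw [_root_.smul_apply, smul_eq_mul, hs]
    field_simp
    linear_combination h1 - c₀ * mul_left_cancel₀ h2 h3
  have hOQ : OQ (Qd δ t) = OQ (s • Qd δ t) := by
    ext u
    simp [mem_OQ, mul_right_inj' hs0]
  let C : OQ (Qd δ t) ≃* OQ Qf := (MulEquiv.subgroupCongr hOQ).trans (OQCongr ψ hQQ)
  have hC : (oqToGL Qf).comp C.toMonoidHom = Φ.comp (oqToGL (Qd δ t)) := by
    refine MonoidHom.ext fun u => Units.ext (Matrix.ext_of_mulVec_single fun a => ?_)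
    obtain ⟨x, hx⟩ := ψ.surjective (Pi.single a 1)
    rw [← hx]
    show ((oqToGL Qf (C u) : GL (Fin n) F) : Matrix (Fin n) (Fin n) F) *ᵥ ψ x =
      (Φ (oqToGL (Qd δ t) u) : Matrix (Fin n) (Fin n) F) *ᵥ ψ x
    rw [oqToGL_mulVec, hΦ]
    show ψ (u.1 (ψ.symm (ψ x))) = _
    rw [LinearEquiv.symm_apply_apply, hψ, hψ x, powAlg_mulVec, mulVec_mulVec, mul_assoc,
      Units.inv_mul, mul_one, ← mulVec_mulVec, oqToGL_mulVec]
  have hΩ : (Om δ t).map Φ = omegaGL Q := by
    rw [Om, Subgroup.map_map, ← hC, ← Subgroup.map_map, map_commutator_top_of_equiv C,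
      map_oqToGL_commutator, hQf, GeoClasses.coe_toQF]
  have hΦ₀inj : Function.Injective Φ₀ := (Units.mapEquiv φ.toMulEquiv).injective
  have hΦinj : Function.Injective Φ := hΦ₀inj.comp (MulAut.conj H).injective
  have hsurj : Function.Surjective Φ :=
    (Units.mapEquiv φ.toMulEquiv).surjective.comp (MulAut.conj H).surjective
  have hwr : ∀ u ∈ Wr F t, Φ u ∈ tensorWreathSubgroup 4 t e P := fun u hu =>
    ⟨_, ⟨H * u * H⁻¹, mul_mem (mul_mem hH hu) (inv_mem hH), rfl⟩, Units.ext rfl⟩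
  have hwr' : ∀ u, Φ u ∈ tensorWreathSubgroup 4 t e P → u ∈ Wr F t := by
    intro u hu
    obtain ⟨_, ⟨m, hm, rfl⟩, he⟩ := hu
    have : Φ₀ m = Φ₀ (H * u * H⁻¹) :=
      Eq.trans (b := (MulAut.conj P).toMonoidHom ((glReindex e.symm).toMonoidHom m))
        (Units.ext rfl) he
    rw [show u = H⁻¹ * m * H by rw [hΦ₀inj this]; group]
    exact mul_mem (mul_mem (inv_mem hH) hm) hH
  obtain ⟨a, b, hab⟩ := CharTwo.exists_sq_add_sq hodd (-1 : F)
  refine ⟨lt_of_le_of_ne inf_le_right ?_, fun K hle hK => ?_⟩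
  · intro heq
    obtain ⟨u, hu, hune⟩ := exists_not_Wr ⟨a, b, hab⟩ h2 hd ht
    refine hune (hwr' u ?_)
    have : Φ u ∈ tensorWreathSubgroup 4 t e P ⊓ omegaGL Q := by
      rw [heq, ← hΩ]; exact ⟨u, hu, rfl⟩
    exact this.1
  have hO : Over δ (K.comap Φ) :=
    ⟨h2, hd, fun u hu => hle ⟨hwr u hu.1, hΩ ▸ ⟨u, hu.2, rfl⟩⟩, fun u hu => by
      obtain ⟨v, hv, hvu⟩ : Φ u ∈ (Om δ t).map Φ := hΩ ▸ hK hu
      rwa [← hΦinj hvu]⟩
  rcases hD δ hd (K.comap Φ) hO with hW | hW
  · left
    refine le_antisymm (fun x hx => ⟨?_, hK hx⟩) hle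
    obtain ⟨u, rfl⟩ := hsurj x
    exact hwr u (hW hx)
  · right
    refine le_antisymm hK ?_
    rw [← hΩ, Subgroup.map_le_iff_le_comap, hW]

/-- **The stabiliser of an orthogonal tensor power with factors of even dimension is maximal in `Ω`
of plus type, given the dichotomy for four-dimensional factors.** -/
theorem orth_plus_wreath_maximal {n : ℕ} {Q : (Fin n → F) → F}
    (hQ : IsNondegenerateQuadraticForm Q) (hodd : Odd (Fintype.card F)) (k t : ℕ) (ht : 2 ≤ t)
    (e : Fin n ≃ (Fin t → Fin k)) (P : GL (Fin n) F)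
    (f₁ : (Fin k → F) → (Fin k → F) → F) (hf₁ : IsSymmetricForm f₁)
    (hsize : (6 ≤ k ∧ IsPlusTypeOn (fun v : Fin k → F => f₁ v v) ⊤) ∨
      (4 ≤ k ∧ ¬ IsPlusTypeOn (fun v : Fin k → F => f₁ v v) ⊤))
    (hT : IsTensorPowerFormStructure id (QuadraticMap.polar Q) f₁ e P)
    (hD : ∀ δ : F, ¬ IsSquare δ → Dicho F δ t) :
    IsMaximalIn (omegaGL Q) (tensorWreathSubgroup k t e P ⊓ omegaGL Q) := by
  rcases hsize with ⟨h6, -⟩ | ⟨h4, hm⟩
  · exact OrthWreathBig.omegaGL_tensorWreath_maximal hodd hQ (by omega) ht e P f₁ hf₁ hT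
  rcases h4.eq_or_lt with rfl | h5
  · exact omegaGL_four_maximal hodd hQ ht e P f₁ hf₁ hm hT hD
  · exact OrthWreathBig.omegaGL_tensorWreath_maximal hodd hQ (by omega) ht e P f₁ hf₁ hT

end Cfsg.Agent.MaxSub.OrthFour
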