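import Cfsg.Agent.MaxSub.OrthFour.Omega
import Cfsg.Agent.Coprime.Generation

/-!
The root group of one site: a group of order prime to the characteristic which it normalises is
monomial once the centralisers of the root elements are.
-/

set_option autoImplicit false
set_option linter.unusedSectionVars false

namespace Cfsg.Agent.MaxSub.OrthFour

open Matrix Cfsg.Geo Cfsg.Agent.NotMax Cfsg.Agent.GeoClasses
open Cfsg.Agent.MaxSub.OrthWreathBig (gB cr sieM cr_mul)
open Cfsg.Agent.MaxSub.TensorPowSp (site_injective glPure_mul)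
open scoped MatrixGroups Matrix

variable {F : Type*} [Field F] {t : ℕ} {δ : F}

lemma sieM_self {w : Fin 4 → F} (hw : gB (G4 δ) w w = 0) (a : F) :
    sieM (G4 δ) w (a • w) = 0 := by
  simp [sieM, OrthWreathBig.cr_smul_left, OrthWreathBig.cr_smul_right, hw]

lemma one_add_sieM_mul {w x y : Fin 4 → F} (h2 : (2 : F) ≠ 0) (hw : gB (G4 δ) w w = 0)
    (hx : gB (G4 δ) w x = 0) (hy : gB (G4 δ) w y = 0) :
    (1 + sieM (G4 δ) w x) * (1 + sieM (G4 δ) w y) = 1 + sieM (G4 δ) w (x + y) := by
  have hxw : gB (G4 δ) x w = 0 := by rw [gB_symm, hx]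
  have hyw : gB (G4 δ) y w = 0 := by rw [gB_symm, hy]
  have e : sieM (G4 δ) w x * sieM (G4 δ) w y = -(gB (G4 δ) x y • cr (G4 δ) w w) := by
    simp [sieM, sub_mul, mul_sub, cr_mul, hw, hy, hxw]
  have hc : gB (G4 δ) (x + y) (x + y) / 2 =
      gB (G4 δ) x x / 2 + gB (G4 δ) y y / 2 + gB (G4 δ) x y := by
    simp only [map_add, LinearMap.add_apply, gB_symm δ y x]
    field_simp
    ring
  rw [add_mul, one_mul, mul_add, mul_one, e]
  simp only [sieM, hc, add_smul, OrthWreathBig.cr_add_left, OrthWreathBig.cr_add_right]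
  abel

/-- The root element of one site at a vector perpendicular to a singular vector. -/
noncomputable def uGL (h2 : (2 : F) ≠ 0) (w : Fin 4 → F) (hw : gB (G4 δ) w w = 0)
    (x : Fin 4 → F) (hx : gB (G4 δ) w x = 0) : GL (Fin 4) F where
  val := 1 + sieM (G4 δ) w x
  inv := 1 + sieM (G4 δ) w (-x)
  val_inv := by
    rw [one_add_sieM_mul h2 hw hx (by rw [map_neg, hx, neg_zero]), add_neg_cancel,
      show (0 : Fin 4 → F) = (0 : F) • w from (zero_smul F w).symm, sieM_self hw, add_zero]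
  inv_val := by
    rw [one_add_sieM_mul h2 hw (by rw [map_neg, hx, neg_zero]) hx, neg_add_cancel,
      show (0 : Fin 4 → F) = (0 : F) • w from (zero_smul F w).symm, sieM_self hw, add_zero]

/-- The perpendicular space of a singular vector of one site. -/
noncomputable abbrev perpW (δ : F) (w : Fin 4 → F) : Submodule F (Fin 4 → F) :=
  LinearMap.ker (gB (G4 δ) w)

/-- The root group of one site. -/
noncomputable def siteUHom (h2 : (2 : F) ≠ 0) (i : Fin t) (w : Fin 4 → F)
    (hw : gB (G4 δ) w w = 0) : Multiplicative (perpW δ w) →* GV F t where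
  toFun x := glPure (Function.update (1 : Fin t → GL (Fin 4) F) i
    (uGL h2 w hw x.toAdd.1 (LinearMap.mem_ker.1 x.toAdd.2)))
  map_one' := by
    have e : uGL h2 w hw ((1 : Multiplicative (perpW δ w)).toAdd.1)
        (LinearMap.mem_ker.1 (1 : Multiplicative (perpW δ w)).toAdd.2) = 1 := Units.ext (by
      show 1 + sieM (G4 δ) w (0 : Fin 4 → F) = 1
      rw [show (0 : Fin 4 → F) = (0 : F) • w from (zero_smul F w).symm, sieM_self hw, add_zero])
    rw [e, show Function.update (1 : Fin t → GL (Fin 4) F) i 1 = 1 from Function.update_eq_self i 1,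
      TensorPowSp.glPure_one]
  map_mul' x y := by
    rw [glPure_mul, ← Function.update_mul, mul_one]
    congr 2
    exact Units.ext (one_add_sieM_mul h2 hw (LinearMap.mem_ker.1 x.toAdd.2)
      (LinearMap.mem_ker.1 y.toAdd.2)).symm

lemma val_siteUHom (h2 : (2 : F) ≠ 0) (i : Fin t) (w : Fin 4 → F) (hw : gB (G4 δ) w w = 0)
    (x : Multiplicative (perpW δ w)) :
    ((siteUHom h2 i w hw x : GV F t) : MV F t) = site i (1 + sieM (G4 δ) w x.toAdd.1) := by
  show pureMat _ = pureMat _
  congr 1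
  funext j
  by_cases h : j = i
  · subst h; simp [uGL]
  · simp [h]

lemma siteUHom_mem_Wr (h2 : (2 : F) ≠ 0) (i : Fin t) (w : Fin 4 → F)
    (hw : gB (G4 δ) w w = 0) (x : Multiplicative (perpW δ w)) : siteUHom h2 i w hw x ∈ Wr F t :=
  Subgroup.subset_closure (Or.inl ⟨_, fun a b => rfl⟩)

lemma exists_gB_ne_zero (hδ : ¬ IsSquare δ) {w : Fin 4 → F} (hw0 : w ≠ 0) :
    ∃ z, gB (G4 δ) w z = 1 := by
  obtain ⟨j, hj⟩ := Function.ne_iff.1 hw0
  have h0 : δ ≠ 0 := fun e => hδ (e ▸ IsSquare.zero)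
  have hne : gB (G4 δ) w (Pi.single j 1) ≠ 0 := by
    have hj' : w j ≠ 0 := hj
    rw [gB_diag]
    fin_cases j <;> simp_all
  exact ⟨(gB (G4 δ) w (Pi.single j 1))⁻¹ • Pi.single j 1, by
    rw [map_smul, smul_eq_mul, inv_mul_cancel₀ hne]⟩

/-- A root element is trivial only at the multiples of the singular vector. -/
lemma sieM_eq_zero_iff (hδ : ¬ IsSquare δ) {w x : Fin 4 → F} (hw0 : w ≠ 0)
    (hw : gB (G4 δ) w w = 0) : sieM (G4 δ) w x = 0 ↔ x ∈ Submodule.span F {w} := by
  refine ⟨fun e => ?_, fun hx => ?_⟩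
  · obtain ⟨z, hz⟩ := exists_gB_ne_zero hδ hw0
    have h1 := congrArg (fun X : M4 F => X *ᵥ z) e
    simp only [sieM, Matrix.sub_mulVec, Matrix.smul_mulVec, OrthWreathBig.cr_mulVec, hz, one_smul,
      Matrix.zero_mulVec] at h1
    refine Submodule.mem_span_singleton.2 ⟨gB (G4 δ) x z + gB (G4 δ) x x / 2, ?_⟩
    rw [add_smul, ← sub_eq_zero, ← neg_eq_zero, neg_sub]
    rw [sub_add_eq_sub_sub]
    exact h1
  · obtain ⟨a, rfl⟩ := Submodule.mem_span_singleton.1 hx
    exact sieM_self hw a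

lemma siteUHom_eq_one_iff (h2 : (2 : F) ≠ 0) (hδ : ¬ IsSquare δ) (i : Fin t) {w : Fin 4 → F}
    (hw0 : w ≠ 0) (hw : gB (G4 δ) w w = 0) (x : Multiplicative (perpW δ w)) :
    siteUHom h2 i w hw x = 1 ↔ x.toAdd.1 ∈ Submodule.span F {w} := by
  rw [← sieM_eq_zero_iff hδ hw0 hw, ← Units.val_inj, val_siteUHom, Units.val_one,
    ← site_one i, (site_injective i).eq_iff, add_eq_left]

lemma iso_perp_key {a b c d e f : F} (hc : c ≠ 0) (hv : a * a + b * b + c * c = 0)
    (hvu : a * d + b * e + c * f = 0) {s : F} (hu : δ * s * s + d * d + e * e + f * f = 0)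
    (hδ : ¬ IsSquare δ) : s = 0 ∧ ∃ l, d = l * a ∧ e = l * b ∧ f = l * c := by
  have e1 : c * c * (d * d + e * e + f * f) = -((b * d - a * e) * (b * d - a * e)) := by
    linear_combination (c * f - a * d - b * e) * hvu + (d * d + e * e) * hv
  have e2 : δ * ((c * s) * (c * s)) = (b * d - a * e) * (b * d - a * e) := by
    linear_combination c * c * hu - e1
  have hs : s = 0 := by
    by_contra hs
    exact hδ ⟨(b * d - a * e) / (c * s), by
      rw [div_mul_div_comm, ← e2, mul_div_assoc, div_self (by simp [hc, hs]), mul_one]⟩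
  subst hs
  have e3 : b * d = a * e := sub_eq_zero.1 (mul_self_eq_zero.1 (by
    linear_combination -e2))
  have hab : a * a + b * b ≠ 0 := fun h => mul_ne_zero hc hc (by linear_combination hv - h)
  refine ⟨rfl, (a * d + b * e) / (a * a + b * b), ?_, ?_, ?_⟩ <;> rw [div_mul_eq_mul_div,
    eq_div_iff hab]
  · linear_combination b * e3
  · linear_combination (-a) * e3
  · linear_combination f * hv - c * hvu

/-- A minus type space of dimension four has no singular plane. -/
lemma gB_self_ne_zero (hδ : ¬ IsSquare δ) {w x : Fin 4 → F} (hw0 : w ≠ 0)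
    (hw : gB (G4 δ) w w = 0) (hwx : gB (G4 δ) w x = 0) (hx : x ∉ Submodule.span F {w}) :
    gB (G4 δ) x x ≠ 0 := by
  intro hxx
  have key : ∀ v u : Fin 4 → F, v 0 = 0 → v ≠ 0 → gB (G4 δ) v v = 0 → gB (G4 δ) v u = 0 →
      gB (G4 δ) u u = 0 → u ∈ Submodule.span F {v} := by
    intro v u hv0 hvne hvv hvu huu
    rw [gB_diag] at hvv hvu huu
    simp only [hv0, mul_zero, zero_mul, zero_add] at hvv hvu
    have fin : ∀ l : F, u 0 = 0 → u 1 = l * v 1 → u 2 = l * v 2 → u 3 = l * v 3 →
        u ∈ Submodule.span F {v} := fun l a b c d => Submodule.mem_span_singleton.2 ⟨l, by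
      funext j; fin_cases j <;> simp [a, b, c, d, hv0]⟩
    by_cases h3 : v 3 = 0
    · by_cases h2 : v 2 = 0
      · have h1 : v 1 ≠ 0 := fun h1 => hvne (funext fun j => by fin_cases j <;> simp [hv0, h1, h2, h3])
        simp [h2, h3, h1] at hvv
      · obtain ⟨hs, l, hl, hl', hl''⟩ := iso_perp_key (a := v 1) (b := v 3) (c := v 2) (d := u 1)
          (e := u 3) (f := u 2) (s := u 0) h2 (by linear_combination hvv) (by linear_combination hvu)
          (by linear_combination huu) hδ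
        exact fin l hs hl hl'' hl'
    · obtain ⟨hs, l, hl, hl', hl''⟩ := iso_perp_key (a := v 1) (b := v 2) (c := v 3) (d := u 1)
        (e := u 2) (f := u 3) (s := u 0) h3 hvv hvu huu hδ
      exact fin l hs hl hl' hl''
  by_cases h : w 0 = 0
  · exact hx (key w x h hw0 hw hwx hxx)
  · set v := x 0 • w - w 0 • x with hv
    have hxw : gB (G4 δ) x w = 0 := by rw [gB_symm, hwx]
    have hvne : v ≠ 0 := fun e => hx (Submodule.mem_span_singleton.2 ⟨(w 0)⁻¹ * x 0, by
      rw [← smul_smul, sub_eq_zero.1 e, inv_smul_smul₀ h]⟩)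
    have hm := key v w (by simp [hv, mul_comm]) hvne (by simp [hv, hw, hwx, hxw, hxx])
      (by simp [hv, hw, hxw]) hw
    obtain ⟨l, hl⟩ := Submodule.mem_span_singleton.1 hm
    have := congrFun hl 0
    simp [hv, mul_comm (x 0)] at this
    exact h this.symm

lemma isSiteU_siteUHom (h2 : (2 : F) ≠ 0) (hδ : ¬ IsSquare δ) (i : Fin t) {w : Fin 4 → F}
    (hw0 : w ≠ 0) (hw : gB (G4 δ) w w = 0) {x : Multiplicative (perpW δ w)}
    (hx : siteUHom h2 i w hw x ≠ 1) : IsSiteU δ ((siteUHom h2 i w hw x : GV F t) : MV F t) :=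
  ⟨i, w, x.toAdd.1, hw0, hw, LinearMap.mem_ker.1 x.toAdd.2,
    gB_self_ne_zero hδ hw0 hw (LinearMap.mem_ker.1 x.toAdd.2)
      fun h => hx ((siteUHom_eq_one_iff h2 hδ i hw0 hw x).2 h), val_siteUHom h2 i w hw x⟩

lemma siteUHom_pow_char [Finite F] {p : ℕ} [CharP F p] (h2 : (2 : F) ≠ 0) (i : Fin t)
    (w : Fin 4 → F) (hw : gB (G4 δ) w w = 0) (x : Multiplicative (perpW δ w)) :
    siteUHom h2 i w hw x ^ p = 1 := by
  have hx : x ^ p = 1 := Multiplicative.toAdd.injective (by
    rw [toAdd_pow, toAdd_one, ← Nat.cast_smul_eq_nsmul F, CharP.cast_eq_zero, zero_smul])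
  rw [← map_pow, hx, map_one]

/-- A group of order prime to `p` normalised by a root group of one site is monomial. -/
theorem le_Wr_of_normalized [Finite F] {p : ℕ} [CharP F p] {M : Subgroup (GV F t)} (hM : Over δ M)
    (hcen : ∀ u ∈ M, IsSiteU δ (u : MV F t) → CenLe M (u : MV F t))
    {K : Subgroup (GV F t)} (hK : K ≤ M) (hp : ¬ p ∣ Nat.card K) {i : Fin t} {w : Fin 4 → F}
    (hw0 : w ≠ 0) (hw : gB (G4 δ) w w = 0)
    (hn : ∀ (u : GV F t) x, gB (G4 δ) w x = 0 →
      (u : MV F t) = site i (1 + sieM (G4 δ) w x) → ∀ k ∈ K, u * k * u⁻¹ ∈ K) :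
    K ≤ Wr F t := by
  classical
  haveI : Fact p.Prime := ⟨CharP.char_is_prime F p⟩
  set φ := siteUHom hM.two i w hw with hφ
  set E := φ.range with hE
  haveI : IsMulCommutative E := ⟨⟨fun a b => by
    obtain ⟨_, x, rfl⟩ := a
    obtain ⟨_, y, rfl⟩ := b
    exact Subtype.ext (by simp only [Subgroup.coe_mul]; rw [← map_mul, mul_comm, map_mul])⟩⟩
  have hpE : IsPGroup p E := fun g => ⟨1, by
    obtain ⟨_, x, rfl⟩ := g
    exact Subtype.ext (by rw [pow_one, SubmonoidClass.coe_pow]; exact siteUHom_pow_char hM.two i w hw x)⟩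
  -- two root elements off one cyclic group
  have hdim : Module.finrank F (perpW δ w) = 3 := by
    have hr : LinearMap.range (gB (G4 δ) w) = ⊤ := LinearMap.range_eq_top.2 fun c => by
      obtain ⟨z, hz⟩ := exists_gB_ne_zero hM.nsq hw0
      exact ⟨c • z, by rw [map_smul, hz, smul_eq_mul, mul_one]⟩
    have := LinearMap.finrank_range_add_finrank_ker (gB (G4 δ) w)
    rw [hr, finrank_top, Module.finrank_self, Module.finrank_fin_fun] at this
    show Module.finrank F (LinearMap.ker (gB (G4 δ) w)) = 3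
    omega
  have exv : ∀ S : Submodule F (Fin 4 → F), Module.finrank F S ≤ 2 → ∃ x ∈ perpW δ w, x ∉ S := by
    intro S hS
    by_contra hcon
    push Not at hcon
    have := Submodule.finrank_mono (show perpW δ w ≤ S from hcon)
    omega
  obtain ⟨x₁, h1p, h1⟩ := exv (Submodule.span F {w}) (by rw [finrank_span_singleton hw0]; norm_num)
  obtain ⟨x₂, h2p, hx2⟩ := exv (Submodule.span F {w} ⊔ Submodule.span F {x₁}) (by
    refine (Submodule.finrank_add_le_finrank_add_finrank _ _).trans ?_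
    have := finrank_span_le_card (R := F) ({x₁} : Set (Fin 4 → F))
    rw [finrank_span_singleton hw0]
    simp at this
    omega)
  have hnc : ¬ IsCyclic E := by
    intro hc
    set a : E := ⟨φ (Multiplicative.ofAdd ⟨x₁, h1p⟩), _, rfl⟩
    have ha : a ≠ 1 := fun e => h1 ((siteUHom_eq_one_iff hM.two hM.nsq i hw0 hw _).1
      (congrArg Subtype.val e))
    have hcard : Nat.card E = p := by
      obtain ⟨g, hg⟩ := IsCyclic.exists_ofOrder_eq_natCard (α := E)
      have hle : orderOf g ∣ p := orderOf_dvd_of_pow_eq_one (by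
        obtain ⟨_, x, rfl⟩ := g
        exact Subtype.ext (by rw [SubmonoidClass.coe_pow]; exact siteUHom_pow_char hM.two i w hw x))
      rcases (Nat.dvd_prime Fact.out).1 hle with h | h
      · exfalso
        apply ha
        have := Nat.card_eq_one_iff_unique.1 (hg.symm.trans h)
        exact this.1.elim _ _
      · exact hg.symm.trans h
    obtain ⟨n, hn'⟩ : (⟨φ (Multiplicative.ofAdd ⟨x₂, h2p⟩), _, rfl⟩ : E) ∈ Submonoid.powers a :=
      mem_powers_of_prime_card hcard ha
    have e := congrArg Subtype.val hn'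
    simp only [SubmonoidClass.coe_pow, a] at e
    rw [← map_pow, ← div_eq_one, ← map_div, siteUHom_eq_one_iff hM.two hM.nsq i hw0 hw] at e
    refine hx2 ?_
    simp only [toAdd_div, toAdd_pow, toAdd_ofAdd, Submodule.coe_sub, Submodule.coe_smul_of_tower] at e
    have e' := Submodule.sub_mem _ (Submodule.mem_sup_right (S := Submodule.span F {w})
      (Submodule.smul_mem _ (n : F) (Submodule.mem_span_singleton_self x₁))) (Submodule.mem_sup_left e)
    rwa [Nat.cast_smul_eq_nsmul, sub_sub_cancel] at e'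
  have hEn : E ≤ Subgroup.normalizer (K : Set (GV F t)) := by
    rintro _ ⟨x, rfl⟩
    refine Subgroup.mem_normalizer_iff.2 fun k => ⟨fun hk => ?_, fun hk => ?_⟩
    · exact hn _ _ (LinearMap.mem_ker.1 x.toAdd.2) (val_siteUHom hM.two i w hw x) k hk
    · have := hn (φ x⁻¹) _ (LinearMap.mem_ker.1 (x⁻¹).toAdd.2) (val_siteUHom hM.two i w hw x⁻¹) _ hk
      rwa [map_inv, inv_inv, show (φ x)⁻¹ * (φ x * k * (φ x)⁻¹) * φ x = k by group] at this
  have hcop : (Nat.card E).Coprime (Nat.card K) := by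
    obtain ⟨n, hn'⟩ := IsPGroup.iff_card.1 hpE
    rw [hn']
    exact ((Nat.Prime.coprime_iff_not_dvd Fact.out).2 hp).pow_left n
  rw [← Coprime.iSup_centralizer_eq (A := E) hnc hEn hcop]
  refine iSup₂_le fun a ha k hk => ?_
  obtain ⟨⟨x, rfl⟩, ha1⟩ := ha
  have hs := isSiteU_siteUHom hM.two hM.nsq i hw0 hw ha1
  have hm : φ x ∈ M := hM.mem (siteUHom_mem_Wr hM.two i w hw x) (siteU_mem_Om hM.two hM.nsq hs)
  refine hcen _ hm hs k (hK hk.1) ?_
  have := congrArg Units.val (Subgroup.mem_centralizer_singleton_iff.1 hk.2)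
  simpa using this

end Cfsg.Agent.MaxSub.OrthFour
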