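import Cfsg.Agent.MaxSub.OrthFour.Omega
import Cfsg.Agent.MaxSub.OrthFour.EGen

/-!
The group generated by the root elements of one four dimensional site of minus type: it is
perfect, has no non-trivial orbit of two-power length, contains a half turn, spans all matrices,
and lies in every group of isometries which it normalises, unless that group is scalar.
-/

set_option autoImplicit false
set_option linter.unusedSectionVars false

namespace Cfsg.Agent.MaxSub.OrthFour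

open Matrix Cfsg.Geo Cfsg.Agent.NotMax Cfsg.Agent.GeoClasses
open Cfsg.Agent.MaxSub.OrthWreathBig (gB cr sieM)
open scoped MatrixGroups Matrix

variable {F : Type*} [Field F] {δ : F}

/-- The group generated by the root elements of one site. -/
def OmW (δ : F) : Subgroup (GL (Fin 4) F) :=
  Subgroup.closure {A : GL (Fin 4) F | ∃ w x, w ≠ 0 ∧ gB (G4 δ) w w = 0 ∧ gB (G4 δ) w x = 0 ∧
    gB (G4 δ) x x ≠ 0 ∧ (A : M4 F) = 1 + sieM (G4 δ) w x}

lemma isoW_of_gB {A : M4 F}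
    (h : ∀ x y, gB (G4 δ) (A *ᵥ x) (A *ᵥ y) = gB (G4 δ) x y) : IsoW δ A := by
  refine Matrix.ext fun p q => ?_
  have e := h (Pi.single p 1) (Pi.single q 1)
  simp only [OrthWreathBig.gB_apply, TensorPowSp.fG] at e
  rw [← dotProduct_mulVec, ← dotProduct_mulVec, mulVec_mulVec, ← vecMul_transpose,
    ← dotProduct_mulVec, mulVec_mulVec, ← mul_assoc] at e
  simpa [mulVec_single_one, single_dotProduct] using e

lemma gB_inv_comm {A : GL (Fin 4) F} (hA : IsoW δ (A : M4 F)) (x y : Fin 4 → F) :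
    gB (G4 δ) x (((A⁻¹ : GL (Fin 4) F) : M4 F) *ᵥ y) = gB (G4 δ) ((A : M4 F) *ᵥ x) y := by
  rw [← hA.gB_eq x, mulVec_mulVec, Units.mul_inv, one_mulVec]

lemma one_add_sieM_mulVec (δ : F) (w z u : Fin 4 → F) : (1 + sieM (G4 δ) w z) *ᵥ u =
    u + gB (G4 δ) w u • z - (gB (G4 δ) z u + gB (G4 δ) z z / 2 * gB (G4 δ) w u) • w := by
  rw [add_mulVec, one_mulVec, sieM, sub_mulVec, sub_mulVec, smul_mulVec,
    OrthWreathBig.cr_mulVec, OrthWreathBig.cr_mulVec, OrthWreathBig.cr_mulVec]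
  module

lemma eq_zero_of_mulVec (g : GL (Fin 4) F) {z : Fin 4 → F} (h : (g : M4 F) *ᵥ z = 0) : z = 0 := by
  have e : ((g⁻¹ : GL (Fin 4) F) : M4 F) *ᵥ ((g : M4 F) *ᵥ z) = 0 := by rw [h, mulVec_zero]
  rwa [mulVec_mulVec, Units.inv_mul, one_mulVec] at e

lemma sieM_smul_left (δ c : F) (w x : Fin 4 → F) :
    sieM (G4 δ) (c • w) x = sieM (G4 δ) w (c • x) := by
  simp only [sieM, OrthWreathBig.cr_smul_left, OrthWreathBig.cr_smul_right, map_smul,
    LinearMap.smul_apply, smul_eq_mul, smul_smul]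
  congr 2
  ring

variable {w x : Fin 4 → F}

lemma uGL_val (h2 : (2 : F) ≠ 0) (hw : gB (G4 δ) w w = 0) (hx : gB (G4 δ) w x = 0) :
    (uGL h2 w hw x hx : M4 F) = 1 + sieM (G4 δ) w x := rfl

lemma uGL_mulVec (h2 : (2 : F) ≠ 0) (hw : gB (G4 δ) w w = 0) (hx : gB (G4 δ) w x = 0)
    (u : Fin 4 → F) : (uGL h2 w hw x hx : M4 F) *ᵥ u =
      u + gB (G4 δ) w u • x - (gB (G4 δ) x u + gB (G4 δ) x x / 2 * gB (G4 δ) w u) • w :=
  one_add_sieM_mulVec δ w x u

lemma uGL_iso (h2 : (2 : F) ≠ 0) (hw : gB (G4 δ) w w = 0) (hx : gB (G4 δ) w x = 0) :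
    IsoW δ (uGL h2 w hw x hx : M4 F) := by
  refine isoW_of_gB fun u v => ?_
  have hxw : gB (G4 δ) x w = 0 := by rw [gB_symm, hx]
  simp only [uGL_mulVec, map_add, map_sub, map_smul, LinearMap.add_apply, LinearMap.sub_apply,
    LinearMap.smul_apply, smul_eq_mul, hw, hx, hxw, gB_symm δ u w, gB_symm δ u x]
  field_simp
  ring

lemma uGL_congr (h2 : (2 : F) ≠ 0) {w' x' : Fin 4 → F} {hw : gB (G4 δ) w w = 0}
    {hx : gB (G4 δ) w x = 0} {hw' : gB (G4 δ) w' w' = 0} {hx' : gB (G4 δ) w' x' = 0}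
    (e : w = w') (e' : x = x') : uGL h2 w hw x hx = uGL h2 w' hw' x' hx' := by
  subst e e'; rfl

lemma uGL_eq_one (h2 : (2 : F) ≠ 0) (hd : ¬ IsSquare δ) (hw0 : w ≠ 0) (hw : gB (G4 δ) w w = 0)
    (hx : gB (G4 δ) w x = 0) (hxx : gB (G4 δ) x x = 0) : uGL h2 w hw x hx = 1 := by
  refine Units.ext ?_
  rw [uGL_val, (sieM_eq_zero_iff hd hw0 hw).2 (by
    by_contra h; exact gB_self_ne_zero hd hw0 hw hx h hxx), add_zero, Units.val_one]

lemma uGL_mem (h2 : (2 : F) ≠ 0) (hd : ¬ IsSquare δ) (hw0 : w ≠ 0) (hw : gB (G4 δ) w w = 0)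
    (hx : gB (G4 δ) w x = 0) : uGL h2 w hw x hx ∈ OmW δ := by
  by_cases hxx : gB (G4 δ) x x = 0
  · rw [uGL_eq_one h2 hd hw0 hw hx hxx]; exact one_mem _
  · exact Subgroup.subset_closure ⟨w, x, hw0, hw, hx, hxx, rfl⟩

lemma OmW_iso (h2 : (2 : F) ≠ 0) {A : GL (Fin 4) F} (hA : A ∈ OmW δ) : IsoW δ (A : M4 F) := by
  induction hA using Subgroup.closure_induction with
  | mem A hA =>
    obtain ⟨w, x, -, hw, hx, -, e⟩ := hA
    rw [e, ← uGL_val h2 hw hx]; exact uGL_iso h2 hw hx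
  | one => simp [IsoW]
  | mul A B _ _ hA hB =>
    exact isoW_of_gB fun u v => by rw [Units.val_mul, ← mulVec_mulVec, ← mulVec_mulVec, hA.gB_eq, hB.gB_eq]
  | inv A _ hA =>
    exact isoW_of_gB fun u v => by
      rw [← hA.gB_eq, mulVec_mulVec, mulVec_mulVec, Units.mul_inv, one_mulVec, one_mulVec]

lemma conj_sieM {A : GL (Fin 4) F} (hA : IsoW δ (A : M4 F)) (w x : Fin 4 → F) :
    (A : M4 F) * (1 + sieM (G4 δ) w x) * ((A⁻¹ : GL (Fin 4) F) : M4 F) =
      1 + sieM (G4 δ) ((A : M4 F) *ᵥ w) ((A : M4 F) *ᵥ x) := by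
  refine Matrix.ext_iff_mulVec.2 fun u => ?_
  rw [← mulVec_mulVec, ← mulVec_mulVec, one_add_sieM_mulVec, one_add_sieM_mulVec, mulVec_sub,
    mulVec_add, mulVec_smul, mulVec_smul, mulVec_mulVec, Units.mul_inv, one_mulVec, gB_inv_comm hA,
    gB_inv_comm hA, hA.gB_eq]

/-- Isometries move root elements to root elements. -/
lemma conj_uGL (h2 : (2 : F) ≠ 0) {A : GL (Fin 4) F} (hA : IsoW δ (A : M4 F))
    (hw : gB (G4 δ) w w = 0) (hx : gB (G4 δ) w x = 0) :
    A * uGL h2 w hw x hx * A⁻¹ = uGL h2 ((A : M4 F) *ᵥ w) (by rw [hA.gB_eq, hw])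
      ((A : M4 F) *ᵥ x) (by rw [hA.gB_eq, hx]) :=
  Units.ext (conj_sieM hA w x)

/-- Isometries normalise the group of root elements. -/
theorem conj_mem_OmW {A g : GL (Fin 4) F} (hA : IsoW δ (A : M4 F)) (hg : g ∈ OmW δ) :
    A * g * A⁻¹ ∈ OmW δ := by
  induction hg using Subgroup.closure_induction with
  | mem g hg =>
    obtain ⟨w, x, hw0, hw, hx, hxx, e⟩ := hg
    refine Subgroup.subset_closure ⟨(A : M4 F) *ᵥ w, (A : M4 F) *ᵥ x, fun h => hw0 ?_,
      by rw [hA.gB_eq, hw], by rw [hA.gB_eq, hx], by rwa [hA.gB_eq], ?_⟩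
    · simpa [mulVec_mulVec] using congrArg (fun z => ((A⁻¹ : GL (Fin 4) F) : M4 F) *ᵥ z) h
    · rw [Units.val_mul, Units.val_mul, e, conj_sieM hA]
  | one => rw [mul_one, mul_inv_cancel]; exact one_mem _
  | mul g g' _ _ hg hg' =>
    rw [show A * (g * g') * A⁻¹ = (A * g * A⁻¹) * (A * g' * A⁻¹) by group]
    exact mul_mem hg hg'
  | inv g _ hg =>
    rw [show A * g⁻¹ * A⁻¹ = (A * g * A⁻¹)⁻¹ by group]
    exact inv_mem hg

/-- A hyperbolic pair together with an orthogonal basis of its perpendicular plane. -/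
structure HBase (δ : F) (w v a b : Fin 4 → F) : Prop where
  ww : gB (G4 δ) w w = 0
  vv : gB (G4 δ) v v = 0
  wv : gB (G4 δ) w v = 1
  wa : gB (G4 δ) w a = 0
  wb : gB (G4 δ) w b = 0
  va : gB (G4 δ) v a = 0
  vb : gB (G4 δ) v b = 0
  ab : gB (G4 δ) a b = 0
  aa : gB (G4 δ) a a ≠ 0
  bb : gB (G4 δ) b b ≠ 0
  aabb : gB (G4 δ) a a + gB (G4 δ) b b ≠ 0
  dec : ∀ y, y = gB (G4 δ) v y • w + gB (G4 δ) w y • v +
    (gB (G4 δ) a y / gB (G4 δ) a a) • a + (gB (G4 δ) b y / gB (G4 δ) b b) • b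

variable {v a b : Fin 4 → F}

namespace HBase

variable (H : HBase δ w v a b)
include H

lemma w_ne : w ≠ 0 := fun h => by simpa [h] using H.wv

lemma v_ne : v ≠ 0 := fun h => by simpa [h] using H.wv

lemma aw : gB (G4 δ) a w = 0 := by rw [gB_symm, H.wa]

lemma av : gB (G4 δ) a v = 0 := by rw [gB_symm, H.va]

lemma bw : gB (G4 δ) b w = 0 := by rw [gB_symm, H.wb]

lemma bv : gB (G4 δ) b v = 0 := by rw [gB_symm, H.vb]

lemma ba : gB (G4 δ) b a = 0 := by rw [gB_symm, H.ab]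

lemma vw : gB (G4 δ) v w = 1 := by rw [gB_symm, H.wv]

lemma ext {A B : M4 F} (hw : A *ᵥ w = B *ᵥ w) (hv : A *ᵥ v = B *ᵥ v) (ha : A *ᵥ a = B *ᵥ a)
    (hb : A *ᵥ b = B *ᵥ b) : A = B := by
  refine Matrix.ext_iff_mulVec.2 fun y => ?_
  rw [H.dec y]
  simp only [mulVec_add, mulVec_smul, hw, hv, ha, hb]

lemma swapVec : HBase δ w v b a where
  ww := H.ww
  vv := H.vv
  wv := H.wv
  wa := H.wb
  wb := H.wa
  va := H.vb
  vb := H.va
  ab := H.ba
  aa := H.bb
  bb := H.aa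
  aabb := by rw [add_comm]; exact H.aabb
  dec y := by
    conv_lhs => rw [H.dec y]
    abel

end HBase

/-- The element exchanging the two lines of a hyperbolic pair. -/
noncomputable def nEl (h2 : (2 : F) ≠ 0) (w v a : Fin 4 → F) (hw : gB (G4 δ) w w = 0)
    (hv : gB (G4 δ) v v = 0) (hwa : gB (G4 δ) w a = 0) (hva : gB (G4 δ) v a = 0) :
    GL (Fin 4) F :=
  uGL h2 w hw a hwa * uGL h2 v hv ((2 / gB (G4 δ) a a) • a) (by rw [map_smul, hva, smul_zero]) *
    uGL h2 w hw a hwa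

lemma nEl_mem (h2 : (2 : F) ≠ 0) (hd : ¬ IsSquare δ) {hw : gB (G4 δ) w w = 0}
    {hv : gB (G4 δ) v v = 0} {hwa : gB (G4 δ) w a = 0} {hva : gB (G4 δ) v a = 0}
    (hw0 : w ≠ 0) (hv0 : v ≠ 0) : nEl h2 w v a hw hv hwa hva ∈ OmW δ :=
  mul_mem (mul_mem (uGL_mem h2 hd hw0 hw hwa) (uGL_mem h2 hd hv0 _ _)) (uGL_mem h2 hd hw0 hw hwa)

lemma nEl_apply (h2 : (2 : F) ≠ 0) {hw : gB (G4 δ) w w = 0}
    {hv : gB (G4 δ) v v = 0} {hwa : gB (G4 δ) w a = 0} {hva : gB (G4 δ) v a = 0}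
    (hwv : gB (G4 δ) w v = 1) (ha : gB (G4 δ) a a ≠ 0) :
    (nEl h2 w v a hw hv hwa hva : M4 F) *ᵥ w = -(2 / gB (G4 δ) a a) • v ∧
      (nEl h2 w v a hw hv hwa hva : M4 F) *ᵥ v = -(gB (G4 δ) a a / 2) • w ∧
      (nEl h2 w v a hw hv hwa hva : M4 F) *ᵥ a = -a ∧
      ∀ y, gB (G4 δ) w y = 0 → gB (G4 δ) v y = 0 → gB (G4 δ) a y = 0 →
        (nEl h2 w v a hw hv hwa hva : M4 F) *ᵥ y = y := by
  have haw : gB (G4 δ) a w = 0 := by rw [gB_symm, hwa]
  have hav : gB (G4 δ) a v = 0 := by rw [gB_symm, hva]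
  have hvw : gB (G4 δ) v w = 1 := by rw [gB_symm, hwv]
  refine ⟨?_, ?_, ?_, fun y h1 h2' h3 => ?_⟩ <;>
    simp only [nEl, Units.val_mul, ← mulVec_mulVec, uGL_mulVec, map_add, map_sub, map_smul,
      LinearMap.smul_apply, smul_eq_mul, hw, hv, hwa, hva, haw, hav, hwv, hvw] <;>
    (try simp only [h1, h2', h3]) <;>
    match_scalars <;> field_simp <;> ring

namespace HBase

variable (H : HBase δ w v a b)
include H

/-- The torus element of a basis. -/
lemma exists_torus (h2 : (2 : F) ≠ 0) (hd : ¬ IsSquare δ) :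
    ∃ h ∈ OmW δ, (h : M4 F) *ᵥ w = (gB (G4 δ) a a / gB (G4 δ) b b) • w ∧
      (h : M4 F) *ᵥ v = (gB (G4 δ) b b / gB (G4 δ) a a) • v ∧
      (h : M4 F) *ᵥ a = -a ∧ (h : M4 F) *ᵥ b = -b := by
  obtain ⟨aw, av, aa', ay⟩ := nEl_apply h2 (hw := H.ww) (hv := H.vv) (hwa := H.wa) (hva := H.va)
    H.wv H.aa
  obtain ⟨bw, bv, bb', bY⟩ := nEl_apply h2 (hw := H.ww) (hv := H.vv) (hwa := H.wb) (hva := H.vb)
    H.wv H.bb
  refine ⟨nEl h2 w v a H.ww H.vv H.wa H.va * nEl h2 w v b H.ww H.vv H.wb H.vb,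
    mul_mem (nEl_mem h2 hd H.w_ne H.v_ne) (nEl_mem h2 hd H.w_ne H.v_ne), ?_, ?_, ?_, ?_⟩ <;>
    rw [Units.val_mul, ← mulVec_mulVec]
  · rw [bw, mulVec_smul, av, smul_smul]
    congr 1
    have := H.aa; have := H.bb
    field_simp
  · rw [bv, mulVec_smul, aw, smul_smul]
    congr 1
    have := H.aa; have := H.bb
    field_simp
  · rw [bY a H.wa H.va H.ba, aa']
  · rw [bb', mulVec_neg, ay b H.wb H.vb H.ab]

/-- The vectors of the perpendicular plane. -/
lemma perp_dec {y : Fin 4 → F} (hy : gB (G4 δ) w y = 0) :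
    y = gB (G4 δ) v y • w + ((gB (G4 δ) a y / gB (G4 δ) a a) • a +
      (gB (G4 δ) b y / gB (G4 δ) b b) • b) := by
  conv_lhs => rw [H.dec y, hy, zero_smul, add_zero, add_assoc]

/-- Every singular line is that of `w` or a root image of that of `v`. -/
lemma line_cases (h2 : (2 : F) ≠ 0) {y : Fin 4 → F} (hy : gB (G4 δ) y y = 0) (hd : ¬ IsSquare δ) :
    (∃ c : F, y = c • w) ∨ ∃ c : F, c ≠ 0 ∧ ∃ α β : F, ∃ hx : gB (G4 δ) w (α • a + β • b) = 0,
      y = c • ((uGL h2 w H.ww (α • a + β • b) hx : M4 F) *ᵥ v) := by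
  by_cases hc : gB (G4 δ) w y = 0
  · left
    by_contra hno
    refine gB_self_ne_zero hd H.w_ne H.ww hc (fun hm => hno ?_) hy
    obtain ⟨c, rfl⟩ := Submodule.mem_span_singleton.1 hm
    exact ⟨c, rfl⟩
  · right
    set c := gB (G4 δ) w y with hcdef
    refine ⟨c, hc, gB (G4 δ) a y / gB (G4 δ) a a / c, gB (G4 δ) b y / gB (G4 δ) b b / c,
      by simp [H.wa, H.wb], ?_⟩
    have hd' := H.dec y
    rw [← hcdef] at hd'
    set r := gB (G4 δ) v y
    set p := gB (G4 δ) a y / gB (G4 δ) a a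
    set q := gB (G4 δ) b y / gB (G4 δ) b b
    have key : 2 * r * c + (p * p * gB (G4 δ) a a + q * q * gB (G4 δ) b b) = 0 := by
      have e : gB (G4 δ) (r • w + c • v + p • a + q • b) (r • w + c • v + p • a + q • b) = 0 := by
        rw [← hd']; exact hy
      simp only [map_add, map_smul, LinearMap.add_apply, LinearMap.smul_apply, smul_eq_mul, H.ww,
        H.vv, H.wv, H.vw, H.wa, H.wb, H.va, H.vb, H.ab, H.ba, H.aw, H.av, H.bw, H.bv] at e
      linear_combination e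
    rw [uGL_mulVec, hd']
    simp only [map_add, map_smul, LinearMap.add_apply, LinearMap.smul_apply, smul_eq_mul, H.ab,
      H.ba, H.av, H.bv, H.wv]
    match_scalars <;> field_simp <;> first | ring1 | linear_combination key

/-- The group moves `w` to every singular line. -/
lemma exists_move (h2 : (2 : F) ≠ 0) (hd : ¬ IsSquare δ) {y : Fin 4 → F} (hy0 : y ≠ 0)
    (hy : gB (G4 δ) y y = 0) : ∃ g ∈ OmW δ, ∃ c : F, c ≠ 0 ∧ y = c • ((g : M4 F) *ᵥ w) := by
  rcases H.line_cases h2 hy hd with ⟨c, rfl⟩ | ⟨c, hc, α, β, hx, rfl⟩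
  · exact ⟨1, one_mem _, c, fun h => hy0 (by rw [h, zero_smul]), by rw [Units.val_one, one_mulVec]⟩
  · refine ⟨uGL h2 w H.ww _ hx * nEl h2 w v a H.ww H.vv H.wa H.va,
      mul_mem (uGL_mem h2 hd H.w_ne H.ww hx) (nEl_mem h2 hd H.w_ne H.v_ne),
      c * (-(gB (G4 δ) a a / 2)), mul_ne_zero hc (neg_ne_zero.2 (div_ne_zero H.aa h2)), ?_⟩
    rw [Units.val_mul, ← mulVec_mulVec, (nEl_apply h2 H.wv H.aa).1, mulVec_smul, smul_smul]
    congr 1
    have := H.aa
    field_simp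

/-- Root elements are conjugate to those at `w`. -/
lemma exists_conj (h2 : (2 : F) ≠ 0) (hd : ¬ IsSquare δ) {y z : Fin 4 → F} (hy0 : y ≠ 0)
    (hy : gB (G4 δ) y y = 0) (hz : gB (G4 δ) y z = 0) :
    ∃ g ∈ OmW δ, ∃ x, ∃ hx : gB (G4 δ) w x = 0,
      uGL h2 y hy z hz = g * uGL h2 w H.ww x hx * g⁻¹ := by
  obtain ⟨g, hg, c, hc, e⟩ := H.exists_move h2 hd hy0 hy
  have hgi := OmW_iso h2 hg
  refine ⟨g, hg, ((g⁻¹ : GL (Fin 4) F) : M4 F) *ᵥ (c • z), ?_, ?_⟩
  · rw [gB_inv_comm hgi, map_smul, ← LinearMap.smul_apply, ← map_smul, ← e, hz]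
  · rw [conj_uGL h2 hgi]
    refine Units.ext ?_
    rw [uGL_val, uGL_val, mulVec_mulVec, Units.mul_inv, one_mulVec, ← sieM_smul_left, ← e]

end HBase

lemma hBase_sqrt_neg_one (h2 : (2 : F) ≠ 0) (hd : ¬ IsSquare δ) {i : F} (hi : i * i = -1) :
    HBase δ ![0, 0, 1, i] ![0, 0, 2⁻¹, -i * 2⁻¹] ![1, 0, 0, 0] ![0, 1, 0, 0] where
  ww := by simp [gB_diag]; linear_combination hi
  vv := by simp [gB_diag]; linear_combination (2 : F)⁻¹ * 2⁻¹ * hi
  wv := by simp [gB_diag]; field_simp; linear_combination -hi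
  wa := by simp [gB_diag]
  wb := by simp [gB_diag]
  va := by simp [gB_diag]
  vb := by simp [gB_diag]
  ab := by simp [gB_diag]
  aa := by simpa [gB_diag] using ne_zero_of_nsq hd
  bb := by simp [gB_diag]
  aabb := by simp [gB_diag]; exact fun h => hd ⟨i, by linear_combination h - hi⟩
  dec y := by
    have hd0 := ne_zero_of_nsq hd
    funext j
    fin_cases j <;> simp [gB_diag, hd0] <;> field_simp
    · ring
    · linear_combination 2 * (y 3) * hi

lemma hBase_sqrt_neg (h2 : (2 : F) ≠ 0) (hd : ¬ IsSquare δ) {s : F} (hs : s * s = -δ) :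
    HBase δ ![1, s, 0, 0] ![(2 * δ)⁻¹, -s * (2 * δ)⁻¹, 0, 0] ![0, 0, 1, 0] ![0, 0, 0, 1] where
  ww := by simp [gB_diag]; linear_combination hs
  vv := by
    have hd0 := ne_zero_of_nsq hd
    simp [gB_diag]; field_simp; linear_combination hs
  wv := by
    have hd0 := ne_zero_of_nsq hd
    simp [gB_diag]; field_simp; linear_combination -hs
  wa := by simp [gB_diag]
  wb := by simp [gB_diag]
  va := by simp [gB_diag]
  vb := by simp [gB_diag]
  ab := by simp [gB_diag]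
  aa := by simp [gB_diag]
  bb := by simp [gB_diag]
  aabb := by simp [gB_diag]; exact fun h => h2 (by linear_combination h)
  dec y := by
    have hd0 := ne_zero_of_nsq hd
    funext j
    fin_cases j <;> simp [gB_diag] <;> field_simp
    · ring
    · linear_combination 2 * (y 1) * hs

lemma exists_sqrt [Finite F] (hd : ¬ IsSquare δ) :
    (∃ i : F, i * i = -1) ∨ ∃ s : F, s * s = -δ := by
  classical
  haveI := Fintype.ofFinite F
  by_cases hm : IsSquare (-1 : F)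
  · obtain ⟨i, hi⟩ := hm; exact Or.inl ⟨i, hi.symm⟩
  · right
    obtain ⟨s, hs⟩ : IsSquare (-δ) := by
      rw [← quadraticChar_one_iff_isSquare (neg_ne_zero.2 (ne_zero_of_nsq hd)), neg_eq_neg_one_mul,
        map_mul, quadraticChar_neg_one_iff_not_isSquare.2 hm,
        quadraticChar_neg_one_iff_not_isSquare.2 hd]
      norm_num
    exact ⟨s, hs.symm⟩

/-- Some basis. -/
lemma exists_hbase [Finite F] (h2 : (2 : F) ≠ 0) (hd : ¬ IsSquare δ) :
    ∃ w v a b, HBase δ w v a b := by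
  rcases exists_sqrt hd with ⟨i, hi⟩ | ⟨s, hs⟩
  · exact ⟨_, _, _, _, hBase_sqrt_neg_one h2 hd hi⟩
  · exact ⟨_, _, _, _, hBase_sqrt_neg h2 hd hs⟩

/-- A half turn of the site lies in the group. -/
theorem half_mem_OmW [Finite F] (h2 : (2 : F) ≠ 0) (hd : ¬ IsSquare δ) :
    ∃ A ∈ OmW δ, (A : M4 F) = reflW δ ![0, 0, 1, 0] * reflW δ ![0, 0, 0, 1] := by
  have hrefl : ∀ x, (reflW δ ![0, 0, 1, 0] * reflW δ ![0, 0, 0, 1]) *ᵥ x =
      ![x 0, x 1, -x 2, -x 3] := fun x => by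
    rw [← mulVec_mulVec, reflW_mulVec, reflW_mulVec]
    simp only [gB_diag]
    funext j
    fin_cases j <;> simp [Matrix.vecHead, Matrix.vecTail] <;> field_simp <;> ring
  rcases exists_sqrt hd with ⟨i, hi⟩ | ⟨s, hs⟩
  · have H := hBase_sqrt_neg_one h2 hd hi
    set w : Fin 4 → F := ![0, 0, 1, i] with hw
    set v : Fin 4 → F := ![0, 0, 2⁻¹, -i * 2⁻¹] with hv
    set a : Fin 4 → F := ![1, 0, 0, 0] with ha
    set b : Fin 4 → F := ![0, 1, 0, 0] with hb
    have hwa : gB (G4 δ) w (i • a) = 0 := by rw [map_smul, H.wa, smul_zero]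
    have hva : gB (G4 δ) v (i • a) = 0 := by rw [map_smul, H.va, smul_zero]
    have hia : gB (G4 δ) (i • a) (i • a) = -gB (G4 δ) a a := by
      simp only [map_smul, LinearMap.smul_apply, smul_eq_mul]
      linear_combination gB (G4 δ) a a * hi
    obtain ⟨pw, pv, pa, py⟩ := nEl_apply h2 (hw := H.ww) (hv := H.vv) (hwa := hwa) (hva := hva)
      H.wv (by rw [hia]; exact neg_ne_zero.2 H.aa)
    obtain ⟨qw, qv, qa, qy⟩ := nEl_apply h2 (hw := H.ww) (hv := H.vv) (hwa := H.wa) (hva := H.va)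
      H.wv H.aa
    refine ⟨nEl h2 w v (i • a) H.ww H.vv hwa hva * nEl h2 w v a H.ww H.vv H.wa H.va,
      mul_mem (nEl_mem h2 hd H.w_ne H.v_ne) (nEl_mem h2 hd H.w_ne H.v_ne), ?_⟩
    have hi0 : i ≠ 0 := fun e => by simp [e] at hi
    have hpa : (nEl h2 w v (i • a) H.ww H.vv hwa hva : M4 F) *ᵥ a = -a := by
      rw [mulVec_smul, ← smul_neg] at pa
      exact smul_right_injective _ hi0 pa
    have := H.aa
    refine H.ext ?_ ?_ ?_ ?_ <;> rw [Units.val_mul, ← mulVec_mulVec, hrefl]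
    · rw [qw, mulVec_smul, pv, smul_smul, hia,
        show -(2 / gB (G4 δ) a a) * -(-gB (G4 δ) a a / 2) = -1 by field_simp, neg_one_smul, hw]
      funext j; fin_cases j <;> simp
    · rw [qv, mulVec_smul, pw, smul_smul, hia,
        show -(gB (G4 δ) a a / 2) * -(2 / -gB (G4 δ) a a) = -1 by field_simp, neg_one_smul, hv]
      funext j; fin_cases j <;> simp
    · rw [qa, mulVec_neg, hpa, neg_neg, ha]
      funext j; fin_cases j <;> simp
    · rw [qy b H.wb H.vb H.ab, py b H.wb H.vb (by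
        rw [map_smul, LinearMap.smul_apply, H.ab, smul_zero]), hb]
      funext j; fin_cases j <;> simp
  · have H := hBase_sqrt_neg h2 hd hs
    obtain ⟨h, hh, hw, hv, ha, hb⟩ := H.exists_torus h2 hd
    refine ⟨h, hh, H.ext ?_ ?_ ?_ ?_⟩ <;> rw [hrefl]
    · rw [hw]; funext j; fin_cases j <;> simp [gB_diag]
    · rw [hv]; funext j; fin_cases j <;> simp [gB_diag]
    · rw [ha]; funext j; fin_cases j <;> simp
    · rw [hb]; funext j; fin_cases j <;> simp

namespace HBase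

variable (H : HBase δ w v a b)

/-- The root group at `w` inside the group. -/
noncomputable def rootHom (h2 : (2 : F) ≠ 0) (hd : ¬ IsSquare δ) :
    Multiplicative (perpW δ w) →* OmW δ where
  toFun x := ⟨uGL h2 w H.ww x.toAdd.1 (LinearMap.mem_ker.1 x.toAdd.2),
    uGL_mem h2 hd H.w_ne H.ww _⟩
  map_one' := Subtype.ext (Units.ext (by
    show 1 + sieM (G4 δ) w (0 : Fin 4 → F) = 1
    rw [show (0 : Fin 4 → F) = (0 : F) • w from (zero_smul F w).symm, sieM_self H.ww, add_zero]))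
  map_mul' x y := Subtype.ext (Units.ext (one_add_sieM_mul h2 H.ww
    (LinearMap.mem_ker.1 x.toAdd.2) (LinearMap.mem_ker.1 y.toAdd.2)).symm)

lemma rootHom_val (h2 : (2 : F) ≠ 0) (hd : ¬ IsSquare δ) (x : Fin 4 → F)
    (hx : gB (G4 δ) w x = 0) :
    (H.rootHom h2 hd (Multiplicative.ofAdd ⟨x, LinearMap.mem_ker.2 hx⟩) : GL (Fin 4) F) =
      uGL h2 w H.ww x hx := rfl

include H

/-- Induction over the group from the root elements at `w`. -/
lemma induction (h2 : (2 : F) ≠ 0) (hd : ¬ IsSquare δ) (K : Subgroup (OmW δ)) (hK : K.Normal)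
    (hu : ∀ x, H.rootHom h2 hd x ∈ K) : K = ⊤ := by
  refine (Subgroup.eq_top_iff' K).2 fun g => ?_
  obtain ⟨g, hg⟩ := g
  induction hg using Subgroup.closure_induction with
  | mem g hg' =>
    obtain ⟨y, z, hy0, hy, hz, -, e⟩ := id hg'
    obtain ⟨k, hk, x, hx, e'⟩ := H.exists_conj h2 hd hy0 hy hz
    have : (⟨g, Subgroup.subset_closure hg'⟩ : OmW δ) = ⟨k, hk⟩ *
        H.rootHom h2 hd (Multiplicative.ofAdd ⟨x, LinearMap.mem_ker.2 hx⟩) * ⟨k, hk⟩⁻¹ :=
      Subtype.ext (by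
        show g = k * _ * k⁻¹
        rw [H.rootHom_val h2 hd x hx, ← e']
        exact Units.ext e)
    rw [this]
    exact hK.conj_mem _ (hu _) _
  | one => exact K.one_mem
  | mul g g' hg hg' h h' => exact K.mul_mem h h'
  | inv g hg h => exact K.inv_mem h

/-- Homomorphisms with commuting values are trivial. -/
lemma hom_trivial (h2 : (2 : F) ≠ 0) (hd : ¬ IsSquare δ) {C : Type*} [Group C]
    (f : OmW δ →* C) (hc : ∀ g g', Commute (f g) (f g')) (g : OmW δ) : f g = 1 := by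
  suffices h : f.ker = ⊤ by exact MonoidHom.mem_ker.1 (h ▸ Subgroup.mem_top g)
  obtain ⟨h, hh, hw, -, ha, hb⟩ := H.exists_torus h2 hd
  set c := gB (G4 δ) a a / gB (G4 δ) b b with hcdef
  have hc1 : -c - 1 ≠ 0 := fun e => H.aabb (by
    have := H.bb
    rw [hcdef] at e
    field_simp at e
    linear_combination -e)
  have hplane : ∀ x ∈ Submodule.span F {a, b}, ∀ hx : gB (G4 δ) w x = 0,
      f (H.rootHom h2 hd (Multiplicative.ofAdd ⟨x, LinearMap.mem_ker.2 hx⟩)) = 1 := by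
    intro x hxm hx
    set x' := (-c - 1)⁻¹ • x with hx'def
    have hx' : gB (G4 δ) w x' = 0 := by rw [hx'def, map_smul, hx, smul_zero]
    set X : Multiplicative (perpW δ w) := Multiplicative.ofAdd ⟨x', LinearMap.mem_ker.2 hx'⟩
    have hX : (h : M4 F) *ᵥ x' = -x' := by
      obtain ⟨p, q, e⟩ := Submodule.mem_span_pair.1 hxm
      rw [hx'def, ← e]
      simp only [mulVec_smul, mulVec_add, ha, hb]
      module
    have hcx : gB (G4 δ) w (c • -x') = 0 := by simp [hx']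
    have e : (⟨h, hh⟩ : OmW δ) * H.rootHom h2 hd X * ⟨h, hh⟩⁻¹ =
        H.rootHom h2 hd (Multiplicative.ofAdd ⟨c • -x', LinearMap.mem_ker.2 hcx⟩) :=
      Subtype.ext (by
        show h * uGL h2 w H.ww x' hx' * h⁻¹ = uGL h2 w H.ww (c • -x') hcx
        rw [conj_uGL h2 (OmW_iso h2 hh)]
        refine Units.ext ?_
        rw [uGL_val, uGL_val, hw, hX, sieM_smul_left])
    have e' := congrArg f e
    rw [map_mul, map_mul, map_inv, (hc ⟨h, hh⟩ (H.rootHom h2 hd X)).eq, mul_inv_cancel_right] at e'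
    have hsum : Multiplicative.ofAdd (⟨x, LinearMap.mem_ker.2 hx⟩ : perpW δ w) =
        Multiplicative.ofAdd (⟨c • -x', LinearMap.mem_ker.2 hcx⟩ : perpW δ w) * X⁻¹ :=
      Multiplicative.toAdd.injective (Subtype.ext (by
        show x = c • -x' + -x'
        rw [show c • -x' + -x' = (-c - 1) • x' by module, hx'def, smul_inv_smul₀ hc1]))
    rw [hsum, map_mul, map_inv, map_mul, map_inv, ← e', mul_inv_cancel]
  refine H.induction h2 hd f.ker inferInstance fun X => ?_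
  obtain ⟨⟨x, hxk⟩, rfl⟩ := Multiplicative.ofAdd.surjective X
  have hx : gB (G4 δ) w x = 0 := LinearMap.mem_ker.1 hxk
  set p := (gB (G4 δ) a x / gB (G4 δ) a a) • a + (gB (G4 δ) b x / gB (G4 δ) b b) • b with hp
  have hpm : p ∈ Submodule.span F {a, b} := Submodule.mem_span_pair.2 ⟨_, _, hp.symm⟩
  have hpw : gB (G4 δ) w p = 0 := by simp [hp, H.wa, H.wb]
  rw [MonoidHom.mem_ker, ← hplane p hpm hpw]
  congr 1
  refine Subtype.ext ?_
  show uGL h2 w H.ww x hx = uGL h2 w H.ww p hpw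
  refine Units.ext ?_
  rw [uGL_val, uGL_val]
  have hrw : gB (G4 δ) w (gB (G4 δ) v x • w) = 0 := by rw [map_smul, H.ww, smul_zero]
  conv_lhs => rw [H.perp_dec hx, ← hp, ← one_add_sieM_mul h2 H.ww hrw hpw, sieM_self H.ww,
    add_zero, one_mul]

end HBase

/-- The group is perfect. -/
theorem hom_comm_trivial [Finite F] (h2 : (2 : F) ≠ 0) (hd : ¬ IsSquare δ) {C : Type*}
    [CommGroup C] (f : OmW δ →* C) (g : OmW δ) : f g = 1 := by
  obtain ⟨w, v, a, b, H⟩ := exists_hbase h2 hd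
  exact H.hom_trivial h2 hd f (fun _ _ => Commute.all _ _) g

theorem commutator_OmW [Finite F] (h2 : (2 : F) ≠ 0) (hd : ¬ IsSquare δ) :
    commutator (OmW δ) = ⊤ :=
  top_le_iff.1 fun g _ => by
    rw [← Abelianization.ker_of (OmW δ), MonoidHom.mem_ker]
    exact hom_comm_trivial h2 hd _ g

/-- There is no non-trivial orbit of two-power length. -/
theorem fixed_of_two_pow_orbit [Finite F] (h2 : (2 : F) ≠ 0) (hd : ¬ IsSquare δ) {α : Type*}
    [MulAction (OmW δ) α] (x : α) {k : ℕ}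
    (hk : Nat.card (MulAction.orbit (OmW δ) x) = 2 ^ k) (g : OmW δ) : g • x = x := by
  classical
  obtain ⟨w, v, a, b, H⟩ := exists_hbase h2 hd
  haveI := Fintype.ofFinite F
  obtain ⟨p, hchar⟩ := CharP.exists F
  haveI hp : Fact p.Prime := ⟨CharP.char_is_prime F p⟩
  have hp2 : p ≠ 2 := by
    rintro rfl
    exact h2 (CharP.cast_eq_zero F 2)
  haveI : Finite (MulAction.orbit (OmW δ) x) :=
    Nat.finite_of_card_ne_zero (by rw [hk]; exact pow_ne_zero _ two_ne_zero)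
  set U := (H.rootHom h2 hd).range with hU
  have hUp : IsPGroup p U := fun u => ⟨1, by
    obtain ⟨_, X, rfl⟩ := u
    have hX : X ^ p = 1 := Multiplicative.toAdd.injective (by
      rw [toAdd_pow, toAdd_one, ← Nat.cast_smul_eq_nsmul F, CharP.cast_eq_zero, zero_smul])
    refine Subtype.ext ?_
    rw [pow_one, SubgroupClass.coe_pow, ← map_pow, hX, map_one]
    rfl⟩
  obtain ⟨y, hy⟩ := hUp.nonempty_fixed_point_of_prime_not_dvd_card (MulAction.orbit (OmW δ) x) (by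
    rw [hk]
    intro hdvd
    exact hp2 ((Nat.prime_dvd_prime_iff_eq hp.out Nat.prime_two).1 (hp.out.dvd_of_dvd_pow hdvd)))
  suffices hy' : ∀ g : OmW δ, g • (y : α) = y by
    obtain ⟨k₀, hk₀⟩ := MulAction.mem_orbit_iff.1 y.2
    have hx : x = k₀⁻¹ • (y : α) := by rw [← hk₀, inv_smul_smul]
    rw [hx, ← mul_smul, hy', hy']
  set S := MulAction.stabilizer (OmW δ) (y : α) with hS
  have hUS : ∀ X, H.rootHom h2 hd X ∈ S := fun X => by
    show _ • (y : α) = y
    exact congrArg Subtype.val (hy ⟨_, X, rfl⟩)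
  -- the stabiliser of the line of `w`
  let B : Subgroup (OmW δ) :=
    { carrier := {g | ∃ c : F, c ≠ 0 ∧ ((g : GL (Fin 4) F) : M4 F) *ᵥ w = c • w}
      one_mem' := ⟨1, one_ne_zero, by simp⟩
      mul_mem' := by
        rintro g g' ⟨c, hc, e⟩ ⟨c', hc', e'⟩
        exact ⟨c' * c, mul_ne_zero hc' hc, by
          rw [Subgroup.coe_mul, Units.val_mul, ← mulVec_mulVec, e', mulVec_smul, e, smul_smul]⟩
      inv_mem' := by
        rintro g ⟨c, hc, e⟩
        refine ⟨c⁻¹, inv_ne_zero hc, ?_⟩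
        have := congrArg (fun z => (((g⁻¹ : OmW δ) : GL (Fin 4) F) : M4 F) *ᵥ z) e
        simp only [mulVec_mulVec, mulVec_smul] at this
        rw [← Units.val_mul, InvMemClass.coe_inv, inv_mul_cancel, Units.val_one, one_mulVec] at this
        rw [InvMemClass.coe_inv]
        conv_rhs => rw [this]
        rw [smul_smul, inv_mul_cancel₀ hc, one_smul] }
  intro g
  suffices htop : S = ⊤ by
    exact MulAction.mem_stabilizer_iff.1 (show g ∈ S by rw [htop]; exact Subgroup.mem_top g)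
  by_cases hSB : S ≤ B
  · exfalso
    let pv : F × F → (Fin 4 → F) := fun z => z.1 • a + z.2 • b
    have hpv : ∀ z, gB (G4 δ) w (pv z) = 0 := fun z => by simp [pv, H.wa, H.wb]
    let φ : Option (F × F) → OmW δ := fun o => o.elim 1 fun z =>
      H.rootHom h2 hd (Multiplicative.ofAdd ⟨pv z, LinearMap.mem_ker.2 (hpv z)⟩) *
        ⟨nEl h2 w v a H.ww H.vv H.wa H.va, nEl_mem h2 hd H.w_ne H.v_ne⟩
    set m : F := -(2 / gB (G4 δ) a a) with hm
    have hm0 : m ≠ 0 := neg_ne_zero.2 (div_ne_zero h2 H.aa)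
    have hφ : ∀ z, ((φ (some z) : GL (Fin 4) F) : M4 F) *ᵥ w =
        m • (v + pv z - (gB (G4 δ) (pv z) (pv z) / 2) • w) := fun z => by
      show ((uGL h2 w H.ww (pv z) (hpv z) * nEl h2 w v a H.ww H.vv H.wa H.va : GL (Fin 4) F) :
        M4 F) *ᵥ w = _
      rw [Units.val_mul, ← mulVec_mulVec, (nEl_apply h2 H.wv H.aa).1, mulVec_smul, uGL_mulVec]
      simp [pv, H.wv, H.av, H.bv]
      match_scalars <;> field_simp <;> ring
    have hclass : ∀ g g' : OmW δ, ((g : OmW δ ⧸ B) = g') →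
        ∃ c : F, c ≠ 0 ∧ ((g' : GL (Fin 4) F) : M4 F) *ᵥ w = c • (((g : GL (Fin 4) F) : M4 F) *ᵥ w) := by
      intro g g' e
      obtain ⟨c, hc, e'⟩ := (QuotientGroup.eq.1 e : g⁻¹ * g' ∈ B)
      refine ⟨c, hc, ?_⟩
      rw [← mulVec_smul, ← e', mulVec_mulVec, ← Units.val_mul, ← Subgroup.coe_mul,
        mul_inv_cancel_left]
    have hbij : Function.Bijective fun o => (φ o : OmW δ ⧸ B) := by
      constructor
      · intro o o' e
        obtain ⟨c, hc, ec⟩ := hclass _ _ e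
        rcases o with _ | z <;> rcases o' with _ | z'
        · rfl
        · exfalso
          rw [hφ] at ec
          have := congrArg (gB (G4 δ) w) ec
          simp [φ, pv, H.ww, H.wv, H.wa, H.wb, hm0] at this
        · exfalso
          rw [hφ] at ec
          have := congrArg (gB (G4 δ) w) ec
          simp [φ, pv, H.ww, H.wv, H.wa, H.wb, hm0, hc] at this
        · rw [hφ, hφ] at ec
          have e1 := congrArg (gB (G4 δ) w) ec
          have e2 := congrArg (gB (G4 δ) a) ec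
          have e3 := congrArg (gB (G4 δ) b) ec
          simp [pv, H.ww, H.wv, H.wa, H.wb, hm0, H.aw, H.av, H.bw, H.bv, H.ab, H.ba] at e1 e2 e3
          subst e1
          simp [H.aa, H.bb] at e2 e3
          exact congrArg some (Prod.ext (e2.resolve_right hm0).symm (e3.resolve_right hm0).symm)
      · intro q
        obtain ⟨g, rfl⟩ := QuotientGroup.mk_surjective q
        have hgi := OmW_iso h2 g.2
        have hinv : ∀ o, (∃ c : F, c ≠ 0 ∧ ((φ o : GL (Fin 4) F) : M4 F) *ᵥ w =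
            c • (((g : GL (Fin 4) F) : M4 F) *ᵥ w)) → (φ o : OmW δ ⧸ B) = g := by
          rintro o ⟨c, hc, e⟩
          refine (QuotientGroup.eq.2 ?_).symm
          refine ⟨c, hc, ?_⟩
          rw [Subgroup.coe_mul, Units.val_mul, ← mulVec_mulVec, e, mulVec_smul, mulVec_mulVec,
            ← Units.val_mul, ← Subgroup.coe_mul, inv_mul_cancel, OneMemClass.coe_one, Units.val_one,
            one_mulVec]
        have hgw0 : ((g : GL (Fin 4) F) : M4 F) *ᵥ w ≠ 0 := fun h0 =>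
          H.w_ne (eq_zero_of_mulVec _ h0)
        rcases H.line_cases h2 (y := ((g : GL (Fin 4) F) : M4 F) *ᵥ w) (by rw [hgi.gB_eq, H.ww]) hd
          with ⟨c, e⟩ | ⟨c, hc, α, β, hx, e⟩
        · have hc : c ≠ 0 := fun h => hgw0 (by rw [e, h, zero_smul])
          exact ⟨none, hinv none ⟨c⁻¹, inv_ne_zero hc, by simp [φ, e, smul_smul, hc]⟩⟩
        · refine ⟨some (α, β), hinv _ ⟨m / c, div_ne_zero hm0 hc, ?_⟩⟩
          rw [hφ, e, smul_smul, div_mul_cancel₀ _ hc, uGL_mulVec]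
          simp [pv, H.wv, H.av, H.bv]
    have hidx := Subgroup.index_dvd_of_le hSB
    rw [hS, MulAction.index_stabilizer, MulAction.orbit_eq_iff.2 y.2, ← Nat.card_coe_set_eq, hk,
      Subgroup.index_eq_card, ← Nat.card_eq_of_bijective _ hbij, Finite.card_option,
      Nat.card_prod, Nat.card_eq_fintype_card] at hidx
    obtain ⟨j, -, hj⟩ := (Nat.dvd_prime_pow Nat.prime_two).1 hidx
    obtain ⟨r, hr⟩ : Odd (Fintype.card F) := Nat.odd_iff.2 (FiniteField.odd_card_of_char_ne_two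
      (by rw [ringChar.eq F p]; exact hp2))
    have h1 : 1 < Fintype.card F := Fintype.one_lt_card
    rcases j with _ | _ | j
    · simp only [pow_zero] at hj; nlinarith
    · simp only [zero_add, pow_one] at hj; nlinarith
    · rw [hr, show j + 1 + 1 = j + 2 from rfl, pow_add] at hj
      have : (2 * r + 1) * (2 * r + 1) + 1 = 4 * (r * r + r) + 2 := by ring
      rw [this] at hj
      omega
  · -- a second root group fixes the point
    obtain ⟨s, hs, hsB⟩ := SetLike.not_le_iff_exists.1 hSB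
    have hsi := OmW_iso h2 s.2
    set z₀ := ((s : GL (Fin 4) F) : M4 F) *ᵥ w with hz₀
    rcases H.line_cases h2 (y := z₀) (by rw [hz₀, hsi.gB_eq, H.ww]) hd with
      ⟨c, e⟩ | ⟨c, hc, α, β, hx, e⟩
    · refine absurd ⟨c, ?_, e⟩ hsB
      intro h
      rw [h, zero_smul, hz₀] at e
      exact H.w_ne (eq_zero_of_mulVec _ e)
    · set u₁ : OmW δ := H.rootHom h2 hd (Multiplicative.ofAdd ⟨_, LinearMap.mem_ker.2 hx⟩)
      refine (Subgroup.eq_top_iff' S).2 fun g => ?_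
      obtain ⟨g, hg⟩ := g
      induction hg using Subgroup.closure_induction with
      | mem g hg' =>
        obtain ⟨y', z', hy0, hy', hz', -, eg⟩ := id hg'
        have key : ∀ k : OmW δ, k ∈ S → ∀ d : F,
            y' = d • (((k : GL (Fin 4) F) : M4 F) *ᵥ w) →
              (⟨g, Subgroup.subset_closure hg'⟩ : OmW δ) ∈ S := by
          intro k hk d ed
          have hki := OmW_iso h2 k.2
          have hx' : gB (G4 δ) w ((((k : GL (Fin 4) F)⁻¹ : GL (Fin 4) F) : M4 F) *ᵥ (d • z')) = 0 := by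
            rw [gB_inv_comm hki, map_smul, ← LinearMap.smul_apply, ← map_smul, ← ed, hz']
          have : (⟨g, Subgroup.subset_closure hg'⟩ : OmW δ) =
              k * H.rootHom h2 hd (Multiplicative.ofAdd ⟨_, LinearMap.mem_ker.2 hx'⟩) * k⁻¹ :=
            Subtype.ext (by
              show g = (k : GL (Fin 4) F) * _ * (k : GL (Fin 4) F)⁻¹
              rw [H.rootHom_val h2 hd _ hx', conj_uGL h2 hki]
              refine Units.ext ?_
              rw [uGL_val, mulVec_mulVec, Units.mul_inv, one_mulVec, ← sieM_smul_left, ← ed, eg])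
          rw [this]
          exact mul_mem (mul_mem hk (hUS _)) (inv_mem hk)
        rcases H.line_cases h2 hy' hd with ⟨d, ed⟩ | ⟨d, -, α', β', hx'', ed⟩
        · exact key 1 (one_mem _) d (by simpa using ed)
        · set u₂ : OmW δ := H.rootHom h2 hd (Multiplicative.ofAdd ⟨_, LinearMap.mem_ker.2 hx''⟩)
          refine key (u₂ * u₁⁻¹ * s) (mul_mem (mul_mem (hUS _) (inv_mem (hUS _))) hs) (d * c⁻¹) ?_
          have e₁ : (u₁ : GL (Fin 4) F) = uGL h2 w H.ww _ hx := rfl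
          have e₂ : (u₂ : GL (Fin 4) F) = uGL h2 w H.ww _ hx'' := rfl
          rw [Subgroup.coe_mul, Subgroup.coe_mul, InvMemClass.coe_inv, e₁, e₂, Units.val_mul,
            ← mulVec_mulVec, ← hz₀, e, mulVec_smul, smul_smul, mul_assoc, inv_mul_cancel₀ hc, mul_one,
            mulVec_mulVec, ← Units.val_mul, inv_mul_cancel_right, ed]
      | one => exact S.one_mem
      | mul g g' hg hg' h h' => exact S.mul_mem h h'
      | inv g hg h => exact S.inv_mem h

/-- A group of isometries normalised by the group and not scalar contains the group. -/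
theorem OmW_le_of_normalised [Finite F] (h2 : (2 : F) ≠ 0) (hd : ¬ IsSquare δ)
    {N : Subgroup (GL (Fin 4) F)} (hN : ∀ n ∈ N, IsoW δ (n : M4 F))
    (hnorm : ∀ g ∈ OmW δ, ∀ n ∈ N, g * n * g⁻¹ ∈ N)
    (hex : ∃ n ∈ N, ¬ ∃ c : F, (n : M4 F) = c • (1 : M4 F)) : OmW δ ≤ N := by
  obtain ⟨w, v, a, b, H⟩ := exists_hbase h2 hd
  -- some member moves the line of `w`
  obtain ⟨n₁, hn₁, hmove⟩ : ∃ n ∈ N, ∀ c : F, (n : M4 F) *ᵥ w ≠ c • w := by
    obtain ⟨n, hn, hns⟩ := hex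
    by_contra hcon
    push Not at hcon
    have heig : ∀ y, y ≠ 0 → gB (G4 δ) y y = 0 → ∃ c : F, (n : M4 F) *ᵥ y = c • y := by
      intro y hy0 hy
      obtain ⟨g, hg, d, -, rfl⟩ := H.exists_move h2 hd hy0 hy
      have hmem : g⁻¹ * n * g ∈ N := by simpa using hnorm g⁻¹ (inv_mem hg) n hn
      obtain ⟨c, hc⟩ := hcon _ hmem
      refine ⟨c, ?_⟩
      have hc' := congrArg (fun z => (g : M4 F) *ᵥ z) hc
      simp only [mulVec_mulVec, mulVec_smul, ← Units.val_mul] at hc'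
      rw [show g * (g⁻¹ * n * g) = n * g by group, Units.val_mul, ← mulVec_mulVec] at hc'
      rw [mulVec_smul, hc', smul_comm]
    have hza : ∀ e : Fin 4 → F, (he : gB (G4 δ) w e = 0) →
        gB (G4 δ) v e = 0 → gB (G4 δ) e e ≠ 0 →
          gB (G4 δ) (v + e - (gB (G4 δ) e e / 2) • w) (v + e - (gB (G4 δ) e e / 2) • w) = 0 ∧
          gB (G4 δ) w (v + e - (gB (G4 δ) e e / 2) • w) = 1 ∧
          gB (G4 δ) v (v + e - (gB (G4 δ) e e / 2) • w) = -(gB (G4 δ) e e / 2) := by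
      intro e he hev hee
      refine ⟨?_, ?_, ?_⟩ <;>
        simp [H.ww, H.vv, H.wv, H.vw, he, hev, gB_symm δ e w, gB_symm δ e v]
      field_simp
      ring
    obtain ⟨za1, za2, za3⟩ := hza a H.wa H.va H.aa
    obtain ⟨zb1, zb2, -⟩ := hza b H.wb H.vb H.bb
    set za := v + a - (gB (G4 δ) a a / 2) • w with hzadef
    set zb := v + b - (gB (G4 δ) b b / 2) • w with hzbdef
    obtain ⟨μ, hμ⟩ := heig w H.w_ne H.ww
    obtain ⟨ν, hν⟩ := heig v H.v_ne H.vv
    obtain ⟨ρ, hρ⟩ := heig za (fun e => by simp [e] at za2) za1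
    obtain ⟨σ, hσ⟩ := heig zb (fun e => by simp [e] at zb2) zb1
    have hi := hN n hn
    have e1 : μ * ν = 1 := by simpa [hμ, hν, H.wv, mul_comm] using hi.gB_eq w v
    have e2 : μ * ρ = 1 := by simpa [hμ, hρ, za2, mul_comm] using hi.gB_eq w za
    have e3 : μ * σ = 1 := by simpa [hμ, hσ, zb2, mul_comm] using hi.gB_eq w zb
    have e4 : ν * ρ = 1 := by
      have e := hi.gB_eq v za
      simp [hν, hρ, za3] at e
      have hne : gB (G4 δ) a a / 2 ≠ 0 := div_ne_zero H.aa h2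
      exact mul_right_cancel₀ hne (by linear_combination e)
    have hμ0 : μ ≠ 0 := fun e => by simp [e] at e1
    have hρν : ρ = ν := mul_left_cancel₀ hμ0 (e2.trans e1.symm)
    have hσν : σ = ν := mul_left_cancel₀ hμ0 (e3.trans e1.symm)
    have hν0 : ν ≠ 0 := fun e => by simp [e] at e1
    have hμν : μ = ν := mul_right_cancel₀ hν0 (by rw [e1]; rw [hρν] at e4; exact e4.symm)
    refine hns ⟨ν, H.ext ?_ ?_ ?_ ?_⟩ <;> rw [smul_mulVec, one_mulVec]
    · rw [hμ, hμν]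
    · exact hν
    · have : a = za - v + (gB (G4 δ) a a / 2) • w := by rw [hzadef]; module
      rw [this, mulVec_add, mulVec_sub, mulVec_smul, hρ, hν, hμ, hρν, hμν]; module
    · have : b = zb - v + (gB (G4 δ) b b / 2) • w := by rw [hzbdef]; module
      rw [this, mulVec_add, mulVec_sub, mulVec_smul, hσ, hν, hμ, hσν, hμν]; module
  -- `N` is transitive on singular lines
  obtain ⟨c₁, hc₁, α₁, β₁, hx₁, e₁⟩ : ∃ c : F, c ≠ 0 ∧ ∃ α β : F,
      ∃ hx : gB (G4 δ) w (α • a + β • b) = 0,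
        (n₁ : M4 F) *ᵥ w = c • ((uGL h2 w H.ww (α • a + β • b) hx : M4 F) *ᵥ v) :=
    (H.line_cases h2 (by rw [(hN _ hn₁).gB_eq, H.ww]) hd).resolve_left fun ⟨c, e⟩ => hmove c e
  have hfix : ∀ x (hx : gB (G4 δ) w x = 0), (uGL h2 w H.ww x hx : M4 F) *ᵥ w = w := fun x hx => by
    simp [uGL_mulVec, H.ww, gB_symm δ x w, hx]
  have htrans : ∀ y, y ≠ 0 → gB (G4 δ) y y = 0 →
      ∃ n ∈ N, ∃ c : F, y = c • ((n : M4 F) *ᵥ w) := by
    intro y hy0 hy
    rcases H.line_cases h2 hy hd with ⟨c, e⟩ | ⟨c, hc, α, β, hx, e⟩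
    · exact ⟨1, one_mem _, c, by simpa using e⟩
    · set u := uGL h2 w H.ww _ hx * (uGL h2 w H.ww _ hx₁)⁻¹ with hu
      have humem : u ∈ OmW δ :=
        mul_mem (uGL_mem h2 hd H.w_ne _ _) (inv_mem (uGL_mem h2 hd H.w_ne _ _))
      refine ⟨u * n₁ * u⁻¹, hnorm u humem n₁ hn₁, c * c₁⁻¹, ?_⟩
      have h0 := hfix _ hx₁
      have huw : (u : M4 F) *ᵥ w = w := by
        rw [hu, Units.val_mul, ← mulVec_mulVec]
        conv_lhs => arg 2; arg 2; rw [← h0]
        rw [mulVec_mulVec w, ← Units.val_mul, inv_mul_cancel, Units.val_one, one_mulVec, hfix]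
      have huw' : ((u⁻¹ : GL (Fin 4) F) : M4 F) *ᵥ w = w := by
        conv_lhs => rw [← huw]
        rw [mulVec_mulVec, ← Units.val_mul, inv_mul_cancel, Units.val_one, one_mulVec]
      rw [Units.val_mul, Units.val_mul, ← mulVec_mulVec, ← mulVec_mulVec, huw', e₁, mulVec_smul,
        smul_smul, mul_assoc, inv_mul_cancel₀ hc₁, mul_one, mulVec_mulVec v, ← Units.val_mul, hu,
        inv_mul_cancel_right, e]
  -- the quotient is commutative
  haveI hnormal : (N.subgroupOf (OmW δ)).Normal := ⟨fun n hn g => hnorm g g.2 n hn⟩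
  set π := QuotientGroup.mk' (N.subgroupOf (OmW δ)) with hπ
  have himg : ∀ g, π g ∈ (π.comp (H.rootHom h2 hd)).range := by
    intro g
    obtain ⟨g, hg⟩ := g
    induction hg using Subgroup.closure_induction with
    | mem g hg' =>
      obtain ⟨y, z, hy0, hy, hz, -, eg⟩ := id hg'
      obtain ⟨n, hn, c, ec⟩ := htrans y hy0 hy
      have hx : gB (G4 δ) w (((n⁻¹ : GL (Fin 4) F) : M4 F) *ᵥ (c • z)) = 0 := by
        rw [gB_inv_comm (hN n hn), map_smul, ← LinearMap.smul_apply, ← map_smul, ← ec, hz]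
      set u := H.rootHom h2 hd (Multiplicative.ofAdd ⟨_, LinearMap.mem_ker.2 hx⟩) with hu
      refine ⟨Multiplicative.ofAdd ⟨_, LinearMap.mem_ker.2 hx⟩, ?_⟩
      have hg : g = n * (u : GL (Fin 4) F) * n⁻¹ := by
        rw [hu, H.rootHom_val h2 hd _ hx, conj_uGL h2 (hN n hn)]
        refine Units.ext ?_
        rw [uGL_val, mulVec_mulVec, Units.mul_inv, one_mulVec, ← sieM_smul_left, ← ec, eg]
      show π u = π ⟨g, _⟩
      rw [hπ, QuotientGroup.mk'_apply, QuotientGroup.mk'_apply, QuotientGroup.eq,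
        Subgroup.mem_subgroupOf, Subgroup.coe_mul, InvMemClass.coe_inv]
      show (u : GL (Fin 4) F)⁻¹ * g ∈ N
      rw [hg, ← mul_assoc, ← mul_assoc]
      refine mul_mem ?_ (inv_mem hn)
      simpa using hnorm _ (inv_mem u.2) n hn
    | one => exact ⟨1, by rw [map_one]; exact (map_one π).symm⟩
    | mul g g' hg hg' h h' =>
      rw [show (⟨g * g', _⟩ : OmW δ) = ⟨g, hg⟩ * ⟨g', hg'⟩ from rfl, map_mul]
      exact mul_mem h h'
    | inv g hg h =>
      rw [show (⟨g⁻¹, _⟩ : OmW δ) = (⟨g, hg⟩ : OmW δ)⁻¹ from rfl, map_inv]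
      exact inv_mem h
  intro g hg
  have h1 := H.hom_trivial h2 hd π (fun g g' => by
    obtain ⟨X, hX⟩ := himg g
    obtain ⟨Y, hY⟩ := himg g'
    rw [← hX, ← hY]
    exact (Commute.all X Y).map _) ⟨g, hg⟩
  rw [hπ, QuotientGroup.mk'_apply, QuotientGroup.eq_one_iff] at h1
  exact h1

/-- Such a group contains a root element. -/
theorem exists_siteU_of_normalised [Finite F] (h2 : (2 : F) ≠ 0) (hd : ¬ IsSquare δ)
    {N : Subgroup (GL (Fin 4) F)} (hN : ∀ n ∈ N, IsoW δ (n : M4 F))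
    (hnorm : ∀ g ∈ OmW δ, ∀ n ∈ N, g * n * g⁻¹ ∈ N)
    (hex : ∃ n ∈ N, ¬ ∃ c : F, (n : M4 F) = c • (1 : M4 F)) :
    ∃ n ∈ N, ∃ w x, w ≠ 0 ∧ gB (G4 δ) w w = 0 ∧ gB (G4 δ) w x = 0 ∧ gB (G4 δ) x x ≠ 0 ∧
      (n : M4 F) = 1 + sieM (G4 δ) w x := by
  obtain ⟨w, v, a, b, H⟩ := exists_hbase h2 hd
  exact ⟨uGL h2 w H.ww a H.wa, OmW_le_of_normalised h2 hd hN hnorm hex
    (uGL_mem h2 hd H.w_ne H.ww H.wa), w, a, H.w_ne, H.ww, H.wa, H.aa, rfl⟩

/-- The group spans all matrices. -/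
theorem span_OmW [Finite F] (h2 : (2 : F) ≠ 0) (hd : ¬ IsSquare δ) :
    Algebra.adjoin F ((fun g : GL (Fin 4) F => (g : M4 F)) '' (OmW δ : Set (GL (Fin 4) F))) = ⊤ := by
  obtain ⟨w, v, a, b, H⟩ := exists_hbase h2 hd
  set A := Algebra.adjoin F ((fun g : GL (Fin 4) F => (g : M4 F)) '' (OmW δ : Set (GL (Fin 4) F)))
  have hsie : ∀ y z, y ≠ 0 → gB (G4 δ) y y = 0 → gB (G4 δ) y z = 0 → sieM (G4 δ) y z ∈ A := by
    intro y z hy0 hy hz
    have h1 : 1 + sieM (G4 δ) y z ∈ A :=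
      Algebra.subset_adjoin ⟨uGL h2 y hy z hz, uGL_mem h2 hd hy0 hy hz, rfl⟩
    simpa using A.sub_mem h1 A.one_mem
  have hww : ∀ y, y ≠ 0 → gB (G4 δ) y y = 0 → cr (G4 δ) y y ∈ A := by
    intro y hy0 hy
    obtain ⟨g, hg, c, hc, e⟩ := H.exists_move h2 hd hy0 hy
    have hgi := OmW_iso h2 hg
    set z := (g : M4 F) *ᵥ a
    have hz : gB (G4 δ) y z = 0 := by
      rw [e, map_smul, LinearMap.smul_apply, hgi.gB_eq, H.wa, smul_zero]
    have hzz : gB (G4 δ) z z ≠ 0 := by rw [hgi.gB_eq]; exact H.aa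
    have hzy : gB (G4 δ) z y = 0 := by rw [gB_symm, hz]
    have h1 := A.mul_mem (hsie y z hy0 hy hz) (hsie y z hy0 hy hz)
    have e' : sieM (G4 δ) y z * sieM (G4 δ) y z = -(gB (G4 δ) z z • cr (G4 δ) y y) := by
      simp [sieM, sub_mul, mul_sub, OrthWreathBig.cr_mul, hy, hz, hzy]
    rw [e'] at h1
    have h2' := A.smul_mem h1 (-(gB (G4 δ) z z)⁻¹)
    rwa [smul_neg, neg_smul, neg_neg, smul_smul, inv_mul_cancel₀ hzz, one_smul] at h2'
  -- rank one maps of the singular vectors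
  let T : Set (Fin 4 → F) := {y | y ≠ 0 ∧ gB (G4 δ) y y = 0}
  have hTspan : Submodule.span F T = ⊤ := by
    have hz : ∀ e, gB (G4 δ) w e = 0 → gB (G4 δ) v e = 0 →
        v + e - (gB (G4 δ) e e / 2) • w ∈ T := fun e he hev => by
      refine ⟨fun h => ?_, ?_⟩
      · have := congrArg (gB (G4 δ) w) h
        simp [H.wv, he, H.ww] at this
      · simp [H.ww, H.vv, H.wv, H.vw, he, hev, gB_symm δ e w, gB_symm δ e v]
        field_simp
        ring
    have hw : w ∈ Submodule.span F T := Submodule.subset_span ⟨H.w_ne, H.ww⟩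
    have hv : v ∈ Submodule.span F T := Submodule.subset_span ⟨H.v_ne, H.vv⟩
    have he : ∀ e, gB (G4 δ) w e = 0 → gB (G4 δ) v e = 0 → e ∈ Submodule.span F T := fun e h1 h2' => by
      rw [show e = (v + e - (gB (G4 δ) e e / 2) • w) - v + (gB (G4 δ) e e / 2) • w by module]
      exact add_mem (sub_mem (Submodule.subset_span (hz e h1 h2')) hv) (Submodule.smul_mem _ _ hw)
    refine eq_top_iff.2 fun y _ => ?_
    rw [H.dec y]
    exact add_mem (add_mem (add_mem (Submodule.smul_mem _ _ hw) (Submodule.smul_mem _ _ hv))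
      (Submodule.smul_mem _ _ (he a H.wa H.va))) (Submodule.smul_mem _ _ (he b H.wb H.vb))
  have hT : ∀ y ∈ T, ∀ z ∈ T, cr (G4 δ) y z ∈ A := by
    rintro y ⟨hy0, hy⟩ z ⟨hz0, hz⟩
    by_cases hyz : gB (G4 δ) y z = 0
    · obtain ⟨c, rfl⟩ : ∃ c : F, c • y = z := by
        rw [← Submodule.mem_span_singleton]
        by_contra h
        exact gB_self_ne_zero hd hy0 hy hyz h hz
      rw [OrthWreathBig.cr_smul_right]
      exact A.smul_mem (hww y hy0 hy) c
    · have h1 := A.smul_mem (A.mul_mem (hww y hy0 hy) (hww z hz0 hz)) (gB (G4 δ) y z)⁻¹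
      rwa [OrthWreathBig.cr_mul, smul_smul, inv_mul_cancel₀ hyz, one_smul] at h1
  have hall : ∀ y z, cr (G4 δ) y z ∈ A := by
    intro y z
    have hy : y ∈ Submodule.span F T := hTspan ▸ trivial
    have hz : z ∈ Submodule.span F T := hTspan ▸ trivial
    induction hy using Submodule.span_induction with
    | mem y hy =>
      induction hz using Submodule.span_induction with
      | mem z hz => exact hT y hy z hz
      | zero => rw [OrthWreathBig.cr_zero_right]; exact A.zero_mem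
      | add z z' _ _ h h' => rw [OrthWreathBig.cr_add_right]; exact A.add_mem h h'
      | smul c z _ h => rw [OrthWreathBig.cr_smul_right]; exact A.smul_mem h c
    | zero => rw [OrthWreathBig.cr_zero_left]; exact A.zero_mem
    | add y y' _ _ h h' => rw [OrthWreathBig.cr_add_left]; exact A.add_mem h h'
    | smul c y _ h => rw [OrthWreathBig.cr_smul_left]; exact A.smul_mem h c
  refine eq_top_iff.2 fun M _ => ?_
  rw [Matrix.matrix_eq_sum_single M]
  refine sum_mem fun p _ => sum_mem fun q _ => ?_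
  have : Matrix.single p q (M p q) =
      (M p q * (wt δ q)⁻¹) • cr (G4 δ) (Pi.single p 1) (Pi.single q 1) := by
    ext r s
    have := wt_ne_zero hd q
    rcases eq_or_ne q s with rfl | hqs <;> rcases eq_or_ne p r with rfl | hpr <;>
      simp_all [cr, G4, Matrix.single, vecMulVec_apply, vecMul_diagonal, Pi.single_apply, eq_comm]
  rw [this]
  exact A.smul_mem (hall _ _) _

end Cfsg.Agent.MaxSub.OrthFour
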