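import Cfsg.Agent.MaxSub.OrthFour.Defs
import Cfsg.Agent.Forms.OmegaCrit
import Cfsg.Agent.Forms.Discriminant
import Cfsg.Agent.OrthGen.MatrixForm

/-!
Membership in `Ω` of the monomial elements of a tensor power of a four dimensional orthogonal
space of minus type: site maps, permutations of the sites and their products.
-/

set_option autoImplicit false
set_option linter.unusedSectionVars false

namespace Cfsg.Agent.MaxSub.OrthFour

open Matrix QuadraticMap Cfsg.Geo Cfsg.Agent.NotMax Cfsg.Agent.GeoClasses Cfsg.Agent.Classical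
open Cfsg.Agent.MaxSub.TensorPowSp (gV)
open Cfsg.Agent.MaxSub.OrthWreathBig (gB cr sieM)
open Cfsg.Agent.Forms (refls refls_mem_commutator_iff refls_append exists_refls)
open scoped MatrixGroups Matrix

variable {F : Type*} [Field F] {t : ℕ} {δ : F}

/-- The weight of an index of the tensor power. -/
def Wt (δ : F) {ι : Type*} [Fintype ι] (a : ι → Fin 4) : F := ∏ l, wt δ (a l)

lemma ne_zero_of_nsq (hd : ¬ IsSquare δ) : δ ≠ 0 := fun e => hd (e ▸ IsSquare.zero)

lemma Wt_ne_zero (hd : ¬ IsSquare δ) {ι : Type*} [Fintype ι] (a : ι → Fin 4) : Wt δ a ≠ 0 :=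
  Finset.prod_ne_zero_iff.2 fun _ _ => wt_ne_zero hd _

lemma Wt_split (i : Fin t) (a : Fin t → Fin 4) :
    Wt δ a = wt δ (a i) * Wt δ (fun l : {l : Fin t // l ≠ i} => a l) := by
  rw [Wt, Wt, ← Finset.mul_prod_erase Finset.univ _ (Finset.mem_univ i)]
  congr 1
  exact Finset.prod_subtype (Finset.univ.erase i) (by simp) (fun l => wt δ (a l))

lemma Wt_comp (π : Equiv.Perm (Fin t)) (a : Fin t → Fin 4) : Wt δ (a ∘ π) = Wt δ a :=
  Equiv.prod_comp π fun l => wt δ (a l)

lemma isSquare_pow_iff (hd : ¬ IsSquare δ) (e : ℕ) : IsSquare (δ ^ e) ↔ Even e := by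
  refine ⟨fun h => ?_, fun h => h.isSquare_pow δ⟩
  by_contra ho
  obtain ⟨m, rfl⟩ := Nat.not_even_iff_odd.1 ho
  rw [pow_succ, mul_comm 2 m, pow_mul,
    Forms.isSquare_sq_mul_iff (pow_ne_zero _ (ne_zero_of_nsq hd))] at h
  exact hd h

lemma Qd_polar (h2 : (2 : F) ≠ 0) (x y : Vec F t) :
    polar (Qd δ t) x y = 2 * ∑ a, Wt δ a * (x a * y a) := by
  rw [(link δ t h2).polar_eq, gV_diag]
  congr 1
  simp only [dotProduct, mulVec_diagonal, Wt]
  exact Finset.sum_congr rfl fun a _ => by ring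

lemma Qd_apply (x : Vec F t) : Qd δ t x = ∑ a, Wt δ a * (x a * x a) := by
  simp [Qd, weightedSumSquares_apply, Wt]

theorem bNondeg_Qd (h2 : (2 : F) ≠ 0) (hd : ¬ IsSquare δ) : BNondeg (Qd δ t) := by
  intro x hx
  funext a
  have h := hx (Pi.single a 1)
  rw [Qd_polar h2, Finset.sum_eq_single a (fun b _ hb => by simp [hb]) (by simp), Pi.single_eq_same,
    mul_one] at h
  exact (mul_eq_zero.1 ((mul_eq_zero.1 h).resolve_left h2)).resolve_left (Wt_ne_zero hd a)

theorem mul_self_mem_Om [Finite F] (h2 : (2 : F) ≠ 0) (hd : ¬ IsSquare δ) {g : GV F t}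
    (hg : IsoV δ (g : MV F t)) : g * g ∈ Om δ t := by
  obtain ⟨k, rfl⟩ := (link δ t h2).exists_oq h2 hg
  rw [← map_mul]
  exact ⟨k * k, Forms.mul_self_mem_commutator (bNondeg_Qd h2 hd)
    (OrthGen.notExceptional_of_two_ne_zero h2) k, rfl⟩

/-- A product of an even number of reflections whose value is `δ ^ e` up to squares. -/
def Ev (δ : F) (M : MV F t) (e : ℕ) : Prop :=
  ∃ l : List {x : Vec F t // Qd δ t x ≠ 0}, (∀ v, (refls (Qd δ t) l).1 v = M *ᵥ v) ∧
    Even l.length ∧ ∃ c : F, c ≠ 0 ∧ (l.map fun x => Qd δ t x.1).prod = c ^ 2 * δ ^ e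

lemma Ev.one : Ev δ (1 : MV F t) 0 :=
  ⟨[], fun v => by simp, ⟨0, rfl⟩, 1, one_ne_zero, by simp⟩

lemma Ev.mul {M N : MV F t} {e f : ℕ} (hM : Ev δ M e) (hN : Ev δ N f) : Ev δ (M * N) (e + f) := by
  obtain ⟨l, hl, hle, c, hc, hp⟩ := hM
  obtain ⟨m, hm, hme, d, hd, hq⟩ := hN
  refine ⟨l ++ m, fun v => ?_, ?_, c * d, mul_ne_zero hc hd, ?_⟩
  · rw [refls_append, Subgroup.coe_mul, LinearEquiv.mul_apply, hm, hl, mulVec_mulVec]
  · rw [List.length_append]; exact hle.add hme
  · rw [List.map_append, List.prod_append, hp, hq, pow_add]; ring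

lemma Ev.mem_iff [Finite F] (h2 : (2 : F) ≠ 0) (hd : ¬ IsSquare δ) {g : GV F t} {e : ℕ}
    (h : Ev δ (g : MV F t) e) : g ∈ Om δ t ↔ Even e := by
  obtain ⟨l, hl, hle, c, hc, hp⟩ := h
  have hg : oqToGL (Qd δ t) (refls (Qd δ t) l) = g :=
    Units.ext (Matrix.ext_iff_mulVec.2 fun v => by rw [oqToGL_mulVec, hl])
  rw [Om, ← hg, Subgroup.mem_map_iff_mem (oqToGL_injective _),
    refls_mem_commutator_iff (bNondeg_Qd h2 hd) (OrthGen.notExceptional_of_two_ne_zero h2), hp,
    Forms.isSquare_sq_mul_iff hc, isSquare_pow_iff hd]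
  exact and_iff_right hle

/-- An orthogonal family of non-singular vectors. -/
lemma Ev.of_family {κ : Type*} [Fintype κ] (c : κ → Vec F t) (hc : ∀ k, Qd δ t (c k) ≠ 0)
    (hortho : ∀ i j, i ≠ j → polar (Qd δ t) (c i) (c j) = 0) {M : MV F t}
    (hM : ∀ v, M *ᵥ v = v - ∑ k, ((Qd δ t (c k))⁻¹ * polar (Qd δ t) (c k) v) • c k)
    (heven : Even (Fintype.card κ)) {d : F} (hd : d ≠ 0) {e : ℕ}
    (hprod : ∏ k, Qd δ t (c k) = d ^ 2 * δ ^ e) : Ev δ M e := by
  classical
  refine ⟨Finset.univ.toList.map fun k => ⟨c k, hc k⟩, ?_, by simpa using heven, d, hd, ?_⟩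
  · suffices h : ∀ s : List κ, s.Nodup → ∀ v,
        (refls (Qd δ t) (s.map fun k => ⟨c k, hc k⟩)).1 v =
          v - (s.map fun k => ((Qd δ t (c k))⁻¹ * polar (Qd δ t) (c k) v) • c k).sum by
      intro v
      rw [hM, h _ (Finset.nodup_toList _) v, Finset.sum_map_toList]
    intro s hs
    induction s with
    | nil => intro v; simp
    | cons a s ih =>
      intro v
      rw [List.map_cons, Forms.refls_cons, Subgroup.coe_mul, LinearEquiv.mul_apply,
        ih (List.nodup_cons.1 hs).2 v, reflQ_apply]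
      have hp : polar (Qd δ t) (c a)
            (v - (s.map fun k => ((Qd δ t (c k))⁻¹ * polar (Qd δ t) (c k) v) • c k).sum)
          = polar (Qd δ t) (c a) v := by
        rw [polar_sub_right, sub_eq_self]
        show (Qd δ t).polarBilin (c a) _ = 0
        rw [map_list_sum]
        refine List.sum_eq_zero fun y hy => ?_
        obtain ⟨z, hz, rfl⟩ := List.mem_map.1 hy
        obtain ⟨k, hk, rfl⟩ := List.mem_map.1 hz
        rw [map_smul, polarBilin_apply_apply,
          hortho a k (fun e => (List.nodup_cons.1 hs).1 (e ▸ hk)), smul_zero]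
      simp only [hp, List.map_cons, List.sum_cons]
      abel
  · rw [List.map_map,
      show ((fun x : {x : Vec F t // Qd δ t x ≠ 0} => Qd δ t x.1) ∘
        fun k => (⟨c k, hc k⟩ : {x : Vec F t // Qd δ t x ≠ 0})) = fun k => Qd δ t (c k) from rfl,
      Finset.prod_map_toList, hprod]

/-- Similitudes of the tensor power move products of reflections. -/
lemma Ev.conj (h2 : (2 : F) ≠ 0) {M T T' : MV F t} {e : ℕ} {ν : F} (h : Ev δ M e) (hν : ν ≠ 0)
    (hT : Tᵀ * gV (G4 δ) t * T = ν • gV (G4 δ) t) (hTT : T * T' = 1) : Ev δ (T * M * T') e := by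
  have hpol : ∀ x y, polar (Qd δ t) (T *ᵥ x) (T *ᵥ y) = ν * polar (Qd δ t) x y := fun x y => by
    rw [(link δ t h2).polar_eq, (link δ t h2).polar_eq, mulVec_mulVec, ← vecMul_transpose,
      ← dotProduct_mulVec, mulVec_mulVec, ← mul_assoc, hT, smul_mulVec, dotProduct_smul, smul_eq_mul]
    ring
  have hQ : ∀ x, Qd δ t (T *ᵥ x) = ν * Qd δ t x := fun x => by
    rw [(link δ t h2).apply_self h2, (link δ t h2).apply_self h2 x, hpol, mul_div_assoc]
  obtain ⟨l, hl, hle, c, hc, hp⟩ := h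
  let l' : List {x : Vec F t // Qd δ t x ≠ 0} := l.map fun x =>
    ⟨T *ᵥ x.1, by rw [hQ]; exact mul_ne_zero hν x.2⟩
  refine ⟨l', fun v => ?_, by simpa [l'] using hle, ν ^ (l.length / 2) * c,
    mul_ne_zero (pow_ne_zero _ hν) hc, ?_⟩
  · have key : ∀ u, (refls (Qd δ t) l').1 (T *ᵥ u) = T *ᵥ (refls (Qd δ t) l).1 u := by
      intro u
      clear hl hle hp
      induction l with
      | nil => simp [l']
      | cons x l ih =>
        simp only [l', List.map_cons, Forms.refls_cons, Subgroup.coe_mul, LinearEquiv.mul_apply]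
        rw [ih, reflQ_apply, reflQ_apply, hQ, hpol, mulVec_sub, mulVec_smul]
        congr 2
        field_simp
    have := key (T' *ᵥ v)
    rw [hl, mulVec_mulVec, hTT, one_mulVec] at this
    rw [this, mulVec_mulVec, mulVec_mulVec]
  · have : (l'.map fun x => Qd δ t x.1).prod = ν ^ l.length * (l.map fun x => Qd δ t x.1).prod := by
      clear hl hle hp
      induction l with
      | nil => simp [l']
      | cons x l ih =>
        simp only [l', List.map_cons, List.prod_cons, List.length_cons, hQ, pow_succ] at ih ⊢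
        rw [ih]; ring
    rw [this, hp, mul_pow, ← pow_mul, mul_assoc, Nat.div_mul_cancel (even_iff_two_dvd.1 hle)]

/-! ### One site -/

/-- The quadratic form of one site. -/
noncomputable def Q4 (δ : F) : QuadraticForm F (Fin 4 → F) :=
  QuadraticMap.weightedSumSquares F (wt δ)

lemma gB_sum (δ : F) (x y : Fin 4 → F) : gB (G4 δ) x y = ∑ p, wt δ p * (x p * y p) := by
  rw [gB_diag, Fin.sum_univ_four]
  simp [wt]
  ring

lemma Q4_apply (x : Fin 4 → F) : Q4 δ x = gB (G4 δ) x x := by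
  simp [Q4, weightedSumSquares_apply, gB_sum]

lemma Q4_polar (x y : Fin 4 → F) : polar (Q4 δ) x y = 2 * gB (G4 δ) x y := by
  simp only [polar, Q4_apply, map_add, LinearMap.add_apply, gB_symm δ y x]
  ring

lemma bNondeg_Q4 (h2 : (2 : F) ≠ 0) (hd : ¬ IsSquare δ) : BNondeg (Q4 δ) := by
  intro x hx
  funext p
  have h := hx (Pi.single p 1)
  rw [Q4_polar, gB_sum, Finset.sum_eq_single p (fun q _ hq => by simp [hq]) (by simp),
    Pi.single_eq_same, mul_one] at h
  exact (mul_eq_zero.1 ((mul_eq_zero.1 h).resolve_left h2)).resolve_left (wt_ne_zero hd p)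

lemma reflW_mulVec (r x : Fin 4 → F) :
    reflW δ r *ᵥ x = x - ((gB (G4 δ) r r)⁻¹ * (2 * gB (G4 δ) r x)) • r := by
  rw [reflW, sub_mulVec, one_mulVec, smul_mulVec, OrthWreathBig.cr_mulVec, smul_smul]
  congr 2
  ring

lemma reflW_eq (r : Fin 4 → F) : reflW δ r = Cfsg.reflectionMatrix ⇑(Q4 δ) r :=
  Matrix.ext_iff_mulVec.2 fun x => by
    rw [reflW_mulVec, Refl.reflectionMatrix_mulVec, Q4_apply, Q4_polar]

lemma det_reflW {r : Fin 4 → F} (hr : gB (G4 δ) r r ≠ 0) : (reflW δ r).det = -1 := by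
  rw [reflW_eq]
  exact Refl.det_reflectionMatrix (Q4 δ) (by rwa [Q4_apply])

lemma IsoW.gB_eq {A : M4 F} (hA : IsoW δ A) (x y : Fin 4 → F) :
    gB (G4 δ) (A *ᵥ x) (A *ᵥ y) = gB (G4 δ) x y := by
  simp only [OrthWreathBig.gB_apply, TensorPowSp.fG]
  rw [← dotProduct_mulVec, ← dotProduct_mulVec, mulVec_mulVec, ← vecMul_transpose,
    ← dotProduct_mulVec, mulVec_mulVec, ← mul_assoc, hA]

lemma SimW.det_ne (hd : ¬ IsSquare δ) {A : M4 F} {ν : F} (hA : SimW δ A ν) : A.det ≠ 0 := by
  intro h0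
  have h := congrArg Matrix.det hA.2
  rw [det_mul, det_mul, h0, mul_zero, det_smul] at h
  exact mul_ne_zero (pow_ne_zero _ hA.1) (isUnit_iff_ne_zero.1 (G4_det hd)) h.symm

lemma IsoW.sim {A : M4 F} (hA : IsoW δ A) : SimW δ A 1 := ⟨one_ne_zero, by rw [one_smul]; exact hA⟩

/-- Isometries of one site are products of reflections. -/
lemma exists_reflW [Finite F] (h2 : (2 : F) ≠ 0) (hd : ¬ IsSquare δ) {A : M4 F} (hA : IsoW δ A) :
    ∃ l : List {r : Fin 4 → F // gB (G4 δ) r r ≠ 0},
      A = (l.map fun r => reflW δ r.1).prod ∧ A.det = (-1) ^ l.length := by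
  let u : GL (Fin 4) F := Matrix.GeneralLinearGroup.mkOfDetNeZero A (hA.sim.det_ne hd)
  have hu : u ∈ Cfsg.isometryGroup F ⇑(Q4 δ) := (Refl.mem_isometryGroup_iff (Q4 δ)).2 fun x => by
    rw [Q4_apply, Q4_apply]; exact hA.gB_eq x x
  obtain ⟨l, hl⟩ := exists_refls (OrthGen.RQ_eq_top (bNondeg_Q4 h2 hd)
    (OrthGen.notExceptional_of_two_ne_zero h2)) (OrthGen.matEquiv (Q4 δ) ⟨u, hu⟩)
  let l' : List {r : Fin 4 → F // gB (G4 δ) r r ≠ 0} :=
    l.map fun r => ⟨r.1, by rw [← Q4_apply]; exact r.2⟩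
  have hmap : l'.map (fun r => reflW δ r.1) =
      l.map fun r => Cfsg.reflectionMatrix ⇑(Q4 δ) r.1 := by
    simp [l', List.map_map, Function.comp_def, reflW_eq]
  have hA' : A = (l'.map fun r => reflW δ r.1).prod := by
    rw [hmap]
    refine Matrix.ext_iff_mulVec.2 fun v => ?_
    rw [Forms.prod_reflectionMatrix_mulVec, ← hl]
    rfl
  refine ⟨l', hA', ?_⟩
  rw [hA']
  clear hA' hmap
  induction l' with
  | nil => simp
  | cons r l' ih => rw [List.map_cons, List.prod_cons, det_mul, ih, det_reflW r.2, List.length_cons,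
      pow_succ']

/-! ### Sites of the tensor power -/

/-- The indices away from one site. -/
abbrev Off {t : ℕ} (i : Fin t) : Type := {l : Fin t // l ≠ i} → Fin 4

/-- Splitting off one site. -/
abbrev splitAt {t : ℕ} (i : Fin t) : (Fin t → Fin 4) ≃ Fin 4 × Off i := Equiv.funSplitAt i (Fin 4)

lemma splitAt_symm_fst (i : Fin t) (p : Fin 4 × Off i) : (splitAt i).symm p i = p.1 :=
  congrArg Prod.fst ((splitAt i).apply_symm_apply p)

lemma splitAt_symm_snd (i : Fin t) (p : Fin 4 × Off i) :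
    (fun l : {l : Fin t // l ≠ i} => (splitAt i).symm p l) = p.2 :=
  congrArg Prod.snd ((splitAt i).apply_symm_apply p)

lemma site_mulVec_apply (i : Fin t) (A : M4 F) (v : Vec F t) (a : Fin t → Fin 4) :
    (site i A *ᵥ v) a = ∑ x, A (a i) x * v ((splitAt i).symm (x, fun l => a l)) := by
  rw [mulVec, dotProduct, ← (splitAt i).symm.sum_comp, Fintype.sum_prod_type]
  refine Finset.sum_congr rfl fun x _ => ?_
  rw [Finset.sum_eq_single (fun l : {l : Fin t // l ≠ i} => a l)]
  · rw [site_apply_of_eq, splitAt_symm_fst]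
    intro j hj
    exact (congrFun (splitAt_symm_snd i (x, fun l => a l)) ⟨j, hj⟩).symm
  · intro b _ hb
    obtain ⟨⟨j, hj⟩, hne⟩ := Function.ne_iff.1 hb
    rw [site_apply_of_ne (j := j) _ hj, zero_mul]
    intro e
    exact hne (((congrFun (splitAt_symm_snd i (x, b)) ⟨j, hj⟩).symm.trans e.symm))
  · simp

lemma prod_Wt_pi {ι : Type*} [Fintype ι] [DecidableEq ι] (δ : F) :
    ∏ f : ι → Fin 4, Wt δ f = δ ^ (Fintype.card ι * 4 ^ (Fintype.card ι - 1)) := by
  have h : ∀ l : ι, ∏ f : ι → Fin 4, wt δ (f l) = δ ^ (4 ^ (Fintype.card ι - 1)) := by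
    intro l
    rw [← (Equiv.funSplitAt l (Fin 4)).symm.prod_comp, Fintype.prod_prod_type]
    have e : ∀ (x : Fin 4) (b : {m : ι // m ≠ l} → Fin 4),
        (Equiv.funSplitAt l (Fin 4)).symm (x, b) l = x := fun x b =>
      congrArg Prod.fst ((Equiv.funSplitAt l (Fin 4)).apply_symm_apply (x, b))
    simp only [e, Finset.prod_const, Finset.card_univ, Fintype.card_pi, Fintype.card_fin,
      Fintype.card_subtype_compl, Fintype.card_subtype_eq]
    rw [Fin.prod_univ_four]
    simp [wt]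
  simp only [Wt]
  rw [Finset.prod_comm]
  simp only [h, Finset.prod_const, Finset.card_univ, ← pow_mul, mul_comm]

lemma card_off (i : Fin t) : Fintype.card {l : Fin t // l ≠ i} = t - 1 := by
  rw [Fintype.card_subtype_compl, Fintype.card_subtype_eq, Fintype.card_fin]

/-- The exponent of a site reflection. -/
def eR (t : ℕ) : ℕ := (t - 1) * 4 ^ (t - 2)

lemma Ev.site_refl (h2 : (2 : F) ≠ 0) (hd : ¬ IsSquare δ) (ht : 2 ≤ t) (i : Fin t)
    {r : Fin 4 → F} (hr : gB (G4 δ) r r ≠ 0) : Ev δ (site i (reflW δ r)) (eR t) := by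
  classical
  let c : Off i → Vec F t := fun b a => if (fun l : {l : Fin t // l ≠ i} => a l) = b then r (a i) else 0
  have hc : ∀ b x b', c b ((splitAt i).symm (x, b')) = if b' = b then r x else 0 := by
    intro b x b'
    simp only [c]
    rw [splitAt_symm_snd, splitAt_symm_fst]
  have hsum : ∀ b (v : Vec F t), ∑ a, Wt δ a * (c b a * v a) =
      Wt δ b * gB (G4 δ) r fun x => v ((splitAt i).symm (x, b)) := by
    intro b v
    rw [gB_sum, Finset.mul_sum, ← (splitAt i).symm.sum_comp, Fintype.sum_prod_type]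
    refine Finset.sum_congr rfl fun x _ => ?_
    rw [Finset.sum_eq_single b (fun b' _ hb' => by rw [hc, if_neg hb']; ring) (by simp),
      hc, if_pos rfl, Wt_split i, splitAt_symm_fst, splitAt_symm_snd]
    ring
  have hQ : ∀ b, Qd δ t (c b) = Wt δ b * gB (G4 δ) r r := fun b => by
    rw [Qd_apply, hsum]
    congr 2
    funext x
    rw [hc, if_pos rfl]
  have hpol : ∀ b v, polar (Qd δ t) (c b) v =
      2 * (Wt δ b * gB (G4 δ) r fun x => v ((splitAt i).symm (x, b))) := fun b v => by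
    rw [Qd_polar h2, hsum]
  have hoff : Fintype.card (Off i) = 4 ^ (t - 1) := by
    rw [Fintype.card_pi, Finset.prod_const, Finset.card_univ, Fintype.card_fin, card_off]
  have hpow : 4 ^ (t - 1) = 2 * (2 * 4 ^ (t - 2)) := by
    rw [show t - 1 = t - 2 + 1 by omega, pow_succ']; omega
  refine Ev.of_family c (fun b => by rw [hQ]; exact mul_ne_zero (Wt_ne_zero hd b) hr) ?_ ?_
    (by rw [hoff, hpow]; exact even_two_mul _) (d := gB (G4 δ) r r ^ (2 * 4 ^ (t - 2)))
    (pow_ne_zero _ hr) ?_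
  · intro b b' hb
    rw [hpol]
    rw [gB_sum, Finset.sum_eq_zero (fun x _ => by rw [hc, if_neg hb]; ring)]
    ring
  · intro v
    funext a
    rw [site_mulVec_apply]
    show (reflW δ r *ᵥ fun x => v ((splitAt i).symm (x, fun l => a l))) (a i) = _
    have ha : (splitAt i).symm (a i, fun l => a l) = a := (splitAt i).symm_apply_apply a
    rw [reflW_mulVec, Pi.sub_apply, Pi.smul_apply, Pi.sub_apply, Finset.sum_apply, ha,
      Finset.sum_eq_single (fun l : {l : Fin t // l ≠ i} => a l)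
        (fun b _ hb => by simp [c, Ne.symm hb]) (by simp)]
    rw [Pi.smul_apply, hQ, hpol]
    simp only [c, if_true, smul_eq_mul]
    have := Wt_ne_zero hd (fun l : {l : Fin t // l ≠ i} => a l)
    field_simp
  · simp only [hQ, Finset.prod_mul_distrib, prod_Wt_pi, Finset.prod_const, Finset.card_univ, hoff,
      card_off]
    rw [hpow, pow_mul' _ 2, show t - 1 - 1 = t - 2 by omega, eR]
    ring

lemma Ev.site_prod (h2 : (2 : F) ≠ 0) (hd : ¬ IsSquare δ) (ht : 2 ≤ t) (i : Fin t)
    (l : List {r : Fin 4 → F // gB (G4 δ) r r ≠ 0}) :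
    Ev δ (site i (l.map fun r => reflW δ r.1).prod) (l.length * eR t) := by
  induction l with
  | nil => simpa [site_one] using Ev.one (δ := δ) (F := F) (t := t)
  | cons r l ih =>
    rw [List.map_cons, List.prod_cons, ← site_mul, List.length_cons, add_mul, one_mul, add_comm]
    exact (Ev.site_refl h2 hd ht i r.2).mul ih

lemma eR_two : eR 2 = 1 := rfl

lemma even_eR (ht : 3 ≤ t) : Even (eR t) :=
  ((show Even 4 by decide).pow_of_ne_zero (by omega)).mul_left _

theorem site_mem_Om [Finite F] (h2 : (2 : F) ≠ 0) (hd : ¬ IsSquare δ) (ht : 3 ≤ t) {A : M4 F}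
    (hA : IsoW δ A) {g : GV F t} {i : Fin t} (hg : (g : MV F t) = site i A) : g ∈ Om δ t := by
  obtain ⟨l, rfl, -⟩ := exists_reflW h2 hd hA
  have h := Ev.site_prod h2 hd (by omega : 2 ≤ t) i l
  rw [← hg] at h
  exact (h.mem_iff h2 hd).2 ((even_eR ht).mul_left _)

theorem pair_mem_Om_iff [Finite F] (h2 : (2 : F) ≠ 0) (hd : ¬ IsSquare δ) {A B : M4 F}
    (hA : IsoW δ A) (hB : IsoW δ B) {g : GV F 2} (hg : (g : MV F 2) = site 0 A * site 1 B) :
    g ∈ Om δ 2 ↔ A.det = B.det := by
  obtain ⟨l, rfl, hl⟩ := exists_reflW h2 hd hA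
  obtain ⟨m, rfl, hm⟩ := exists_reflW h2 hd hB
  have h := (Ev.site_prod h2 hd le_rfl 0 l).mul (Ev.site_prod h2 hd le_rfl 1 m)
  rw [← hg, eR_two, mul_one, mul_one] at h
  rw [h.mem_iff h2 hd, hl, hm, Nat.even_add]
  have hne : (-1 : F) ≠ 1 := fun e => h2 (by linear_combination -e)
  rcases Nat.even_or_odd l.length with a | a <;> rcases Nat.even_or_odd m.length with b | b <;>
    rw [a.neg_one_pow, b.neg_one_pow]
  · exact iff_of_true (iff_of_true a b) rfl
  · exact iff_of_false (fun h => Nat.not_even_iff_odd.2 b (h.1 a)) hne.symm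
  · exact iff_of_false (fun h => Nat.not_even_iff_odd.2 a (h.2 b)) hne
  · exact iff_of_true (iff_of_false (Nat.not_even_iff_odd.2 a) (Nat.not_even_iff_odd.2 b)) rfl

lemma sim_site {A : M4 F} {ν : F} (hA : SimW δ A ν) (i : Fin t) :
    (site i A)ᵀ * gV (G4 δ) t * site i A = ν • gV (G4 δ) t := by
  rw [site, pureMat_transpose, gV, pureMat_mul, pureMat_mul]
  have e : (fun l => (Function.update (1 : Fin t → M4 F) i A l)ᵀ * G4 δ *
      Function.update (1 : Fin t → M4 F) i A l) =
      fun l => (if l = i then ν else 1) • G4 δ := by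
    funext l
    by_cases hl : l = i
    · subst hl; simp [hA.2]
    · simp [hl]
  rw [e, pureMat_smul, Finset.prod_ite_eq']
  simp

/-- A site matrix as an element of the general linear group. -/
noncomputable def siteUnit (i : Fin t) (A : M4 F) (hA : A.det ≠ 0) : GV F t where
  val := site i A
  inv := site i A⁻¹
  val_inv := by rw [site_mul, mul_nonsing_inv A (isUnit_iff_ne_zero.2 hA), site_one]
  inv_val := by rw [site_mul, nonsing_inv_mul A (isUnit_iff_ne_zero.2 hA), site_one]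

theorem siteU_mem_Om [Finite F] (h2 : (2 : F) ≠ 0) (hd : ¬ IsSquare δ) {g : GV F t}
    (hg : IsSiteU δ (g : MV F t)) : g ∈ Om δ t := by
  obtain ⟨i, w, x, -, hww, hwx, -, hg⟩ := hg
  set y := (2 : F)⁻¹ • x with hy
  have hwy : gB (G4 δ) w y = 0 := by rw [hy, map_smul, hwx, smul_zero]
  have hyw : gB (G4 δ) y w = 0 := by rw [gB_symm, hwy]
  have hmv : ∀ z u : Fin 4 → F, (1 + sieM (G4 δ) w z) *ᵥ u =
      u + (gB (G4 δ) w u • z - gB (G4 δ) z u • w -
        (gB (G4 δ) z z / 2) • gB (G4 δ) w u • w) := fun z u => by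
    rw [add_mulVec, one_mulVec, sieM, sub_mulVec, sub_mulVec, smul_mulVec,
      OrthWreathBig.cr_mulVec, OrthWreathBig.cr_mulVec, OrthWreathBig.cr_mulVec]
  set B := 1 + sieM (G4 δ) w y with hB
  have hiso : IsoW δ B := by
    have hgb : ∀ u v, gB (G4 δ) (B *ᵥ u) (B *ᵥ v) = gB (G4 δ) u v := fun u v => by
      simp only [hB, hmv, map_add, map_sub, map_smul, LinearMap.add_apply, LinearMap.sub_apply,
        LinearMap.smul_apply, smul_eq_mul, hww, hwy, hyw, gB_symm δ u w, gB_symm δ u y]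
      field_simp
      ring
    refine Matrix.ext fun p q => ?_
    have h := hgb (Pi.single p 1) (Pi.single q 1)
    simp only [OrthWreathBig.gB_apply, TensorPowSp.fG] at h
    rw [← dotProduct_mulVec, ← dotProduct_mulVec, mulVec_mulVec, ← vecMul_transpose,
      ← dotProduct_mulVec, mulVec_mulVec, ← mul_assoc] at h
    simpa [mulVec_single_one, single_dotProduct] using h
  have hBB : B * B = 1 + sieM (G4 δ) w x := Matrix.ext_iff_mulVec.2 fun u => by
    have hx : x = (2 : F) • y := by rw [hy, smul_smul, mul_inv_cancel₀ h2, one_smul]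
    rw [← mulVec_mulVec]
    simp only [hB, hmv, hx, map_add, map_sub, map_smul, LinearMap.smul_apply, smul_eq_mul, hww, hwy,
      hyw]
    match_scalars <;> field_simp <;> ring
  have e : g = siteUnit i B (hiso.sim.det_ne hd) * siteUnit i B (hiso.sim.det_ne hd) :=
    Units.ext (by rw [hg, Units.val_mul, ← hBB, ← site_mul]; rfl)
  rw [e]
  refine mul_self_mem_Om h2 hd ?_
  show (site i B)ᵀ * gV (G4 δ) t * site i B = gV (G4 δ) t
  rw [sim_site hiso.sim, one_smul]

/-! ### Permutations of the sites -/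

section Swap

variable (i j : Fin t)

/-- The pairs of distinct values in increasing order. -/
abbrev UpPair : Type := {p : Fin 4 × Fin 4 // p.1 < p.2}

/-- The indices away from two sites. -/
abbrev Off2 : Type := {l : Fin t // l ≠ i ∧ l ≠ j} → Fin 4

/-- An index with given values at two sites. -/
def mk2 (p q : Fin 4) (r : Off2 i j) : Fin t → Fin 4 :=
  fun l => if hi : l = i then p else if hj : l = j then q else r ⟨l, hi, hj⟩

variable {i j}

lemma mk2_left (p q : Fin 4) (r : Off2 i j) : mk2 i j p q r i = p := dif_pos rfl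

lemma mk2_right (hij : i ≠ j) (p q : Fin 4) (r : Off2 i j) : mk2 i j p q r j = q := by
  simp [mk2, hij.symm]

lemma mk2_rest (p q : Fin 4) (r : Off2 i j) (l : {l : Fin t // l ≠ i ∧ l ≠ j}) :
    mk2 i j p q r l = r l := by
  simp [mk2, l.2.1, l.2.2]

lemma mk2_self (a : Fin t → Fin 4) : mk2 i j (a i) (a j) (fun l => a l) = a := by
  funext l
  by_cases hi : l = i
  · subst hi; exact mk2_left _ _ _
  by_cases hj : l = j
  · subst hj; simp [mk2, hi]
  · simp [mk2, hi, hj]

lemma mk2_swap (hij : i ≠ j) (p q : Fin 4) (r : Off2 i j) :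
    mk2 i j p q r ∘ Equiv.swap i j = mk2 i j q p r := by
  funext l
  simp only [Function.comp_apply]
  rcases eq_or_ne l i with rfl | hi
  · rw [Equiv.swap_apply_left, mk2_right hij, mk2_left]
  rcases eq_or_ne l j with rfl | hj
  · rw [Equiv.swap_apply_right, mk2_left, mk2_right hij]
  · rw [Equiv.swap_apply_of_ne_of_ne hi hj]; simp [mk2, hi, hj]

lemma mk2_inj (hij : i ≠ j) {p q p' q' : Fin 4} {r r' : Off2 i j}
    (h : mk2 i j p q r = mk2 i j p' q' r') : p = p' ∧ q = q' ∧ r = r' := by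
  refine ⟨?_, ?_, funext fun l => ?_⟩
  · have := congrFun h i; rwa [mk2_left, mk2_left] at this
  · have := congrFun h j; rwa [mk2_right hij, mk2_right hij] at this
  · have := congrFun h l; rwa [mk2_rest, mk2_rest] at this

lemma Wt_mk2 (hij : i ≠ j) (p q : Fin 4) (r : Off2 i j) :
    Wt δ (mk2 i j p q r) = wt δ p * wt δ q * Wt δ r := by
  have hj : j ∈ Finset.univ.erase i := Finset.mem_erase.2 ⟨hij.symm, Finset.mem_univ j⟩
  rw [Wt, Wt, ← Finset.mul_prod_erase Finset.univ _ (Finset.mem_univ i),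
    ← Finset.mul_prod_erase (Finset.univ.erase i) _ hj, mk2_left, mk2_right hij, ← mul_assoc]
  congr 1
  rw [Finset.prod_subtype ((Finset.univ.erase i).erase j) (p := fun l => l ≠ i ∧ l ≠ j)
    (fun l => by simp [and_comm]) (fun l => wt δ (mk2 i j p q r l))]
  exact Finset.prod_congr rfl fun l _ => by rw [mk2_rest]

lemma card_off2 (hij : i ≠ j) : Fintype.card {l : Fin t // l ≠ i ∧ l ≠ j} = t - 2 := by
  rw [Fintype.card_of_subtype ((Finset.univ.erase i).erase j) (fun l => by simp [and_comm]),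
    Finset.card_erase_of_mem (by simp [hij.symm]), Finset.card_erase_of_mem (by simp),
    Finset.card_univ, Fintype.card_fin]
  omega

lemma prod_up (δ : F) : ∏ p : UpPair, 2 * (wt δ p.1.1 * wt δ p.1.2) = (2 ^ 3) ^ 2 * δ ^ 3 := by
  rw [← Finset.prod_subtype (Finset.univ.filter fun p : Fin 4 × Fin 4 => p.1 < p.2) (by simp)
    (fun p => 2 * (wt δ p.1 * wt δ p.2)), Finset.prod_filter, Fintype.prod_prod_type]
  simp [Fin.prod_univ_four, wt]
  ring

lemma Ev.swap (h2 : (2 : F) ≠ 0) (hd : ¬ IsSquare δ) (hij : i ≠ j) :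
    Ev δ (factorPerm 4 (Equiv.swap i j) : MV F t) (3 * 4 ^ (t - 2)) := by
  classical
  let A : UpPair × Off2 i j → (Fin t → Fin 4) := fun k => mk2 i j k.1.1.1 k.1.1.2 k.2
  let A' : UpPair × Off2 i j → (Fin t → Fin 4) := fun k => mk2 i j k.1.1.2 k.1.1.1 k.2
  let c : UpPair × Off2 i j → Vec F t := fun k => Pi.single (A k) 1 - Pi.single (A' k) 1
  have hWA : ∀ k, Wt δ (A' k) = Wt δ (A k) := fun k => by
    simp only [A, A']
    rw [← mk2_swap hij, Wt_comp]
  have hne : ∀ k, A k ≠ A' k := fun k e => ne_of_lt k.1.2 (mk2_inj hij e).1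
  have hsum : ∀ k (v : Vec F t), ∑ a, Wt δ a * (c k a * v a) = Wt δ (A k) * (v (A k) - v (A' k)) := by
    intro k v
    simp only [c, Pi.sub_apply, sub_mul, mul_sub, Finset.sum_sub_distrib, Pi.single_apply, ite_mul,
      one_mul, zero_mul, mul_ite, mul_zero, Finset.sum_ite_eq', Finset.mem_univ, if_true, hWA]
  have hQ : ∀ k, Qd δ t (c k) = 2 * Wt δ (A k) := fun k => by
    rw [Qd_apply, hsum]
    simp only [c, Pi.sub_apply, Pi.single_eq_same, Pi.single_eq_of_ne (hne k),
      Pi.single_eq_of_ne (hne k).symm]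
    ring
  have hpol : ∀ k v, polar (Qd δ t) (c k) v = 2 * (Wt δ (A k) * (v (A k) - v (A' k))) :=
    fun k v => by rw [Qd_polar h2, hsum]
  have hAA : ∀ k k', A k ≠ A' k' := fun k k' e => by
    obtain ⟨e1, e2, -⟩ := mk2_inj hij e
    have h1 := k.1.2
    rw [e1, e2] at h1
    exact lt_asymm h1 k'.1.2
  have hAinj : ∀ k k', A k = A k' → k = k' := fun k k' e => by
    obtain ⟨e1, e2, e3⟩ := mk2_inj hij e
    exact Prod.ext (Subtype.ext (Prod.ext e1 e2)) e3
  have hA'inj : ∀ k k', A' k = A' k' → k = k' := fun k k' e => by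
    obtain ⟨e1, e2, e3⟩ := mk2_inj hij e
    exact Prod.ext (Subtype.ext (Prod.ext e2 e1)) e3
  have hR : Fintype.card (Off2 i j) = 4 ^ (t - 2) := by
    rw [Fintype.card_pi, Finset.prod_const, Finset.card_univ, Fintype.card_fin, card_off2 hij]
  have hsix : Fintype.card UpPair = 6 := by decide
  refine Ev.of_family c (fun k => by rw [hQ]; exact mul_ne_zero h2 (Wt_ne_zero hd _)) ?_ ?_
    (by rw [Fintype.card_prod, hsix]; exact (show Even 6 by decide).mul_right _)
    (d := (2 : F) ^ (3 * 4 ^ (t - 2)) * (∏ r : Off2 i j, Wt δ r) ^ 3) ?_ ?_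
  · intro k k' hk
    rw [hpol]
    simp only [c, Pi.sub_apply, Pi.single_apply]
    rw [if_neg fun e => hk (hAinj _ _ e), if_neg (hAA k k'), if_neg (fun e => hAA k' k e.symm),
      if_neg fun e => hk (hA'inj _ _ e)]
    ring
  · intro v
    funext a
    have hterm : ∀ k, (((Qd δ t (c k))⁻¹ * polar (Qd δ t) (c k) v) • c k) a =
        (v (A k) - v (A' k)) * c k a := fun k => by
      rw [Pi.smul_apply, hQ, hpol, smul_eq_mul]
      have := Wt_ne_zero hd (A k)
      field_simp
    rw [Pi.sub_apply, Finset.sum_apply]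
    simp only [hterm]
    have hfp : ((factorPerm 4 (Equiv.swap i j) : MV F t) *ᵥ v) a = v (a ∘ Equiv.swap i j) := by
      simp [mulVec, dotProduct, factorPerm]
    rw [hfp]
    have ha : a ∘ Equiv.swap i j = mk2 i j (a j) (a i) (fun l => a l) := by
      rw [← mk2_swap hij, mk2_self]
    rcases lt_trichotomy (a i) (a j) with hlt | heq | hgt
    · rw [Finset.sum_eq_single ((⟨(a i, a j), hlt⟩, fun l => a l) : UpPair × Off2 i j)]
      · simp only [c, A, A', Pi.sub_apply, mk2_self, ← ha]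
        rw [Pi.single_eq_same, Pi.single_eq_of_ne]
        · ring
        · intro e
          exact hlt.ne (by simpa using congrFun e i)
      · intro k _ hk
        have h1 : a ≠ A k := fun e => hk (hAinj _ _ (e.symm.trans (mk2_self a).symm))
        have h2' : a ≠ A' k := fun e => by
          have e' := (mk2_self (i := i) (j := j) a).trans e
          obtain ⟨e1, e2, -⟩ := mk2_inj hij e'
          exact lt_asymm hlt (e1 ▸ e2 ▸ k.1.2)
        simp [c, Pi.single_eq_of_ne h1, Pi.single_eq_of_ne h2']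
      · simp
    · rw [Finset.sum_eq_zero, sub_zero, ha, heq]
      · conv_lhs => arg 1; rw [show mk2 i j (a j) (a j) (fun l => a l) = a by
          conv_rhs => rw [← mk2_self (i := i) (j := j) a, heq]]
      · intro k _
        have h1 : a ≠ A k := fun e => by
          obtain ⟨e1, e2, -⟩ := mk2_inj hij ((mk2_self (i := i) (j := j) a).trans e)
          exact k.1.2.ne (by rw [← e1, ← e2, heq])
        have h2' : a ≠ A' k := fun e => by
          obtain ⟨e1, e2, -⟩ := mk2_inj hij ((mk2_self (i := i) (j := j) a).trans e)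
          exact k.1.2.ne (by rw [← e1, ← e2, heq])
        simp [c, Pi.single_eq_of_ne h1, Pi.single_eq_of_ne h2']
    · rw [Finset.sum_eq_single ((⟨(a j, a i), hgt⟩, fun l => a l) : UpPair × Off2 i j)]
      · simp only [c, A, A', Pi.sub_apply, mk2_self, ← ha]
        rw [Pi.single_eq_same, Pi.single_eq_of_ne]
        · ring
        · intro e
          exact hgt.ne' (by simpa using congrFun e i)
      · intro k _ hk
        have h2' : a ≠ A' k := fun e => hk (hA'inj _ _ (e.symm.trans (mk2_self a).symm))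
        have h1 : a ≠ A k := fun e => by
          obtain ⟨e1, e2, -⟩ := mk2_inj hij ((mk2_self (i := i) (j := j) a).trans e)
          exact lt_asymm hgt (e1 ▸ e2 ▸ k.1.2)
        simp [c, Pi.single_eq_of_ne h1, Pi.single_eq_of_ne h2']
      · simp
  · exact mul_ne_zero (pow_ne_zero _ h2)
      (pow_ne_zero _ (Finset.prod_ne_zero_iff.2 fun r _ => Wt_ne_zero hd r))
  · have e : ∀ k, Qd δ t (c k) = 2 * (wt δ k.1.1.1 * wt δ k.1.1.2) * Wt δ k.2 := fun k => by
      rw [hQ]; simp only [A]; rw [Wt_mk2 hij]; ring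
    have inner : ∀ p : UpPair, ∏ r : Off2 i j, Qd δ t (c (p, r)) =
        (2 * (wt δ p.1.1 * wt δ p.1.2)) ^ (4 ^ (t - 2)) * ∏ r : Off2 i j, Wt δ r := fun p => by
      simp only [e]
      rw [Finset.prod_mul_distrib, Finset.prod_const, Finset.card_univ, hR]
    rw [Fintype.prod_prod_type, Finset.prod_congr rfl fun p _ => inner p, Finset.prod_mul_distrib,
      Finset.prod_pow, prod_up, Finset.prod_const, Finset.card_univ, hsix]
    generalize (2 : F) = two
    ring

end Swap

theorem perm_mem_Om [Finite F] (h2 : (2 : F) ≠ 0) (hd : ¬ IsSquare δ) (ht : 3 ≤ t)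
    (π : Equiv.Perm (Fin t)) : (glFactorPerm 4 π : GV F t) ∈ Om δ t := by
  induction π using Equiv.Perm.swap_induction_on with
  | one =>
    convert one_mem (Om δ t)
    exact Units.ext (factorPerm_one 4 t)
  | swap_mul f a b hab ih =>
    have e : (glFactorPerm 4 (Equiv.swap a b * f) : GV F t) =
        glFactorPerm 4 (Equiv.swap a b) * glFactorPerm 4 f :=
      Units.ext (factorPerm_mul _ _).symm
    rw [e]
    refine mul_mem ?_ ih
    have h : Ev δ ((glFactorPerm 4 (Equiv.swap a b) : GV F t) : MV F t) (3 * 4 ^ (t - 2)) :=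
      Ev.swap h2 hd hab
    exact (h.mem_iff h2 hd).2
      (((show Even 4 by decide).pow_of_ne_zero (by omega)).mul_left _)

theorem swap_conj_not_mem_Om [Finite F] (h2 : (2 : F) ≠ 0) (hd : ¬ IsSquare δ) {A : GL (Fin 4) F}
    {ν ε : F} (hA : SimW δ (A : M4 F) ν) (hε : ε = 1 ∨ ε = -1) {g : GV F 2}
    (hg : (g : MV F 2) = ε • (site 0 (A : M4 F) * factorPerm 4 (Equiv.swap 0 1) *
      site 0 ((A⁻¹ : GL (Fin 4) F) : M4 F))) : g ∉ Om δ 2 := by
  have hP : Ev δ (site 0 (A : M4 F) * factorPerm 4 (Equiv.swap 0 1) *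
      site 0 ((A⁻¹ : GL (Fin 4) F) : M4 F) : MV F 2) 3 :=
    (Ev.swap h2 hd (by decide : (0 : Fin 2) ≠ 1)).conj h2 hA.1 (sim_site hA 0)
      (by rw [site_mul, Units.mul_inv, site_one])
  rcases hε with rfl | rfl
  · rw [one_smul] at hg
    rw [← hg] at hP
    rw [hP.mem_iff h2 hd]; decide
  · have hm : IsoW δ (-1 : M4 F) := by simp [IsoW]
    obtain ⟨l, hl, hdet⟩ := exists_reflW h2 hd hm
    have he : Even l.length := by
      by_contra ho
      rw [det_neg, det_one, mul_one, Fintype.card_fin, (Nat.not_even_iff_odd.1 ho).neg_one_pow]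
        at hdet
      exact h2 (by linear_combination hdet)
    have hs := Ev.site_prod h2 hd (le_refl 2) 0 l
    rw [← hl, show (-1 : M4 F) = (-1 : F) • 1 by simp, site_smul, site_one, eR_two, mul_one] at hs
    have := hs.mul hP
    rw [smul_mul_assoc, one_mul, ← hg] at this
    rw [this.mem_iff h2 hd, Nat.even_add]
    exact fun h => absurd (h.1 he) (by decide)

end Cfsg.Agent.MaxSub.OrthFour
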