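import Cfsg.Agent.MaxSub.OrthFour.FrameLift
import Cfsg.Agent.MaxSub.OrthFour.Omega
import Cfsg.Agent.MaxSub.OrthFour.GroupFour
import Cfsg.Agent.MaxSub.OrthWreathThree.OmegaFacts
import Cfsg.Agent.MaxSub.TensorPowSp.Normal

/-!
A group of isometries of a tensor power normalised by the monomial subgroup of `Ω` contains a matrix
acting at one site.
-/

set_option autoImplicit false
set_option linter.unusedSectionVars false

namespace Cfsg.Agent.MaxSub.OrthFour.Slot

open Matrix QuadraticMap Cfsg.Geo Cfsg.Agent.NotMax Cfsg.Agent.GeoClasses Cfsg.Agent.Classical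
open Cfsg.Agent.MaxSub.TensorPowSp (gV site_injective)
open Cfsg.Agent.MaxSub.OrthWreathBig (gB cr sieM Link cr_mul cr_mulVec)
open scoped MatrixGroups Matrix

variable {F : Type*} [Field F] {t : ℕ} {δ : F}

/-- The root matrices of one site. -/
def Roots (δ : F) : Set (M4 F) :=
  {U | ∃ w x, w ≠ 0 ∧ gB (G4 δ) w w = 0 ∧ gB (G4 δ) w x = 0 ∧ gB (G4 δ) x x ≠ 0 ∧
    U = 1 + sieM (G4 δ) w x}

lemma root_data {U : M4 F} (hU : U ∈ Roots δ) :
    ∃ n : M4 F, n * (n * n) = 0 ∧ n ≠ 0 ∧ U = 1 + n := by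
  obtain ⟨w, x, hw, hww, hwx, hxx, rfl⟩ := hU
  have hxw : gB (G4 δ) x w = 0 := by rw [gB_symm, hwx]
  refine ⟨sieM (G4 δ) w x, ?_, fun e => ?_, rfl⟩
  · simp [sieM, mul_sub, sub_mul, cr_mul, hww, hwx, hxw, smul_sub, smul_smul, Matrix.mul_smul,
      Matrix.smul_mul]
  · have h := congrArg (fun n : M4 F => n *ᵥ x) e
    simp [sieM, Matrix.sub_mulVec, Matrix.smul_mulVec, cr_mulVec, hwx, hxx, hw] at h

lemma root_isUnit {U : M4 F} (hU : U ∈ Roots δ) : IsUnit U := by
  obtain ⟨n, hn, -, rfl⟩ := root_data hU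
  exact IsNilpotent.isUnit_one_add ⟨3, by rw [pow_succ', pow_two, hn]⟩

/-- The root matrices span all matrices. -/
lemma adjoin_roots [Finite F] (h2 : (2 : F) ≠ 0) (hd : ¬ IsSquare δ) :
    Algebra.adjoin F (Roots δ) = ⊤ := by
  rw [← top_le_iff, ← span_OmW h2 hd, Algebra.adjoin_le_iff]
  rintro _ ⟨g, hg, rfl⟩
  suffices h : (g : M4 F) ∈ Algebra.adjoin F (Roots δ) ∧
      ((g⁻¹ : GL (Fin 4) F) : M4 F) ∈ Algebra.adjoin F (Roots δ) from h.1
  induction hg using Subgroup.closure_induction with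
  | mem g hg =>
    have hgR : (g : M4 F) ∈ Roots δ := hg
    refine ⟨Algebra.subset_adjoin hgR, ?_⟩
    obtain ⟨n, hn, -, e⟩ := root_data hgR
    have hn' : n ∈ Algebra.adjoin F (Roots δ) := by
      have h := Subalgebra.sub_mem _ (Algebra.subset_adjoin hgR) (one_mem (Algebra.adjoin F (Roots δ)))
      rwa [e, add_sub_cancel_left] at h
    have einv : ((g⁻¹ : GL (Fin 4) F) : M4 F) = 1 - n + n * n := by
      refine (left_inv_eq_right_inv (a := (g : M4 F)) (Units.inv_mul g) ?_)
      rw [e]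
      linear_combination (norm := noncomm_ring) hn
    rw [einv]
    exact add_mem (Subalgebra.sub_mem _ (one_mem _) hn') (mul_mem hn' hn')
  | one => simp [one_mem]
  | mul a b _ _ ha hb =>
    rw [_root_.mul_inv_rev, Units.val_mul, Units.val_mul]
    exact ⟨mul_mem ha.1 hb.1, mul_mem hb.2 ha.2⟩
  | inv a _ ha => rw [inv_inv]; exact ⟨ha.2, ha.1⟩

/-- An invertible site matrix. -/
def sG (l : Fin t) (U : GL (Fin 4) F) : GV F t := glPure (Function.update 1 l U)

lemma sG_val (l : Fin t) (U : GL (Fin 4) F) : (sG l U : MV F t) = site l (U : M4 F) := by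
  show pureMat _ = pureMat _
  congr 1
  funext m
  by_cases h : m = l
  · subst h; simp
  · simp [h]

lemma sG_mem_Wr (l : Fin t) (U : GL (Fin 4) F) : sG l U ∈ Wr F t :=
  Subgroup.subset_closure (Or.inl ⟨_, fun _ _ => rfl⟩)

lemma exists_siteU {U : M4 F} (hU : U ∈ Roots δ) (l : Fin t) :
    ∃ u : GV F t, u ∈ Wr F t ∧ IsSiteU δ (u : MV F t) ∧ (u : MV F t) = site l U := by
  have e : (sG l (root_isUnit hU).unit : MV F t) = site l U := by
    rw [sG_val, IsUnit.unit_spec]
  obtain ⟨w, x, h1, h2, h3, h4, h5⟩ := hU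
  exact ⟨_, sG_mem_Wr l _, ⟨l, w, x, h1, h2, h3, h4, by rw [e, h5]⟩, e⟩

/-- A unipotent matrix commutes with an invertible one up to no other scalar than one. -/
lemma eq_one_of_comm {ι : Type} [Fintype ι] [DecidableEq ι] [Nonempty ι] {n : Matrix ι ι F}
    (hn : n * (n * n) = 0) {h : Matrix ι ι F} (hh : IsUnit h) {c : F}
    (e : (1 + n) * h = c • (h * (1 + n))) : c = 1 := by
  have h1 : n * h = h * ((c - 1) • 1 + c • n) := by
    rw [mul_add, Matrix.mul_smul, Matrix.mul_smul, Matrix.mul_one, sub_smul, one_smul]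
    rw [add_mul, Matrix.one_mul, mul_add, Matrix.mul_one, smul_add] at e
    linear_combination (norm := abel) e
  set m := (c - 1) • (1 : Matrix ι ι F) + c • n with hm
  have h3 : n * (n * (n * h)) = h * (m * (m * m)) := by
    rw [h1, ← Matrix.mul_assoc n h, h1, Matrix.mul_assoc h, ← Matrix.mul_assoc n h, h1,
      Matrix.mul_assoc h]
  rw [show n * (n * (n * h)) = n * (n * n) * h by simp only [Matrix.mul_assoc], hn,
    Matrix.zero_mul] at h3
  have hnil : IsNilpotent m := ⟨3, by
    rw [pow_succ', pow_two]; exact hh.mul_right_eq_zero.1 h3.symm⟩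
  have hc : IsNilpotent (c • n) := by
    refine ⟨3, ?_⟩
    rw [smul_pow, pow_succ' n, pow_two, hn, smul_zero]
  have h4 : IsNilpotent ((c - 1) • (1 : Matrix ι ι F)) := by
    have hcomm : Commute m (c • n) :=
      (((Commute.one_left n).smul_left (c - 1)).add_left
        ((Commute.refl n).smul_left c)).smul_right c
    simpa [hm] using hcomm.isNilpotent_sub hnil hc
  obtain ⟨k, hk⟩ := h4
  rw [smul_pow, one_pow, smul_eq_zero] at hk
  exact sub_eq_zero.1 (eq_zero_of_pow_eq_zero (hk.resolve_right one_ne_zero))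

lemma site_cube {n : M4 F} (l : Fin t) (hn : n * (n * n) = 0) :
    site l n * (site l n * site l n) = 0 := by
  rw [site_mul, site_mul, hn, site_zero]

lemma site_root {U : M4 F} (hU : U ∈ Roots δ) (l : Fin t) :
    ∃ N : MV F t, N * (N * N) = 0 ∧ site l U = 1 + N := by
  obtain ⟨n, hn, -, rfl⟩ := root_data hU
  exact ⟨site l n, site_cube l hn, by rw [site_add, site_one]⟩

/-- An invertible matrix which commutes with a root element up to a scalar commutes with it. -/
lemma commute_of_root {U : M4 F} (hU : U ∈ Roots δ) (l : Fin t) {h : MV F t} (hh : IsUnit h)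
    {c : F} (e : site l U * h = c • (h * site l U)) : Commute (site l U) h := by
  obtain ⟨N, hN, hNU⟩ := site_root hU l
  rw [hNU] at e ⊢
  have := eq_one_of_comm hN hh e
  rwa [this, one_smul] at e

lemma commute_all {l : Fin t} {h : MV F t} (hspan : Algebra.adjoin F (Roots δ) = ⊤)
    (hc : ∀ U ∈ Roots δ, Commute (site l U) h) (X : M4 F) : Commute (site l X) h := by
  have hX : X ∈ Algebra.adjoin F (Roots δ) := hspan ▸ Algebra.mem_top
  induction hX using Algebra.adjoin_induction with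
  | mem U hU => exact hc U hU
  | algebraMap c =>
    rw [Algebra.algebraMap_eq_smul_one, site_smul, site_one]
    exact (Commute.one_left h).smul_left c
  | add X Y _ _ hx hy => rw [site_add]; exact hx.add_left hy
  | mul X Y _ _ hx hy => rw [← site_mul]; exact hx.mul_left hy

lemma scalar_of_commute_M4 {A : M4 F} (hA : ∀ X : M4 F, Commute X A) :
    ∃ c : F, A = c • 1 := by
  obtain ⟨c, hc⟩ := Matrix.mem_range_scalar_iff_commute_single'.2 fun i j =>
    hA (Matrix.single i j 1)
  exact ⟨c, by rw [← hc, Matrix.scalar_apply, ← Matrix.smul_one_eq_diagonal]⟩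

lemma scalar_of_commute_roots [NeZero t] {h : MV F t} (hspan : Algebra.adjoin F (Roots δ) = ⊤)
    (hc : ∀ l : Fin t, ∀ U ∈ Roots δ, Commute (site l U) h) : ∃ c : F, h = c • 1 := by
  obtain ⟨A, rfl⟩ := eq_site_of_commute (0 : Fin t) (h := h) fun l _ X => commute_all hspan (hc l) X
  obtain ⟨c, rfl⟩ := scalar_of_commute_M4 (A := A) fun X => by
    have := (commute_all hspan (hc 0) X).eq
    rw [site_mul, site_mul] at this
    exact site_injective _ this
  exact ⟨c, by rw [site_smul, site_one]⟩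

/-- Normal form of a member of the wreath group. -/
lemma exists_pure_perm {g : GV F t} (hg : g ∈ Wr F t) :
    ∃ (cs : Fin t → GL (Fin 4) F) (π : Equiv.Perm (Fin t)), g = glPure cs * glFactorPerm 4 π := by
  have hpp : ∀ (π : Equiv.Perm (Fin t)) (cs : Fin t → GL (Fin 4) F),
      glFactorPerm 4 π * glPure cs = glPure (fun l => cs (π.symm l)) * glFactorPerm 4 π := by
    intro π cs
    refine Units.ext ?_
    show factorPerm 4 π * pureMat _ = pureMat _ * factorPerm 4 π
    rw [pureMat_mul_factorPerm]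
    simp
  have hmul : ∀ cs ds : Fin t → GL (Fin 4) F, glPure cs * glPure ds = glPure (cs * ds) :=
    fun cs ds => Units.ext (pureMat_mul _ _)
  have hfp : ∀ π ρ : Equiv.Perm (Fin t),
      (glFactorPerm 4 π * glFactorPerm 4 ρ : GV F t) = glFactorPerm 4 (π * ρ) :=
    fun π ρ => Units.ext (factorPerm_mul π ρ)
  induction hg using Subgroup.closure_induction with
  | one =>
    refine ⟨1, 1, Units.ext ?_⟩
    show (1 : MV F t) = pureMat (fun _ => 1) * factorPerm 4 1
    rw [factorPerm_one, pureMat_one, Matrix.one_mul]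
  | mul a b _ _ ha hb =>
    obtain ⟨cs, π, rfl⟩ := ha
    obtain ⟨ds, ρ, rfl⟩ := hb
    exact ⟨_, π * ρ, by
      rw [mul_assoc, ← mul_assoc (glFactorPerm 4 π), hpp, mul_assoc, hfp, ← mul_assoc, hmul]⟩
  | inv a _ ha =>
    obtain ⟨cs, π, rfl⟩ := ha
    have e1 : (glFactorPerm 4 π : GV F t)⁻¹ = glFactorPerm 4 π⁻¹ := Units.ext rfl
    have e2 : (glPure cs : GV F t)⁻¹ = glPure cs⁻¹ := Units.ext rfl
    exact ⟨_, π⁻¹, by rw [_root_.mul_inv_rev, e1, e2, hpp]⟩
  | mem g hg =>
    rcases hg with ⟨gs, hgs⟩ | ⟨σ, hσ⟩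
    · refine ⟨gs, 1, Units.ext ?_⟩
      show (g : MV F t) = pureMat _ * factorPerm 4 1
      rw [factorPerm_one, Matrix.mul_one]
      exact Matrix.ext hgs
    · refine ⟨1, σ, Units.ext ?_⟩
      show (g : MV F t) = pureMat (fun _ => 1) * factorPerm 4 σ
      rw [pureMat_one, Matrix.one_mul]
      exact Matrix.ext hσ

lemma perm_mul_site (π : Equiv.Perm (Fin t)) (l : Fin t) (U : M4 F) :
    factorPerm 4 π * site l U = site (π l) U * factorPerm 4 π := by
  rw [site, site, pureMat_mul_factorPerm]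
  congr 2
  funext m
  by_cases h : m = l
  · subst h; simp
  · simp [h]

lemma pure_mul_site_conj (cs : Fin t → GL (Fin 4) F) (l : Fin t) (U : M4 F) :
    (glPure cs : MV F t) * site l U =
      site l ((cs l : M4 F) * U * (((cs l)⁻¹ : GL (Fin 4) F) : M4 F)) * (glPure cs : MV F t) := by
  show pureMat _ * pureMat _ = pureMat _ * pureMat _
  rw [pureMat_mul, pureMat_mul]
  congr 1
  funext m
  by_cases h : m = l
  · subst h; simp [Matrix.mul_assoc]
  · simp [h]

variable [Finite F]

lemma conj_mem_Om (h2 : (2 : F) ≠ 0) {x u : GV F t} (hx : IsoV δ (x : MV F t))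
    (hu : u ∈ Om δ t) : x * u * x⁻¹ ∈ Om δ t := by
  obtain ⟨k, hk, rfl⟩ := hu
  obtain ⟨y, rfl⟩ := (link δ t h2).exists_oq h2 hx
  exact ⟨y * k * y⁻¹, (Subgroup.Normal.conj_mem inferInstance k hk y), by simp⟩

/-- A group of isometries normalised by the monomial part of `Ω` and not inside the scalars has a
non-scalar member at one site. -/
theorem exists_site_of_normalised (h2 : (2 : F) ≠ 0) (hd : ¬ IsSquare δ) (ht : 2 ≤ t)
    (hspan : Algebra.adjoin F (Roots δ) = ⊤) (hD : Dicho F δ t) (N : Subgroup (GV F t))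
    (hiso : ∀ x ∈ N, IsoV δ (x : MV F t))
    (hnorm : ∀ X ∈ Wr F t ⊓ Om δ t, ∀ x ∈ N, X * x * X⁻¹ ∈ N)
    (hsc : ∃ x ∈ N, ¬ ∃ c : F, (x : MV F t) = c • 1) :
    ∃ x ∈ N, ∃ (j : Fin t) (A : M4 F), (¬ ∃ c : F, A = c • 1) ∧ (x : MV F t) = site j A := by
  classical
  haveI : NeZero t := ⟨by omega⟩
  -- the commutator with a root element
  have comm : ∀ x ∈ N, ∀ u : GV F t, u ∈ Wr F t → IsSiteU δ (u : MV F t) →
      x * u * x⁻¹ * u⁻¹ ∈ N ⊓ Om δ t := by
    intro x hx u huW huS
    have huO : u ∈ Om δ t := siteU_mem_Om h2 hd huS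
    refine Subgroup.mem_inf.2 ⟨?_, mul_mem (conj_mem_Om h2 (hiso x hx) huO) (inv_mem huO)⟩
    have := mul_mem hx (hnorm u ⟨huW, huO⟩ x⁻¹ (inv_mem hx))
    simpa [mul_assoc] using this
  have single : ∀ x ∈ N, ∀ (k : Fin t) (U B : M4 F), U ∈ Roots δ →
      (x : MV F t) * site k U = site k B * x → ¬ Commute (site k U) (x : MV F t) →
      ∃ x ∈ N, ∃ (j : Fin t) (A : M4 F), (¬ ∃ c : F, A = c • 1) ∧ (x : MV F t) = site j A := by
    intro x hx k U B hU hB hne
    obtain ⟨u, huW, huS, hu⟩ := exists_siteU hU k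
    have hcm := comm x hx u huW huS
    set V : M4 F := ((((root_isUnit hU).unit)⁻¹ : GL (Fin 4) F) : M4 F)
    have hVU : U * V = 1 := by
      have := (root_isUnit hU).unit.mul_inv
      rwa [IsUnit.unit_spec] at this
    have hval : ((x * u * x⁻¹ * u⁻¹ : GV F t) : MV F t) = site k (B * V) := by
      have e1 : ((x * u * x⁻¹ : GV F t) : MV F t) = site k B := by
        rw [Units.val_mul, Units.val_mul, hu, hB, Matrix.mul_assoc, Units.mul_inv, Matrix.mul_one]
      have e2 : ((u⁻¹ : GV F t) : MV F t) = site k V := by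
        calc ((u⁻¹ : GV F t) : MV F t) = ((u⁻¹ : GV F t) : MV F t) * (site k U * site k V) := by
              rw [site_mul, hVU, site_one, Matrix.mul_one]
          _ = site k V := by rw [← hu, ← Matrix.mul_assoc, Units.inv_mul, Matrix.one_mul]
      rw [Units.val_mul, e1, e2, site_mul]
    refine ⟨_, hcm.1, k, B * V, ?_, hval⟩
    rintro ⟨c, hc⟩
    refine hne (commute_of_root hU k x.isUnit (c := c⁻¹) ?_)
    have hV' : V * U = 1 := mul_eq_one_comm.1 hVU
    have hBU : B = c • U := by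
      calc B = B * V * U := by rw [Matrix.mul_assoc, hV', Matrix.mul_one]
        _ = c • U := by rw [hc, Matrix.smul_mul, Matrix.one_mul]
    have hc0 : c ≠ 0 := by
      rintro rfl
      rw [hBU, zero_smul, site_zero, Matrix.zero_mul] at hB
      exact (x.isUnit.mul ((hu ▸ u.isUnit : IsUnit (site k U)))).ne_zero hB
    rw [hB, hBU, site_smul, Matrix.smul_mul, smul_smul, inv_mul_cancel₀ hc0, one_smul]
  obtain ⟨x, hx, hxs⟩ := hsc
  obtain ⟨l, U, hU, hne⟩ : ∃ l : Fin t, ∃ U ∈ Roots δ, ¬ Commute (site l U) (x : MV F t) := by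
    by_contra hc
    push Not at hc
    exact hxs (scalar_of_commute_roots hspan hc)
  obtain ⟨u, huW, huS, hu⟩ := exists_siteU hU l
  have hc := comm x hx u huW huS
  set c := x * u * x⁻¹ * u⁻¹ with hcdef
  have hcs : ¬ ∃ a : F, (c : MV F t) = a • 1 := by
    rintro ⟨a, ha⟩
    have e : ((x * u : GV F t) : MV F t) = a • ((u * x : GV F t) : MV F t) := by
      rw [show x * u = c * (u * x) by rw [hcdef]; group, Units.val_mul c, ha, Matrix.smul_mul,
        Matrix.one_mul]
    rw [Units.val_mul, Units.val_mul, hu] at e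
    have ha0 : a ≠ 0 := by
      rintro rfl
      rw [zero_smul] at ha
      exact c.isUnit.ne_zero ha
    refine hne (commute_of_root hU l x.isUnit (c := a⁻¹) ?_)
    rw [e, smul_smul, inv_mul_cancel₀ ha0, one_smul]
  have hmono : ∀ c ∈ N, c ∈ Wr F t → (¬ ∃ a : F, (c : MV F t) = a • 1) →
      ∃ x ∈ N, ∃ (j : Fin t) (A : M4 F), (¬ ∃ c : F, A = c • 1) ∧ (x : MV F t) = site j A := by
    intro c hcN hcW hcs
    obtain ⟨cs, π, rfl⟩ := exists_pure_perm hcW
    by_cases hπ : π = 1
    · subst hπ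
      have e1 : (glFactorPerm 4 (1 : Equiv.Perm (Fin t)) : GV F t) = 1 :=
        Units.ext (factorPerm_one 4 t)
      rw [e1, mul_one] at hcN hcs
      obtain ⟨k, U, hU, hne⟩ : ∃ k : Fin t, ∃ U ∈ Roots δ,
          ¬ Commute (site k U) (glPure cs : MV F t) := by
        by_contra hc
        push Not at hc
        exact hcs (scalar_of_commute_roots hspan hc)
      exact single _ hcN k U _ hU (pure_mul_site_conj cs k U) hne
    obtain ⟨j, hj⟩ : ∃ j, π j ≠ j := by
      by_contra hc
      push Not at hc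
      exact hπ (Equiv.ext hc)
    obtain ⟨U, hU⟩ : (Roots δ).Nonempty := by
      rw [Set.nonempty_iff_ne_empty]
      intro he
      rw [he, Algebra.adjoin_empty] at hspan
      have hm : (Matrix.single 0 1 (1 : F) : M4 F) ∈ (⊥ : Subalgebra F (M4 F)) :=
        hspan ▸ Algebra.mem_top
      obtain ⟨a, ha⟩ := Algebra.mem_bot.1 hm
      have := congrFun (congrFun ha 0) 1
      simp [Matrix.algebraMap_matrix_apply] at this
    obtain ⟨u, huW, huS, hu⟩ := exists_siteU hU j
    set g : GV F t := glPure cs * glFactorPerm 4 π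
    set B : M4 F := (cs (π j) : M4 F) * U * (((cs (π j))⁻¹ : GL (Fin 4) F) : M4 F)
    set V : M4 F := ((((root_isUnit hU).unit)⁻¹ : GL (Fin 4) F) : M4 F)
    have hUV : U * V = 1 := by
      have := (root_isUnit hU).unit.mul_inv
      rwa [IsUnit.unit_spec] at this
    set d := g * u * g⁻¹ * u⁻¹ with hd'
    have hval : (d : MV F t) = site (π j) B * site j V := by
      have e0 : (g : MV F t) * site j U = site (π j) B * g := by
        rw [show (g : MV F t) = (glPure cs : MV F t) * factorPerm 4 π from rfl, Matrix.mul_assoc,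
          perm_mul_site, ← Matrix.mul_assoc, pure_mul_site_conj, Matrix.mul_assoc]
      have e1 : ((g * u * g⁻¹ : GV F t) : MV F t) = site (π j) B := by
        rw [Units.val_mul, Units.val_mul, hu, e0, Matrix.mul_assoc, Units.mul_inv, Matrix.mul_one]
      have e2 : ((u⁻¹ : GV F t) : MV F t) = site j V := by
        calc ((u⁻¹ : GV F t) : MV F t) = ((u⁻¹ : GV F t) : MV F t) * (site j U * site j V) := by
              rw [site_mul, hUV, site_one, Matrix.mul_one]
          _ = site j V := by rw [← hu, ← Matrix.mul_assoc, Units.inv_mul, Matrix.one_mul]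
      rw [hd', Units.val_mul, e1, e2]
    obtain ⟨U', hU', hne⟩ : ∃ U' ∈ Roots δ, ¬ Commute (site j U') (d : MV F t) := by
      by_contra hc
      push Not at hc
      obtain ⟨a, ha⟩ := scalar_of_commute_M4 (A := V) fun X => by
        have h := commute_all hspan hc X
        rw [hval] at h
        have hBu : IsUnit (site (π j) B : MV F t) := by
          have hB : IsUnit B := ((cs (π j)).isUnit.mul (root_isUnit hU)).mul ((cs (π j))⁻¹).isUnit
          rw [← IsUnit.unit_spec hB, ← sG_val]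
          exact Units.isUnit _
        have e : site (π j) B * (site j X * site j V) = site (π j) B * (site j V * site j X) := by
          rw [← Matrix.mul_assoc, site_comm hj, Matrix.mul_assoc, h.eq, Matrix.mul_assoc]
        have := hBu.mul_left_cancel e
        rw [site_mul, site_mul] at this
        exact site_injective j this
      obtain ⟨n, hn, hn0, hUn⟩ := root_data hU
      rw [ha, Matrix.mul_smul, Matrix.mul_one, hUn, smul_add] at hUV
      have ha1 : a = 1 := by
        have hnil : IsNilpotent (a • n) := ⟨3, by rw [smul_pow, pow_succ' n, pow_two, hn, smul_zero]⟩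
        rw [← sub_eq_iff_eq_add'.2 hUV.symm] at hnil
        obtain ⟨k, hk⟩ := hnil
        rw [show (1 : M4 F) - a • 1 = (1 - a) • 1 by rw [sub_smul, one_smul], smul_pow, one_pow,
          smul_eq_zero] at hk
        exact (sub_eq_zero.1 (eq_zero_of_pow_eq_zero (hk.resolve_right one_ne_zero))).symm
      rw [ha1, one_smul, one_smul, add_eq_left] at hUV
      exact hn0 hUV
    refine single d (comm g hcN u huW huS).1 j U' (V * U' * U) hU' ?_ hne
    rw [hval, Matrix.mul_assoc, site_mul, ← Matrix.mul_assoc (site j (V * U' * U)),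
      ← site_comm hj, Matrix.mul_assoc, site_mul]
    congr 2
    rw [Matrix.mul_assoc (V * U'), hUV, Matrix.mul_one]
  -- the dichotomy
  set J : Subgroup (GV F t) := (Wr F t ⊓ Om δ t) ⊔ (N ⊓ Om δ t) with hJ
  rcases hD J ⟨h2, hd, le_sup_left, sup_le inf_le_right inf_le_right⟩ with hle | heq
  · exact hmono c hc.1 (hle (le_sup_right (a := Wr F t ⊓ Om δ t) hc)) hcs
  -- otherwise the normal subgroup is everything
  have hNJ : J ≤ Subgroup.normalizer ((N ⊓ Om δ t : Subgroup (GV F t)) : Set (GV F t)) := by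
    refine sup_le (fun X hX => ?_) Subgroup.le_normalizer
    refine Subgroup.mem_normalizer_iff.2 fun y => ⟨fun hy => ?_, fun hy => ?_⟩
    · exact Subgroup.mem_inf.2 ⟨hnorm X hX y hy.1, mul_mem (mul_mem hX.2 hy.2) (inv_mem hX.2)⟩
    · have h1 : X⁻¹ * (X * y * X⁻¹) * X⁻¹⁻¹ = y := by group
      rw [← h1]
      exact Subgroup.mem_inf.2 ⟨hnorm X⁻¹ (inv_mem hX) _ hy.1,
        mul_mem (mul_mem (inv_mem hX.2) hy.2) (inv_mem (inv_mem hX.2))⟩
  rw [heq] at hNJ
  have htop := OWT.normal_commutator_OQ (Q := Qd δ t) (bNondeg_Qd h2 hd) ?_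
    ((N ⊓ Om δ t).comap (oqToGL (Qd δ t))) (fun y hy s hs => ?_) ?_
  · have hfull : Om δ t ≤ N := by
      rintro _ ⟨y, hy, rfl⟩
      exact (htop hy).1
    obtain ⟨u, -, huS, hu⟩ := exists_siteU hU l
    refine ⟨u, hfull (siteU_mem_Om h2 hd huS), l, U, ?_, hu⟩
    rintro ⟨a, rfl⟩
    refine hne ?_
    rw [site_smul, site_one]
    exact (Commute.one_left _).smul_left a
  · rw [Module.finrank_fintype_fun_eq_card, Fintype.card_fun, Fintype.card_fin, Fintype.card_fin]
    calc 7 ≤ 4 ^ 2 := by norm_num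
      _ ≤ 4 ^ t := Nat.pow_le_pow_right (by norm_num) ht
  · show oqToGL (Qd δ t) (y * s * y⁻¹) ∈ N ⊓ Om δ t
    rw [map_mul, map_mul, map_inv]
    exact (Subgroup.mem_normalizer_iff.1 (hNJ ⟨y, hy, rfl⟩) _).1 hs
  · obtain ⟨y, hy, hye⟩ := hc.2
    refine ⟨y, ?_, hy, ?_⟩
    · show oqToGL (Qd δ t) y ∈ N ⊓ Om δ t
      rw [hye]; exact hc
    · rintro ⟨a, ha⟩
      refine hcs ⟨a, Matrix.ext_of_mulVec_single fun p => ?_⟩
      rw [← hye, oqToGL_mulVec, ha, Matrix.smul_mulVec, Matrix.one_mulVec]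

end Cfsg.Agent.MaxSub.OrthFour.Slot
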