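import Cfsg.Agent.MaxSub.OrthFour.Defs

/-!
Centralisers of half turns when there are at least three sites: if the centralisers of the site
reflections are monomial, then so are the centralisers of the half turns.

The facts of the neighbouring files are taken as explicit hypotheses:
* `hsite`: every isometry of one site is realised in the group;
* `hconjU`: a form isometry conjugating all site root elements into the monomial group is monomial;
* `hrc`: a monomial conjugate of a site reflection is a site reflection.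
-/

set_option autoImplicit false
set_option linter.unusedSectionVars false
set_option linter.unusedVariables false
set_option linter.style.haveILetI false
set_option linter.unnecessarySeqFocus false

namespace Cfsg.Agent.MaxSub.OrthFour

open Matrix Cfsg.Geo Cfsg.Agent.NotMax Cfsg.Agent.GeoClasses
open Cfsg.Agent.MaxSub.TensorPowSp (gV fG)
open Cfsg.Agent.MaxSub.OrthWreathBig (gB cr sieM cr_mul)
open scoped MatrixGroups Matrix

variable {F : Type*} [Field F] {t : ℕ} {δ : F}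

namespace HalfBig

lemma cr_transpose (a b : Fin 4 → F) : (cr (G4 δ) a b)ᵀ * G4 δ = G4 δ * cr (G4 δ) b a := by
  ext i j
  simp only [cr, G4, Matrix.mul_diagonal, Matrix.diagonal_mul, Matrix.transpose_apply,
    Matrix.vecMulVec_apply, Matrix.vecMul_diagonal]
  ring

lemma refl_sq (h2 : (2 : F) ≠ 0) {r : Fin 4 → F} (hr : gB (G4 δ) r r ≠ 0) :
    reflW δ r * reflW δ r = 1 := by
  simp only [reflW, sub_mul, mul_sub, one_mul, mul_one, smul_mul_assoc, mul_smul_comm, smul_smul,
    cr_mul]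
  match_scalars <;> field_simp <;> ring

lemma refl_iso (h2 : (2 : F) ≠ 0) {r : Fin 4 → F} (hr : gB (G4 δ) r r ≠ 0) :
    IsoW δ (reflW δ r) := by
  show (reflW δ r)ᵀ * G4 δ * reflW δ r = G4 δ
  have e : (reflW δ r)ᵀ * G4 δ = G4 δ * reflW δ r := by
    simp only [reflW, transpose_sub, transpose_one, transpose_smul, sub_mul, mul_sub, one_mul,
      mul_one, smul_mul_assoc, mul_smul_comm, cr_transpose]
  rw [e, mul_assoc, refl_sq h2 hr, mul_one]

lemma refl_ortho {r s : Fin 4 → F} (h : gB (G4 δ) r s = 0) :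
    (1 - reflW δ r) * (1 - reflW δ s) = 0 := by
  simp [reflW, cr_mul, h]

/-- A root element of one site is a product of two reflections. -/
lemma sieM_eq_refl_mul (h2 : (2 : F) ≠ 0) {w x : Fin 4 → F} (hw : gB (G4 δ) w w = 0)
    (hwx : gB (G4 δ) w x = 0) (hx : gB (G4 δ) x x ≠ 0) :
    gB (G4 δ) (x + (gB (G4 δ) x x / 2) • w) (x + (gB (G4 δ) x x / 2) • w) ≠ 0 ∧
      (1 : M4 F) + sieM (G4 δ) w x =
        reflW δ x * reflW δ (x + (gB (G4 δ) x x / 2) • w) := by
  have hxw : gB (G4 δ) x w = 0 := by rw [gB_symm, hwx]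
  have e : gB (G4 δ) (x + (gB (G4 δ) x x / 2) • w) (x + (gB (G4 δ) x x / 2) • w) =
      gB (G4 δ) x x := by
    simp [hw, hwx, hxw]
  refine ⟨by rw [e]; exact hx, ?_⟩
  rw [reflW, reflW, e]
  simp only [sieM, OrthWreathBig.cr_add_left, OrthWreathBig.cr_add_right,
    OrthWreathBig.cr_smul_left, OrthWreathBig.cr_smul_right, sub_mul, mul_sub, one_mul, mul_one,
    smul_add, mul_add, smul_mul_assoc, mul_smul_comm, smul_smul, cr_mul, hxw]
  match_scalars <;> field_simp <;> ring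

/-- Two orthogonal anisotropic vectors have a common anisotropic orthogonal vector. -/
lemma exists_third (h2 : (2 : F) ≠ 0) (hd : ¬ IsSquare δ) {r s : Fin 4 → F}
    (hr : gB (G4 δ) r r ≠ 0) (hs : gB (G4 δ) s s ≠ 0) (hrs : gB (G4 δ) r s = 0) :
    ∃ e, gB (G4 δ) e e ≠ 0 ∧ gB (G4 δ) r e = 0 ∧ gB (G4 δ) s e = 0 := by
  by_contra hc
  have hsr : gB (G4 δ) s r = 0 := by rw [gB_symm, hrs]
  obtain ⟨A, hA⟩ : ∃ A, A = gB (G4 δ) r r := ⟨_, rfl⟩
  obtain ⟨B, hB⟩ : ∃ B, B = gB (G4 δ) s s := ⟨_, rfl⟩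
  let π : (Fin 4 → F) → (Fin 4 → F) := fun y =>
    y - (gB (G4 δ) r y / A) • r - (gB (G4 δ) s y / B) • s
  have hπr : ∀ y, gB (G4 δ) r (π y) = 0 := fun y => by
    simp only [π, map_sub, map_smul, smul_eq_mul, hrs, ← hA, mul_zero, sub_zero]
    rw [div_mul_cancel₀ _ (hA ▸ hr), sub_self]
  have hπs : ∀ y, gB (G4 δ) s (π y) = 0 := fun y => by
    simp only [π, map_sub, map_smul, smul_eq_mul, hsr, ← hB, mul_zero, sub_zero]
    rw [div_mul_cancel₀ _ (hB ▸ hs), sub_self]
  have hiso : ∀ e, gB (G4 δ) r e = 0 → gB (G4 δ) s e = 0 → gB (G4 δ) e e = 0 :=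
    fun e h1 h3 => by_contra fun hne => hc ⟨e, hne, h1, h3⟩
  let L : (Fin 4 → F) →ₗ[F] F × F := (gB (G4 δ) r).prod (gB (G4 δ) s)
  have hker : LinearMap.ker L ≠ ⊥ := by
    refine LinearMap.ker_ne_bot_of_finrank_lt ?_
    simp [Module.finrank_prod]
  obtain ⟨y, hy, hy0⟩ := Submodule.exists_mem_ne_zero_of_ne_bot hker
  have hyr : gB (G4 δ) r y = 0 := congrArg Prod.fst (LinearMap.mem_ker.1 hy)
  have hys : gB (G4 δ) s y = 0 := congrArg Prod.snd (LinearMap.mem_ker.1 hy)
  have hall : ∀ z, gB (G4 δ) y z = 0 := by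
    intro z
    have h1 : gB (G4 δ) (y + π z) (y + π z) = 0 :=
      hiso _ (by rw [map_add, hyr, hπr, add_zero]) (by rw [map_add, hys, hπs, add_zero])
    have hyz : gB (G4 δ) y (π z) = 0 := by
      simp only [map_add, LinearMap.add_apply, hiso y hyr hys, hiso _ (hπr z) (hπs z)] at h1
      rw [gB_symm δ (π z) y] at h1
      have : 2 * gB (G4 δ) y (π z) = 0 := by linear_combination h1
      exact (mul_eq_zero.1 this).resolve_left h2
    simpa [π, gB_symm δ y r, gB_symm δ y s, hyr, hys] using hyz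
  apply hy0
  funext l
  have := hall (Pi.single l 1)
  rw [gB_diag] at this
  have h0 : δ ≠ 0 := fun e => hd (e ▸ IsSquare.zero)
  fin_cases l <;> simp at this ⊢
  all_goals first
    | exact this
    | exact this.resolve_left h0

lemma refl_isUnit (h2 : (2 : F) ≠ 0) {r : Fin 4 → F} (hr : gB (G4 δ) r r ≠ 0) (i : Fin t) :
    site i (reflW δ r) * site i (reflW δ r) = (1 : MV F t) := by
  rw [site_mul, refl_sq h2 hr, site_one]

section Group

variable [Finite F] {M : Subgroup (GV F t)}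

/-- The site reflection is realised in the group. -/
lemma refl_mem (h : Over δ M)
    (hsite : ∀ (i : Fin t) (A : M4 F), IsoW δ A → ∃ u ∈ M, (u : MV F t) = site i A)
    {a : GV F t} (ha : IsRefl δ (a : MV F t)) : a ∈ M := by
  obtain ⟨i, r, hr, e⟩ := ha
  obtain ⟨u, hu, hue⟩ := hsite i _ (refl_iso h.two hr)
  rwa [show a = u from Units.ext (e.trans hue.symm)]

end Group

end HalfBig

section Group

variable [Finite F] {M : Subgroup (GV F t)}

open HalfBig

/-- An element of the group conjugating one site reflection into the monomial group is monomial. -/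
theorem mem_Wr_of_conj_refl (ht : 3 ≤ t) (h : Over δ M)
    (hrefl : ∀ a ∈ M, IsRefl δ (a : MV F t) → CenLe M (a : MV F t))
    (hsite : ∀ (i : Fin t) (A : M4 F), IsoW δ A → ∃ u ∈ M, (u : MV F t) = site i A)
    (hconjU : ∀ g : GV F t, IsoV δ (g : MV F t) →
      (∀ u : GV F t, IsSiteU δ (u : MV F t) → g * u * g⁻¹ ∈ Wr F t) → g ∈ Wr F t)
    (hrc : ∀ g a : GV F t, IsoV δ (g : MV F t) → IsRefl δ (a : MV F t) →
      g * a * g⁻¹ ∈ Wr F t → IsRefl δ ((g * a * g⁻¹ : GV F t) : MV F t))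
    {g a : GV F t} (hg : g ∈ M) (ha : IsRefl δ (a : MV F t)) (hga : g * a * g⁻¹ ∈ Wr F t) :
    g ∈ Wr F t := by
  have hconj : ∀ {b : GV F t}, IsRefl δ (b : MV F t) → g * b * g⁻¹ ∈ M := fun hb =>
    M.mul_mem (M.mul_mem hg (refl_mem h hsite hb)) (M.inv_mem hg)
  -- a reflection commuting with a good one is good
  have step : ∀ a' b : GV F t, IsRefl δ (a' : MV F t) → IsRefl δ (b : MV F t) →
      g * a' * g⁻¹ ∈ Wr F t → a' * b = b * a' → g * b * g⁻¹ ∈ Wr F t := by
    intro a' b ha' hb hw hab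
    refine hrefl _ (hconj ha') (hrc g a' (h.isoV hg) ha' hw) _ (hconj hb) ?_
    rw [← Units.val_mul, ← Units.val_mul]
    congr 1
    rw [show g * b * g⁻¹ * (g * a' * g⁻¹) = g * (b * a') * g⁻¹ by group,
      show g * a' * g⁻¹ * (g * b * g⁻¹) = g * (a' * b) * g⁻¹ by group, hab]
  -- hence all site reflections are good
  have good : ∀ b : GV F t, IsRefl δ (b : MV F t) → g * b * g⁻¹ ∈ Wr F t := by
    intro b hb
    obtain ⟨i, r, hr, e⟩ := ha
    obtain ⟨j, s, hs, e'⟩ := hb
    have comm : ∀ {b₁ b₂ : GV F t} {i₁ i₂ : Fin t} {A B : M4 F}, i₁ ≠ i₂ →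
        (b₁ : MV F t) = site i₁ A → (b₂ : MV F t) = site i₂ B → b₁ * b₂ = b₂ * b₁ := by
      intro b₁ b₂ i₁ i₂ A B hne h1 h3
      apply Units.ext
      rw [Units.val_mul, Units.val_mul, h1, h3, site_comm hne]
    by_cases hij : i = j
    · obtain ⟨l, hl⟩ : ∃ l : Fin t, l ≠ i := by
        haveI : Nontrivial (Fin t) := Fin.nontrivial_iff_two_le.2 (by omega)
        exact exists_ne i
      obtain ⟨c, -, hce⟩ := hsite l _ (refl_iso h.two hr)
      have hc : IsRefl δ (c : MV F t) := ⟨l, r, hr, hce⟩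
      exact step c b hc ⟨j, s, hs, e'⟩
        (step a c ⟨i, r, hr, e⟩ hc hga (comm hl.symm e hce)) (comm (hij ▸ hl) hce e')
    · exact step a b ⟨i, r, hr, e⟩ ⟨j, s, hs, e'⟩ hga (comm hij e e')
  refine hconjU g (h.isoV hg) fun u hu => ?_
  obtain ⟨i, w, x, -, hw, hwx, hx, e⟩ := hu
  obtain ⟨hy, hsie⟩ := sieM_eq_refl_mul h.two hw hwx hx
  obtain ⟨b, -, hb⟩ := hsite i _ (refl_iso h.two hx)
  obtain ⟨c, -, hc⟩ := hsite i _ (refl_iso h.two hy)
  have hu' : u = b * c := by
    apply Units.ext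
    rw [Units.val_mul, hb, hc, site_mul, ← hsie, e]
  rw [hu', show g * (b * c) * g⁻¹ = g * b * g⁻¹ * (g * c * g⁻¹) by group]
  exact mul_mem (good b ⟨i, x, hx, hb⟩) (good c ⟨i, _, hy, hc⟩)

/-- The centralisers of the site half turns are monomial. -/
theorem cenLe_half (ht : 3 ≤ t) (h : Over δ M)
    (hrefl : ∀ a ∈ M, IsRefl δ (a : MV F t) → CenLe M (a : MV F t))
    (hsite : ∀ (i : Fin t) (A : M4 F), IsoW δ A → ∃ u ∈ M, (u : MV F t) = site i A)
    (hconjU : ∀ g : GV F t, IsoV δ (g : MV F t) →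
      (∀ u : GV F t, IsSiteU δ (u : MV F t) → g * u * g⁻¹ ∈ Wr F t) → g ∈ Wr F t)
    (hrc : ∀ g a : GV F t, IsoV δ (g : MV F t) → IsRefl δ (a : MV F t) →
      g * a * g⁻¹ ∈ Wr F t → IsRefl δ ((g * a * g⁻¹ : GV F t) : MV F t)) :
    ∀ x ∈ M, IsHalf δ (x : MV F t) → CenLe M (x : MV F t) := by
  intro x hx hH g hg hgx
  obtain ⟨i, r, s, hr, hs, hrs, e⟩ := hH
  obtain ⟨d, hd, hrd, hsd⟩ := exists_third h.two h.nsq hr hs hrs
  have hsr : gB (G4 δ) s r = 0 := by rw [gB_symm, hrs]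
  have hdr : gB (G4 δ) d r = 0 := by rw [gB_symm, hrd]
  have hds : gB (G4 δ) d s = 0 := by rw [gB_symm, hsd]
  obtain ⟨R, hR⟩ : ∃ R, R = reflW δ r := ⟨_, rfl⟩
  obtain ⟨S, hS⟩ : ∃ S, S = reflW δ s := ⟨_, rfl⟩
  obtain ⟨E, hE⟩ : ∃ E, E = reflW δ d := ⟨_, rfl⟩
  rw [← hR, ← hS] at e
  obtain ⟨a, haM, ha⟩ := hsite i _ (refl_iso h.two hr)
  obtain ⟨c, hcM, hc⟩ := hsite i _ (refl_iso h.two hd)
  have hxRS : R * S = R + S - 1 := by
    have := refl_ortho hrs
    rw [← hR, ← hS] at this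
    linear_combination (norm := noncomm_ring) this
  -- the four relations at one site
  have k1 : (1 - R) * (1 + R * S) = 0 := by
    rw [hxRS, show (1 : M4 F) + (R + S - 1) = R + S from by abel, mul_add]
    have h1 : R * R = 1 := hR ▸ refl_sq h.two hr
    rw [sub_mul, sub_mul, one_mul, one_mul, h1, hxRS]; abel
  have k2 : (1 + R * S) * (1 - R) = 0 := by
    have h1 : R * R = 1 := hR ▸ refl_sq h.two hr
    have h3 : S * R = R + S - 1 := by
      have := refl_ortho hsr
      rw [← hR, ← hS] at this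
      linear_combination (norm := noncomm_ring) this
    rw [hxRS, show (1 : M4 F) + (R + S - 1) = R + S from by abel, add_mul, mul_sub, mul_sub,
      mul_one, mul_one, h1, h3]; abel
  have k3 : (1 - E) * (1 - R * S) = 0 := by
    rw [hxRS, show (1 : M4 F) - (R + S - 1) = (1 - R) + (1 - S) from by abel, mul_add, hE, hR, hS,
      refl_ortho hdr, refl_ortho hds, add_zero]
  have k4 : (1 - R * S) * (1 - E) = 0 := by
    rw [hxRS, show (1 : M4 F) - (R + S - 1) = (1 - R) + (1 - S) from by abel, add_mul, hE, hR, hS,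
      refl_ortho hrd, refl_ortho hsd, add_zero]
  rw [← hR] at ha
  rw [← hE] at hc
  have lift : ∀ X Y Z : M4 F, X * Y = Z → site i X * site i Y = (site i Z : MV F t) :=
    fun X Y Z hh => by rw [site_mul, hh]
  have sub1 : ∀ X : M4 F, site i (1 - X) = (1 : MV F t) - site i X := fun X => by
    rw [eq_sub_iff_add_eq, ← site_add, sub_add_cancel, site_one]
  have add1 : ∀ X : M4 F, site i (1 + X) = (1 : MV F t) + site i X := fun X => by
    rw [site_add, site_one]
  -- the same relations on the tensor power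
  obtain ⟨xm, hxm⟩ : ∃ xm : MV F t, xm = (x : MV F t) := ⟨_, rfl⟩
  have e' : site i (R * S) = xm := (hxm.trans e).symm
  have q1 : (1 - (a : MV F t)) * (1 + xm) = 0 := by
    have := lift _ _ _ k1
    rwa [sub1, add1, site_zero, ← ha, e'] at this
  have q2 : (1 + xm) * (1 - (a : MV F t)) = 0 := by
    have := lift _ _ _ k2
    rwa [sub1, add1, site_zero, ← ha, e'] at this
  have q3 : (1 - (c : MV F t)) * (1 - xm) = 0 := by
    have := lift _ _ _ k3
    rwa [sub1, sub1, site_zero, ← hc, e'] at this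
  have q4 : (1 - xm) * (1 - (c : MV F t)) = 0 := by
    have := lift _ _ _ k4
    rwa [sub1, sub1, site_zero, ← hc, e'] at this
  obtain ⟨b, hb⟩ : ∃ b : MV F t, b = ((g * a * g⁻¹ : GV F t) : MV F t) := ⟨_, rfl⟩
  have hgg : (g : MV F t) * ((g⁻¹ : GV F t) : MV F t) = 1 := g.mul_inv
  have hb1 : 1 - b = (g : MV F t) * (1 - (a : MV F t)) * ((g⁻¹ : GV F t) : MV F t) := by
    rw [hb, Units.val_mul, Units.val_mul, mul_sub, sub_mul, mul_one, hgg]
  have hgx' : ((g⁻¹ : GV F t) : MV F t) * xm = xm * ((g⁻¹ : GV F t) : MV F t) := by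
    have h1 : g * x = x * g := Units.ext (by simpa using hgx)
    have h3 : g⁻¹ * x = x * g⁻¹ := by
      rw [inv_mul_eq_iff_eq_mul, ← mul_assoc, h1, mul_inv_cancel_right]
    rw [hxm, ← Units.val_mul, h3, Units.val_mul]
  rw [← hxm] at hgx
  have p1 : (1 - b) * (1 + xm) = 0 := by
    rw [hb1, mul_assoc, show ((g⁻¹ : GV F t) : MV F t) * (1 + xm) =
      (1 + xm) * ((g⁻¹ : GV F t) : MV F t) by rw [mul_add, add_mul, mul_one, one_mul, hgx'],
      ← mul_assoc, mul_assoc (g : MV F t), q1, mul_zero, zero_mul]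
  have p2 : (1 + xm) * (1 - b) = 0 := by
    rw [hb1, ← mul_assoc, ← mul_assoc, show (1 + xm) * (g : MV F t) = (g : MV F t) * (1 + xm) by
      rw [mul_add, add_mul, mul_one, one_mul, hgx], mul_assoc (g : MV F t), q2, mul_zero, zero_mul]
  have z1 : (2 : F) • ((1 - b) * (1 - (c : MV F t))) = 0 := by
    rw [two_smul,
      show (1 - b) * (1 - (c : MV F t)) + (1 - b) * (1 - (c : MV F t)) =
        (1 - b) * (1 + xm) * (1 - (c : MV F t)) + (1 - b) * ((1 - xm) * (1 - (c : MV F t))) by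
          noncomm_ring, p1, q4, zero_mul, mul_zero, add_zero]
  have z2 : (2 : F) • ((1 - (c : MV F t)) * (1 - b)) = 0 := by
    rw [two_smul,
      show (1 - (c : MV F t)) * (1 - b) + (1 - (c : MV F t)) * (1 - b) =
        (1 - (c : MV F t)) * ((1 + xm) * (1 - b)) + (1 - (c : MV F t)) * (1 - xm) * (1 - b) by
          noncomm_ring, p2, q3, zero_mul, mul_zero, add_zero]
  have hbc : b * (c : MV F t) = (c : MV F t) * b := by
    have w1 := (smul_eq_zero.1 z1).resolve_left h.two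
    have w2 := (smul_eq_zero.1 z2).resolve_left h.two
    linear_combination (norm := noncomm_ring) w1 - w2
  refine mem_Wr_of_conj_refl ht h hrefl hsite hconjU hrc hg ⟨i, r, hr, by rw [ha, hR]⟩ ?_
  refine hrefl c hcM ⟨i, d, hd, by rw [hc, hE]⟩ _ (M.mul_mem (M.mul_mem hg haM) (M.inv_mem hg)) ?_
  rw [← hb]; exact hbc

end Group

end Cfsg.Agent.MaxSub.OrthFour
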