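import Cfsg.Agent.MaxSub.OrthFour.Omega
import Cfsg.Agent.MaxSub.OrthFour.EGen
import Cfsg.Agent.MaxSub.OrthFour.HalfBig

/-!
Plane isometries of one site and elementary facts on sites, for the kernel on a plane.
-/

set_option autoImplicit false
set_option linter.unusedSectionVars false
set_option linter.unusedVariables false
set_option linter.style.haveILetI false
set_option linter.unnecessarySeqFocus false
set_option linter.unusedSimpArgs false

namespace Cfsg.Agent.MaxSub.OrthFour.PlaneKernel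

open Matrix Cfsg.Geo Cfsg.Agent.NotMax Cfsg.Agent.GeoClasses Cfsg.Agent.MaxSub.OrthFour
open Cfsg.Agent.MaxSub.TensorPowSp (gV fG site_injective siteHom siteHom_apply)
open Cfsg.Agent.MaxSub.OrthWreathBig (gB cr sieM cr_mul cr_mulVec)
open scoped MatrixGroups Matrix

variable {F : Type*} [Field F] {t : ℕ} {δ : F}

/-! ### One site -/

/-- Matrices agreeing on a frame are equal. -/
lemma frame_ext {f : Fin 4 → Fin 4 → F} (hf : IsFrame δ f) {X Y : M4 F}
    (h : ∀ l, X *ᵥ f l = Y *ᵥ f l) : X = Y := by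
  obtain ⟨Fm, hFm⟩ : ∃ Fm : M4 F, Fm = (Matrix.of f)ᵀ := ⟨_, rfl⟩
  have he : Fmᵀ * G4 δ * Fm = Matrix.diagonal fun l => gB (G4 δ) (f l) (f l) := by
    ext l m
    have e : (Fmᵀ * G4 δ * Fm) l m = gB (G4 δ) (f l) (f m) := by
      rw [OrthWreathBig.gB_apply, fG]
      simp only [hFm, Matrix.mul_apply, Matrix.vecMul, dotProduct, Matrix.transpose_apply,
        Matrix.of_apply]
    rw [e]
    by_cases hlm : l = m
    · subst hlm; rw [Matrix.diagonal_apply_eq]
    · rw [Matrix.diagonal_apply_ne _ hlm, hf.2 l m hlm]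
  have hdet : IsUnit Fm.det := by
    rw [isUnit_iff_ne_zero]
    intro h0
    have := congrArg Matrix.det he
    rw [det_mul, h0, mul_zero, det_diagonal] at this
    exact Finset.prod_ne_zero_iff.2 (fun l _ => hf.1 l) this.symm
  have e : X * Fm = Y * Fm := by
    ext p l
    simpa [hFm, Matrix.mul_apply, Matrix.mulVec, dotProduct] using congrFun (h l) p
  have := congrArg (· * Fm⁻¹) e
  simpa [mul_assoc, mul_nonsing_inv Fm hdet] using this

lemma cr_frame {f : Fin 4 → Fin 4 → F} (hf : IsFrame δ f) (l m : Fin 4) :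
    cr (G4 δ) (f l) (f l) *ᵥ f m = if l = m then gB (G4 δ) (f l) (f l) • f l else 0 := by
  rw [cr_mulVec]
  by_cases h : l = m
  · subst h; simp
  · simp [h, hf.2 l m h]

lemma frame_sum {f : Fin 4 → Fin 4 → F} (hf : IsFrame δ f) :
    ∑ l, (gB (G4 δ) (f l) (f l))⁻¹ • cr (G4 δ) (f l) (f l) = 1 := by
  refine frame_ext hf fun m => ?_
  rw [Matrix.sum_mulVec, one_mulVec, Finset.sum_eq_single m]
  · rw [smul_mulVec, cr_frame hf, if_pos rfl, inv_smul_smul₀ (hf.1 m)]
  · intro l _ hl; rw [smul_mulVec, cr_frame hf, if_neg hl, smul_zero]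
  · simp

lemma frame_expand {f : Fin 4 → Fin 4 → F} (hf : IsFrame δ f) (v : Fin 4 → F) :
    v = ∑ l, ((gB (G4 δ) (f l) (f l))⁻¹ * gB (G4 δ) (f l) v) • f l := by
  conv_lhs => rw [← one_mulVec v, ← frame_sum hf, Matrix.sum_mulVec]
  exact Finset.sum_congr rfl fun l _ => by rw [smul_mulVec, cr_mulVec, smul_smul]

lemma refl_frame (h2 : (2 : F) ≠ 0) {f : Fin 4 → Fin 4 → F} (hf : IsFrame δ f) (l m : Fin 4) :
    reflW δ (f l) *ᵥ f m = if l = m then -f m else f m := by
  rw [reflW_mulVec]
  by_cases h : l = m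
  · subst h
    rw [if_pos rfl, mul_comm (2 : F), ← mul_assoc, inv_mul_cancel₀ (hf.1 l), one_mul, two_smul]
    abel
  · rw [if_neg h, hf.2 l m h]; simp

/-- The frame with its last two vectors exchanged for others. -/
def newFrame (f : Fin 4 → Fin 4 → F) (x y : Fin 4 → F) : Fin 4 → Fin 4 → F := ![f 0, f 1, x, y]

lemma newFrame_isFrame {f : Fin 4 → Fin 4 → F} (hf : IsFrame δ f) {x y : Fin 4 → F}
    (hx : gB (G4 δ) x x ≠ 0) (hy : gB (G4 δ) y y ≠ 0) (hxy : gB (G4 δ) x y = 0)
    (h0x : gB (G4 δ) (f 0) x = 0) (h1x : gB (G4 δ) (f 1) x = 0)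
    (h0y : gB (G4 δ) (f 0) y = 0) (h1y : gB (G4 δ) (f 1) y = 0) :
    IsFrame δ (newFrame f x y) := by
  have hx0 : gB (G4 δ) x (f 0) = 0 := by rw [gB_symm, h0x]
  have hx1 : gB (G4 δ) x (f 1) = 0 := by rw [gB_symm, h1x]
  have hy0 : gB (G4 δ) y (f 0) = 0 := by rw [gB_symm, h0y]
  have hy1 : gB (G4 δ) y (f 1) = 0 := by rw [gB_symm, h1y]
  have hyx : gB (G4 δ) y x = 0 := by rw [gB_symm, hxy]
  refine ⟨fun l => ?_, fun l m hlm => ?_⟩
  · fin_cases l <;> simp [newFrame, hf.1, hx, hy]
  · have h01 := hf.2 0 1 (by decide)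
    have h10 := hf.2 1 0 (by decide)
    fin_cases l <;> fin_cases m <;>
      simp_all [newFrame]

/-- The minus one of the plane. -/
noncomputable def zW (δ : F) (f : Fin 4 → Fin 4 → F) : M4 F :=
  -(reflW δ (f 0) * reflW δ (f 1))

lemma zW_apply (h2 : (2 : F) ≠ 0) {f : Fin 4 → Fin 4 → F} (hf : IsFrame δ f) :
    zW δ f *ᵥ f 0 = f 0 ∧ zW δ f *ᵥ f 1 = f 1 ∧ zW δ f *ᵥ f 2 = -f 2 ∧ zW δ f *ᵥ f 3 = -f 3 := by
  simp [zW, neg_mulVec, ← mulVec_mulVec, refl_frame h2 hf, mulVec_neg]

lemma zW_iso (h2 : (2 : F) ≠ 0) {f : Fin 4 → Fin 4 → F} (hf : IsFrame δ f) :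
    IsoW δ (zW δ f) := by
  have h0 := HalfBig.refl_iso h2 (hf.1 0)
  have h1 := HalfBig.refl_iso h2 (hf.1 1)
  unfold IsoW at *
  rw [zW, transpose_neg, transpose_mul, neg_mul, neg_mul, mul_neg, neg_neg]
  calc (reflW δ (f 1))ᵀ * (reflW δ (f 0))ᵀ * G4 δ * (reflW δ (f 0) * reflW δ (f 1))
      = (reflW δ (f 1))ᵀ * ((reflW δ (f 0))ᵀ * G4 δ * reflW δ (f 0)) * reflW δ (f 1) := by
        simp only [mul_assoc]
    _ = G4 δ := by rw [h0, h1]

/-- An isometry fixing the first two vectors of a frame. -/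
structure FixTwo (δ : F) (f : Fin 4 → Fin 4 → F) (A : M4 F) : Prop where
  iso : IsoW δ A
  fix0 : A *ᵥ f 0 = f 0
  fix1 : A *ᵥ f 1 = f 1

/-- A rotation of the plane. -/
def IsRot (δ : F) (f : Fin 4 → Fin 4 → F) (A : M4 F) : Prop :=
  ∃ p r : F, A *ᵥ f 2 = p • f 2 + r • f 3 ∧
    A *ᵥ f 3 = (-(r * gB (G4 δ) (f 3) (f 3) / gB (G4 δ) (f 2) (f 2))) • f 2 + p • f 3 ∧
    p * p * gB (G4 δ) (f 2) (f 2) + r * r * gB (G4 δ) (f 3) (f 3) = gB (G4 δ) (f 2) (f 2)

/-- A reflection of the plane, in coordinates. -/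
def IsFlip (δ : F) (f : Fin 4 → Fin 4 → F) (A : M4 F) : Prop :=
  ∃ p r : F, A *ᵥ f 2 = p • f 2 + r • f 3 ∧
    A *ᵥ f 3 = (r * gB (G4 δ) (f 3) (f 3) / gB (G4 δ) (f 2) (f 2)) • f 2 + (-p) • f 3 ∧
    p * p * gB (G4 δ) (f 2) (f 2) + r * r * gB (G4 δ) (f 3) (f 3) = gB (G4 δ) (f 2) (f 2)

variable {f : Fin 4 → Fin 4 → F} {A B : M4 F}

lemma FixTwo.cases (hf : IsFrame δ f) (hA : FixTwo δ f A) :
    IsRot δ f A ∨ IsFlip δ f A := by
  have hexp : ∀ l, gB (G4 δ) (f 0) (f l) = 0 → gB (G4 δ) (f 1) (f l) = 0 →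
      ∃ p r : F, A *ᵥ f l = p • f 2 + r • f 3 := by
    intro l h0 h1
    have e0 : gB (G4 δ) (f 0) (A *ᵥ f l) = 0 := by
      rw [← hA.fix0, hA.iso.gB_eq, h0]
    have e1 : gB (G4 δ) (f 1) (A *ᵥ f l) = 0 := by
      rw [← hA.fix1, hA.iso.gB_eq, h1]
    refine ⟨(gB (G4 δ) (f 2) (f 2))⁻¹ * gB (G4 δ) (f 2) (A *ᵥ f l),
      (gB (G4 δ) (f 3) (f 3))⁻¹ * gB (G4 δ) (f 3) (A *ᵥ f l), (frame_expand hf (A *ᵥ f l)).trans ?_⟩
    rw [Fin.sum_univ_four, e0, e1, mul_zero, mul_zero, zero_smul, zero_smul, zero_add, zero_add]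
  obtain ⟨p, r, h2e⟩ := hexp 2 (hf.2 0 2 (by decide)) (hf.2 1 2 (by decide))
  obtain ⟨q, s, h3e⟩ := hexp 3 (hf.2 0 3 (by decide)) (hf.2 1 3 (by decide))
  have a23 := hf.2 2 3 (by decide)
  have a32 := hf.2 3 2 (by decide)
  have c2 := hA.iso.gB_eq (f 2) (f 2)
  have c3 := hA.iso.gB_eq (f 3) (f 3)
  have c23 := hA.iso.gB_eq (f 2) (f 3)
  rw [h2e] at c2
  rw [h3e] at c3
  rw [h2e, h3e, a23] at c23
  simp only [map_add, map_smul, LinearMap.add_apply, LinearMap.smul_apply, smul_eq_mul, a23, a32]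
    at c2 c3 c23
  have hC2 := hf.1 2
  have hC3 := hf.1 3
  set C2 := gB (G4 δ) (f 2) (f 2)
  set C3 := gB (G4 δ) (f 3) (f 3)
  obtain ⟨d, hd⟩ : ∃ d, d = p * s - r * q := ⟨_, rfl⟩
  have hq : q * C2 = -(d * r * C3) := by rw [hd]; linear_combination p * c23 - q * c2
  have hs : s = d * p := by
    refine mul_left_cancel₀ hC2 ?_
    rw [hd]; linear_combination r * c23 - s * c2
  have hdd : d = 1 ∨ d = -1 := by
    refine mul_self_eq_one_iff.1 (mul_left_cancel₀ (mul_ne_zero hC2 hC3) ?_)
    rw [hs] at c3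
    linear_combination C2 * c3 - (q * C2 - d * r * C3) * hq - d * d * C3 * c2
  rcases hdd with hd1 | hd1 <;> rw [hd1] at hq hs
  · refine Or.inl ⟨p, r, h2e, ?_, by linear_combination c2⟩
    rw [h3e, hs, one_mul]
    congr 2
    rw [← neg_div]
    exact (eq_div_iff hC2).2 (by linear_combination hq)
  · refine Or.inr ⟨p, r, h2e, ?_, by linear_combination c2⟩
    rw [h3e, hs, neg_one_mul]
    congr 2
    exact (eq_div_iff hC2).2 (by linear_combination hq)

lemma IsRot.mul (hf : IsFrame δ f) (hA : IsRot δ f A) (hB : IsRot δ f B) :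
    IsRot δ f (A * B) := by
  obtain ⟨p, r, a2, a3, ac⟩ := hA
  obtain ⟨p', r', b2, b3, bc⟩ := hB
  have hC2 := hf.1 2
  refine ⟨p' * p - r' * r * gB (G4 δ) (f 3) (f 3) / gB (G4 δ) (f 2) (f 2), p' * r + r' * p,
    ?_, ?_, ?_⟩
  · rw [← mulVec_mulVec, b2, mulVec_add, mulVec_smul, mulVec_smul, a2, a3]
    match_scalars <;> field_simp <;> ring
  · rw [← mulVec_mulVec, b3, mulVec_add, mulVec_smul, mulVec_smul, a2, a3]
    match_scalars <;> field_simp <;> ring
  · field_simp
    linear_combination (p' * p' * gB (G4 δ) (f 2) (f 2) + r' * r' * gB (G4 δ) (f 3) (f 3)) * ac +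
      gB (G4 δ) (f 2) (f 2) * bc

lemma IsRot.comm (hf : IsFrame δ f) (hA : FixTwo δ f A) (hB : FixTwo δ f B)
    (ha : IsRot δ f A) (hb : IsRot δ f B) : A * B = B * A := by
  obtain ⟨p, r, a2, a3, ac⟩ := ha
  obtain ⟨p', r', b2, b3, bc⟩ := hb
  have hC2 := hf.1 2
  refine frame_ext hf fun l => ?_
  fin_cases l
  · simp [← mulVec_mulVec, hA.fix0, hB.fix0]
  · simp [← mulVec_mulVec, hA.fix1, hB.fix1]
  · show (A * B) *ᵥ f 2 = (B * A) *ᵥ f 2
    rw [← mulVec_mulVec, ← mulVec_mulVec, b2, a2, mulVec_add, mulVec_add, mulVec_smul, mulVec_smul,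
      mulVec_smul, mulVec_smul, a2, a3, b2, b3]
    match_scalars <;> field_simp <;> ring
  · show (A * B) *ᵥ f 3 = (B * A) *ᵥ f 3
    rw [← mulVec_mulVec, ← mulVec_mulVec, b3, a3, mulVec_add, mulVec_add, mulVec_smul, mulVec_smul,
      mulVec_smul, mulVec_smul, a2, a3, b2, b3]
    match_scalars <;> field_simp <;> ring

lemma IsRot.left_inv (hf : IsFrame δ f) (hA : IsRot δ f A) (hBA : B * A = 1) :
    IsRot δ f B := by
  obtain ⟨p, r, a2, a3, ac⟩ := hA
  have hC2 := hf.1 2
  refine ⟨p, -r, ?_, ?_, by linear_combination ac⟩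
  · have e : A *ᵥ (p • f 2 + (-r) • f 3) = f 2 := by
      rw [mulVec_add, mulVec_smul, mulVec_smul, a2, a3]
      match_scalars <;> field_simp
      · linear_combination ac
      · ring
    have := congrArg (B *ᵥ ·) e
    simp only [mulVec_mulVec, hBA, one_mulVec] at this
    exact this.symm
  · have e : A *ᵥ ((-(-r * gB (G4 δ) (f 3) (f 3) / gB (G4 δ) (f 2) (f 2))) • f 2 + p • f 3) =
        f 3 := by
      rw [mulVec_add, mulVec_smul, mulVec_smul, a2, a3]
      match_scalars <;> field_simp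
      · ring
      · linear_combination ac
    have := congrArg (B *ᵥ ·) e
    simp only [mulVec_mulVec, hBA, one_mulVec] at this
    exact this.symm

lemma IsRot.one (hf : IsFrame δ f) : IsRot δ f (1 : M4 F) :=
  ⟨1, 0, by simp, by simp, by ring⟩

lemma IsFlip.refl_mul (h2 : (2 : F) ≠ 0) (hf : IsFrame δ f) (hA : IsFlip δ f A) :
    IsRot δ f (reflW δ (f 2) * A) := by
  obtain ⟨p, r, a2, a3, ac⟩ := hA
  refine ⟨-p, r, ?_, ?_, by linear_combination ac⟩
  · rw [← mulVec_mulVec, a2, mulVec_add, mulVec_smul, mulVec_smul, refl_frame h2 hf,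
      refl_frame h2 hf, if_pos rfl, if_neg (by decide)]
    module
  · rw [← mulVec_mulVec, a3, mulVec_add, mulVec_smul, mulVec_smul, refl_frame h2 hf,
      refl_frame h2 hf, if_pos rfl, if_neg (by decide)]
    module

lemma IsRot.invol (h2 : (2 : F) ≠ 0) (hf : IsFrame δ f) (hA : FixTwo δ f A)
    (ha : IsRot δ f A) (hAA : A * A = 1) : A = 1 ∨ A = zW δ f := by
  obtain ⟨p, r, a2, a3, ac⟩ := ha
  have hC2 := hf.1 2
  have e := congrArg (gB (G4 δ) (f 3)) (congrArg (· *ᵥ f 2) hAA)
  have e' := congrArg (gB (G4 δ) (f 2)) (congrArg (· *ᵥ f 2) hAA)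
  rw [← mulVec_mulVec, one_mulVec, a2, mulVec_add, mulVec_smul, mulVec_smul, a2, a3] at e e'
  simp only [map_add, map_smul, smul_eq_mul, hf.2 2 3 (by decide), hf.2 3 2 (by decide)] at e e'
  field_simp at e e'
  have hr : r = 0 := by
    have hpr : p * r = 0 := by
      have : (2 : F) * gB (G4 δ) (f 3) (f 3) * gB (G4 δ) (f 2) (f 2) * (p * r) = 0 := by
        linear_combination e
      exact (mul_eq_zero.1 this).resolve_left (mul_ne_zero (mul_ne_zero h2 (hf.1 3)) hC2)
    rcases mul_eq_zero.1 hpr with h | h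
    · subst h
      exfalso
      have : (2 : F) * gB (G4 δ) (f 2) (f 2) = 0 := by
        linear_combination -e' - ac
      exact mul_ne_zero h2 hC2 this
    · exact h
  subst hr
  have hp : p = 1 ∨ p = -1 := by
    refine mul_self_eq_one_iff.1 (mul_left_cancel₀ hC2 ?_)
    linear_combination ac
  obtain ⟨z0, z1, z2, z3⟩ := zW_apply h2 hf
  rcases hp with rfl | rfl
  · refine Or.inl (frame_ext hf fun l => ?_)
    fin_cases l <;> simp [hA.fix0, hA.fix1, a2, a3]
  · refine Or.inr (frame_ext hf fun l => ?_)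
    fin_cases l <;> simp [hA.fix0, hA.fix1, a2, a3, z0, z1, z2, z3]

lemma refl_not_rot (h2 : (2 : F) ≠ 0) (hf : IsFrame δ f) : ¬ IsRot δ f (reflW δ (f 2)) := by
  rintro ⟨p, r, a2, a3, -⟩
  rw [refl_frame h2 hf, if_pos rfl] at a2
  rw [refl_frame h2 hf, if_neg (by decide)] at a3
  have e2 := congrArg (gB (G4 δ) (f 2)) a2
  have e3 := congrArg (gB (G4 δ) (f 3)) a3
  simp only [map_add, map_smul, map_neg, smul_eq_mul, hf.2 2 3 (by decide),
    hf.2 3 2 (by decide)] at e2 e3
  have hp : p = -1 := mul_right_cancel₀ (hf.1 2) (by linear_combination -e2)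
  subst hp
  exact mul_ne_zero h2 (hf.1 3) (by linear_combination e3)

lemma refl_fixTwo (h2 : (2 : F) ≠ 0) (hf : IsFrame δ f) : FixTwo δ f (reflW δ (f 2)) :=
  ⟨HalfBig.refl_iso h2 (hf.1 2), by rw [refl_frame h2 hf, if_neg (by decide)],
    by rw [refl_frame h2 hf, if_neg (by decide)]⟩

lemma IsFlip.exists_frame (h2 : (2 : F) ≠ 0) (hf : IsFrame δ f) (hA : FixTwo δ f A)
    (ha : IsFlip δ f A) :
    ∃ f', IsFrame δ f' ∧ f' 0 = f 0 ∧ f' 1 = f 1 ∧ A = reflW δ (f' 2) := by
  obtain ⟨p, r, a2, a3, ac⟩ := ha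
  have hC2 := hf.1 2
  suffices hxy : ∃ x y, IsFrame δ (newFrame f x y) ∧ A *ᵥ x = -x ∧ A *ᵥ y = y by
    obtain ⟨x, y, hn, hx, hy⟩ := hxy
    refine ⟨_, hn, rfl, rfl, frame_ext hn fun l => ?_⟩
    rw [refl_frame h2 hn]
    fin_cases l
    · simpa [newFrame] using hA.fix0
    · simpa [newFrame] using hA.fix1
    · simpa [newFrame] using hx
    · simpa [newFrame] using hy
  have z02 := hf.2 0 2 (by decide)
  have z03 := hf.2 0 3 (by decide)
  have z12 := hf.2 1 2 (by decide)
  have z13 := hf.2 1 3 (by decide)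
  have z23 := hf.2 2 3 (by decide)
  have z32 := hf.2 3 2 (by decide)
  by_cases hr : r = 0
  · subst hr
    rcases mul_self_eq_one_iff.1 (mul_left_cancel₀ hC2
      (show gB (G4 δ) (f 2) (f 2) * (p * p) = gB (G4 δ) (f 2) (f 2) * 1 by linear_combination ac))
      with rfl | rfl
    · exact ⟨f 3, f 2, newFrame_isFrame hf (hf.1 3) hC2 z32 z03 z13 z02 z12,
        by simp [a3], by simp [a2]⟩
    · exact ⟨f 2, f 3, newFrame_isFrame hf hC2 (hf.1 3) z23 z02 z12 z03 z13,
        by simp [a2], by simp [a3]⟩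
  · have hp1 : p ≠ 1 := fun e => by
      subst e
      exact mul_ne_zero (mul_self_ne_zero.2 hr) (hf.1 3) (by linear_combination ac)
    have hp2 : 1 + p ≠ 0 := fun e => by
      obtain rfl : p = -1 := by linear_combination e
      exact mul_ne_zero (mul_self_ne_zero.2 hr) (hf.1 3) (by linear_combination ac)
    refine ⟨(1 - p) • f 2 - r • f 3, (1 + p) • f 2 + r • f 3,
      newFrame_isFrame hf ?_ ?_ ?_ ?_ ?_ ?_ ?_, ?_, ?_⟩
    · have e : gB (G4 δ) ((1 - p) • f 2 - r • f 3) ((1 - p) • f 2 - r • f 3) =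
          2 * (1 - p) * gB (G4 δ) (f 2) (f 2) := by
        simp [z23, z32]; linear_combination ac
      rw [e]; exact mul_ne_zero (mul_ne_zero h2 (sub_ne_zero.2 hp1.symm)) hC2
    · have e : gB (G4 δ) ((1 + p) • f 2 + r • f 3) ((1 + p) • f 2 + r • f 3) =
          2 * (1 + p) * gB (G4 δ) (f 2) (f 2) := by
        simp [z23, z32]; linear_combination ac
      rw [e]; exact mul_ne_zero (mul_ne_zero h2 hp2) hC2
    · simp [z23, z32]; linear_combination -ac
    · simp [z02, z03]
    · simp [z12, z13]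
    · simp [z02, z03]
    · simp [z12, z13]
    · rw [mulVec_sub, mulVec_smul, mulVec_smul, a2, a3]
      match_scalars <;> field_simp
      · linear_combination -ac
      · ring
    · rw [mulVec_add, mulVec_smul, mulVec_smul, a2, a3]
      match_scalars <;> field_simp
      · linear_combination ac
      · ring

lemma sq_one_of_comm (h2 : (2 : F) ≠ 0) (hf : IsFrame δ f) (hA : FixTwo δ f A)
    (hc : A * reflW δ (f 2) = reflW δ (f 2) * A) : A * A = 1 := by
  have hR : reflW δ (f 2) *ᵥ f 3 = f 3 := by rw [refl_frame h2 hf, if_neg (by decide)]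
  have hR2 : reflW δ (f 2) *ᵥ f 2 = -f 2 := by rw [refl_frame h2 hf, if_pos rfl]
  have e := congrArg (gB (G4 δ) (f 3)) (congrArg (· *ᵥ f 2) hc)
  rw [← mulVec_mulVec, ← mulVec_mulVec, hR2, mulVec_neg] at e
  have hC2 := hf.1 2
  have done : ∀ p r q s : F, A *ᵥ f 2 = p • f 2 + r • f 3 → A *ᵥ f 3 = q • f 2 + s • f 3 →
      p * p * gB (G4 δ) (f 2) (f 2) + r * r * gB (G4 δ) (f 3) (f 3) = gB (G4 δ) (f 2) (f 2) →
      (r = 0 → q = 0 ∧ s * s = p * p) → A * A = 1 := by
    intro p r q s a2 a3 ac hh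
    rw [a2, mulVec_add, mulVec_smul, mulVec_smul, hR2, hR] at e
    simp [hf.2 3 2 (by decide)] at e
    have hr : r = 0 := by
      have : (2 : F) * gB (G4 δ) (f 3) (f 3) * r = 0 := by linear_combination -e
      exact (mul_eq_zero.1 this).resolve_left (mul_ne_zero h2 (hf.1 3))
    obtain ⟨hq, hs⟩ := hh hr
    subst hr hq
    have hpp : p * p = 1 := mul_left_cancel₀ hC2 (by linear_combination ac)
    refine frame_ext hf fun l => ?_
    fin_cases l
    · simp [← mulVec_mulVec, hA.fix0]
    · simp [← mulVec_mulVec, hA.fix1]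
    · simp [← mulVec_mulVec, a2, mulVec_smul, smul_smul, hpp]
    · simp [← mulVec_mulVec, a3, mulVec_smul, smul_smul, hs, hpp]
  rcases hA.cases hf with ⟨p, r, a2, a3, ac⟩ | ⟨p, r, a2, a3, ac⟩
  · exact done p r _ _ a2 a3 ac fun hr => ⟨by simp [hr], rfl⟩
  · exact done p r _ _ a2 a3 ac fun hr => ⟨by simp [hr], by ring⟩

/-! ### Sites -/

lemma gV_ne_zero (hd : ¬ IsSquare δ) (a : Fin t → Fin 4) : (∏ i, wt δ (a i)) ≠ 0 :=
  Finset.prod_ne_zero_iff.2 fun i _ => wt_ne_zero hd _

lemma gV_cancel (hd : ¬ IsSquare δ) {X Y : MV F t}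
    (h : gV (G4 δ) t * X = gV (G4 δ) t * Y) : X = Y := by
  rw [gV_diag] at h
  ext a b
  have := congrFun (congrFun h a) b
  rw [Matrix.diagonal_mul, Matrix.diagonal_mul] at this
  exact mul_left_cancel₀ (gV_ne_zero hd a) this

lemma site_cr_adj (i : Fin t) (r : Fin 4 → F) :
    (site i (cr (G4 δ) r r))ᵀ * gV (G4 δ) t = gV (G4 δ) t * site i (cr (G4 δ) r r) := by
  rw [site, gV, pureMat_transpose, pureMat_mul, pureMat_mul]
  congr 1
  funext l
  by_cases h : l = i
  · subst h; simp [HalfBig.cr_transpose]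
  · simp [h]

lemma trivSlot_comm (hd : ¬ IsSquare δ) {g : MV F t} (hg : IsoV δ g) (i : Fin t)
    (r : Fin 4 → F) (h : g * site i (cr (G4 δ) r r) = site i (cr (G4 δ) r r)) :
    site i (cr (G4 δ) r r) * g = site i (cr (G4 δ) r r) := by
  set E := site i (cr (G4 δ) r r) with hE
  refine gV_cancel hd ?_
  have hEG : Eᵀ * gV (G4 δ) t = gV (G4 δ) t * E := site_cr_adj i r
  have h' : Eᵀ * gᵀ = Eᵀ := by rw [← transpose_mul, h]
  calc gV (G4 δ) t * (E * g) = Eᵀ * gV (G4 δ) t * g := by rw [← mul_assoc, hEG]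
    _ = Eᵀ * gᵀ * gV (G4 δ) t * g := by rw [h']
    _ = Eᵀ * (gᵀ * gV (G4 δ) t * g) := by simp only [mul_assoc]
    _ = gV (G4 δ) t * E := by rw [hg, hEG]

lemma isoW_of_site (hd : ¬ IsSquare δ) (i : Fin t) {A : M4 F} (h : IsoV δ (site i A : MV F t)) :
    IsoW δ A := by
  ext p q
  have e := congrFun (congrFun h (Function.update (fun _ => 0) i p))
    (Function.update (fun _ => 0) i q)
  simp only [site, gV, pureMat_transpose, pureMat_mul, pureMat] at e
  rw [← Finset.mul_prod_erase _ _ (Finset.mem_univ i),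
    ← Finset.mul_prod_erase _ _ (Finset.mem_univ i)] at e
  simp only [Function.update_self] at e
  rw [Finset.prod_congr rfl (g := fun _ : Fin t => wt δ 0) (fun l hl => by
      rw [Function.update_of_ne (Finset.ne_of_mem_erase hl),
        Function.update_of_ne (Finset.ne_of_mem_erase hl),
        Function.update_of_ne (Finset.ne_of_mem_erase hl)]
      simp [G4])] at e
  have e2 : ∏ l ∈ Finset.univ.erase i, G4 δ (Function.update (fun _ => (0 : Fin 4)) i p l)
      (Function.update (fun _ => (0 : Fin 4)) i q l) = ∏ l ∈ Finset.univ.erase i, wt δ 0 :=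
    Finset.prod_congr rfl fun l hl => by
      rw [Function.update_of_ne (Finset.ne_of_mem_erase hl),
        Function.update_of_ne (Finset.ne_of_mem_erase hl)]
      simp [G4]
  rw [e2, Finset.prod_const] at e
  exact mul_right_cancel₀ (pow_ne_zero _ (wt_ne_zero hd 0)) e

lemma mem_Wr_site {g : GV F t} (i : Fin t) {A : M4 F} (hA : A.det ≠ 0)
    (hg : (g : MV F t) = site i A) : g ∈ Wr F t := by
  refine Subgroup.subset_closure (Or.inl
    ⟨Function.update (1 : Fin t → GL (Fin 4) F) i
      (Matrix.GeneralLinearGroup.mkOfDetNeZero A hA), fun x y => ?_⟩)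
  rw [hg, site, pureMat]
  refine Finset.prod_congr rfl fun l _ => ?_
  by_cases hl : l = i
  · subst hl; simp
  · simp [hl]

lemma exists_pure_perm [Finite F] {g : GV F t} (hg : g ∈ Wr F t) :
    ∃ (As : Fin t → M4 F) (π : Equiv.Perm (Fin t)),
      (g : MV F t) = pureMat As * factorPerm 4 π := by
  rw [Wr, tensorWreathStandard, ← Subgroup.mem_toSubmonoid,
    Subgroup.closure_toSubmonoid_of_finite] at hg
  induction hg using Submonoid.closure_induction with
  | mem x hx =>
    rcases hx with ⟨gs, hgs⟩ | ⟨σ, hσ⟩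
    · exact ⟨fun l => (gs l : M4 F), 1, by rw [factorPerm_one, mul_one]; exact Matrix.ext hgs⟩
    · exact ⟨fun _ => 1, σ, by rw [pureMat_one, one_mul]; exact Matrix.ext hσ⟩
  | one => exact ⟨fun _ => 1, 1, by rw [factorPerm_one, mul_one, pureMat_one, Units.val_one]⟩
  | mul x y _ _ hx hy =>
    obtain ⟨As, π, ex⟩ := hx
    obtain ⟨Bs, ρ, ey⟩ := hy
    refine ⟨fun l => As l * Bs (π.symm l), π * ρ, ?_⟩
    rw [Units.val_mul, ex, ey, ← pureMat_mul, ← factorPerm_mul]
    have e : (factorPerm 4 π : MV F t) * pureMat Bs =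
        pureMat (fun l => Bs (π.symm l)) * factorPerm 4 π := by
      rw [pureMat_mul_factorPerm]; simp
    rw [mul_assoc, ← mul_assoc (factorPerm 4 π), e]
    simp only [mul_assoc]

/-- A monomial element fixing a slot and its partner acts at that site only. -/
lemma exists_site_of_Wr [Finite F] {g : GV F t} (hg : g ∈ Wr F t) (i : Fin t) {C : M4 F}
    (hC : C ≠ 0) (hr : (g : MV F t) * site i C = site i C)
    (hl : site i C * (g : MV F t) = site i C) : ∃ A, (g : MV F t) = site i A := by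
  obtain ⟨As, π, e⟩ := exists_pure_perm hg
  obtain ⟨p0, q0, hpq⟩ : ∃ p q, C p q ≠ 0 := by
    by_contra hno
    exact hC (Matrix.ext fun p q => by_contra fun h => hno ⟨p, q, h⟩)
  obtain ⟨Bs, hBs⟩ : ∃ Bs : Fin t → M4 F,
      Bs = fun l => Function.update (1 : Fin t → M4 F) i C l * As l := ⟨_, rfl⟩
  have hB : pureMat Bs * factorPerm 4 π = (site i C : MV F t) := by
    rw [hBs, ← pureMat_mul, mul_assoc, ← e]; exact hl
  have hent : ∀ a b : Fin t → Fin 4, ∏ m, Bs m (a m) (b (π.symm m)) = site i C a b := by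
    intro a b
    rw [← hB, Matrix.mul_apply, Finset.sum_eq_single (fun m => b (π.symm m))]
    · simp [pureMat, factorPerm, funext_iff]
    · intro y _ hy
      rw [factorPerm, if_neg, mul_zero]
      rintro rfl
      exact hy (funext fun m => by simp)
    · simp
  have hpt : ∀ m, m ≠ i → ∀ x y : Fin 4,
      ∃ K, Bs m x ((Function.update (Function.update (fun _ => (0 : Fin 4)) i q0) m y) (π.symm m))
        * K = (if x = y then C p0 q0 else 0) ∧ K = ∏ l ∈ Finset.univ.erase m,
          Bs l ((Function.update (fun _ => (0 : Fin 4)) i p0) l)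
            ((Function.update (Function.update (fun _ => (0 : Fin 4)) i q0) m y) (π.symm l)) := by
    intro m hm x y
    refine ⟨_, ?_, rfl⟩
    have h1 := hent (Function.update (Function.update (fun _ => (0 : Fin 4)) i p0) m x)
      (Function.update (Function.update (fun _ => (0 : Fin 4)) i q0) m y)
    rw [← Finset.mul_prod_erase _ _ (Finset.mem_univ m), Function.update_self,
      Finset.prod_congr rfl (fun l hl' => by
        rw [Function.update_of_ne (Finset.ne_of_mem_erase hl')])] at h1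
    rw [h1]
    by_cases hxy : x = y
    · subst hxy
      rw [if_pos rfl, site_apply_of_eq]
      · simp [Function.update_of_ne hm.symm]
      · intro l hl'
        by_cases hlm : l = m
        · subst hlm; simp
        · simp [Function.update_of_ne hlm, Function.update_of_ne hl']
    · rw [if_neg hxy]
      exact site_apply_of_ne C hm (by simpa using hxy)
  have hπ : ∀ m, m ≠ i → π.symm m = m := by
    intro m hm
    by_contra hne
    obtain ⟨K0, h00, -⟩ := hpt m hm 0 0
    obtain ⟨K1, h11, hK1⟩ := hpt m hm 1 1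
    obtain ⟨K1', h01, hK1'⟩ := hpt m hm 0 1
    rw [← hK1] at hK1'; subst hK1'
    rw [Function.update_of_ne hne] at h00 h01 h11
    rw [if_pos rfl] at h00 h11
    rw [if_neg (by decide)] at h01
    rcases mul_eq_zero.1 h01 with h | h
    · rw [h, zero_mul] at h00; exact hpq h00.symm
    · rw [h, mul_zero] at h11; exact hpq h11.symm
  have hπ1 : π = 1 := by
    refine Equiv.ext fun m => ?_
    have h1 : ∀ m, π.symm m = m := fun m => by
      by_cases hm : m = i
      · subst hm
        by_contra hne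
        exact hne (π.symm.injective (hπ _ hne))
      · exact hπ m hm
    conv_lhs => rw [← h1 m]
    simp
  have hdiag : ∀ m, m ≠ i → ∃ c : F, As m = c • (1 : M4 F) := by
    intro m hm
    have hBm : Bs m = As m := by simp [hBs, hm]
    subst hπ1
    obtain ⟨K, hK0, hK⟩ := hpt m hm 0 0
    have hK' : ∀ y, (∏ l ∈ Finset.univ.erase m,
        Bs l ((Function.update (fun _ => (0 : Fin 4)) i p0) l)
          ((Function.update (Function.update (fun _ => (0 : Fin 4)) i q0) m y)
            ((1 : Equiv.Perm (Fin t)).symm l))) = K := fun y => by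
      rw [hK]
      refine Finset.prod_congr rfl fun l hl' => ?_
      rw [show (1 : Equiv.Perm (Fin t)).symm l = l from rfl,
        Function.update_of_ne (Finset.ne_of_mem_erase hl'),
        Function.update_of_ne (Finset.ne_of_mem_erase hl')]
    have hKne : K ≠ 0 := fun h => by rw [h, mul_zero, if_pos rfl] at hK0; exact hpq hK0.symm
    refine ⟨C p0 q0 / K, Matrix.ext fun x y => ?_⟩
    obtain ⟨K', hxy, hK''⟩ := hpt m hm x y
    rw [hK''.trans (hK' y)] at hxy
    rw [show (1 : Equiv.Perm (Fin t)).symm m = m from rfl, Function.update_self, hBm] at hxy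
    rw [Matrix.smul_apply, Matrix.one_apply, smul_eq_mul, mul_ite, mul_one, mul_zero,
      div_eq_mul_inv]
    by_cases h : x = y
    · rw [if_pos h] at hxy ⊢; rw [← hxy, mul_assoc, mul_inv_cancel₀ hKne, mul_one]
    · rw [if_neg h] at hxy ⊢
      exact (mul_eq_zero.1 hxy).resolve_right hKne
  choose c hc using hdiag
  refine ⟨(∏ l, if h : l = i then (1 : F) else c l h) • As i, ?_⟩
  rw [e, hπ1, factorPerm_one, mul_one, site_smul, site, ← pureMat_smul]
  congr 1
  funext l
  by_cases h : l = i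
  · subst h; simp
  · simp [h, hc l h]

/-- A matrix commuting with every other site acts at one site. -/
lemma exists_site_of_comm (i : Fin t) {y : MV F t}
    (h : ∀ j, j ≠ i → ∀ X : M4 F, y * site j X = site j X * y) : ∃ A, y = site i A := by
  have hA : ∀ j, j ≠ i → ∀ (a b : Fin t → Fin 4), a j ≠ b j → y a b = 0 := by
    intro j hj a b hab
    have e := congrFun (congrFun (h j hj (Matrix.single (b j) (b j) (1 : F))) a) b
    rw [Matrix.mul_apply, Matrix.mul_apply, Finset.sum_eq_single b, Finset.sum_eq_zero] at e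
    · rw [site_apply_of_eq _ (fun _ _ => rfl), Matrix.single_apply_same, mul_one] at e
      exact e
    · intro c _
      by_cases hc : ∀ l, l ≠ j → a l = c l
      · rw [site_apply_of_eq _ hc, Matrix.single_apply, if_neg (fun hh => hab hh.1.symm), zero_mul]
      · push Not at hc
        obtain ⟨l, hl, hne⟩ := hc
        rw [site_apply_of_ne _ hl hne, zero_mul]
    · intro c _ hc
      by_cases hc' : ∀ l, l ≠ j → c l = b l
      · rw [site_apply_of_eq _ hc', Matrix.single_apply, if_neg, mul_zero]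
        intro hh
        exact hc (funext fun l => by
          by_cases hlj : l = j
          · subst hlj; exact hh.1.symm
          · exact hc' l hlj)
      · push Not at hc'
        obtain ⟨l, hl, hne⟩ := hc'
        rw [site_apply_of_ne _ hl hne, mul_zero]
    · simp
  have hB : ∀ j, j ≠ i → ∀ (a b : Fin t → Fin 4) (v : Fin 4), a j = b j →
      y a b = y (Function.update a j v) (Function.update b j v) := by
    intro j hj a b v hab
    have e := congrFun (congrFun (h j hj (Matrix.single (a j) v (1 : F))) a) (Function.update b j v)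
    rw [Matrix.mul_apply, Matrix.mul_apply, Finset.sum_eq_single b,
      Finset.sum_eq_single (Function.update a j v)] at e
    · rw [site_apply_of_eq _ (fun l hl => (Function.update_of_ne hl v b).symm),
        site_apply_of_eq _ (fun l hl => (Function.update_of_ne hl v a).symm),
        Function.update_self, Function.update_self, ← hab, Matrix.single_apply_same,
        mul_one, one_mul] at e
      exact e
    · intro c _ hc
      by_cases hc' : ∀ l, l ≠ j → a l = c l
      · rw [site_apply_of_eq _ hc', Matrix.single_apply, if_neg, zero_mul]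
        intro hh
        exact hc (funext fun l => by
          by_cases hlj : l = j
          · subst hlj; rw [Function.update_self]; exact hh.2.symm
          · rw [Function.update_of_ne hlj]; exact (hc' l hlj).symm)
      · push Not at hc'
        obtain ⟨l, hl, hne⟩ := hc'
        rw [site_apply_of_ne _ hl hne, zero_mul]
    · simp
    · intro c _ hc
      by_cases hc' : ∀ l, l ≠ j → c l = Function.update b j v l
      · rw [site_apply_of_eq _ hc', Function.update_self, Matrix.single_apply, if_neg, mul_zero]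
        intro hh
        exact hc (funext fun l => by
          by_cases hlj : l = j
          · subst hlj; rw [← hab]; exact hh.1.symm
          · rw [hc' l hlj, Function.update_of_ne hlj])
      · push Not at hc'
        obtain ⟨l, hl, hne⟩ := hc'
        rw [site_apply_of_ne _ hl hne, mul_zero]
    · simp
  refine ⟨Matrix.of fun p q => y (Function.update (fun _ => 0) i p)
    (Function.update (fun _ => 0) i q), ?_⟩
  ext a b
  by_cases hab : ∀ l, l ≠ i → a l = b l
  · rw [site_apply_of_eq _ hab, Matrix.of_apply]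
    have hU : ∀ U : Finset (Fin t), i ∉ U →
        y a b = y (fun l => if l ∈ U then 0 else a l) (fun l => if l ∈ U then 0 else b l) := by
      intro U
      induction U using Finset.induction with
      | empty => simp
      | insert m U hm ih =>
        intro hi
        rw [Finset.mem_insert, not_or] at hi
        rw [ih hi.2, hB m (Ne.symm hi.1) _ _ 0 (by simp [hm, hab m (Ne.symm hi.1)])]
        congr 1
        · congr 1
          funext l
          by_cases hl : l = m
          · subst hl; simp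
          · simp [hl]
        · funext l
          by_cases hl : l = m
          · subst hl; simp
          · simp [hl]
    rw [hU (Finset.univ.erase i) (by simp)]
    congr 1
    · congr 1
      funext l
      by_cases hl : l = i
      · subst hl; simp
      · simp [hl]
    · funext l
      by_cases hl : l = i
      · subst hl; simp
      · simp [hl]
  · push Not at hab
    obtain ⟨l, hl, hne⟩ := hab
    rw [site_apply_of_ne _ hl hne, hA l hl a b hne]

/-- The matrices of the root elements of one site. -/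
def sieSet (δ : F) : Set (M4 F) :=
  {A | ∃ w x, w ≠ 0 ∧ gB (G4 δ) w w = 0 ∧ gB (G4 δ) w x = 0 ∧ gB (G4 δ) x x ≠ 0 ∧
    A = 1 + sieM (G4 δ) w x}

lemma comm_site_of_sie (hspan : Algebra.adjoin F (sieSet δ) = ⊤) (j : Fin t) {y : MV F t}
    (h : ∀ A ∈ sieSet δ, y * site j A = site j A * y) (X : M4 F) :
    y * site j X = site j X * y := by
  have hX : X ∈ Algebra.adjoin F (sieSet δ) := by rw [hspan]; exact Algebra.mem_top
  induction hX using Algebra.adjoin_induction with
  | mem x hx => exact h x hx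
  | algebraMap r =>
    rw [Algebra.algebraMap_eq_smul_one, site_smul, site_one, mul_smul_comm, smul_mul_assoc,
      mul_one, one_mul]
  | add a b _ _ ha hb => rw [site_add, mul_add, add_mul, ha, hb]
  | mul a b _ _ ha hb => rw [← site_mul, ← mul_assoc, ha, mul_assoc, hb, mul_assoc]

lemma sie_iso (h2 : (2 : F) ≠ 0) {w x : Fin 4 → F} (hw : gB (G4 δ) w w = 0)
    (hwx : gB (G4 δ) w x = 0) (hx : gB (G4 δ) x x ≠ 0) :
    IsoW δ ((1 : M4 F) + sieM (G4 δ) w x) := by
  obtain ⟨hy, e⟩ := HalfBig.sieM_eq_refl_mul h2 hw hwx hx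
  rw [e]
  have h0 := HalfBig.refl_iso h2 hx
  have h1 := HalfBig.refl_iso h2 hy
  unfold IsoW at *
  rw [transpose_mul]
  calc (reflW δ _)ᵀ * (reflW δ x)ᵀ * G4 δ * (reflW δ x * reflW δ _)
      = (reflW δ (x + (gB (G4 δ) x x / 2) • w))ᵀ *
          ((reflW δ x)ᵀ * G4 δ * reflW δ x) * reflW δ (x + (gB (G4 δ) x x / 2) • w) := by
        simp only [mul_assoc]
    _ = G4 δ := by rw [h0, h1]

lemma sie_pow (h2 : (2 : F) ≠ 0) {w x : Fin 4 → F} (hw : gB (G4 δ) w w = 0)
    (hwx : gB (G4 δ) w x = 0) (n : ℕ) :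
    ((1 : M4 F) + sieM (G4 δ) w x) ^ n = 1 + sieM (G4 δ) w ((n : F) • x) := by
  induction n with
  | zero =>
    rw [pow_zero, Nat.cast_zero, zero_smul, show (0 : Fin 4 → F) = (0 : F) • w from (zero_smul F w).symm,
      sieM_self hw, add_zero]
  | succ n ih =>
    rw [pow_succ, ih, one_add_sieM_mul h2 hw (by rw [map_smul, hwx, smul_zero]) hwx, Nat.cast_succ,
      add_smul, one_smul]

/-- A second anisotropic vector orthogonal to a root datum. -/
lemma exists_partner (hd : ¬ IsSquare δ) {w x : Fin 4 → F} (hw0 : w ≠ 0)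
    (hw : gB (G4 δ) w w = 0) (hwx : gB (G4 δ) w x = 0) (hx : gB (G4 δ) x x ≠ 0) :
    ∃ y, gB (G4 δ) w y = 0 ∧ gB (G4 δ) x y = 0 ∧ gB (G4 δ) y y ≠ 0 := by
  by_contra hno
  push Not at hno
  have hxw : gB (G4 δ) x w = 0 := by rw [gB_symm, hwx]
  have hnd : ∀ v, (∀ u, gB (G4 δ) v u = 0) → v = 0 := by
    intro v hv
    have h0 : δ ≠ 0 := ne_zero_of_nsq hd
    funext l
    have := hv (Pi.single l 1)
    rw [gB_diag] at this
    fin_cases l <;> simp at this ⊢
    all_goals first
      | exact this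
      | exact this.resolve_left h0
  let L : (Fin 4 → F) →ₗ[F] F × F := (gB (G4 δ) w).prod (gB (G4 δ) x)
  have hker : 2 ≤ Module.finrank F (LinearMap.ker L) := by
    have h1 := LinearMap.finrank_range_add_finrank_ker L
    have h3 := Submodule.finrank_le (LinearMap.range L)
    simp [Module.finrank_prod] at h1 h3
    omega
  obtain ⟨y, hyL, hy⟩ : ∃ y ∈ LinearMap.ker L, y ∉ F ∙ w := by
    by_contra hc
    push Not at hc
    have := (Submodule.finrank_mono (show LinearMap.ker L ≤ F ∙ w from hc)).trans_eq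
      (finrank_span_singleton hw0)
    omega
  have hwy : gB (G4 δ) w y = 0 := congrArg Prod.fst (LinearMap.mem_ker.1 hyL)
  have hxy : gB (G4 δ) x y = 0 := congrArg Prod.snd (LinearMap.mem_ker.1 hyL)
  have hyy := hno y hwy hxy
  have hyw : gB (G4 δ) y w = 0 := by rw [gB_symm, hwy]
  have hyx : gB (G4 δ) y x = 0 := by rw [gB_symm, hxy]
  let K : (Fin 4 → F) →ₗ[F] F × F := (gB (G4 δ) w).prod (gB (G4 δ) y)
  have hrange : LinearMap.range K = ⊤ := by
    rw [← Subspace.dualAnnihilator_inj, Submodule.dualAnnihilator_top, eq_bot_iff]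
    intro φ hφ
    rw [Submodule.mem_bot]
    have key : φ (1, 0) • w + φ (0, 1) • y = 0 := hnd _ fun u => by
      have hu := (Submodule.mem_dualAnnihilator φ).1 hφ _ (LinearMap.mem_range_self K u)
      have : K u = gB (G4 δ) w u • ((1, 0) : F × F) + gB (G4 δ) y u • ((0, 1) : F × F) := by
        ext <;> simp [K]
      rw [this, map_add, map_smul, map_smul, smul_eq_mul, smul_eq_mul] at hu
      simp only [map_add, map_smul, LinearMap.add_apply, LinearMap.smul_apply, smul_eq_mul]
      linear_combination hu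
    have hb : φ (0, 1) = 0 := by_contra fun hb => hy (Submodule.mem_span_singleton.2
      ⟨-(φ (0, 1))⁻¹ * φ (1, 0), by
        have : φ (0, 1) • y = -(φ (1, 0) • w) := eq_neg_of_add_eq_zero_right key
        have h' := congrArg ((φ (0, 1))⁻¹ • ·) this
        simp only [inv_smul_smul₀ hb, smul_neg, smul_smul] at h'
        rw [h', ← neg_smul, neg_mul]⟩)
    have ha : φ (1, 0) = 0 := by
      rw [hb, zero_smul, add_zero, smul_eq_zero] at key
      exact key.resolve_right hw0
    ext <;> simp [ha, hb]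
  have hkerK : Module.finrank F (LinearMap.ker K) = 2 := by
    have h1 := LinearMap.finrank_range_add_finrank_ker K
    rw [hrange, finrank_top] at h1
    simp [Module.finrank_prod] at h1
    omega
  have hli : LinearIndependent F ![w, y, x] := by
    rw [Fintype.linearIndependent_iff]
    intro g hg
    simp [Fin.sum_univ_three] at hg
    have h2' : g 2 = 0 := by
      have := congrArg (gB (G4 δ) x) hg
      simpa [hxw, hxy, hx] using this
    rw [h2', zero_smul, add_zero] at hg
    have h1' : g 1 = 0 := by_contra fun hb => hy (Submodule.mem_span_singleton.2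
      ⟨-(g 1)⁻¹ * g 0, by
        have h' := congrArg ((g 1)⁻¹ • ·) (eq_neg_of_add_eq_zero_right hg)
        simp only [inv_smul_smul₀ hb, smul_neg, smul_smul] at h'
        rw [h', ← neg_smul, neg_mul]⟩)
    have h0' : g 0 = 0 := by
      rw [h1', zero_smul, add_zero, smul_eq_zero] at hg
      exact hg.resolve_right hw0
    intro l; fin_cases l <;> assumption
  have hsub : Submodule.span F (Set.range ![w, y, x]) ≤ LinearMap.ker K := by
    rw [Submodule.span_le, Set.range_subset_iff]
    intro l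
    fin_cases l <;> simp [K, hw, hwy, hyw, hyy, hwx, hyx]
  have := Submodule.finrank_mono hsub
  rw [finrank_span_eq_card hli, hkerK] at this
  simp at this

/-- Two orthogonal singular vectors are proportional. -/
lemma singular_perp (hd : ¬ IsSquare δ) {w v : Fin 4 → F} (hw0 : w ≠ 0)
    (hw : gB (G4 δ) w w = 0) (hwv : gB (G4 δ) w v = 0) (hv : gB (G4 δ) v v = 0) :
    v ∈ F ∙ w := by
  have cross : ∀ u y : Fin 4 → F, u 0 = 0 → gB (G4 δ) u u = 0 → gB (G4 δ) u y = 0 →
      gB (G4 δ) y y = 0 →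
      (u 2 * y 3 - u 3 * y 2) ^ 2 = δ * (y 0 * u 1) ^ 2 ∧
      (u 3 * y 1 - u 1 * y 3) ^ 2 = δ * (y 0 * u 2) ^ 2 ∧
      (u 1 * y 2 - u 2 * y 1) ^ 2 = δ * (y 0 * u 3) ^ 2 := by
    intro u y h0 huu huy hyy
    rw [gB_diag, h0] at huu huy
    rw [gB_diag] at hyy
    refine ⟨?_, ?_, ?_⟩
    · linear_combination (y 2 ^ 2 + y 3 ^ 2) * huu + (u 1 * y 1 - u 2 * y 2 - u 3 * y 3) * huy
        - u 1 ^ 2 * hyy
    · linear_combination (y 1 ^ 2 + y 3 ^ 2) * huu + (u 2 * y 2 - u 1 * y 1 - u 3 * y 3) * huy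
        - u 2 ^ 2 * hyy
    · linear_combination (y 1 ^ 2 + y 2 ^ 2) * huu + (u 3 * y 3 - u 1 * y 1 - u 2 * y 2) * huy
        - u 3 ^ 2 * hyy
  have hzero : ∀ u y : Fin 4 → F, u ≠ 0 → u 0 = 0 → gB (G4 δ) u u = 0 → gB (G4 δ) u y = 0 →
      gB (G4 δ) y y = 0 → y 0 = 0 := by
    intro u y hu h0 huu huy hyy
    by_contra hy0
    obtain ⟨e1, e2, e3⟩ := cross u y h0 huu huy hyy
    have key : ∀ C a : F, C ^ 2 = δ * (y 0 * a) ^ 2 → a = 0 := fun C a e => by_contra fun ha =>
      hd ⟨C / (y 0 * a), by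
        rw [div_mul_div_comm, eq_div_iff (mul_ne_zero (mul_ne_zero hy0 ha) (mul_ne_zero hy0 ha))]
        linear_combination -e⟩
    refine hu (funext fun l => ?_)
    fin_cases l
    · exact h0
    · exact key _ _ e1
    · exact key _ _ e2
    · exact key _ _ e3
  have hwu : ∀ u, u = w 0 • v - v 0 • w → gB (G4 δ) u u = 0 ∧ gB (G4 δ) u w = 0 ∧
      gB (G4 δ) u v = 0 := by
    intro u hu
    have hvw : gB (G4 δ) v w = 0 := by rw [gB_symm, hwv]
    subst hu
    simp [hw, hwv, hv, hvw]
  obtain ⟨uu, uw, uv⟩ := hwu _ rfl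
  by_cases hu : w 0 • v - v 0 • w = 0
  · by_cases h0 : w 0 = 0
    · have hv0 := hzero w v hw0 h0 hw hwv hv
      obtain ⟨e1, e2, e3⟩ := cross w v h0 hw hwv hv
      simp [hv0] at e1 e2 e3
      obtain ⟨l, hl⟩ := Function.ne_iff.1 hw0
      refine Submodule.mem_span_singleton.2 ⟨v l / w l, funext fun m => ?_⟩
      rw [Pi.smul_apply, smul_eq_mul, div_mul_eq_mul_div, div_eq_iff hl]
      fin_cases l <;> fin_cases m <;> simp_all <;>
        first
          | linear_combination e1
          | linear_combination -e1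
          | linear_combination e2
          | linear_combination -e2
          | linear_combination e3
          | linear_combination -e3
    · refine Submodule.mem_span_singleton.2 ⟨v 0 / w 0, ?_⟩
      rw [sub_eq_zero] at hu
      rw [div_eq_inv_mul, mul_smul, ← hu, inv_smul_smul₀ h0]
  · have h00 : (w 0 • v - v 0 • w) 0 = 0 := by simp [mul_comm]
    have hw00 := hzero _ w hu h00 uu uw hw
    have hv00 := hzero _ v hu h00 uu uv hv
    exact absurd (by rw [hw00, hv00, zero_smul, zero_smul, sub_zero]) hu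

/-! ### The derivation trick -/

/-- The quadratic unipotent of a skew map. -/
def expTwo {R : Type*} [Ring R] [Algebra F R] (L K : R) (q : F) : R := 1 + L - (q / 2) • K

/-- If exponentials of two skew maps and of their sum and difference normalise a commutative
subalgebra, then the first commutes with its `p`-th powers. -/
lemma comm_pow_char {R : Type*} [Ring R] [Algebra F R] {p : ℕ} [CharP F p] (h2 : (2 : F) ≠ 0)
    (A : Subalgebra F R) (hA : ∀ a ∈ A, ∀ b ∈ A, a * b = b * a) {X Y K : R} {qx qy : F}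
    (hqy : qy ≠ 0)
    (h : ∀ (L : R) (q : F), (L, q) ∈ ({(X, qx), (Y, qy), (X + Y, qx + qy), (X - Y, qx + qy)} :
      Set (R × F)) → ∀ a ∈ A, expTwo L K q * a * expTwo (-L) K q ∈ A ∧
        expTwo (-L) K q * a * expTwo L K q ∈ A)
    {b : R} (hb : b ∈ A) : X * b ^ p = b ^ p * X := by
  have g : ∀ (L : R) (q : F), (L, q) ∈ ({(X, qx), (Y, qy), (X + Y, qx + qy), (X - Y, qx + qy)} :
      Set (R × F)) → ∀ a ∈ A,
      (2 : F) • (L * a - a * L) + q • (K * a * L - L * a * K) ∈ A := by
    intro L q hL a ha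
    have e : (2 : F) • (L * a - a * L) + q • (K * a * L - L * a * K) =
        expTwo L K q * a * expTwo (-L) K q - expTwo (-L) K q * a * expTwo L K q := by
      simp only [expTwo, mul_add, add_mul, mul_sub, sub_mul, smul_mul_assoc, mul_smul_comm, mul_one,
        one_mul, mul_neg, neg_mul, smul_smul, smul_neg, smul_sub, mul_assoc]
      match_scalars <;> field_simp <;> ring
    rw [e]
    exact A.sub_mem (h L q hL a ha).1 (h L q hL a ha).2
  have hD : ∀ a ∈ A, X * a - a * X ∈ A := by
    intro a ha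
    have gx := g X qx (by simp) a ha
    have gy := g Y qy (by simp) a ha
    have gp := g (X + Y) (qx + qy) (by simp) a ha
    have gm := g (X - Y) (qx + qy) (by simp) a ha
    have hT : ((2 : F) * qy) • (K * a * X - X * a * K) ∈ A := by
      have := A.sub_mem (A.add_mem gp gm) (A.add_mem gx gx)
      convert this using 1
      simp only [mul_add, add_mul, mul_sub, sub_mul, smul_add, smul_sub, add_smul, mul_smul,
        two_smul]
      abel
    have hT' : K * a * X - X * a * K ∈ A := by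
      have := A.smul_mem hT ((2 : F) * qy)⁻¹
      rwa [smul_smul, inv_mul_cancel₀ (mul_ne_zero h2 hqy), one_smul] at this
    have h3 := A.smul_mem (A.sub_mem gx (A.smul_mem hT' qx)) (2 : F)⁻¹
    rw [add_sub_cancel_right, smul_smul, inv_mul_cancel₀ h2, one_smul] at h3
    exact h3
  have hpow : ∀ n : ℕ, X * b ^ n - b ^ n * X = n • (b ^ (n - 1) * (X * b - b * X)) := by
    intro n
    induction n with
    | zero => simp
    | succ n ih =>
      have hc : (X * b - b * X) * b = b * (X * b - b * X) := hA _ (hD b hb) _ hb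
      have hD' : X * b ^ (n + 1) - b ^ (n + 1) * X =
          (X * b ^ n - b ^ n * X) * b + b ^ n * (X * b - b * X) := by
        rw [pow_succ]; noncomm_ring
      rw [hD', ih, add_tsub_cancel_right, succ_nsmul]
      congr 1
      rcases n with _ | n
      · simp
      · rw [add_tsub_cancel_right, smul_mul_assoc, mul_assoc, hc, ← mul_assoc, ← pow_succ]
  refine sub_eq_zero.1 ((hpow p).trans ?_)
  rw [← Nat.cast_smul_eq_nsmul F, CharP.cast_eq_zero F p, zero_smul]

end Cfsg.Agent.MaxSub.OrthFour.PlaneKernel
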