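import Cfsg.Agent.MaxSub.OrthFour.EGen
import Cfsg.Agent.MaxSub.OrthFour.HalfBig

/-!
The members of the group fixing pointwise the vectors with a given anisotropic vector at one site
are monomial, given the same for frames and for planes.

The facts of the neighbouring files are taken as explicit hypotheses:
* `hframe`: members commuting with a frame at one site and fixing one of its slots are monomial;
* `hplane`: members fixing two orthogonal slots at one site are monomial;
* `hspan`: the root elements of one site generate the matrix algebra.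
-/

set_option autoImplicit false
set_option linter.unusedSectionVars false
set_option linter.unusedVariables false
set_option linter.style.haveILetI false

namespace Cfsg.Agent.MaxSub.OrthFour

open Matrix Cfsg.Geo Cfsg.Agent.NotMax Cfsg.Agent.GeoClasses
open Cfsg.Agent.MaxSub.TensorPowSp (gV fG site_injective)
open Cfsg.Agent.MaxSub.OrthWreathBig (gB cr sieM cr_mul cr_mulVec)
open scoped MatrixGroups Matrix

variable {F : Type*} [Field F] {t : ℕ} {δ : F}

namespace ReflKernel

/-! ### One site -/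

lemma gB_eq' (x y : Fin 4 → F) : gB (G4 δ) x y = x ⬝ᵥ G4 δ *ᵥ y := by
  rw [OrthWreathBig.gB_apply, fG, dotProduct_mulVec]

lemma nondeg' (hd : ¬ IsSquare δ) {x : Fin 4 → F} (h : ∀ y, gB (G4 δ) x y = 0) : x = 0 := by
  funext i
  have := h (Pi.single i 1)
  rw [gB_eq', G4, Matrix.mulVec_single_one] at this
  have h2 : x i * wt δ i = 0 := by
    rw [← this, dotProduct, Finset.sum_eq_single i]
    · simp
    · intro j _ hj; simp [hj]
    · simp
  exact (mul_eq_zero.1 h2).resolve_right (wt_ne_zero hd i)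

lemma frame_li {f : Fin 4 → Fin 4 → F} (hf : IsFrame δ f) : LinearIndependent F f := by
  rw [Fintype.linearIndependent_iff]
  intro c hc l
  have h := congrArg (gB (G4 δ) (f l)) hc
  rw [map_sum, map_zero, Finset.sum_eq_single l
    (fun m _ hm => by rw [map_smul, hf.2 l m hm.symm, smul_zero]) (by simp), map_smul,
    smul_eq_mul] at h
  exact (mul_eq_zero.1 h).resolve_right (hf.1 l)

/-- A frame is a basis. -/
lemma frame_span {f : Fin 4 → Fin 4 → F} (hf : IsFrame δ f) :
    Submodule.span F (Set.range f) = ⊤ :=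
  (frame_li hf).span_eq_top_of_card_eq_finrank (by simp)

lemma ext_frame {f : Fin 4 → Fin 4 → F} (hf : IsFrame δ f) {A B : M4 F}
    (h : ∀ l, A *ᵥ f l = B *ᵥ f l) : A = B := by
  have := LinearMap.ext_on_range (frame_span hf) (f := Matrix.mulVecLin A)
    (g := Matrix.mulVecLin B) h
  exact Matrix.ext_iff_mulVec.2 fun v => LinearMap.congr_fun this v

lemma frame_expand {f : Fin 4 → Fin 4 → F} (hf : IsFrame δ f) (v : Fin 4 → F) :
    v = ∑ l, (gB (G4 δ) (f l) v / gB (G4 δ) (f l) (f l)) • f l := by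
  obtain ⟨c, hc⟩ := (Submodule.mem_span_range_iff_exists_fun F).1
    ((frame_span hf).ge (Submodule.mem_top : v ∈ ⊤))
  have : ∀ l, gB (G4 δ) (f l) v / gB (G4 δ) (f l) (f l) = c l := fun l => by
    rw [← hc, map_sum, Finset.sum_eq_single l
      (fun m _ hm => by rw [map_smul, hf.2 l m hm.symm, smul_zero]) (by simp), map_smul,
      smul_eq_mul, mul_div_assoc, div_self (hf.1 l), mul_one]
  simp only [this, hc]

/-- Orthogonal anisotropic vectors, fewer than four, have a common anisotropic orthogonal one. -/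
lemma exists_perp (h2 : (2 : F) ≠ 0) (hd : ¬ IsSquare δ) {m : ℕ} (hm : m < 4)
    (f : Fin m → Fin 4 → F) (hn : ∀ a, gB (G4 δ) (f a) (f a) ≠ 0)
    (ho : ∀ a b, a ≠ b → gB (G4 δ) (f a) (f b) = 0) :
    ∃ e, gB (G4 δ) e e ≠ 0 ∧ ∀ a, gB (G4 δ) (f a) e = 0 := by
  by_contra hc
  let π : (Fin 4 → F) → (Fin 4 → F) := fun y =>
    y - ∑ a, (gB (G4 δ) (f a) y / gB (G4 δ) (f a) (f a)) • f a
  have hπ : ∀ a y, gB (G4 δ) (f a) (π y) = 0 := fun a y => by
    simp only [π, map_sub, map_sum]
    rw [Finset.sum_eq_single a (fun b _ hb => by rw [map_smul, ho a b hb.symm, smul_zero]) (by simp),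
      map_smul, smul_eq_mul, div_mul_cancel₀ _ (hn a), sub_self]
  have hiso : ∀ e, (∀ a, gB (G4 δ) (f a) e = 0) → gB (G4 δ) e e = 0 :=
    fun e h1 => by_contra fun hne => hc ⟨e, hne, h1⟩
  let L : (Fin 4 → F) →ₗ[F] (Fin m → F) := LinearMap.pi fun a => gB (G4 δ) (f a)
  have hker : LinearMap.ker L ≠ ⊥ := LinearMap.ker_ne_bot_of_finrank_lt (by simpa using hm)
  obtain ⟨y, hy, hy0⟩ := Submodule.exists_mem_ne_zero_of_ne_bot hker
  have hya : ∀ a, gB (G4 δ) (f a) y = 0 := fun a => congrFun (LinearMap.mem_ker.1 hy) a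
  refine hy0 (nondeg' hd fun z => ?_)
  have h1 : gB (G4 δ) (y + π z) (y + π z) = 0 :=
    hiso _ fun a => by rw [map_add, hya, hπ, add_zero]
  have hyz : gB (G4 δ) y (π z) = 0 := by
    simp only [map_add, LinearMap.add_apply, hiso y hya, hiso _ fun a => hπ a z] at h1
    rw [gB_symm δ (π z) y] at h1
    exact (mul_eq_zero.1 (by linear_combination h1 : 2 * gB (G4 δ) y (π z) = 0)).resolve_left h2
  simpa [π, gB_symm δ y, hya] using hyz

/-- Two orthogonal anisotropic vectors extend to a frame. -/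
lemma exists_frame_two (h2 : (2 : F) ≠ 0) (hd : ¬ IsSquare δ) {r x : Fin 4 → F}
    (hr : gB (G4 δ) r r ≠ 0) (hx : gB (G4 δ) x x ≠ 0) (hrx : gB (G4 δ) r x = 0) :
    ∃ f, IsFrame δ f ∧ f 0 = r ∧ f 1 = x := by
  have hxr : gB (G4 δ) x r = 0 := by rw [gB_symm, hrx]
  obtain ⟨e, he, he'⟩ := exists_perp h2 hd (by norm_num : 2 < 4) ![r, x]
    (fun a => by fin_cases a <;> assumption)
    (fun a b hab => by fin_cases a <;> fin_cases b <;> first | exact absurd rfl hab | assumption)
  have hre : gB (G4 δ) r e = 0 := he' 0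
  have hxe : gB (G4 δ) x e = 0 := he' 1
  have her : gB (G4 δ) e r = 0 := by rw [gB_symm, hre]
  have hex : gB (G4 δ) e x = 0 := by rw [gB_symm, hxe]
  obtain ⟨d, hd', hd''⟩ := exists_perp h2 hd (by norm_num : 3 < 4) ![r, x, e]
    (fun a => by fin_cases a <;> assumption)
    (fun a b hab => by fin_cases a <;> fin_cases b <;> first | exact absurd rfl hab | assumption)
  have hrd : gB (G4 δ) r d = 0 := hd'' 0
  have hxd : gB (G4 δ) x d = 0 := hd'' 1
  have hed : gB (G4 δ) e d = 0 := hd'' 2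
  refine ⟨![r, x, e, d], ⟨fun a => by fin_cases a <;> assumption, fun a b hab => ?_⟩, rfl, rfl⟩
  fin_cases a <;> fin_cases b <;> first
    | exact absurd rfl hab
    | assumption
    | (show gB (G4 δ) _ _ = 0; rw [gB_symm]; assumption)

lemma exists_vec (h2 : (2 : F) ≠ 0) (hd : ¬ IsSquare δ) {r : Fin 4 → F}
    (hr : gB (G4 δ) r r ≠ 0) : ∃ x, gB (G4 δ) x x ≠ 0 ∧ gB (G4 δ) r x = 0 := by
  obtain ⟨x, hx, hx'⟩ := exists_perp h2 hd (by norm_num : 1 < 4) ![r]
    (fun a => by fin_cases a; exact hr) (fun a b hab => absurd (Subsingleton.elim a b) hab)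
  exact ⟨x, hx, hx' 0⟩

lemma refl_vec (r x : Fin 4 → F) (hrx : gB (G4 δ) r x = 0) : reflW δ r *ᵥ x = x := by
  rw [reflW_mulVec, hrx, mul_zero, mul_zero, zero_smul, sub_zero]

lemma refl_self {r : Fin 4 → F} (hr : gB (G4 δ) r r ≠ 0) : reflW δ r *ᵥ r = -r := by
  rw [reflW_mulVec, show (gB (G4 δ) r r)⁻¹ * (2 * gB (G4 δ) r r) = 2 by field_simp, two_smul]
  abel

lemma trace_refl {r : Fin 4 → F} (hr : gB (G4 δ) r r ≠ 0) : (reflW δ r).trace = 2 := by
  rw [reflW, trace_sub, trace_smul, trace_one, cr, trace_vecMulVec, dotProduct_comm,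
    show (r ᵥ* G4 δ) ⬝ᵥ r = gB (G4 δ) r r from rfl, smul_eq_mul, div_mul_cancel₀ _ hr,
    Fintype.card_fin]
  norm_num

lemma trace_refl_mul {r s : Fin 4 → F} (hr : gB (G4 δ) r r ≠ 0) (hs : gB (G4 δ) s s ≠ 0)
    (hrs : gB (G4 δ) r s = 0) : (reflW δ r * reflW δ s).trace = 0 := by
  have e : reflW δ r * reflW δ s = reflW δ r + reflW δ s - 1 := by
    have := HalfBig.refl_ortho (δ := δ) hrs
    linear_combination (norm := noncomm_ring) this
  rw [e, trace_sub, trace_add, trace_refl hr, trace_refl hs, trace_one, Fintype.card_fin]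
  norm_num

lemma refl_comm {r s : Fin 4 → F} (hrs : gB (G4 δ) r s = 0) :
    reflW δ r * reflW δ s = reflW δ s * reflW δ r := by
  have h1 := HalfBig.refl_ortho (δ := δ) hrs
  have h3 := HalfBig.refl_ortho (δ := δ) (show gB (G4 δ) s r = 0 by rw [gB_symm, hrs])
  linear_combination (norm := noncomm_ring) h1 - h3

lemma refl_cr {r s : Fin 4 → F} (hrs : gB (G4 δ) r s = 0) :
    reflW δ s * cr (G4 δ) r r = cr (G4 δ) r r := by
  rw [reflW, sub_mul, one_mul, smul_mul_assoc, cr_mul, show gB (G4 δ) s r = 0 by rw [gB_symm, hrs],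
    zero_smul, smul_zero, sub_zero]

/-- An isometric involution fixing two orthogonal vectors. -/
lemma invol_core (h2 : (2 : F) ≠ 0) {f : Fin 4 → Fin 4 → F} (hf : IsFrame δ f) {A : M4 F}
    (hA : IsoW δ A) (hAA : A * A = 1) (h0 : A *ᵥ f 0 = f 0) (h1 : A *ᵥ f 1 = f 1) :
    A = 1 ∨ A = -(reflW δ (f 0) * reflW δ (f 1)) ∨
      ∃ x, gB (G4 δ) x x ≠ 0 ∧ gB (G4 δ) (f 0) x = 0 ∧ A = reflW δ x := by
  have hsq : ∀ u, A *ᵥ (A *ᵥ u) = u := fun u => by rw [mulVec_mulVec, hAA, one_mulVec]
  have hsym : ∀ u v, gB (G4 δ) (A *ᵥ u) v = gB (G4 δ) u (A *ᵥ v) := fun u v => by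
    rw [← hA.gB_eq u (A *ᵥ v), hsq]
  have h01 : (0 : Fin 4) ≠ 1 := by decide
  have h02 : (0 : Fin 4) ≠ 2 := by decide
  have h03 : (0 : Fin 4) ≠ 3 := by decide
  have h12 : (1 : Fin 4) ≠ 2 := by decide
  have h13 : (1 : Fin 4) ≠ 3 := by decide
  have h23 : (2 : Fin 4) ≠ 3 := by decide
  have o01 := hf.2 0 1 h01; have o02 := hf.2 0 2 h02; have o03 := hf.2 0 3 h03
  have o12 := hf.2 1 2 h12; have o13 := hf.2 1 3 h13; have o23 := hf.2 2 3 h23
  have o10 := hf.2 1 0 h01.symm; have o20 := hf.2 2 0 h02.symm; have o30 := hf.2 3 0 h03.symm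
  have o21 := hf.2 2 1 h12.symm; have o31 := hf.2 3 1 h13.symm; have o32 := hf.2 3 2 h23.symm
  obtain ⟨n₂, hn₂⟩ : ∃ n, n = gB (G4 δ) (f 2) (f 2) := ⟨_, rfl⟩
  obtain ⟨n₃, hn₃⟩ : ∃ n, n = gB (G4 δ) (f 3) (f 3) := ⟨_, rfl⟩
  have hn2 : n₂ ≠ 0 := hn₂ ▸ hf.1 2
  have hn3 : n₃ ≠ 0 := hn₃ ▸ hf.1 3
  obtain ⟨α, hα⟩ : ∃ a, a = gB (G4 δ) (f 2) (A *ᵥ f 2) / n₂ := ⟨_, rfl⟩
  obtain ⟨β, hβ⟩ : ∃ a, a = gB (G4 δ) (f 3) (A *ᵥ f 2) / n₃ := ⟨_, rfl⟩
  obtain ⟨γ, hγ⟩ : ∃ a, a = gB (G4 δ) (f 2) (A *ᵥ f 3) / n₂ := ⟨_, rfl⟩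
  obtain ⟨ε, hε⟩ : ∃ a, a = gB (G4 δ) (f 3) (A *ᵥ f 3) / n₃ := ⟨_, rfl⟩
  have e2 : A *ᵥ f 2 = α • f 2 + β • f 3 := by
    have := frame_expand hf (A *ᵥ f 2)
    rw [Fin.sum_univ_four, ← hn₂, ← hn₃, ← hsym (f 0), ← hsym (f 1), h0, h1, o02, o12, zero_div,
      zero_div, zero_smul, zero_smul, zero_add, zero_add, ← hα, ← hβ] at this
    exact this
  have e3 : A *ᵥ f 3 = γ • f 2 + ε • f 3 := by
    have := frame_expand hf (A *ᵥ f 3)
    rw [Fin.sum_univ_four, ← hn₂, ← hn₃, ← hsym (f 0), ← hsym (f 1), h0, h1, o03, o13, zero_div,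
      zero_div, zero_smul, zero_smul, zero_add, zero_add, ← hγ, ← hε] at this
    exact this
  have hbg : n₃ * β = n₂ * γ := by
    rw [hβ, hγ, mul_div_cancel₀ _ hn3, mul_div_cancel₀ _ hn2, ← hsym, gB_symm]
  have q2 : (α * α + β * γ - 1) • f 2 + (β * (α + ε)) • f 3 = 0 := by
    have := hsq (f 2)
    rw [e2, mulVec_add, mulVec_smul, mulVec_smul, e2, e3, ← sub_eq_zero] at this
    rw [← this]; module
  have q3 : (γ * (α + ε)) • f 2 + (ε * ε + β * γ - 1) • f 3 = 0 := by
    have := hsq (f 3)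
    rw [e3, mulVec_add, mulVec_smul, mulVec_smul, e2, e3, ← sub_eq_zero] at this
    rw [← this]; module
  have coef : ∀ a b : F, a • f 2 + b • f 3 = 0 → a = 0 ∧ b = 0 := by
    intro a b e
    have p := congrArg (gB (G4 δ) (f 2)) e
    have q := congrArg (gB (G4 δ) (f 3)) e
    simp only [map_add, map_smul, map_zero, smul_eq_mul, o23, o32, mul_zero, add_zero, zero_add,
      ← hn₂, ← hn₃] at p q
    exact ⟨(mul_eq_zero.1 p).resolve_right hn2, (mul_eq_zero.1 q).resolve_right hn3⟩
  obtain ⟨qa, qb⟩ := coef _ _ q2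
  obtain ⟨qc, qd⟩ := coef _ _ q3
  by_cases hb : β = 0
  · have hg : γ = 0 := by
      rw [hb, mul_zero, eq_comm] at hbg
      exact (mul_eq_zero.1 hbg).resolve_left hn2
    rw [hb, hg, mul_zero, add_zero, sub_eq_zero, mul_self_eq_one_iff] at qa qd
    rw [hb, zero_smul, add_zero] at e2
    rw [hg, zero_smul, zero_add] at e3
    rcases qa with ha | ha <;> rcases qd with he | he <;> rw [ha] at e2 <;> rw [he] at e3
    · refine Or.inl (ext_frame hf fun l => ?_)
      fin_cases l <;> simp [h0, h1, e2, e3]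
    · refine Or.inr (Or.inr ⟨f 3, hf.1 3, o03, ext_frame hf fun l => ?_⟩)
      fin_cases l <;> simp [h0, h1, e2, e3, refl_vec _ _ o30, refl_vec _ _ o31, refl_vec _ _ o32,
        refl_self (hf.1 3)]
    · refine Or.inr (Or.inr ⟨f 2, hf.1 2, o02, ext_frame hf fun l => ?_⟩)
      fin_cases l <;> simp [h0, h1, e2, e3, refl_vec _ _ o20, refl_vec _ _ o21, refl_vec _ _ o23,
        refl_self (hf.1 2)]
    · refine Or.inr (Or.inl (ext_frame hf fun l => ?_))
      fin_cases l <;> simp [h0, h1, e2, e3, neg_mulVec, ← mulVec_mulVec, mulVec_neg,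
        refl_vec _ _ o01, refl_vec _ _ o02, refl_vec _ _ o03, refl_vec _ _ o10, refl_vec _ _ o12,
        refl_vec _ _ o13, refl_self (hf.1 0), refl_self (hf.1 1)]
  · have hεα : ε = -α := by
      have := (mul_eq_zero.1 qb).resolve_left hb
      linear_combination this
    have hα1 : α - 1 ≠ 0 := fun e => by
      have : β * γ = 0 := by linear_combination qa - (α + 1) * e
      rcases mul_eq_zero.1 this with h | h
      · exact hb h
      · exact hb ((mul_eq_zero.1 (by rw [hbg, h, mul_zero] : n₃ * β = 0)).resolve_left hn3)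
    obtain ⟨x, hx⟩ : ∃ x, x = (1 - α) • f 2 + (-β) • f 3 := ⟨_, rfl⟩
    have hxx : gB (G4 δ) x x = 2 * n₂ * (1 - α) := by
      simp only [hx, map_add, map_smul, LinearMap.add_apply, LinearMap.smul_apply, smul_eq_mul,
        o23, o32, ← hn₂, ← hn₃]
      linear_combination n₂ * qa + β * hbg
    have hx0 : gB (G4 δ) x x ≠ 0 := by
      rw [hxx]
      exact mul_ne_zero (mul_ne_zero h2 hn2) fun e => hα1 (by linear_combination -e)
    have hxf : ∀ l : Fin 4, gB (G4 δ) x (f l) =
        (1 - α) * gB (G4 δ) (f 2) (f l) + -β * gB (G4 δ) (f 3) (f l) := fun l => by simp [hx]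
    have x2 : gB (G4 δ) x (f 2) = (1 - α) * n₂ := by rw [hxf, o32, ← hn₂]; ring
    have x3 : gB (G4 δ) x (f 3) = -β * n₃ := by rw [hxf, o23, ← hn₃]; ring
    refine Or.inr (Or.inr ⟨x, hx0, by rw [gB_symm, hxf, o20, o30]; ring, ext_frame hf fun l => ?_⟩)
    have ne1 : (1 - α) ≠ 0 := fun e => hα1 (by linear_combination -e)
    fin_cases l
    · show A *ᵥ f 0 = reflW δ x *ᵥ f 0
      rw [h0, refl_vec _ _ (by rw [hxf, o20, o30]; ring)]
    · show A *ᵥ f 1 = reflW δ x *ᵥ f 1
      rw [h1, refl_vec _ _ (by rw [hxf, o21, o31]; ring)]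
    · show A *ᵥ f 2 = reflW δ x *ᵥ f 2
      rw [e2, reflW_mulVec, x2, hxx,
        show (2 * n₂ * (1 - α))⁻¹ * (2 * ((1 - α) * n₂)) = 1 by field_simp, one_smul, hx]
      module
    · show A *ᵥ f 3 = reflW δ x *ᵥ f 3
      rw [e3, reflW_mulVec, x3, hxx,
        show (2 * n₂ * (1 - α))⁻¹ * (2 * (-β * n₃)) = -(γ / (1 - α)) by
          field_simp; linear_combination -hbg, hx, hεα]
      match_scalars <;> field_simp
      linear_combination qa

/-- An isometric involution fixing one vector and with another one as an eigenvector. -/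
lemma invol_cases (h2 : (2 : F) ≠ 0) {f : Fin 4 → Fin 4 → F} (hf : IsFrame δ f) {A : M4 F}
    (hA : IsoW δ A) (hAA : A * A = 1) (h0 : A *ᵥ f 0 = f 0)
    (h1 : A *ᵥ f 1 = f 1 ∨ A *ᵥ f 1 = -f 1) :
    A = 1 ∨ A = -reflW δ (f 0) ∨
      ∃ x, gB (G4 δ) x x ≠ 0 ∧ gB (G4 δ) (f 0) x = 0 ∧
        (A = reflW δ x ∨ A = -(reflW δ (f 0) * reflW δ x)) := by
  have o01 := hf.2 0 1 (by decide)
  have o10 := hf.2 1 0 (by decide)
  rcases h1 with h1 | h1
  · rcases invol_core h2 hf hA hAA h0 h1 with e | e | ⟨x, hx, hx', e⟩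
    · exact Or.inl e
    · exact Or.inr (Or.inr ⟨f 1, hf.1 1, o01, Or.inr e⟩)
    · exact Or.inr (Or.inr ⟨x, hx, hx', Or.inl e⟩)
  obtain ⟨R, hR⟩ : ∃ R, R = reflW δ (f 0) := ⟨_, rfl⟩
  have hperp : ∀ l, l ≠ 0 → R *ᵥ f l = f l ∧ R *ᵥ (A *ᵥ f l) = A *ᵥ f l := fun l hl =>
    ⟨hR ▸ refl_vec _ _ (hf.2 0 l hl.symm), hR ▸ refl_vec _ _ (by
      rw [← hA.gB_eq (f 0), mulVec_mulVec, hAA, one_mulVec, h0]; exact hf.2 0 l hl.symm)⟩
  have hR0 : R *ᵥ f 0 = -f 0 := hR ▸ refl_self (hf.1 0)
  have hcomm : R * A = A * R := ext_frame hf fun l => by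
    rw [← mulVec_mulVec, ← mulVec_mulVec]
    rcases eq_or_ne l 0 with rfl | hl
    · rw [h0, hR0, mulVec_neg, h0]
    · rw [(hperp l hl).1, (hperp l hl).2]
  have hR2 : R * R = 1 := hR ▸ HalfBig.refl_sq h2 (hf.1 0)
  have hB : IsoW δ (-(R * A)) := by
    have hRi : IsoW δ R := hR ▸ HalfBig.refl_iso h2 (hf.1 0)
    unfold IsoW at hA hRi ⊢
    rw [transpose_neg, neg_mul, neg_mul_neg, transpose_mul]
    calc Aᵀ * Rᵀ * G4 δ * (R * A) = Aᵀ * (Rᵀ * G4 δ * R) * A := by simp only [mul_assoc]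
      _ = G4 δ := by rw [hRi, hA]
  have hBB : -(R * A) * -(R * A) = 1 := by
    rw [neg_mul_neg, mul_assoc, ← mul_assoc A R A, ← hcomm, mul_assoc R A A, hAA, mul_one, hR2]
  have hA' : ∀ B, -(R * A) = B → A = -(R * B) := fun B e => by
    rw [← e, mul_neg, neg_neg, ← mul_assoc, hR2, one_mul]
  rcases invol_core h2 hf hB hBB
      (by rw [neg_mulVec, ← mulVec_mulVec, h0, hR0, neg_neg])
      (by rw [neg_mulVec, ← mulVec_mulVec, h1, mulVec_neg, (hperp 1 (by decide)).1, neg_neg])
    with e | e | ⟨x, hx, hx', e⟩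
  · exact Or.inr (Or.inl (by rw [hA' _ e, mul_one, hR]))
  · refine Or.inr (Or.inr ⟨f 1, hf.1 1, o01, Or.inl ?_⟩)
    rw [hA' _ e, hR, mul_neg, neg_neg, ← mul_assoc, HalfBig.refl_sq h2 (hf.1 0), one_mul]
  · exact Or.inr (Or.inr ⟨x, hx, hx', Or.inr (by rw [hA' _ e, hR])⟩)

/-! ### The tensor power -/

/-- The projection on a slot, up to a scalar. -/
abbrev slotP (δ : F) (i : Fin t) (r : Fin 4 → F) : MV F t := site i (cr (G4 δ) r r)

lemma site_adj (i : Fin t) {X : M4 F} (hX : Xᵀ * G4 δ = G4 δ * X) :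
    (site i X)ᵀ * gV (G4 δ) t = gV (G4 δ) t * site i X := by
  rw [site, gV, pureMat_transpose, pureMat_mul, pureMat_mul]
  congr 1
  funext l
  by_cases hl : l = i
  · subst hl; simpa using hX
  · simp [hl]

lemma gV_isUnit (hd : ¬ IsSquare δ) : IsUnit (gV (G4 δ) t) := by
  rw [gV_diag, Matrix.isUnit_diagonal, Pi.isUnit_iff]
  exact fun a => isUnit_iff_ne_zero.2 (Finset.prod_ne_zero_iff.2 fun _ _ => wt_ne_zero hd _)

lemma slot_comm (hd : ¬ IsSquare δ) {i : Fin t} {r : Fin 4 → F} {g : MV F t}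
    (hg : IsoV δ g) (hP : g * slotP δ i r = slotP δ i r) : slotP δ i r * g = slotP δ i r := by
  have hT : (slotP δ i r)ᵀ * gV (G4 δ) t = gV (G4 δ) t * slotP δ i r :=
    site_adj i (HalfBig.cr_transpose r r)
  refine (gV_isUnit hd).mul_left_cancel ?_
  calc gV (G4 δ) t * (slotP δ i r * g) = (slotP δ i r)ᵀ * gV (G4 δ) t * g := by
        rw [hT, mul_assoc]
    _ = (g * slotP δ i r)ᵀ * gV (G4 δ) t * g := by rw [hP]
    _ = (slotP δ i r)ᵀ * (gᵀ * gV (G4 δ) t * g) := by rw [transpose_mul]; simp only [mul_assoc]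
    _ = gV (G4 δ) t * slotP δ i r := by rw [hg, hT]

lemma comm_refl_of_comm {i : Fin t} {r : Fin 4 → F} {g : MV F t}
    (h : g * slotP δ i r = slotP δ i r * g) :
    g * site i (reflW δ r) = site i (reflW δ r) * g := by
  have e : site i (reflW δ r) = (1 : MV F t) - (2 / gB (G4 δ) r r) • slotP δ i r := by
    rw [eq_sub_iff_add_eq, slotP, ← site_smul, ← site_add, reflW, sub_add_cancel, site_one]
  rw [e, mul_sub, sub_mul, mul_one, one_mul, mul_smul_comm, smul_mul_assoc, h]

lemma comm_of_comm_refl (h2 : (2 : F) ≠ 0) {i : Fin t} {r : Fin 4 → F} (hr : gB (G4 δ) r r ≠ 0)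
    {g : MV F t} (h : g * site i (reflW δ r) = site i (reflW δ r) * g) :
    g * slotP δ i r = slotP δ i r * g := by
  have e : site i (reflW δ r) = (1 : MV F t) - (2 / gB (G4 δ) r r) • slotP δ i r := by
    rw [eq_sub_iff_add_eq, slotP, ← site_smul, ← site_add, reflW, sub_add_cancel, site_one]
  rw [e, mul_sub, sub_mul, mul_one, one_mul, mul_smul_comm, smul_mul_assoc, sub_right_inj] at h
  exact (IsUnit.smul_left_cancel (isUnit_iff_ne_zero.2 (div_ne_zero h2 hr))).1 h

lemma apply_update_of_comm' {r : Fin t} {A : MV F t}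
    (hA : ∀ Y, A * site r Y = site r Y * A) (x y : Fin t → Fin 4) :
    (x r ≠ y r → A x y = 0) ∧
      ∀ a, x r = y r → A (Function.update x r a) (Function.update y r a) = A x y := by
  have key : ∀ (x y : Fin t → Fin 4) (a b : Fin 4),
      (if y r = b then A x (Function.update y r a) else 0) =
        if x r = a then A (Function.update x r b) y else 0 := by
    intro x y a b
    have h := congrFun (congrFun (hA (Matrix.single a b (1 : F))) x) y
    rw [Matrix.mul_apply, Matrix.mul_apply,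
      Finset.sum_eq_single (Function.update y r a), Finset.sum_eq_single (Function.update x r b)] at h
    · rw [site_apply_of_eq _ (fun j hj => by rw [Function.update_of_ne hj]),
        site_apply_of_eq _ (fun j hj => by rw [Function.update_of_ne hj]), Function.update_self,
        Function.update_self] at h
      simpa [Matrix.single_apply, eq_comm] using h
    · intro z _ hz
      by_cases hz' : ∀ j, j ≠ r → x j = z j
      · rw [site_apply_of_eq _ hz', Matrix.single_apply, if_neg, zero_mul]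
        rintro ⟨-, hb⟩
        exact hz (funext fun j => by
          by_cases hj : j = r
          · subst hj; rw [Function.update_self, hb]
          · rw [Function.update_of_ne hj, hz' j hj])
      · push Not at hz'
        obtain ⟨j, hj, hne⟩ := hz'
        rw [site_apply_of_ne _ hj hne, zero_mul]
    · simp
    · intro z _ hz
      by_cases hz' : ∀ j, j ≠ r → z j = y j
      · rw [site_apply_of_eq _ hz', Matrix.single_apply, if_neg, mul_zero]
        rintro ⟨ha, -⟩
        exact hz (funext fun j => by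
          by_cases hj : j = r
          · subst hj; rw [Function.update_self, ha]
          · rw [Function.update_of_ne hj, hz' j hj])
      · push Not at hz'
        obtain ⟨j, hj, hne⟩ := hz'
        rw [site_apply_of_ne _ hj hne, mul_zero]
    · simp
  refine ⟨fun hne => ?_, fun a hxy => ?_⟩
  · have := key x y (y r) (y r)
    rwa [if_pos rfl, Function.update_eq_self, if_neg hne] at this
  · have := key (Function.update x r a) y a (x r)
    rw [if_pos hxy.symm, Function.update_self, if_pos rfl, Function.update_idem,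
      Function.update_eq_self] at this
    exact this

/-- What commutes with all the other sites lives at one site. -/
lemma eq_site_of_comm {i : Fin t} {A : MV F t}
    (hA : ∀ j, j ≠ i → ∀ Y, A * site j Y = site j Y * A) : ∃ B, A = site i B := by
  classical
  refine ⟨Matrix.of fun p q => A (Function.update (fun _ => 0) i p) (Function.update (fun _ => 0) i q),
    Matrix.ext fun x y => ?_⟩
  by_cases hxy : ∀ j, j ≠ i → x j = y j
  · rw [site_apply_of_eq _ hxy]
    show A x y = A _ _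
    suffices h : ∀ U : Finset (Fin t), A (U.piecewise x (Function.update (fun _ => 0) i (x i)))
        (U.piecewise y (Function.update (fun _ => 0) i (y i))) =
        A (Function.update (fun _ => 0) i (x i)) (Function.update (fun _ => 0) i (y i)) by
      simpa using h Finset.univ
    intro U
    induction U using Finset.induction with
    | empty => simp
    | insert j U hj ih =>
      rw [Finset.piecewise_insert, Finset.piecewise_insert]
      rcases eq_or_ne j i with rfl | hji
      · rw [← ih]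
        congr 1 <;> funext l <;> rcases eq_or_ne l j with rfl | hl <;>
          simp [Finset.piecewise, *]
      · rw [← hxy j hji]
        refine ((apply_update_of_comm' (hA j hji) _ _).2 _ ?_).trans ih
        simp [Finset.piecewise, hj, Function.update_of_ne hji]
  · push Not at hxy
    obtain ⟨j, hji, hne⟩ := hxy
    rw [site_apply_of_ne _ hji hne, (apply_update_of_comm' (hA j hji) x y).1 hne]

lemma standard_form [Finite F] {g : GV F t} (hg : g ∈ Wr F t) :
    ∃ (A : Fin t → GL (Fin 4) F) (π : Equiv.Perm (Fin t)), g = glPure A * glFactorPerm 4 π := by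
  let S : Submonoid (GV F t) :=
    { carrier := {g | ∃ (A : Fin t → GL (Fin 4) F) (π : Equiv.Perm (Fin t)),
        g = glPure A * glFactorPerm 4 π}
      one_mem' := ⟨fun _ => 1, 1, Units.ext <| by
        show (1 : MV F t) = pureMat (fun _ => 1) * factorPerm 4 1
        rw [pureMat_one, factorPerm_one, one_mul]⟩
      mul_mem' := by
        rintro _ _ ⟨c, π, rfl⟩ ⟨d, ρ, rfl⟩
        refine ⟨fun i => c i * d (π⁻¹ i), π * ρ, Units.ext ?_⟩
        show pureMat _ * factorPerm 4 π * (pureMat _ * factorPerm 4 ρ) = pureMat _ * factorPerm 4 _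
        rw [← factorPerm_mul, ← mul_assoc, ← mul_assoc, mul_assoc (pureMat _) (factorPerm 4 π)]
        congr 1
        rw [show (fun i => ((c i * d (π⁻¹ i) : GL (Fin 4) F) : M4 F)) =
          fun i => (c i : M4 F) * (d (π⁻¹ i) : M4 F) from rfl, ← pureMat_mul,
          mul_assoc (pureMat _), pureMat_mul_factorPerm]
        simp }
  suffices g ∈ S from this
  refine Subgroup.closure_induction (p := fun g _ => g ∈ S) ?_ S.one_mem
    (fun _ _ _ _ => S.mul_mem) ?_ hg
  · rintro x (⟨c, hc⟩ | ⟨π, hπ⟩)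
    · refine ⟨c, 1, Units.ext (Matrix.ext fun a b => ?_)⟩
      show (x : MV F t) a b = (pureMat (fun i => (c i : M4 F)) * factorPerm 4 1 : MV F t) a b
      rw [factorPerm_one, mul_one]
      exact hc a b
    · refine ⟨fun _ => 1, π, Units.ext (Matrix.ext fun a b => ?_)⟩
      show (x : MV F t) a b = (pureMat (fun _ => (1 : M4 F)) * factorPerm 4 π : MV F t) a b
      rw [pureMat_one, one_mul]
      exact hπ a b
  · intro x _ hx
    have : x⁻¹ = x ^ (orderOf x - 1) := by
      rw [inv_eq_iff_mul_eq_one, ← pow_succ', Nat.sub_add_cancel (orderOf_pos x),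
        pow_orderOf_eq_one]
    rw [this]
    exact S.pow_mem hx _

/-- A monomial isometry fixing a slot acts at that site only. -/
lemma site_of_mem_Wr [Finite F] (hd : ¬ IsSquare δ) {i : Fin t} {r : Fin 4 → F}
    (hr : gB (G4 δ) r r ≠ 0) {g : GV F t} (hg : g ∈ Wr F t) (hiso : IsoV δ (g : MV F t))
    (hP : (g : MV F t) * slotP δ i r = slotP δ i r) :
    ∃ A : M4 F, IsoW δ A ∧ A *ᵥ r = r ∧ (g : MV F t) = site i A := by
  obtain ⟨Ys, π, rfl⟩ := standard_form hg
  set g : GV F t := glPure Ys * glFactorPerm 4 π with hgdef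
  have hsw : ∀ j Y, (g : MV F t) * site j Y =
      site (π j) ((Ys (π j) : M4 F) * Y * (((Ys (π j))⁻¹ : GL (Fin 4) F) : M4 F)) * (g : MV F t) := by
    intro j Y
    show pureMat _ * factorPerm 4 π * site j Y = site _ _ * (pureMat _ * factorPerm 4 π)
    have h1 : factorPerm 4 π * site j Y = site (π j) Y * factorPerm (F := F) 4 π := by
      rw [site, site, pureMat_mul_factorPerm]
      congr 2
      funext k
      by_cases hk : k = j
      · subst hk; simp
      · rw [Function.update_of_ne hk, Function.update_of_ne (fun h => hk (π.injective h))]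
        rfl
    rw [mul_assoc, h1, ← mul_assoc, ← mul_assoc, site, site, pureMat_mul, pureMat_mul]
    congr 2
    funext l
    by_cases hl : l = π j
    · subst hl; simp [mul_assoc]
    · simp [hl]
  obtain ⟨p₀, hp⟩ : ∃ p, r p ≠ 0 := by
    by_contra e
    push Not at e
    exact hr (by simp [show r = 0 from funext e])
  obtain ⟨q₀, hq⟩ : ∃ q, (r ᵥ* G4 δ) q ≠ 0 := by
    by_contra e
    push Not at e
    exact hr (by rw [OrthWreathBig.gB_apply, fG, show r ᵥ* G4 δ = 0 from funext e, zero_dotProduct])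
  have hpq : cr (G4 δ) r r p₀ q₀ ≠ 0 := by
    simp [cr, vecMulVec_apply, hp, hq]
  have hP' := slot_comm hd hiso hP
  have hswP : ∀ j, j ≠ i → ∀ Y,
      site (π j) ((Ys (π j) : M4 F) * Y * (((Ys (π j))⁻¹ : GL (Fin 4) F) : M4 F)) * slotP δ i r =
        site j Y * slotP δ i r := by
    intro j hj Y
    calc _ = site (π j) ((Ys (π j) : M4 F) * Y * (((Ys (π j))⁻¹ : GL (Fin 4) F) : M4 F)) *
            ((g : MV F t) * slotP δ i r) := by rw [hP]
        _ = (g : MV F t) * site j Y * slotP δ i r := by rw [← mul_assoc, ← hsw]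
        _ = (g : MV F t) * slotP δ i r * site j Y := by rw [mul_assoc, site_comm hj, mul_assoc]
        _ = _ := by rw [hP, slotP, site_comm hj]
  have hcomm : ∀ j, j ≠ i → ∀ Y, (g : MV F t) * site j Y = site j Y * (g : MV F t) := by
    intro j hj Y
    have hk : site (π j) ((Ys (π j) : M4 F) * Y * (((Ys (π j))⁻¹ : GL (Fin 4) F) : M4 F)) * slotP δ i r =
        site j Y * slotP δ i r := hswP j hj Y
    rw [hsw]
    congr 1
    clear_value g
    set Z := (Ys (π j) : M4 F) * Y * (((Ys (π j))⁻¹ : GL (Fin 4) F) : M4 F)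
    -- compare two matrices through the slot
    have hent : ∀ (k : Fin t) (W : M4 F) (x y : Fin t → Fin 4), k ≠ i →
        (site k W * slotP δ i r) (Function.update x i p₀) (Function.update y i q₀) =
          site k W (Function.update x i q₀) (Function.update y i q₀) * cr (G4 δ) r r p₀ q₀ := by
      intro k W x y hki
      rw [Matrix.mul_apply, Finset.sum_eq_single (Function.update y i p₀)]
      · rw [slotP, site_apply_of_eq (i := i) _ (fun l hl => by
          rw [Function.update_of_ne hl, Function.update_of_ne hl]), Function.update_self,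
          Function.update_self]
        congr 1
        rw [prod_update_apply, prod_update_apply, Function.update_of_ne hki,
          Function.update_of_ne hki, Function.update_of_ne hki, Function.update_of_ne hki]
        congr 1
        refine Finset.prod_congr rfl fun l _ => ?_
        rcases eq_or_ne l i with rfl | hl
        · simp
        · simp [Function.update_of_ne hl]
      · intro z _ hz
        by_cases hz' : ∀ l, l ≠ i → z l = Function.update y i q₀ l
        · by_cases hzi : z i = p₀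
          · exact absurd (funext fun l => by
              rcases eq_or_ne l i with rfl | hl
              · rw [Function.update_self, hzi]
              · rw [hz' l hl, Function.update_of_ne hl, Function.update_of_ne hl]) hz
          · rw [site_apply_of_ne (i := k) _ hki.symm (by rw [Function.update_self]; exact Ne.symm hzi),
              zero_mul]
        · push Not at hz'
          obtain ⟨l, hl, hne⟩ := hz'
          rw [slotP, site_apply_of_ne (i := i) _ hl hne, mul_zero]
      · simp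
    by_cases hk' : π j = i
    · -- the slot would be moved
      exfalso
      have h1 := hswP j hj (Matrix.single 0 1 1)
      rw [hk', slotP, site_mul] at h1
      have h3 := congrFun (congrFun h1 (Function.update (Function.update (fun _ => 0) j 0) i p₀))
        (Function.update (Function.update (fun _ => 0) j 1) i q₀)
      rw [site_apply_of_ne (j := j) _ hj (by simp [Function.update_of_ne hj]), hent _ _ _ _ hj,
        site_apply_of_eq _ (fun l hl => by
          rcases eq_or_ne l i with rfl | hli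
          · simp
          · simp [Function.update_of_ne hli, Function.update_of_ne hl])] at h3
      simp [Function.update_of_ne hj] at h3
      exact hpq h3.symm
    · refine Matrix.ext fun x y => ?_
      by_cases hxy : x i = y i
      · have h1 := congrFun (congrFun hk (Function.update x i p₀)) (Function.update y i q₀)
        rw [hent _ _ x y hk', hent _ _ x y hj] at h1
        have h3 := mul_right_cancel₀ hpq h1
        rw [prod_update_apply, prod_update_apply] at h3 ⊢
        simp only [Function.update_of_ne hk', Function.update_of_ne hj] at h3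
        have e : ∀ l, ((if Function.update x i q₀ l = Function.update y i q₀ l then (1 : F) else 0)) =
            if x l = y l then 1 else 0 := fun l => by
          rcases eq_or_ne l i with rfl | hl
          · simp [hxy]
          · simp [Function.update_of_ne hl]
        simpa only [e] using h3
      · rw [site_apply_of_ne _ (Ne.symm hk') hxy, site_apply_of_ne _ hj.symm hxy]
  obtain ⟨A, hA⟩ := eq_site_of_comm hcomm
  have hAr : A * cr (G4 δ) r r = cr (G4 δ) r r := site_injective i (by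
    rw [← site_mul, ← hA]; exact hP)
  refine ⟨A, ?_, ?_, hA⟩
  · have e := hiso
    rw [hA] at e
    unfold IsoV at e
    rw [site, pureMat_transpose, gV, pureMat_mul, pureMat_mul] at e
    set B : M4 F := Aᵀ * G4 δ * A
    have e1 : pureMat (Function.update (fun _ : Fin t => G4 δ) i B) =
        pureMat fun _ : Fin t => G4 δ := by
      rw [← e]; congr 1; funext l
      by_cases hl : l = i
      · subst hl; simp [B]
      · simp [hl]
    have hsplit : ∀ X : M4 F, pureMat (Function.update (fun _ : Fin t => G4 δ) i X) =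
        site i X * pureMat (Function.update (fun _ : Fin t => G4 δ) i 1) := by
      intro X
      rw [site, pureMat_mul]; congr 1; funext l
      by_cases hl : l = i
      · subst hl; simp
      · simp [hl]
    have hu : IsUnit (pureMat (Function.update (fun _ : Fin t => G4 δ) i 1)) := by
      have h := gV_isUnit (t := t) hd
      rw [gV, ← Function.update_eq_self i (fun _ : Fin t => G4 δ), hsplit] at h
      exact isUnit_of_mul_isUnit_right h
    have e2 : pureMat (Function.update (fun _ : Fin t => G4 δ) i B) =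
        pureMat (Function.update (fun _ : Fin t => G4 δ) i (G4 δ)) := by
      rw [e1, Function.update_eq_self]
    exact site_injective i (hu.mul_right_cancel ((hsplit B).symm.trans (e2.trans (hsplit _))))
  · have h := congrArg (fun X => X *ᵥ r) hAr
    simp only [← mulVec_mulVec, cr_mulVec, mulVec_smul] at h
    exact (IsUnit.smul_left_cancel (isUnit_iff_ne_zero.2 hr)).1 h

/-! ### The dihedral group of two involutions -/

lemma dihedral_cases {G : Type*} [Group G] [Finite G] {a b : G} (ha : a * a = 1) (hb : b * b = 1)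
    (S : Subgroup G) (haS : a ∈ S) (hbS : b ∈ S) :
    (∃ d ∈ S, d * a * d⁻¹ = b) ∨ ∃ w ∈ S, w ≠ 1 ∧ w * w = 1 ∧ w * a = a * w ∧ w * b = b * w ∧
      ∃ d ∈ S, a * w = d * a * d⁻¹ ∨ a * w = d * b * d⁻¹ := by
  obtain ⟨c, hc⟩ : ∃ c, c = a * b := ⟨_, rfl⟩
  have hcS : ∀ k : ℕ, c ^ k ∈ S := fun k => pow_mem (hc ▸ mul_mem haS hbS) k
  have hainv : a⁻¹ = a := inv_eq_of_mul_eq_one_right ha
  have hbinv : b⁻¹ = b := inv_eq_of_mul_eq_one_right hb
  have hac : ∀ k : ℕ, a * c ^ k = (c ^ k)⁻¹ * a := fun k => by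
    have e : a * c * a⁻¹ = c⁻¹ := by
      rw [hc, _root_.mul_inv_rev, hainv, hbinv, ← mul_assoc a a, ha, one_mul]
    rw [← inv_pow, ← e, conj_pow, inv_mul_cancel_right]
  have hb' : b = a * c := by rw [hc, ← mul_assoc, ha, one_mul]
  rcases Nat.even_or_odd (orderOf c) with ⟨k, hk⟩ | ⟨k, hk⟩
  · right
    have hpos := orderOf_pos c
    have hw2 : c ^ k * c ^ k = 1 := by rw [← pow_add, ← hk, pow_orderOf_eq_one]
    have hwi : (c ^ k)⁻¹ = c ^ k := inv_eq_of_mul_eq_one_right hw2
    have hwa : c ^ k * a = a * c ^ k := by rw [hac, hwi]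
    refine ⟨c ^ k, hcS k, fun e => ?_, hw2, hwa, ?_, ?_⟩
    · exact absurd (Nat.le_of_dvd (by omega) (orderOf_dvd_of_pow_eq_one e)) (by omega)
    · rw [hb', ← mul_assoc, hwa, mul_assoc, ← pow_succ, pow_succ', ← mul_assoc]
    · rcases Nat.even_or_odd k with ⟨m, hm⟩ | ⟨m, hm⟩
      · refine ⟨(c ^ m)⁻¹, S.inv_mem (hcS m), Or.inl ?_⟩
        rw [inv_inv, hm, pow_add, ← mul_assoc, hac]
      · refine ⟨(c ^ m)⁻¹, S.inv_mem (hcS m), Or.inr ?_⟩
        rw [inv_inv, hm, hb', pow_succ', two_mul, pow_add, ← mul_assoc c, ← pow_succ', pow_succ,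
          ← mul_assoc, ← mul_assoc, hac]
        simp only [mul_assoc]
  · left
    refine ⟨c ^ k, hcS k, ?_⟩
    have h1 : c ^ (k + k + 1) = 1 := by rw [← two_mul, ← hk, pow_orderOf_eq_one]
    rw [mul_assoc, show a * (c ^ k)⁻¹ = c ^ k * a by
      rw [mul_inv_eq_iff_eq_mul, mul_assoc, hac, mul_inv_cancel_left], ← mul_assoc, ← pow_add,
      eq_inv_of_mul_eq_one_left (by rw [← pow_succ, h1] : c ^ (k + k) * c = 1), hc,
      _root_.mul_inv_rev, hainv, hbinv, mul_assoc, ha, mul_one]

lemma trace_site (i : Fin t) (A : M4 F) :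
    (site i A : MV F t).trace = A.trace * 4 ^ (t - 1) := by
  have e : ∀ Ys : Fin t → M4 F, (pureMat Ys).trace = ∏ l, (Ys l).trace := fun Ys => by
    simp only [Matrix.trace, Matrix.diag_apply, pureMat]
    exact (Fintype.prod_sum fun l a => Ys l a a).symm
  rw [site, e, ← Finset.mul_prod_erase _ _ (Finset.mem_univ i), Function.update_self,
    Finset.prod_congr rfl (fun l hl => by
      rw [Function.update_of_ne (Finset.ne_of_mem_erase hl), Pi.one_apply, trace_one,
        Fintype.card_fin]), Finset.prod_const, Finset.card_erase_of_mem (Finset.mem_univ i),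
    Finset.card_univ, Fintype.card_fin]
  norm_num

lemma trace_conjGV (d a : GV F t) :
    ((d * a * d⁻¹ : GV F t) : MV F t).trace = (a : MV F t).trace := by
  rw [Units.val_mul, Units.val_mul, trace_mul_cycle, Units.inv_mul, one_mul]

/-! ### The group fixing a slot -/

section Group

variable [Finite F] {M : Subgroup (GV F t)}

/-- The members of the group fixing a slot pointwise. -/
def slotFix (M : Subgroup (GV F t)) (δ : F) (i : Fin t) (r : Fin 4 → F) :
    Subgroup (GV F t) where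
  carrier := {g | g ∈ M ∧ (g : MV F t) * slotP δ i r = slotP δ i r}
  mul_mem' := by
    rintro a b ⟨ha, ha'⟩ ⟨hb, hb'⟩
    exact ⟨M.mul_mem ha hb, by rw [Units.val_mul, mul_assoc, hb', ha']⟩
  one_mem' := ⟨M.one_mem, by simp⟩
  inv_mem' := by
    rintro a ⟨ha, ha'⟩
    refine ⟨M.inv_mem ha, ?_⟩
    calc ((a⁻¹ : GV F t) : MV F t) * slotP δ i r =
        ((a⁻¹ : GV F t) : MV F t) * ((a : MV F t) * slotP δ i r) := by rw [ha']
      _ = _ := by rw [← mul_assoc, Units.inv_mul, one_mul]

lemma exists_site_mem (h : Over δ M) (ht : 3 ≤ t) (i : Fin t) {A : M4 F} (hA : IsoW δ A) :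
    ∃ u ∈ M, (u : MV F t) = site i A := by
  have hne : A.det ≠ 0 := hA.sim.det_ne h.nsq
  refine ⟨siteUnit i A hne, h.mem (Subgroup.subset_closure (Or.inl
    ⟨Function.update 1 i (Matrix.GeneralLinearGroup.mkOfDetNeZero A hne), fun x y => ?_⟩))
    (site_mem_Om h.two h.nsq ht hA rfl), rfl⟩
  show site i A x y = _
  rw [site, pureMat]
  refine Finset.prod_congr rfl fun l _ => ?_
  by_cases hl : l = i
  · subst hl; simp [Matrix.GeneralLinearGroup.mkOfDetNeZero]
  · simp [hl]

lemma sq_eq_one {i : Fin t} (h : Over δ M) {f : Fin 4 → Fin 4 → F} (hf : IsFrame δ f)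
    {g : GV F t} {A : M4 F} (hA : IsoW δ A) (hg : (g : MV F t) = site i A)
    (hc : CommFrame δ i f (g : MV F t)) : g * g = 1 := by
  refine Units.ext ?_
  rw [Units.val_mul, hg, site_mul, Units.val_one, ← site_one i]
  refine congrArg _ (ext_frame hf fun l => ?_)
  have hcl := hc l
  rw [hg, site_mul, site_mul] at hcl
  have h1 := congrArg (· *ᵥ f l) (site_injective i hcl)
  simp only [← mulVec_mulVec, refl_self (hf.1 l), mulVec_neg, reflW_mulVec] at h1
  obtain ⟨c, hc'⟩ : ∃ c : F, A *ᵥ f l = c • f l := by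
    refine ⟨(gB (G4 δ) (f l) (f l))⁻¹ * (2 * gB (G4 δ) (f l) (A *ᵥ f l)) / 2, ?_⟩
    rw [div_eq_inv_mul, ← smul_smul, eq_inv_smul_iff₀ h.two, two_smul]
    linear_combination (norm := module) -h1
  have hcc : c * c = 1 := by
    have := hA.gB_eq (f l) (f l)
    simp only [hc', map_smul, LinearMap.smul_apply, smul_eq_mul] at this
    exact mul_right_cancel₀ (hf.1 l) (by linear_combination this)
  rw [← mulVec_mulVec, hc', mulVec_smul, hc', smul_smul, hcc, one_smul, one_mulVec]

lemma mem_Wr_of_frame_sites (ht : 3 ≤ t) (h : Over δ M)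
    (hframe : ∀ g ∈ M, ∀ i f, IsFrame δ f → CommFrame δ i f (g : MV F t) →
      ∀ l, TrivSlot δ i (f l) (g : MV F t) → g ∈ Wr F t)
    (hspan : Algebra.adjoin F {B : M4 F | ∃ w x, w ≠ 0 ∧ gB (G4 δ) w w = 0 ∧
      gB (G4 δ) w x = 0 ∧ gB (G4 δ) x x ≠ 0 ∧ B = 1 + sieM (G4 δ) w x} = ⊤)
    {i : Fin t} {f : Fin 4 → Fin 4 → F} (hf : IsFrame δ f) {y : GV F t}
    (hy : y ∈ slotFix M δ i (f 0))
    (himg : ∀ l, l ≠ 0 → ∀ a : GV F t, (a : MV F t) = site i (reflW δ (f l)) →
      ∃ X : M4 F, ((y * a * y⁻¹ : GV F t) : MV F t) = site i X) :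
    y ∈ Wr F t := by
  have hyM : y ∈ M := hy.1
  -- the commutator with a member at another site is a sign matrix
  have hφ : ∀ j, j ≠ i → ∀ u ∈ M, ∀ B : M4 F, (u : MV F t) = site j B →
      y⁻¹ * u * y * u⁻¹ * (y⁻¹ * u * y * u⁻¹) = 1 ∧
        Commute (y⁻¹ * u * y * u⁻¹) u := by
    intro j hj u hu B hB
    have huP : (u : MV F t) * slotP δ i (f 0) = slotP δ i (f 0) * (u : MV F t) := by
      rw [hB, slotP, site_comm hj]
    set φ := y⁻¹ * u * y * u⁻¹ with hφdef
    have hφK : φ ∈ slotFix M δ i (f 0) := by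
      rw [hφdef, show y⁻¹ * u * y * u⁻¹ = y⁻¹ * (u * y * u⁻¹) by group]
      refine mul_mem (inv_mem hy) ⟨M.mul_mem (M.mul_mem hu hyM) (M.inv_mem hu), ?_⟩
      have huP' : ((u⁻¹ : GV F t) : MV F t) * slotP δ i (f 0) =
          slotP δ i (f 0) * ((u⁻¹ : GV F t) : MV F t) := by
        calc ((u⁻¹ : GV F t) : MV F t) * slotP δ i (f 0)
            = ((u⁻¹ : GV F t) : MV F t) * (slotP δ i (f 0) * (u : MV F t)) *
                ((u⁻¹ : GV F t) : MV F t) := by
              rw [mul_assoc, mul_assoc, Units.mul_inv, mul_one]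
          _ = _ := by rw [← huP, ← mul_assoc, Units.inv_mul, one_mul]
      rw [Units.val_mul, Units.val_mul, mul_assoc, huP', ← mul_assoc, mul_assoc (u : MV F t), hy.2,
        huP, mul_assoc, Units.mul_inv, mul_one]
    have hiso := h.isoV hφK.1
    have hc0 : (φ : MV F t) * slotP δ i (f 0) = slotP δ i (f 0) * (φ : MV F t) :=
      hφK.2.trans (slot_comm h.nsq hiso hφK.2).symm
    have hc : CommFrame δ i f (φ : MV F t) := by
      intro l
      rcases eq_or_ne l 0 with rfl | hl
      · exact comm_refl_of_comm hc0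
      obtain ⟨a, -, ha⟩ := exists_site_mem h ht i (HalfBig.refl_iso h.two (hf.1 l))
      obtain ⟨X, hX⟩ := himg l hl a ha
      have e1 : Commute u a := Units.ext (by
        rw [Units.val_mul, Units.val_mul, hB, ha, site_comm hj])
      have e2 : Commute u (y * a * y⁻¹) := Units.ext (by
        rw [Units.val_mul, Units.val_mul _ u, hB, hX, site_comm hj])
      have e3 : Commute (y⁻¹ * u * y) a := by
        have := e2.map (MulAut.conj y⁻¹).toMonoidHom
        simpa [mul_assoc] using this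
      have e4 : Commute φ a := e3.mul_left e1.inv_left
      rw [← ha, ← Units.val_mul, e4.eq, Units.val_mul]
    obtain ⟨D, hD, -, hD'⟩ := site_of_mem_Wr h.nsq (hf.1 0)
      (hframe φ hφK.1 i f hf hc 0 hφK.2) hiso hφK.2
    have hcm : (φ : MV F t) * (u : MV F t) = (u : MV F t) * (φ : MV F t) := by
      rw [hD', hB, site_comm (Ne.symm hj)]
    exact ⟨sq_eq_one h hf hD hD' hc, Units.ext (by simpa only [Units.val_mul] using hcm)⟩
  -- so it is trivial on root elements, which are squares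
  have hroot : ∀ j, j ≠ i → ∀ w x, gB (G4 δ) w w = 0 → gB (G4 δ) w x = 0 → gB (G4 δ) x x ≠ 0 →
      (y : MV F t) * site j (1 + sieM (G4 δ) w x) = site j (1 + sieM (G4 δ) w x) * (y : MV F t) := by
    intro j hj w x hw hwx hx
    obtain ⟨z, hz⟩ : ∃ z, z = (2 : F)⁻¹ • x := ⟨_, rfl⟩
    have hwz : gB (G4 δ) w z = 0 := by rw [hz, map_smul, hwx, smul_zero]
    have hzz : gB (G4 δ) z z ≠ 0 := by
      rw [hz, map_smul, LinearMap.map_smul₂, smul_eq_mul, smul_eq_mul]
      exact mul_ne_zero (inv_ne_zero h.two) (mul_ne_zero (inv_ne_zero h.two) hx)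
    obtain ⟨hz', e⟩ := HalfBig.sieM_eq_refl_mul (δ := δ) h.two hw hwz hzz
    obtain ⟨v, hv, hve⟩ := exists_site_mem h ht j (HalfBig.refl_iso h.two hzz)
    obtain ⟨v', hv', hve'⟩ := exists_site_mem h ht j (HalfBig.refl_iso h.two hz')
    have hu : ((v * v' : GV F t) : MV F t) = site j (1 + sieM (G4 δ) w z) := by
      rw [Units.val_mul, hve, hve', site_mul, e]
    obtain ⟨hsq, hcom⟩ := hφ j hj (v * v') (M.mul_mem hv hv') _ hu
    set u := v * v'
    set φ := y⁻¹ * u * y * u⁻¹ with hφdef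
    have hφ2 : y⁻¹ * (u * u) * y = u * u := by
      calc y⁻¹ * (u * u) * y = φ * u * (φ * u) := by rw [hφdef]; group
        _ = φ * φ * (u * u) := hcom.symm.mul_mul_mul_comm φ u
        _ = u * u := by rw [hsq, one_mul]
    have hcomm : y * (u * u) = u * u * y := by
      conv_lhs => rw [← hφ2]
      group
    have hx' : z + z = x := by rw [hz, ← two_smul F, smul_smul, mul_inv_cancel₀ h.two, one_smul]
    have huu : ((u * u : GV F t) : MV F t) = site j (1 + sieM (G4 δ) w x) := by
      rw [Units.val_mul, hu, site_mul, one_add_sieM_mul h.two hw hwz hwz, hx']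
    rw [← huu, ← Units.val_mul, hcomm, Units.val_mul]
  have hall : ∀ j, j ≠ i → ∀ Y, (y : MV F t) * site j Y = site j Y * (y : MV F t) := by
    intro j hj
    let S : Subalgebra F (M4 F) :=
      { carrier := {Y | (y : MV F t) * site j Y = site j Y * (y : MV F t)}
        mul_mem' := fun {a b} ha hb => by
          show _ * _ = _
          rw [← site_mul, ← mul_assoc, ha, mul_assoc, hb, mul_assoc]
        one_mem' := by simp [site_one]
        add_mem' := fun {a b} ha hb => by
          show _ * _ = _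
          rw [site_add, mul_add, add_mul, ha, hb]
        zero_mem' := by simp [site_zero]
        algebraMap_mem' := fun c => by
          show _ * _ = _
          rw [Algebra.algebraMap_eq_smul_one, site_smul, site_one, mul_smul_comm, mul_one,
            smul_mul_assoc, one_mul] }
    have hle : (⊤ : Subalgebra F (M4 F)) ≤ S := by
      rw [← hspan]
      refine Algebra.adjoin_le ?_
      rintro B ⟨w, x, -, hw, hwx, hx, rfl⟩
      exact hroot j hj w x hw hwx hx
    intro Y
    exact hle (Algebra.mem_top : Y ∈ ⊤)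
  obtain ⟨A, hA⟩ := eq_site_of_comm hall
  have hdet : A.det ≠ 0 := by
    intro h0
    obtain ⟨v, hv, hv'⟩ := Matrix.exists_mulVec_eq_zero_iff.2 h0
    have hz : A * vecMulVec v v = 0 := by rw [mul_vecMulVec, hv', zero_vecMulVec]
    have h1 : (y : MV F t) * site i (vecMulVec v v) = 0 := by rw [hA, site_mul, hz, site_zero]
    have h3 : site i (vecMulVec v v) = (0 : MV F t) := by
      rw [← one_mul (site i _), ← Units.inv_mul y, mul_assoc, h1, mul_zero]
    have h4 := site_injective i (h3.trans (site_zero i).symm)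
    obtain ⟨p, hp⟩ := Function.ne_iff.1 hv
    have := congrFun (congrFun h4 p) p
    exact hp (mul_self_eq_zero.1 (by simpa [vecMulVec_apply] using this))
  refine Subgroup.subset_closure (Or.inl
    ⟨Function.update 1 i (Matrix.GeneralLinearGroup.mkOfDetNeZero A hdet), fun a b => ?_⟩)
  rw [hA, site, pureMat]
  refine Finset.prod_congr rfl fun l _ => ?_
  by_cases hl : l = i
  · subst hl; simp [Matrix.GeneralLinearGroup.mkOfDetNeZero]
  · simp [hl]

/-- Members fixing the slot and commuting with a reflection of it are monomial. -/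
lemma cen_refl (ht : 3 ≤ t) (h : Over δ M)
    (hframe : ∀ g ∈ M, ∀ i f, IsFrame δ f → CommFrame δ i f (g : MV F t) →
      ∀ l, TrivSlot δ i (f l) (g : MV F t) → g ∈ Wr F t)
    (hplane : ∀ g ∈ M, ∀ i f, IsFrame δ f → TrivSlot δ i (f 0) (g : MV F t) →
      TrivSlot δ i (f 1) (g : MV F t) → g ∈ Wr F t)
    (hspan : Algebra.adjoin F {B : M4 F | ∃ w x, w ≠ 0 ∧ gB (G4 δ) w w = 0 ∧
      gB (G4 δ) w x = 0 ∧ gB (G4 δ) x x ≠ 0 ∧ B = 1 + sieM (G4 δ) w x} = ⊤)
    {i : Fin t} {r x : Fin 4 → F} (hr : gB (G4 δ) r r ≠ 0) (hx : gB (G4 δ) x x ≠ 0)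
    (hrx : gB (G4 δ) r x = 0) {y : GV F t} (hy : y ∈ slotFix M δ i r)
    (hc : (y : MV F t) * site i (reflW δ x) = site i (reflW δ x) * (y : MV F t)) :
    ∃ A : M4 F, IsoW δ A ∧ A *ᵥ r = r ∧ (y : MV F t) = site i A := by
  obtain ⟨f, hf, rfl, rfl⟩ := exists_frame_two h.two h.nsq hr hx hrx
  refine site_of_mem_Wr h.nsq hr ?_ (h.isoV hy.1) hy.2
  refine mem_Wr_of_frame_sites ht h hframe hspan hf hy fun l hl a ha => ?_
  rcases eq_or_ne l 1 with rfl | hl1
  · exact ⟨reflW δ (f 1), by
      rw [Units.val_mul, Units.val_mul, ha, hc, mul_assoc, Units.mul_inv, mul_one]⟩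
  have haM : a ∈ M := by
    obtain ⟨u, hu, hue⟩ := exists_site_mem h ht i (HalfBig.refl_iso h.two (hf.1 l))
    rwa [show a = u from Units.ext (ha.trans hue.symm)]
  have hfix : ∀ m, m ≠ l → (y : MV F t) * slotP δ i (f m) = slotP δ i (f m) * y →
      ((y * a * y⁻¹ : GV F t) : MV F t) * slotP δ i (f m) = slotP δ i (f m) := by
    intro m hm hym
    have hym' : ((y⁻¹ : GV F t) : MV F t) * slotP δ i (f m) =
        slotP δ i (f m) * ((y⁻¹ : GV F t) : MV F t) := by
      calc ((y⁻¹ : GV F t) : MV F t) * slotP δ i (f m)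
          = ((y⁻¹ : GV F t) : MV F t) * (slotP δ i (f m) * (y : MV F t)) *
              ((y⁻¹ : GV F t) : MV F t) := by rw [mul_assoc, mul_assoc, Units.mul_inv, mul_one]
        _ = _ := by rw [← hym, ← mul_assoc, Units.inv_mul, one_mul]
    have haP : (a : MV F t) * slotP δ i (f m) = slotP δ i (f m) := by
      rw [ha, slotP, site_mul, refl_cr (hf.2 m l hm)]
    rw [Units.val_mul, Units.val_mul, mul_assoc, hym', ← mul_assoc, mul_assoc (y : MV F t), haP,
      hym, mul_assoc, Units.mul_inv, mul_one]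
  have hP0 := hfix 0 hl.symm (hy.2.trans (slot_comm h.nsq (h.isoV hy.1) hy.2).symm)
  have hP1 := hfix 1 (Ne.symm hl1) (comm_of_comm_refl h.two hx hc)
  have hwM : y * a * y⁻¹ ∈ M := M.mul_mem (M.mul_mem hy.1 haM) (M.inv_mem hy.1)
  obtain ⟨X, -, -, hX⟩ := site_of_mem_Wr h.nsq hr (hplane _ hwM i f hf hP0 hP1) (h.isoV hwM) hP0
  exact ⟨X, hX⟩

/-- An eigenvector of an involution commuting with a reflection. -/
lemma eigen_of_comm (h2 : (2 : F) ≠ 0) {x : Fin 4 → F} (hx : gB (G4 δ) x x ≠ 0) {A : M4 F}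
    (hA : IsoW δ A) (hc : A * reflW δ x = reflW δ x * A) : A *ᵥ x = x ∨ A *ᵥ x = -x := by
  have h1 := congrArg (· *ᵥ x) hc
  simp only [← mulVec_mulVec, refl_self hx, mulVec_neg, reflW_mulVec] at h1
  obtain ⟨c, hc'⟩ : ∃ c : F, A *ᵥ x = c • x := by
    refine ⟨(gB (G4 δ) x x)⁻¹ * (2 * gB (G4 δ) x (A *ᵥ x)) / 2, ?_⟩
    rw [div_eq_inv_mul, ← smul_smul, eq_inv_smul_iff₀ h2, two_smul]
    linear_combination (norm := module) -h1
  have hcc : c * c = 1 := by
    have := hA.gB_eq x x
    simp only [hc', map_smul, LinearMap.smul_apply, smul_eq_mul] at this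
    exact mul_right_cancel₀ hx (by linear_combination this)
  rcases mul_self_eq_one_iff.1 hcc with rfl | rfl
  · exact Or.inl (by rw [hc', one_smul])
  · exact Or.inr (by rw [hc', neg_one_smul])

lemma exists_other_class (h2 : (2 : F) ≠ 0) {f : Fin 4 → Fin 4 → F}
    (hf : IsFrame δ f) : ∃ x, gB (G4 δ) x x = δ * gB (G4 δ) (f 1) (f 1) ∧
      gB (G4 δ) (f 0) x = 0 := by
  haveI := Fintype.ofFinite F
  obtain ⟨a, b, hab⟩ := FiniteField.exists_root_sum_quadratic (R := F)
    (f := Polynomial.C (gB (G4 δ) (f 2) (f 2)) * Polynomial.X ^ 2 -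
      Polynomial.C (δ * gB (G4 δ) (f 1) (f 1)))
    (g := Polynomial.C (gB (G4 δ) (f 3) (f 3)) * Polynomial.X ^ 2)
    (by rw [Polynomial.degree_sub_eq_left_of_degree_lt] <;>
      rw [Polynomial.degree_C_mul_X_pow 2 (hf.1 2)] <;>
      first | rfl | exact lt_of_le_of_lt Polynomial.degree_C_le (by norm_num))
    (Polynomial.degree_C_mul_X_pow 2 (hf.1 3))
    (FiniteField.odd_card_of_char_ne_two (fun e => by
      haveI : CharP F 2 := ringChar.of_eq e
      exact h2 (CharP.cast_eq_zero F 2)))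
  simp only [Polynomial.eval_sub, Polynomial.eval_mul, Polynomial.eval_C, Polynomial.eval_pow,
    Polynomial.eval_X] at hab
  refine ⟨a • f 2 + b • f 3, ?_, ?_⟩
  · simp only [map_add, map_smul, LinearMap.add_apply, LinearMap.smul_apply, smul_eq_mul,
      hf.2 2 3 (by decide), hf.2 3 2 (by decide)]
    linear_combination hab
  · simp [hf.2 0 2 (by decide), hf.2 0 3 (by decide)]

end Group

end ReflKernel

section Group

variable [Finite F] {M : Subgroup (GV F t)}

open ReflKernel

/-- The members of the group fixing pointwise a slot of an anisotropic vector are monomial. -/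
theorem refl_kernel (ht : 3 ≤ t) (h : Over δ M)
    (hframe : ∀ g ∈ M, ∀ i f, IsFrame δ f → CommFrame δ i f (g : MV F t) →
      ∀ l, TrivSlot δ i (f l) (g : MV F t) → g ∈ Wr F t)
    (hplane : ∀ g ∈ M, ∀ i f, IsFrame δ f → TrivSlot δ i (f 0) (g : MV F t) →
      TrivSlot δ i (f 1) (g : MV F t) → g ∈ Wr F t)
    (hspan : Algebra.adjoin F {B : M4 F | ∃ w x, w ≠ 0 ∧ gB (G4 δ) w w = 0 ∧
      gB (G4 δ) w x = 0 ∧ gB (G4 δ) x x ≠ 0 ∧ B = 1 + sieM (G4 δ) w x} = ⊤) :
    ∀ g ∈ M, ∀ i r, gB (G4 δ) r r ≠ 0 → TrivSlot δ i r (g : MV F t) → g ∈ Wr F t := by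
  intro g hg i r hr hgr
  have h4 : (4 : F) ^ (t - 1) ≠ 0 := by
    rw [show (4 : F) = 2 * 2 by norm_num]
    exact pow_ne_zero _ (mul_ne_zero h.two h.two)
  obtain ⟨x₀, hx₀, hrx₀⟩ := exists_vec h.two h.nsq hr
  obtain ⟨f, hf, rfl, rfl⟩ := exists_frame_two h.two h.nsq hr hx₀ hrx₀
  obtain ⟨x', hx', hx0'⟩ := exists_other_class h.two hf
  have hx'' : gB (G4 δ) x' x' ≠ 0 := by
    rw [hx']; exact mul_ne_zero (fun e => h.nsq (e ▸ IsSquare.zero)) hx₀
  obtain ⟨a₁, ha₁M, ha₁⟩ := exists_site_mem h ht i (HalfBig.refl_iso h.two hx₀)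
  obtain ⟨a₂, ha₂M, ha₂⟩ := exists_site_mem h ht i (HalfBig.refl_iso h.two hx'')
  have hgK : g ∈ slotFix M δ i (f 0) := ⟨hg, hgr⟩
  have ha₁K : a₁ ∈ slotFix M δ i (f 0) :=
    ⟨ha₁M, by rw [ha₁, slotP, site_mul, refl_cr (hf.2 0 1 (by decide))]⟩
  have ha₂K : a₂ ∈ slotFix M δ i (f 0) :=
    ⟨ha₂M, by rw [ha₂, slotP, site_mul, refl_cr hx0']⟩
  have hinv : ∀ (a : GV F t) (x : Fin 4 → F), gB (G4 δ) x x ≠ 0 →
      (a : MV F t) = site i (reflW δ x) → a * a = 1 := fun a x hx e => Units.ext (by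
    rw [Units.val_mul, e, HalfBig.refl_isUnit h.two hx, Units.val_one])
  -- a conjugator of reflections inside the slot group is monomial
  have hconj : ∀ y ∈ slotFix M δ i (f 0), ∀ (x z : Fin 4 → F) (a : GV F t),
      gB (G4 δ) x x ≠ 0 → gB (G4 δ) (f 0) x = 0 → gB (G4 δ) z z ≠ 0 →
      gB (G4 δ) (f 0) z = 0 → (a : MV F t) = site i (reflW δ x) →
      ((y * a * y⁻¹ : GV F t) : MV F t) = site i (reflW δ z) → y ∈ Wr F t := by
    intro y hy x z a hx h0x hz h0z ha hyz
    obtain ⟨f', hf', hf0, hf1⟩ := exists_frame_two h.two h.nsq hr hx h0x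
    refine mem_Wr_of_frame_sites ht h hframe hspan hf' (by rw [hf0]; exact hy) fun l hl b hb => ?_
    rcases eq_or_ne l 1 with rfl | hl1
    · refine ⟨reflW δ z, ?_⟩
      rw [show b = a from Units.ext (by rw [hb, ha, hf1]), hyz]
    obtain ⟨u, hu, hue⟩ := exists_site_mem h ht i (HalfBig.refl_iso h.two (hf'.1 l))
    obtain rfl : b = u := Units.ext (hb.trans hue.symm)
    have hbK : b ∈ slotFix M δ i (f 0) := ⟨hu, by
      rw [hb, slotP, site_mul, ← hf0, refl_cr (hf'.2 0 l hl.symm)]⟩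
    have hba : b * a = a * b := Units.ext (by
      rw [Units.val_mul, Units.val_mul, hb, ha, ← hf1, site_mul, site_mul,
        refl_comm (hf'.2 l 1 hl1)])
    obtain ⟨X, -, -, hX⟩ := cen_refl ht h hframe hplane hspan hr hz h0z
      (mul_mem (mul_mem hy hbK) (inv_mem hy)) (by
        rw [← hyz, ← Units.val_mul, ← Units.val_mul, show y * b * y⁻¹ * (y * a * y⁻¹) =
          y * (b * a) * y⁻¹ by group, hba]
        congr 1; group)
    exact ⟨X, hX⟩
  obtain ⟨b, hb⟩ : ∃ b, b = g * a₂ * g⁻¹ := ⟨_, rfl⟩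
  have hbK : b ∈ slotFix M δ i (f 0) := hb ▸ mul_mem (mul_mem hgK ha₂K) (inv_mem hgK)
  have hb2 : b * b = 1 := by
    rw [hb, show g * a₂ * g⁻¹ * (g * a₂ * g⁻¹) = g * (a₂ * a₂) * g⁻¹ by group,
      hinv a₂ x' hx'' ha₂, mul_one, mul_inv_cancel]
  have htb : (b : MV F t).trace = 2 * 4 ^ (t - 1) := by
    rw [hb, trace_conjGV, ha₂, trace_site, trace_refl hx'']
  rcases dihedral_cases (hinv a₁ _ hx₀ ha₁) hb2 _ ha₁K hbK with
    ⟨d, hd, hdb⟩ | ⟨w, hwK, hw1, hw2, hwa, hwb, d, -, hd⟩
  · -- reflections of different classes are not conjugate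
    exfalso
    have hy : g⁻¹ * d ∈ slotFix M δ i (f 0) := mul_mem (inv_mem hgK) hd
    have he : g⁻¹ * d * a₁ * (g⁻¹ * d)⁻¹ = a₂ := by
      rw [show g⁻¹ * d * a₁ * (g⁻¹ * d)⁻¹ = g⁻¹ * (d * a₁ * d⁻¹) * g by group, hdb, hb]
      group
    have hyW := hconj _ hy (f 1) x' a₁ hx₀ (hf.2 0 1 (by decide)) hx'' hx0' ha₁
      (by rw [he, ha₂])
    obtain ⟨A, hA, -, hyA⟩ := site_of_mem_Wr h.nsq hr hyW (h.isoV hy.1) hy.2
    have e : (g⁻¹ * d) * a₁ = a₂ * (g⁻¹ * d) := mul_inv_eq_iff_eq_mul.1 he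
    have e' := congrArg Units.val e
    rw [Units.val_mul, Units.val_mul _ (g⁻¹ * d), hyA, ha₁, ha₂, site_mul, site_mul] at e'
    have e2 := congrArg (· *ᵥ f 1) (site_injective i e')
    simp only [← mulVec_mulVec, refl_self hx₀, mulVec_neg, reflW_mulVec] at e2
    obtain ⟨c, hc⟩ : ∃ c : F, A *ᵥ f 1 = c • x' := by
      refine ⟨(gB (G4 δ) x' x')⁻¹ * (2 * gB (G4 δ) x' (A *ᵥ f 1)) / 2, ?_⟩
      rw [div_eq_inv_mul, ← smul_smul, eq_inv_smul_iff₀ h.two, two_smul]
      linear_combination (norm := module) -e2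
    have := hA.gB_eq (f 1) (f 1)
    simp only [hc, map_smul, LinearMap.smul_apply, smul_eq_mul, hx'] at this
    have hcc : c * c * δ = 1 := mul_right_cancel₀ hx₀ (by linear_combination this)
    have hc0 : c ≠ 0 := fun e => by simp [e] at hcc
    exact h.nsq ⟨c⁻¹, by field_simp; linear_combination hcc⟩
  obtain ⟨W, hW, hW0, hWe⟩ := cen_refl ht h hframe hplane hspan hr hx₀ (hf.2 0 1 (by decide)) hwK
    (by rw [← ha₁, ← Units.val_mul, hwa, Units.val_mul])
  have hWW : W * W = 1 := site_injective i (by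
    rw [← site_mul, ← hWe, ← Units.val_mul, hw2, Units.val_one, site_one])
  have hW1 := eigen_of_comm h.two hx₀ hW (site_injective i (by
    rw [← site_mul, ← site_mul, ← hWe, ← ha₁, ← Units.val_mul, hwa, Units.val_mul]))
  have hbr : (b : MV F t) * site i (reflW δ (f 0)) = site i (reflW δ (f 0)) * (b : MV F t) :=
    comm_refl_of_comm (hbK.2.trans (slot_comm h.nsq (h.isoV hbK.1) hbK.2).symm)
  have hbw : (b : MV F t) * site i W = site i W * (b : MV F t) := by
    rw [← hWe, ← Units.val_mul, ← hwb, Units.val_mul]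
  obtain ⟨x, hx, h0x, hbx⟩ : ∃ x, gB (G4 δ) x x ≠ 0 ∧ gB (G4 δ) (f 0) x = 0 ∧
      (b : MV F t) * site i (reflW δ x) = site i (reflW δ x) * (b : MV F t) := by
    rcases invol_cases h.two hf hW hWW hW0 hW1 with e | e | ⟨x, hx, h0x, e | e⟩
    · exact absurd (Units.ext (by rw [hWe, e, site_one, Units.val_one])) hw1
    · exfalso
      have h1 : (((a₁ * w : GV F t)) : MV F t).trace = 2 * 4 ^ (t - 1) := by
        rcases hd with hd | hd
        · rw [hd, trace_conjGV, ha₁, trace_site, trace_refl hx₀]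
        · rw [hd, trace_conjGV, htb]
      rw [Units.val_mul, ha₁, hWe, e, site_mul, trace_site, mul_neg, trace_neg,
        trace_refl_mul hx₀ hr (hf.2 1 0 (by decide)), neg_zero, zero_mul] at h1
      exact mul_ne_zero h.two h4 h1.symm
    · exact ⟨x, hx, h0x, e ▸ hbw⟩
    · refine ⟨x, hx, h0x, ?_⟩
      have : reflW δ x = -(reflW δ (f 0) * W) := by
        rw [e, mul_neg, neg_neg, ← mul_assoc, HalfBig.refl_sq h.two hr, one_mul]
      rw [this, ← neg_one_smul F (reflW δ (f 0) * W), site_smul, ← site_mul, mul_smul_comm,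
        smul_mul_assoc, ← mul_assoc, hbr, mul_assoc, hbw, mul_assoc]
  obtain ⟨X, hXi, hX0, hXe⟩ := cen_refl ht h hframe hplane hspan hr hx h0x hbK hbx
  have hXX : X * X = 1 := site_injective i (by
    rw [← site_mul, ← hXe, ← Units.val_mul, hb2, Units.val_one, site_one])
  obtain ⟨f', hf', hf0, hf1⟩ := exists_frame_two h.two h.nsq hr hx h0x
  have hX1 := eigen_of_comm h.two hx hXi (site_injective i (by
    rw [← site_mul, ← site_mul, ← hXe, hbx]))
  rw [← hf1] at hX1
  rw [← hf0] at hX0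
  have htX : X.trace = 2 := mul_right_cancel₀ h4 (by rw [← trace_site, ← hXe, htb])
  rcases invol_cases h.two hf' hXi hXX hX0 hX1 with e | e | ⟨z, hz, h0z, e | e⟩
  · rw [e, trace_one, Fintype.card_fin] at htX
    exact absurd (by push_cast at htX; linear_combination htX) h.two
  · rw [e, trace_neg, trace_refl (hf'.1 0)] at htX
    exact absurd (by linear_combination -htX : (2 : F) * 2 = 0) (mul_ne_zero h.two h.two)
  · exact hconj g hgK x' z a₂ hx'' hx0' hz (hf0 ▸ h0z) ha₂ (by rw [← hb, hXe, e])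
  · rw [e, trace_neg, trace_refl_mul (hf'.1 0) hz h0z, neg_zero] at htX
    exact absurd htX.symm h.two

end Group

end Cfsg.Agent.MaxSub.OrthFour
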