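import Cfsg.Agent.MaxSub.OrthFour.SiteLift
import Cfsg.Agent.MaxSub.OrthFour.ReflKernel
import Cfsg.Agent.MaxSub.OrthFour.PlaneSite
import Cfsg.Agent.MaxSub.OrthFour.FrameNormal

/-!
Centralisers of site reflections when there are at least three sites: if the members fixing
pointwise an anisotropic slot are monomial, then so are the members commuting with a site
reflection.

The facts of the neighbouring files are taken as explicit hypotheses:
* `hker`: members fixing pointwise a slot of an anisotropic vector are monomial;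
* `hconjS`, `hconjT`: a form isometry conjugating all site root elements into the monomial group
  is monomial, for `s` and for `s + 1` sites.
-/

set_option autoImplicit false
set_option linter.unusedSectionVars false

namespace Cfsg.Agent.MaxSub.OrthFour

open Matrix Cfsg.Geo Cfsg.Agent.NotMax Cfsg.Agent.GeoClasses
open Cfsg.Agent.MaxSub.TensorPowSp (gV fG siteHom siteHom_apply site_injective)
open Cfsg.Agent.MaxSub.OrthWreathBig (gB cr sieM cr_mul cr_mulVec cr_add_left cr_add_right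
  cr_smul_left cr_smul_right)
open scoped MatrixGroups Matrix

variable {F : Type*} [Field F] {t : ℕ} {δ : F}

namespace CRefl

/-! ### Rank one maps of one site -/

lemma mul_cr (A : M4 F) (x y : Fin 4 → F) : A * cr (G4 δ) x y = cr (G4 δ) (A *ᵥ x) y := by
  rw [cr, cr, Matrix.mul_vecMulVec]

lemma cr_mul_refl (h2 : (2 : F) ≠ 0) {u : Fin 4 → F} (hu : gB (G4 δ) u u ≠ 0) (x y : Fin 4 → F) :
    cr (G4 δ) x y * reflW δ u = cr (G4 δ) x (reflW δ u *ᵥ y) := by
  refine Matrix.ext_iff_mulVec.2 fun z => ?_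
  rw [← mulVec_mulVec, cr_mulVec, cr_mulVec]
  congr 1
  conv_rhs => rw [← (HalfBig.refl_iso h2 hu).gB_eq, mulVec_mulVec, HalfBig.refl_sq h2 hu,
    one_mulVec]

/-- The matrices whose action at one site commutes with a given matrix. -/
noncomputable def cen (v : MV F t) (i : Fin t) : Subalgebra F (M4 F) :=
  (Subalgebra.centralizer F {v}).comap (siteHom i)

lemma mem_cen {v : MV F t} {i : Fin t} {X : M4 F} :
    X ∈ cen v i ↔ v * site i X = site i X * v := by
  simp [cen, Subalgebra.mem_centralizer_iff, siteHom_apply]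

lemma cen_cr_of_refl (h2 : (2 : F) ≠ 0) {v : MV F t} {i : Fin t} {x : Fin 4 → F}
    (hx : gB (G4 δ) x x ≠ 0) (h : reflW δ x ∈ cen v i) : cr (G4 δ) x x ∈ cen v i := by
  have e : cr (G4 δ) x x = (gB (G4 δ) x x / 2) • (1 - reflW δ x) := by
    rw [reflW, sub_sub_cancel, smul_smul, div_mul_div_comm, mul_comm (gB _ x x) 2,
      div_self (mul_ne_zero h2 hx), one_smul]
  rw [e]
  exact Subalgebra.smul_mem _ (sub_mem (one_mem _) h) _

/-- Commuting with the reflections fixing a vector gives the rank one maps orthogonal to it. -/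
lemma cen_perp (h2 : (2 : F) ≠ 0) {v : MV F t} {i : Fin t} {f : Fin 4 → Fin 4 → F}
    (hf : IsFrame δ f)
    (h : ∀ x, gB (G4 δ) x x ≠ 0 → gB (G4 δ) (f 0) x = 0 → reflW δ x ∈ cen v i) :
    (∀ x y, gB (G4 δ) (f 0) x = 0 → gB (G4 δ) (f 0) y = 0 → cr (G4 δ) x y ∈ cen v i) ∧
      cr (G4 δ) (f 0) (f 0) ∈ cen v i := by
  set C := cen v i
  have sq : ∀ x, gB (G4 δ) x x ≠ 0 → gB (G4 δ) (f 0) x = 0 → cr (G4 δ) x x ∈ C :=
    fun x hx hx0 => cen_cr_of_refl h2 hx (h x hx hx0)
  have o0 : ∀ l : Fin 4, l ≠ 0 → gB (G4 δ) (f 0) (f l) = 0 := fun l hl => hf.2 0 l hl.symm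
  have dg : ∀ l : Fin 4, l ≠ 0 → cr (G4 δ) (f l) (f l) ∈ C := fun l hl => sq _ (hf.1 l) (o0 l hl)
  have pair : ∀ l m : Fin 4, l ≠ 0 → m ≠ 0 → l ≠ m → cr (G4 δ) (f l) (f m) ∈ C := by
    intro l m hl hm hlm
    have hS : cr (G4 δ) (f l) (f m) + cr (G4 δ) (f m) (f l) ∈ C := by
      by_cases hn : gB (G4 δ) (f l) (f l) + gB (G4 δ) (f m) (f m) = 0
      · obtain ⟨z, hz0, hzl, hzm⟩ := (by decide : ∀ l m : Fin 4, l ≠ 0 → m ≠ 0 → l ≠ m →
          ∃ z : Fin 4, z ≠ 0 ∧ z ≠ l ∧ z ≠ m) l m hl hm hlm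
        have hp : ∀ c : F, c * c = 1 → cr (G4 δ) (f l + f m + c • f z) (f l + f m + c • f z) ∈ C := by
          intro c hc
          refine sq _ ?_ ?_
          · simp only [map_add, map_smul, LinearMap.add_apply, LinearMap.smul_apply, smul_eq_mul,
              hf.2 l m hlm, hf.2 m l hlm.symm, hf.2 z l hzl, hf.2 l z hzl.symm, hf.2 z m hzm,
              hf.2 m z hzm.symm]
            intro e
            apply hf.1 z
            linear_combination e - hn - gB (G4 δ) (f z) (f z) * hc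
          · simp [o0 l hl, o0 m hm, o0 z hz0]
        have e : (2 : F) • (cr (G4 δ) (f l) (f m) + cr (G4 δ) (f m) (f l)) =
            cr (G4 δ) (f l + f m + (1 : F) • f z) (f l + f m + (1 : F) • f z) +
              cr (G4 δ) (f l + f m + (-1 : F) • f z) (f l + f m + (-1 : F) • f z) -
              (2 : F) • (cr (G4 δ) (f l) (f l) + cr (G4 δ) (f m) (f m) + cr (G4 δ) (f z) (f z)) := by
          simp only [cr_add_left, cr_add_right, cr_smul_left, cr_smul_right]
          module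
        have := Subalgebra.smul_mem _ (sub_mem (add_mem (hp 1 (by ring)) (hp (-1) (by ring)))
          (Subalgebra.smul_mem _ (add_mem (add_mem (dg l hl) (dg m hm)) (dg z hz0)) (2 : F)))
          (2 : F)⁻¹
        rw [← e, smul_smul, inv_mul_cancel₀ h2, one_smul] at this
        exact this
      · have := sub_mem (sub_mem (sq (f l + f m) (by
          simpa [hf.2 l m hlm, hf.2 m l hlm.symm] using hn) (by simp [o0 l hl, o0 m hm]))
          (dg l hl)) (dg m hm)
        convert this using 1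
        simp only [cr_add_left, cr_add_right]
        abel
    have := Subalgebra.smul_mem _ (mul_mem (dg l hl) hS) (gB (G4 δ) (f l) (f l))⁻¹
    rw [mul_add, cr_mul, cr_mul, hf.2 l m hlm, zero_smul, add_zero,
      inv_smul_smul₀ (hf.1 l)] at this
    exact this
  refine ⟨fun x y hx hy => ?_, ?_⟩
  · have hfy : ∀ l : Fin 4, l ≠ 0 → cr (G4 δ) (f l) y ∈ C := by
      intro l hl
      rw [PlaneKernel.frame_expand hf y]
      simp only [Fin.sum_univ_four, hy, mul_zero, zero_smul, zero_add, cr_add_right, cr_smul_right]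
      have : ∀ m : Fin 4, m ≠ 0 → cr (G4 δ) (f l) (f m) ∈ C := fun m hm => by
        rcases eq_or_ne l m with rfl | hlm
        · exact dg l hl
        · exact pair l m hl hm hlm
      exact add_mem (add_mem (Subalgebra.smul_mem _ (this 1 (by decide)) _)
        (Subalgebra.smul_mem _ (this 2 (by decide)) _)) (Subalgebra.smul_mem _ (this 3 (by decide)) _)
    rw [PlaneKernel.frame_expand hf x]
    simp only [Fin.sum_univ_four, hx, mul_zero, zero_smul, zero_add, cr_add_left, cr_smul_left]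
    exact add_mem (add_mem (Subalgebra.smul_mem _ (hfy 1 (by decide)) _)
      (Subalgebra.smul_mem _ (hfy 2 (by decide)) _)) (Subalgebra.smul_mem _ (hfy 3 (by decide)) _)
  · have e := PlaneKernel.frame_sum hf
    rw [Fin.sum_univ_four, add_assoc, add_assoc, ← eq_sub_iff_add_eq] at e
    have := Subalgebra.smul_mem C (e ▸ sub_mem (one_mem C)
      (add_mem (Subalgebra.smul_mem _ (dg 1 (by decide)) _)
        (add_mem (Subalgebra.smul_mem _ (dg 2 (by decide)) _)
          (Subalgebra.smul_mem _ (dg 3 (by decide)) _))) :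
        (gB (G4 δ) (f 0) (f 0))⁻¹ • cr (G4 δ) (f 0) (f 0) ∈ C) (gB (G4 δ) (f 0) (f 0))
    rwa [smul_inv_smul₀ (hf.1 0)] at this

/-- The rank one maps of a frame generate. -/
lemma cen_top {v : MV F t} {i : Fin t} {f : Fin 4 → Fin 4 → F} (hf : IsFrame δ f)
    (h : ∀ l m, cr (G4 δ) (f l) (f m) ∈ cen v i) (X : M4 F) : X ∈ cen v i := by
  rw [← mul_one X, ← PlaneKernel.frame_sum hf, Finset.mul_sum]
  refine sum_mem fun l _ => ?_
  rw [mul_smul_comm, mul_cr, PlaneKernel.frame_expand hf (X *ᵥ f l)]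
  simp only [Fin.sum_univ_four, cr_add_left, cr_smul_left]
  exact Subalgebra.smul_mem _ (add_mem (add_mem (add_mem (Subalgebra.smul_mem _ (h 0 l) _)
    (Subalgebra.smul_mem _ (h 1 l) _)) (Subalgebra.smul_mem _ (h 2 l) _))
    (Subalgebra.smul_mem _ (h 3 l) _)) _

/-- A perpendicular vector of the same norm. -/
lemma exists_same_norm [Finite F] (h2 : (2 : F) ≠ 0) {f : Fin 4 → Fin 4 → F} (hf : IsFrame δ f) :
    ∃ u, gB (G4 δ) u u = gB (G4 δ) (f 0) (f 0) ∧ gB (G4 δ) (f 0) u = 0 := by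
  haveI := Fintype.ofFinite F
  obtain ⟨a, b, hab⟩ := FiniteField.exists_root_sum_quadratic (R := F)
    (f := Polynomial.C (gB (G4 δ) (f 1) (f 1)) * Polynomial.X ^ 2 -
      Polynomial.C (gB (G4 δ) (f 0) (f 0)))
    (g := Polynomial.C (gB (G4 δ) (f 2) (f 2)) * Polynomial.X ^ 2)
    (by rw [Polynomial.degree_sub_eq_left_of_degree_lt] <;>
      rw [Polynomial.degree_C_mul_X_pow 2 (hf.1 1)] <;>
      first | rfl | exact lt_of_le_of_lt Polynomial.degree_C_le (by norm_num))
    (Polynomial.degree_C_mul_X_pow 2 (hf.1 2))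
    (FiniteField.odd_card_of_char_ne_two (fun e => by
      haveI : CharP F 2 := ringChar.of_eq e
      exact h2 (CharP.cast_eq_zero F 2)))
  simp only [Polynomial.eval_sub, Polynomial.eval_mul, Polynomial.eval_C, Polynomial.eval_pow,
    Polynomial.eval_X] at hab
  refine ⟨a • f 1 + b • f 2, ?_, ?_⟩
  · simp only [map_add, map_smul, LinearMap.add_apply, LinearMap.smul_apply, smul_eq_mul,
      hf.2 1 2 (by decide), hf.2 2 1 (by decide)]
    linear_combination hab
  · simp [hf.2 0 1 (by decide), hf.2 0 2 (by decide)]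

section Group

variable [Finite F] {M : Subgroup (GV F t)}

/-- A member commuting with the stabiliser of a vector at one site commutes with that site, up to
the reflection in the vector. -/
lemma split (h : Over δ M) (ht : 3 ≤ t)
    (hker : ∀ g ∈ M, ∀ i r, gB (G4 δ) r r ≠ 0 → TrivSlot δ i r (g : MV F t) → g ∈ Wr F t)
    {i : Fin t} {r : Fin 4 → F} (hr : gB (G4 δ) r r ≠ 0) {a : GV F t}
    (ha : (a : MV F t) = site i (reflW δ r)) {v : GV F t} (hv : v ∈ M)
    (hvK : ∀ x, gB (G4 δ) x x ≠ 0 → gB (G4 δ) r x = 0 → reflW δ x ∈ cen (v : MV F t) i) :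
    (∀ X, X ∈ cen (v : MV F t) i) ∨ ∀ X, X ∈ cen ((a * v : GV F t) : MV F t) i := by
  obtain ⟨x₀, hx₀, hrx₀⟩ := ReflKernel.exists_vec h.two h.nsq hr
  obtain ⟨f, hf, rfl, rfl⟩ := ReflKernel.exists_frame_two h.two h.nsq hr hx₀ hrx₀
  obtain ⟨perp, h00⟩ := cen_perp h.two hf hvK
  obtain ⟨u, hu, h0u⟩ := exists_same_norm h.two hf
  set r := f 0 with hrdef
  have hu0 : gB (G4 δ) u r = 0 := by rw [gB_symm, h0u]
  obtain ⟨A, hA⟩ : ∃ A, A = reflW δ (r - u) := ⟨_, rfl⟩
  have hd : gB (G4 δ) (r - u) (r - u) = 2 * gB (G4 δ) r r := by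
    simp only [map_sub, LinearMap.sub_apply, h0u, hu0, hu]; ring
  have hd0 : gB (G4 δ) (r - u) (r - u) ≠ 0 := by rw [hd]; exact mul_ne_zero h.two hr
  have hAi : IsoW δ A := hA ▸ HalfBig.refl_iso h.two hd0
  have hAA : A * A = 1 := hA ▸ HalfBig.refl_sq h.two hd0
  have hAr : A *ᵥ r = u := by
    rw [hA, reflW_mulVec, hd, map_sub, LinearMap.sub_apply, hu0, sub_zero,
      inv_mul_cancel₀ (mul_ne_zero h.two hr), one_smul, sub_sub_cancel]
  have hAu : A *ᵥ u = r := by rw [← hAr, mulVec_mulVec, hAA, one_mulVec]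
  obtain ⟨z, hz, hz'⟩ := ReflKernel.exists_perp h.two h.nsq (by norm_num : 2 < 4) ![r, u]
    (fun l => by fin_cases l <;> [exact hr; exact hu ▸ hr])
    (fun l m hlm => by fin_cases l <;> fin_cases m <;>
      first | exact absurd rfl hlm | exact h0u | exact hu0)
  have hrz : gB (G4 δ) r z = 0 := hz' 0
  have huz : gB (G4 δ) u z = 0 := hz' 1
  have hAz : A *ᵥ z = z := by
    rw [hA, ReflKernel.refl_vec]
    rw [map_sub, LinearMap.sub_apply, hrz, huz, sub_zero]
  -- the conjugate by the reflection exchanging the two vectors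
  obtain ⟨b, hbM, hb⟩ := ReflKernel.exists_site_mem h ht i hAi
  have hbb : b * b = 1 := Units.ext (by rw [Units.val_mul, hb, site_mul, hAA, site_one, Units.val_one])
  obtain ⟨V, hV⟩ : ∃ V : MV F t, V = (v : MV F t) := ⟨_, rfl⟩
  obtain ⟨V', hV'⟩ : ∃ V' : MV F t, V' = ((b * v * b : GV F t) : MV F t) := ⟨_, rfl⟩
  have hV'e : V' = site i A * V * site i A := by rw [hV', hV, Units.val_mul, Units.val_mul, hb]
  have hVc : ∀ X, X ∈ cen (v : MV F t) i → V * site i X = site i X * V := fun X hX =>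
    hV ▸ mem_cen.1 hX
  have CA : ∀ x y, gB (G4 δ) u x = 0 → gB (G4 δ) u y = 0 →
      V' * site i (cr (G4 δ) x y) = site i (cr (G4 δ) x y) * V' := by
    intro x y hx hy
    have p : ∀ x, gB (G4 δ) u x = 0 → gB (G4 δ) r (A *ᵥ x) = 0 := fun x hx => by
      rw [← hAu, hAi.gB_eq, hx]
    have c := hVc _ (perp _ _ (p x hx) (p y hy))
    have e1 : A * cr (G4 δ) x y = cr (G4 δ) (A *ᵥ x) (A *ᵥ y) * A := by
      rw [mul_cr, hA, cr_mul_refl h.two hd0, ← hA, mulVec_mulVec, hAA, one_mulVec]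
    have e3 : A * cr (G4 δ) (A *ᵥ x) (A *ᵥ y) = cr (G4 δ) x y * A := by
      rw [mul_cr, mulVec_mulVec, hAA, one_mulVec, hA, cr_mul_refl h.two hd0]
    rw [hV'e]
    calc site i A * V * site i A * site i (cr (G4 δ) x y)
        = site i A * (V * site i (cr (G4 δ) (A *ᵥ x) (A *ᵥ y))) * site i A := by
          simp only [mul_assoc, site_mul, e1]
      _ = site i (A * cr (G4 δ) (A *ᵥ x) (A *ᵥ y)) * (V * site i A) := by
          rw [c, ← site_mul]; simp only [mul_assoc]
      _ = site i (cr (G4 δ) x y) * (site i A * V * site i A) := by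
          rw [e3, ← site_mul]; simp only [mul_assoc]
  obtain ⟨Szz, hSzz⟩ : ∃ S : MV F t, S = site i (cr (G4 δ) z z) := ⟨_, rfl⟩
  have agree : V' * Szz = V * Szz := by
    have eL : site i A * Szz = Szz := by rw [hSzz, site_mul, mul_cr, hAz]
    have hc : V * Szz = Szz * V := hSzz ▸ hVc _ (perp _ _ hrz hrz)
    rw [hV'e, mul_assoc, eL, mul_assoc, hc, ← mul_assoc, eL]
  have hT : TrivSlot δ i z (((b * v * b)⁻¹ * v : GV F t) : MV F t) := by
    show _ * _ = _
    rw [Units.val_mul, mul_assoc, ← hV, ← hSzz, ← agree, hV', ← mul_assoc, Units.inv_mul, one_mul]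
  have hTM : (b * v * b)⁻¹ * v ∈ M := M.mul_mem (M.inv_mem (M.mul_mem (M.mul_mem hbM hv) hbM)) hv
  have hz0 : cr (G4 δ) z z ≠ 0 := fun e => by
    have := congrArg (fun X => gB (G4 δ) z (X *ᵥ z)) e
    simp [cr_mulVec, hz] at this
  obtain ⟨Y, hY⟩ := PlaneKernel.exists_site_of_Wr (hker _ hTM i z hz hT) i hz0 hT
    (PlaneKernel.trivSlot_comm h.nsq (h.isoV hTM) i z hT)
  have hYi : IsoW δ Y := PlaneKernel.isoW_of_site h.nsq i (hY ▸ h.isoV hTM)
  have hVY : V = V' * site i Y := by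
    rw [← hY, hV', ← Units.val_mul, mul_inv_cancel_left, hV]
  -- the vector is an eigenvector of the correction
  have hYc : Y * cr (G4 δ) r r = cr (G4 δ) r r * Y := by
    refine site_injective i ?_
    rw [← site_mul, ← site_mul, ← hY, Units.val_mul]
    have c1 : Commute (site i (cr (G4 δ) r r)) (((b * v * b)⁻¹ : GV F t) : MV F t) :=
      Commute.units_inv_right (by rw [← hV']; exact (CA r r hu0 hu0).symm)
    exact ((c1.mul_right (hV ▸ (hVc _ h00).symm :
      Commute (site i (cr (G4 δ) r r)) (v : MV F t))).symm).eq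
  obtain ⟨lam, hlam⟩ : ∃ l : F, Y *ᵥ r = l • r := by
    refine ⟨gB (G4 δ) r (Y *ᵥ r) / gB (G4 δ) r r, ?_⟩
    have e := congrArg (fun X => X *ᵥ r) hYc
    simp only [← mulVec_mulVec, cr_mulVec, mulVec_smul] at e
    rw [div_eq_inv_mul, ← smul_smul, ← e, inv_smul_smul₀ hr]
  have hll : lam * lam = 1 := by
    have e := hYi.gB_eq r r
    simp only [hlam, map_smul, LinearMap.smul_apply, smul_eq_mul] at e
    exact mul_right_cancel₀ hr (by rw [one_mul, mul_assoc]; exact e)
  have hYl : ∀ x, gB (G4 δ) r (Y *ᵥ x) = lam * gB (G4 δ) r x := by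
    intro x
    have e := congrArg (fun X => gB (G4 δ) r (X *ᵥ x)) hYc
    simp only [← mulVec_mulVec, cr_mulVec, mulVec_smul, map_smul, smul_eq_mul, hlam] at e
    exact mul_right_cancel₀ hr (by linear_combination -e)
  obtain ⟨Srz, hSrz⟩ : ∃ S : MV F t, S = site i (cr (G4 δ) r z) := ⟨_, rfl⟩
  obtain ⟨Szr, hSzr⟩ : ∃ S : MV F t, S = site i (cr (G4 δ) z r) := ⟨_, rfl⟩
  have g1 : Srz * Szz = gB (G4 δ) z z • Srz := by rw [hSrz, hSzz, site_mul, cr_mul, site_smul]
  have g3 : Szz * Szr = gB (G4 δ) z z • Szr := by rw [hSzr, hSzz, site_mul, cr_mul, site_smul]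
  have hc : V * Szz = Szz * V := hSzz ▸ hVc _ (perp _ _ hrz hrz)
  have hc' : V' * Szz = Szz * V' := hSzz ▸ CA z z huz huz
  have d1 : Srz * V' = Srz * V :=
    smul_right_injective _ hz (show gB (G4 δ) z z • (Srz * V') = gB (G4 δ) z z • (Srz * V) by
      rw [← smul_mul_assoc, ← smul_mul_assoc, ← g1, mul_assoc, mul_assoc, ← hc', agree, hc])
  have d2 : V' * Szr = V * Szr :=
    smul_right_injective _ hz (show gB (G4 δ) z z • (V' * Szr) = gB (G4 δ) z z • (V * Szr) by
      rw [← mul_smul_comm, ← mul_smul_comm, ← g3, ← mul_assoc, agree, mul_assoc])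
  have e1 : V * Srz = lam • (Srz * V) := by
    rw [← d1, hSrz, ← CA r z hu0 huz, hVY, mul_assoc, site_mul, mul_cr, hlam, cr_smul_left,
      site_smul, mul_smul_comm]
  have e2 : Szr * V = lam • (V * Szr) := by
    have : cr (G4 δ) z r * Y = lam • cr (G4 δ) z r := Matrix.ext_iff_mulVec.2 fun x => by
      rw [← mulVec_mulVec, cr_mulVec, hYl, smul_mulVec, cr_mulVec, smul_smul]
    rw [hVY, ← mul_assoc, hSzr, ← CA z r huz hu0, mul_assoc, site_mul, this, site_smul,
      mul_smul_comm, ← hSzr, d2, hVY]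
  -- conclusion
  have top : ∀ w : GV F t,
      (∀ x y, gB (G4 δ) r x = 0 → gB (G4 δ) r y = 0 → cr (G4 δ) x y ∈ cen (w : MV F t) i) →
      cr (G4 δ) r r ∈ cen (w : MV F t) i →
      (w : MV F t) * Srz = Srz * (w : MV F t) → (w : MV F t) * Szr = Szr * (w : MV F t) →
      ∀ X, X ∈ cen (w : MV F t) i := by
    intro w hp hrr h1 h3
    have hrz' : cr (G4 δ) r z ∈ cen (w : MV F t) i := mem_cen.2 (hSrz ▸ h1)
    have hzr' : cr (G4 δ) z r ∈ cen (w : MV F t) i := mem_cen.2 (hSzr ▸ h3)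
    refine cen_top hf fun l m => ?_
    have o : ∀ l : Fin 4, l ≠ 0 → gB (G4 δ) r (f l) = 0 := fun l hl => hf.2 0 l hl.symm
    rcases eq_or_ne l 0 with rfl | hl <;> rcases eq_or_ne m 0 with rfl | hm
    · exact hrr
    · have := Subalgebra.smul_mem _ (mul_mem hrz' (hp z _ hrz (o m hm))) (gB (G4 δ) z z)⁻¹
      rwa [cr_mul, inv_smul_smul₀ hz] at this
    · have := Subalgebra.smul_mem _ (mul_mem (hp _ z (o l hl) hrz) hzr') (gB (G4 δ) z z)⁻¹
      rwa [cr_mul, inv_smul_smul₀ hz] at this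
    · exact hp _ _ (o l hl) (o m hm)
  rcases mul_self_eq_one_iff.1 hll with rfl | rfl
  · exact Or.inl (top v perp h00 (by rw [← hV, e1, one_smul]) (by rw [← hV, e2, one_smul]))
  · right
    obtain ⟨R, hR⟩ : ∃ R : MV F t, R = site i (reflW δ r) := ⟨_, rfl⟩
    have hRr : reflW δ r *ᵥ r = -r := ReflKernel.refl_self hr
    have hR0 : ∀ x y, gB (G4 δ) r x = 0 → gB (G4 δ) r y = 0 →
        R * site i (cr (G4 δ) x y) = site i (cr (G4 δ) x y) * R := fun x y hx hy => by
      rw [hR, site_mul, site_mul, mul_cr, cr_mul_refl h.two hr, ReflKernel.refl_vec _ _ hx,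
        ReflKernel.refl_vec _ _ hy]
    have hRrr : R * site i (cr (G4 δ) r r) = site i (cr (G4 δ) r r) * R := by
      rw [hR, site_mul, site_mul, mul_cr, cr_mul_refl h.two hr, hRr, ← neg_one_smul F r,
        cr_smul_left, cr_smul_right]
    have hw : ((a * v : GV F t) : MV F t) = R * V := by rw [Units.val_mul, ha, hR, hV]
    have comm : ∀ X, R * site i X = site i X * R → X ∈ cen (v : MV F t) i →
        X ∈ cen ((a * v : GV F t) : MV F t) i := fun X hX hXv => mem_cen.2 (by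
      rw [hw, mul_assoc, hVc _ hXv, ← mul_assoc, hX, mul_assoc])
    refine top _ (fun x y hx hy => comm _ (hR0 x y hx hy) (perp x y hx hy)) (comm _ hRrr h00) ?_ ?_
    · have eR : R * Srz = -Srz := by
        rw [hR, hSrz, site_mul, mul_cr, hRr, ← neg_one_smul F r, cr_smul_left, site_smul,
          neg_one_smul]
      have eR' : Srz * R = Srz := by
        rw [hR, hSrz, site_mul, cr_mul_refl h.two hr, ReflKernel.refl_vec _ _ hrz]
      rw [hw, mul_assoc, e1, neg_one_smul, mul_neg, ← mul_assoc, eR, neg_mul, neg_neg, ← mul_assoc,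
        eR']
    · have eR : R * Szr = Szr := by
        rw [hR, hSzr, site_mul, mul_cr, ReflKernel.refl_vec _ _ hrz]
      have eR' : Szr * R = -Szr := by
        rw [hR, hSzr, site_mul, cr_mul_refl h.two hr, hRr, ← neg_one_smul F r, cr_smul_right,
          site_smul, neg_one_smul]
      have e2' : V * Szr = -(Szr * V) := by rw [e2, neg_one_smul, neg_neg]
      rw [hw, mul_assoc, e2', mul_neg, ← mul_assoc, eR, ← mul_assoc, eR', neg_mul]

end Group

section Main

variable [Finite F] {s : ℕ} {M : Subgroup (GV F (s + 1))}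
variable (hs : 2 ≤ s) (h : Over δ M) (hD : Dicho F δ s) (hP : PairsLe M)
  (hker : ∀ g ∈ M, ∀ i r, gB (G4 δ) r r ≠ 0 → TrivSlot δ i r (g : MV F (s + 1)) →
    g ∈ Wr F (s + 1))
  (hconjS : ∀ g : GV F s, IsoV δ (g : MV F s) →
    (∀ u : GV F s, IsSiteU δ (u : MV F s) → g * u * g⁻¹ ∈ Wr F s) → g ∈ Wr F s)
include hs h hD hP hker hconjS

/-- The members commuting with one site are monomial. -/
lemma away {i : Fin (s + 1)} {w : GV F (s + 1)} (hw : w ∈ M)
    (hc : ∀ X, X ∈ cen (w : MV F (s + 1)) i) : w ∈ Wr F (s + 1) := by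
  obtain ⟨k, rfl⟩ := exists_siteLiftGL i fun X => (mem_cen.1 (hc X)).symm
  refine siteLiftGL_mem_Wr_of_mem hs h hD hP hconjS (fun u hu => ?_) hw
  obtain ⟨j, w, x, -, hww, hwx, hxx, e⟩ := hu
  exact PlaneKernel.mem_Wr_site j ((PlaneKernel.sie_iso h.two hww hwx hxx).sim.det_ne h.nsq) e

/-- A member commuting with a site reflection moves the root elements of the other sites to
monomial elements away from that site. -/
lemma conj_root {i j : Fin (s + 1)} (hij : j ≠ i) {r : Fin 4 → F} (hr : gB (G4 δ) r r ≠ 0)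
    {g : GV F (s + 1)} (hg : g ∈ M)
    (hgr : (g : MV F (s + 1)) * site i (reflW δ r) = site i (reflW δ r) * (g : MV F (s + 1)))
    {u : GV F (s + 1)} {w x : Fin 4 → F} (hww : gB (G4 δ) w w = 0) (hwx : gB (G4 δ) w x = 0)
    (hxx : gB (G4 δ) x x ≠ 0) (hu : (u : MV F (s + 1)) = site j (1 + sieM (G4 δ) w x)) :
    g * u * g⁻¹ ∈ Wr F (s + 1) ∧
      ∀ X, X ∈ cen ((g * u * g⁻¹ : GV F (s + 1)) : MV F (s + 1)) i := by
  have ht : 3 ≤ s + 1 := by omega
  obtain ⟨a, haM, ha⟩ := ReflKernel.exists_site_mem h ht i (HalfBig.refl_iso h.two hr)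
  set y : Fin 4 → F := (2 : F)⁻¹ • x
  have hwy : gB (G4 δ) w y = 0 := by rw [map_smul, hwx, smul_zero]
  have hyy : gB (G4 δ) y y ≠ 0 := by
    simp [y, h.two, hxx]
  obtain ⟨u', hu'M, hu'⟩ := ReflKernel.exists_site_mem h ht j
    (PlaneKernel.sie_iso h.two hww hwy hyy)
  have huu : u = u' * u' := Units.ext (by
    rw [Units.val_mul, hu', site_mul, one_add_sieM_mul h.two hww hwy hwy, hu, ← two_smul F y,
      smul_smul, mul_inv_cancel₀ h.two, one_smul])
  set v := g * u' * g⁻¹ with hv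
  have hvM : v ∈ M := M.mul_mem (M.mul_mem hg hu'M) (M.inv_mem hg)
  have hgS : g * a = a * g := Units.ext (by rw [Units.val_mul, Units.val_mul, ha, hgr])
  have hvK : ∀ z, gB (G4 δ) z z ≠ 0 → gB (G4 δ) r z = 0 → reflW δ z ∈ cen (v : MV F (s + 1)) i := by
    intro z hz hrz
    obtain ⟨c, hcM, hc⟩ := ReflKernel.exists_site_mem h ht i (HalfBig.refl_iso h.two hz)
    obtain ⟨k, hk⟩ : ∃ k, k = g⁻¹ * c * g := ⟨_, rfl⟩
    have hkM : k ∈ M := hk ▸ M.mul_mem (M.mul_mem (M.inv_mem hg) hcM) hg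
    obtain ⟨S, hS⟩ : ∃ S : MV F (s + 1), S = site i (cr (G4 δ) r r) := ⟨_, rfl⟩
    have hSg : (g : MV F (s + 1)) * S = S * (g : MV F (s + 1)) := by
      rw [hS]
      exact mem_cen.1 (cen_cr_of_refl h.two hr (mem_cen.2 hgr))
    have hcS : (c : MV F (s + 1)) * S = S := by
      rw [hS, hc, site_mul, mul_cr, ReflKernel.refl_vec _ _ (by rw [gB_symm, hrz])]
    have hkS : TrivSlot δ i r (k : MV F (s + 1)) := by
      show _ * _ = _
      rw [hk, Units.val_mul, Units.val_mul, ← hS, mul_assoc, hSg, mul_assoc, ← mul_assoc (c : MV F (s + 1)) S,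
        hcS, ← hSg, ← mul_assoc, Units.inv_mul, one_mul]
    have hr0 : cr (G4 δ) r r ≠ 0 := fun e => by
      have := congrArg (fun X => gB (G4 δ) r (X *ᵥ r)) e
      simp [cr_mulVec, hr] at this
    obtain ⟨A, hA⟩ := PlaneKernel.exists_site_of_Wr (hker k hkM i r hr hkS) i hr0 hkS
      (PlaneKernel.trivSlot_comm h.nsq (h.isoV hkM) i r hkS)
    have hku : k * u' = u' * k := Units.ext (by
      rw [Units.val_mul, Units.val_mul, hA, hu', site_comm hij.symm])
    have hvc : v * c = c * v := by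
      calc v * c = g * (u' * k) * g⁻¹ := by rw [hv, hk]; group
        _ = c * v := by rw [← hku, hv, hk]; group
    exact mem_cen.2 (by rw [← hc, ← Units.val_mul, hvc, Units.val_mul])
  have hvv : g * u * g⁻¹ = v * v := by rw [huu, hv]; group
  rcases split h ht hker hr ha hvM hvK with hc | hc
  · refine hvv ▸ ⟨mul_mem (away hs h hD hP hker hconjS hvM hc) (away hs h hD hP hker hconjS hvM hc),
      fun X => mem_cen.2 ?_⟩
    rw [Units.val_mul, mul_assoc, mem_cen.1 (hc X), ← mul_assoc, mem_cen.1 (hc X), mul_assoc]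
  · have hwW := away hs h hD hP hker hconjS (M.mul_mem haM hvM) hc
    have haa : a * a = 1 := Units.ext (by
      rw [Units.val_mul, ha, HalfBig.refl_isUnit h.two hr, Units.val_one])
    set w' := a * v with hw'
    have haw : a * w' = w' * a := Units.ext (by
      rw [Units.val_mul, Units.val_mul w' a, ha]; exact (mem_cen.1 (hc _)).symm)
    have e : v * v = w' * w' := by
      have hv' : v = a * w' := by rw [hw', ← mul_assoc, haa, one_mul]
      rw [hv', mul_assoc a w', ← mul_assoc w' a, ← haw, mul_assoc a, ← mul_assoc a a, haa, one_mul]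
    refine hvv ▸ e ▸ ⟨mul_mem hwW hwW, fun X => mem_cen.2 ?_⟩
    rw [Units.val_mul, mul_assoc, mem_cen.1 (hc X), ← mul_assoc, mem_cen.1 (hc X), mul_assoc]

/-- **The centralisers of site reflections are monomial.** -/
theorem cenLe_refl
    (hconjT : ∀ g : GV F (s + 1), IsoV δ (g : MV F (s + 1)) →
      (∀ u : GV F (s + 1), IsSiteU δ (u : MV F (s + 1)) → g * u * g⁻¹ ∈ Wr F (s + 1)) →
        g ∈ Wr F (s + 1)) :
    ∀ a ∈ M, IsRefl δ (a : MV F (s + 1)) → CenLe M (a : MV F (s + 1)) := by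
  rintro a - ⟨i, r, hr, ha⟩ g hg hgr
  rw [ha] at hgr
  refine hconjT g (h.isoV hg) fun u hu => ?_
  obtain ⟨j, w, x, -, hww, hwx, hxx, hu⟩ := hu
  rcases eq_or_ne j i with rfl | hij
  swap
  · exact (conj_root hs h hD hP hker hconjS hij hr hg hgr hww hwx hxx hu).1
  have ht : 3 ≤ s + 1 := by omega
  obtain ⟨u₀, hu₀M, hu₀⟩ :=
    ReflKernel.exists_site_mem h ht j (PlaneKernel.sie_iso h.two hww hwx hxx)
  have hyM : g * u * g⁻¹ ∈ M := by
    rw [show u = u₀ from Units.ext (hu.trans hu₀.symm)]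
    exact M.mul_mem (M.mul_mem hg hu₀M) (M.inv_mem hg)
  have hgr' : ((g⁻¹ : GV F (s + 1)) : MV F (s + 1)) * site j (reflW δ r) =
      site j (reflW δ r) * ((g⁻¹ : GV F (s + 1)) : MV F (s + 1)) :=
    (Commute.units_inv_left (show Commute (g : MV F (s + 1)) (site j (reflW δ r)) from hgr)).eq
  obtain ⟨A, hA⟩ := PlaneKernel.exists_site_of_comm j (y := ((g * u * g⁻¹ : GV F (s + 1)) :
      MV F (s + 1))) fun l hl X =>
    PlaneKernel.comm_site_of_sie (Slot.adjoin_roots h.two h.nsq) l (fun B hB => by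
      obtain ⟨w', x', -, hw', hwx', hxx', rfl⟩ := hB
      obtain ⟨u₁, -, hu₁⟩ := ReflKernel.exists_site_mem h ht l
        (PlaneKernel.sie_iso h.two hw' hwx' hxx')
      have hc := mem_cen.1 ((conj_root hs h hD hP hker hconjS hl hr (M.inv_mem hg) hgr'
        hw' hwx' hxx' hu₁).2 (1 + sieM (G4 δ) w x))
      rw [← hu, ← Units.val_mul, ← Units.val_mul, inv_inv] at hc
      have hc' := Units.ext hc
      rw [← hu₁, ← Units.val_mul, ← Units.val_mul]
      congr 1
      calc g * u * g⁻¹ * u₁ = g * (u * (g⁻¹ * u₁ * g)) * g⁻¹ := by group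
        _ = g * (g⁻¹ * u₁ * g * u) * g⁻¹ := by rw [hc']
        _ = u₁ * (g * u * g⁻¹) := by group) X
  exact PlaneKernel.mem_Wr_site j
    ((PlaneKernel.isoW_of_site h.nsq j (hA ▸ h.isoV hyM)).sim.det_ne h.nsq) hA

end Main

end CRefl



end Cfsg.Agent.MaxSub.OrthFour
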