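import Cfsg.Agent.MaxSub.OrthFour.Base
import Mathlib.FieldTheory.Finite.Basic
import Mathlib.LinearAlgebra.QuadraticForm.Basic

/-!
A group of four by four matrices over the isometries of an elliptic quadratic form whose
`p`-subgroups are no larger than those of the isometry group consists of similitudes.
-/

set_option autoImplicit false
set_option linter.unusedSectionVars false

namespace Cfsg.Agent.MaxSub.OrthFour

namespace Ovoid

open Matrix Module Cfsg.Agent.Classical
open Cfsg.Agent.MaxSub.TensorPowSp (fG)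
open Cfsg.Agent.MaxSub.OrthWreathBig (gB cr sieM cr_mulVec sieM_mulVec)
open scoped MatrixGroups Matrix

variable {F : Type*} [Field F]

local notation "V4" => Fin 4 → F

lemma gB_eq (δ : F) (x y : V4) : gB (G4 δ) x y = x ⬝ᵥ G4 δ *ᵥ y := by
  rw [OrthWreathBig.gB_apply, fG, dotProduct_mulVec]

lemma gB_transport (δ : F) (M : M4 F) (x y : V4) :
    gB (G4 δ) (M *ᵥ x) (M *ᵥ y) = x ⬝ᵥ (Mᵀ * G4 δ * M) *ᵥ y := by
  rw [gB_eq, ← Matrix.vecMul_transpose, ← dotProduct_mulVec, mulVec_mulVec, mulVec_mulVec]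

lemma isoW_of (δ : F) {M : M4 F}
    (h : ∀ x y, gB (G4 δ) (M *ᵥ x) (M *ᵥ y) = gB (G4 δ) x y) : IsoW δ M := by
  refine Matrix.ext fun i j => ?_
  have := h (Pi.single i 1) (Pi.single j 1)
  rw [gB_transport, gB_eq] at this
  simpa [Matrix.mulVec_single_one, single_dotProduct] using this

lemma nondeg {δ : F} (hd : ¬ IsSquare δ) {x : V4} (h : ∀ y, gB (G4 δ) x y = 0) : x = 0 := by
  funext i
  have := h (Pi.single i 1)
  rw [gB_eq, G4, Matrix.mulVec_single_one] at this
  have h2 : x i * wt δ i = 0 := by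
    rw [← this, dotProduct, Finset.sum_eq_single i]
    · simp
    · intro j _ hj; simp [hj]
    · simp
  exact (mul_eq_zero.1 h2).resolve_right (wt_ne_zero hd i)

/-- The Eichler transformation. -/
noncomputable def eM (δ : F) (w x : V4) : M4 F := 1 + sieM (G4 δ) w x

lemma eM_mulVec (δ : F) (w x z : V4) : eM δ w x *ᵥ z =
    z + (gB (G4 δ) w z • x - gB (G4 δ) x z • w -
      (gB (G4 δ) x x / 2 * gB (G4 δ) w z) • w) := by
  rw [eM, add_mulVec, one_mulVec, sieM_mulVec, OrthTensor.sie_apply]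

lemma eM_comm (δ : F) {w x y : V4} (hw : gB (G4 δ) w w = 0) (hx : gB (G4 δ) w x = 0)
    (hy : gB (G4 δ) w y = 0) : eM δ w x * eM δ w y = eM δ w y * eM δ w x := by
  refine Matrix.ext_of_mulVec_single fun i => ?_
  simp only [← mulVec_mulVec, eM_mulVec, map_add, map_sub, map_smul, smul_eq_mul, hw, hx, hy,
    gB_symm δ x w, gB_symm δ y w, gB_symm δ y x]
  module

lemma eM_iso (δ : F) (h2 : (2 : F) ≠ 0) {w x : V4} (hw : gB (G4 δ) w w = 0)
    (hx : gB (G4 δ) w x = 0) : IsoW δ (eM δ w x) := by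
  refine isoW_of δ fun a b => ?_
  simp only [eM_mulVec, map_add, map_sub, map_smul, LinearMap.add_apply, LinearMap.sub_apply,
    LinearMap.smul_apply, smul_eq_mul, hw, hx, gB_symm δ x w, gB_symm δ a w, gB_symm δ a x]
  field_simp
  ring

lemma eM_inv (δ : F) {w x : V4} (hw : gB (G4 δ) w w = 0) (hx : gB (G4 δ) w x = 0)
    (h2 : (2 : F) ≠ 0) : eM δ w x * eM δ w (-x) = 1 := by
  refine Matrix.ext_of_mulVec_single fun i => ?_
  simp only [← mulVec_mulVec, one_mulVec, eM_mulVec, map_add, map_sub, map_smul, map_neg,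
    LinearMap.neg_apply, smul_eq_mul, hw, hx, gB_symm δ x w]
  match_scalars <;> field_simp <;> ring

/-- The Eichler transformation as an invertible matrix. -/
noncomputable def eU (δ : F) (h2 : (2 : F) ≠ 0) {w x : V4} (hw : gB (G4 δ) w w = 0)
    (hx : gB (G4 δ) w x = 0) : GL (Fin 4) F where
  val := eM δ w x
  inv := eM δ w (-x)
  val_inv := eM_inv δ hw hx h2
  inv_val := by
    rw [eM_comm δ hw (by simp [hx]) hx]
    exact eM_inv δ hw hx h2

variable {δ : F}

/-- The orthogonal of a vector. -/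
noncomputable def perp (δ : F) (w : V4) : Submodule F (V4) := LinearMap.ker (gB (G4 δ) w)

lemma mem_perp {w x : V4} : x ∈ perp δ w ↔ gB (G4 δ) w x = 0 := LinearMap.mem_ker

lemma finrank_perp (hd : ¬ IsSquare δ) {w : V4} (hw : w ≠ 0) :
    finrank F (perp δ w) = 3 := by
  have h1 := LinearMap.finrank_range_add_finrank_ker (gB (G4 δ) w)
  have h2 : LinearMap.range (gB (G4 δ) w) = ⊤ := by
    rw [LinearMap.range_eq_top]
    obtain ⟨y, hy⟩ := not_forall.1 fun h => hw (nondeg hd h)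
    intro c
    exact ⟨(c / gB (G4 δ) w y) • y, by simp [hy]⟩
  rw [h2, finrank_top, Module.finrank_self, Module.finrank_fin_fun] at h1
  unfold perp
  omega

lemma exists_notMem {S T : Submodule F (V4)} (h : finrank F T < finrank F S) :
    ∃ x ∈ S, x ∉ T :=
  SetLike.not_le_iff_exists.1 fun hle => absurd (Submodule.finrank_mono hle) (by omega)

section Groups

variable [Finite F]

/-- The stabiliser of a flag through `w` and its orthogonal acting trivially on the factors. -/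
noncomputable def flagGrp (δ : F) (w : V4) (L : Submodule F (V4)) (hwL : F ∙ w ≤ L)
    (hL : L ≤ perp δ w) : Subgroup (GL (Fin 4) F) :=
  let S : Submonoid (GL (Fin 4) F) :=
    { carrier := {h | (h : M4 F) *ᵥ w = w ∧ (∀ y ∈ L, (h : M4 F) *ᵥ y - y ∈ F ∙ w) ∧
        (∀ y ∈ perp δ w, (h : M4 F) *ᵥ y - y ∈ L) ∧ ∀ y, (h : M4 F) *ᵥ y - y ∈ perp δ w}
      one_mem' := by simp
      mul_mem' := by
        rintro a b ⟨ha0, ha1, ha2, ha3⟩ ⟨hb0, hb1, hb2, hb3⟩
        have e : ∀ y, ((a * b : GL (Fin 4) F) : M4 F) *ᵥ y - y =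
            ((a : M4 F) *ᵥ ((b : M4 F) *ᵥ y) - (b : M4 F) *ᵥ y) + ((b : M4 F) *ᵥ y - y) := by
          intro y
          rw [Units.val_mul, mulVec_mulVec]
          abel
        refine ⟨by rw [Units.val_mul, ← mulVec_mulVec, hb0, ha0], fun y hy => ?_, fun y hy => ?_,
          fun y => ?_⟩
        · rw [e]
          refine add_mem (ha1 _ ?_) (hb1 y hy)
          simpa using L.add_mem (hwL (hb1 y hy)) hy
        · rw [e]
          refine add_mem (ha2 _ ?_) (hb2 y hy)
          simpa using (perp δ w).add_mem (hL (hb2 y hy)) hy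
        · rw [e]
          exact add_mem (ha3 _) (hb3 y) }
  { S with
    inv_mem' := by
      intro a ha
      have e : a⁻¹ = a ^ (orderOf a - 1) := by
        refine inv_eq_of_mul_eq_one_right ?_
        rw [← pow_succ', Nat.sub_add_cancel (orderOf_pos a), pow_orderOf_eq_one]
      show a⁻¹ ∈ S
      rw [e]
      exact S.pow_mem ha _ }

lemma mem_flagGrp {w : V4} {L : Submodule F (V4)} {hwL : F ∙ w ≤ L} {hL : L ≤ perp δ w}
    {h : GL (Fin 4) F} : h ∈ flagGrp δ w L hwL hL ↔ (h : M4 F) *ᵥ w = w ∧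
      (∀ y ∈ L, (h : M4 F) *ᵥ y - y ∈ F ∙ w) ∧ (∀ y ∈ perp δ w, (h : M4 F) *ᵥ y - y ∈ L) ∧
      ∀ y, (h : M4 F) *ᵥ y - y ∈ perp δ w := Iff.rfl

variable {p : ℕ} [Fact p.Prime] [CharP F p]

lemma flagGrp_pgroup (hp : p ≠ 2) {w : V4} {L : Submodule F (V4)} {hwL : F ∙ w ≤ L}
    {hL : L ≤ perp δ w} : IsPGroup p (flagGrp δ w L hwL hL) := by
  rintro ⟨h, h0, h1, h2, h3⟩
  refine ⟨2, Subtype.ext ?_⟩
  rw [SubmonoidClass.coe_pow, Subgroup.coe_one]
  apply Units.ext
  set N : M4 F := (h : M4 F) - 1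
  have hN : ∀ y, N *ᵥ y = (h : M4 F) *ᵥ y - y := fun y => by rw [sub_mulVec, one_mulVec]
  have h4 : N ^ 4 = 0 := by
    refine Matrix.ext_of_mulVec_single fun i => ?_
    have a1 : N *ᵥ Pi.single i 1 ∈ perp δ w := hN _ ▸ h3 _
    have a2 : N *ᵥ (N *ᵥ Pi.single i 1) ∈ L := hN (N *ᵥ Pi.single i 1) ▸ h2 _ a1
    have a3 : N *ᵥ (N *ᵥ (N *ᵥ Pi.single i 1)) ∈ F ∙ w :=
      hN (N *ᵥ (N *ᵥ Pi.single i 1)) ▸ h1 _ a2
    obtain ⟨c, hc⟩ := Submodule.mem_span_singleton.1 a3
    rw [pow_succ, pow_succ, pow_succ, pow_one, ← mulVec_mulVec,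
      ← mulVec_mulVec, ← mulVec_mulVec, ← hc, mulVec_smul, hN, h0]
    ext j
    simp
  have hp3 : 3 ≤ p := by
    have := (Fact.out : p.Prime).two_le
    omega
  have h9 : N ^ (p ^ 2) = 0 :=
    pow_eq_zero_of_le (le_trans (by norm_num) (Nat.pow_le_pow_left hp3 2)) h4
  rw [Units.val_pow_eq_pow_val, Units.val_one, ← sub_eq_zero, ← one_pow (M := M4 F) (p ^ 2),
    ← sub_pow_char_pow_of_commute (p := p) 2 (Commute.one_right _)]
  exact h9

variable {I : Subgroup (GL (Fin 4) F)}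

lemma eU_mem_flag (h2 : (2 : F) ≠ 0) {w x : V4} (hw : gB (G4 δ) w w = 0)
    (hx : gB (G4 δ) w x = 0) {L : Submodule F (V4)} {hwL : F ∙ w ≤ L} {hL : L ≤ perp δ w} :
    eU δ h2 hw hx ∈ flagGrp δ w L hwL hL := by
  have hww : w ∈ F ∙ w := Submodule.mem_span_singleton_self w
  have e : ∀ y, ((eU δ h2 hw hx : GL (Fin 4) F) : M4 F) *ᵥ y - y =
      gB (G4 δ) w y • x - gB (G4 δ) x y • w - (gB (G4 δ) x x / 2 * gB (G4 δ) w y) • w := by
    intro y
    show eM δ w x *ᵥ y - y = _
    rw [eM_mulVec]; abel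
  have hmemw : ∀ y ∈ perp δ w, ((eU δ h2 hw hx : GL (Fin 4) F) : M4 F) *ᵥ y - y ∈ F ∙ w := by
    intro y hy
    rw [e, mem_perp.1 hy, zero_smul, mul_zero, zero_smul, sub_zero, zero_sub]
    exact neg_mem (Submodule.smul_mem _ _ hww)
  refine mem_flagGrp.2 ⟨?_, fun y hy => hmemw y (hL hy), fun y hy => hwL (hmemw y hy), fun y => ?_⟩
  · refine sub_eq_zero.1 ?_
    rw [e, hw, gB_symm δ x w, hx]
    simp
  · rw [e]
    exact sub_mem (sub_mem (Submodule.smul_mem _ _ (mem_perp.2 hx))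
      (Submodule.smul_mem _ _ (mem_perp.2 hw))) (Submodule.smul_mem _ _ (mem_perp.2 hw))

/-- A `p`-subgroup containing the Eichler group consists of it. -/
lemma eq_eichler [Fintype F] (h2 : (2 : F) ≠ 0) (hd : ¬ IsSquare δ) (hp : p ≠ 2)
    (hO : ∀ A : GL (Fin 4) F, IsoW δ (A : M4 F) → A ∈ I)
    (hb : ∀ P : Subgroup (GL (Fin 4) F), P ≤ I → IsPGroup p P →
      Nat.card P ≤ Fintype.card F ^ 2)
    {w : V4} (hw0 : w ≠ 0) (hw : gB (G4 δ) w w = 0)
    {P : Subgroup (GL (Fin 4) F)} (hP : P ≤ I) (hPp : IsPGroup p P)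
    (hE : ∀ (x : V4) (hx : gB (G4 δ) w x = 0), eU δ h2 hw hx ∈ P) :
    ∀ h ∈ P, ∃ x, gB (G4 δ) w x = 0 ∧ (h : M4 F) = eM δ w x := by
  classical
  obtain ⟨a, ha, haw⟩ := exists_notMem (S := perp δ w) (T := F ∙ w)
    (by rw [finrank_perp hd hw0, finrank_span_singleton hw0]; norm_num)
  obtain ⟨b, hb', hbw⟩ := exists_notMem (S := perp δ w) (T := (F ∙ w) ⊔ (F ∙ a))
    (by
      have h1 := Submodule.finrank_sup_add_finrank_inf_eq (F ∙ w) (F ∙ a)
      rw [finrank_span_singleton hw0] at h1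
      have h3 : finrank F (F ∙ a) ≤ 1 := by
        simpa using finrank_span_le_card (R := F) ({a} : Set V4)
      rw [finrank_perp hd hw0]
      omega)
  have hx : ∀ c : F × F, gB (G4 δ) w (c.1 • a + c.2 • b) = 0 := fun c => by
    simp [mem_perp.1 ha, mem_perp.1 hb']
  let f : F × F → P := fun c => ⟨eU δ h2 hw (hx c), hE _ _⟩
  obtain ⟨v, hv⟩ : ∃ v, gB (G4 δ) w v = 1 := by
    obtain ⟨y, hy⟩ := not_forall.1 fun h => hw0 (nondeg hd h)
    exact ⟨(gB (G4 δ) w y)⁻¹ • y, by simp [hy]⟩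
  have finj : Function.Injective f := by
    intro c c' e
    have h1 : eM δ w (c.1 • a + c.2 • b) *ᵥ v = eM δ w (c'.1 • a + c'.2 • b) *ᵥ v :=
      congrArg (fun h : P => ((h : GL (Fin 4) F) : M4 F) *ᵥ v) e
    rw [eM_mulVec, eM_mulVec, hv, one_smul, one_smul] at h1
    have hmem : (c.1 - c'.1) • a + (c.2 - c'.2) • b ∈ F ∙ w := by
      refine Submodule.mem_span_singleton.2
        ⟨gB (G4 δ) (c.1 • a + c.2 • b) v +
          gB (G4 δ) (c.1 • a + c.2 • b) (c.1 • a + c.2 • b) / 2 * 1 -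
          (gB (G4 δ) (c'.1 • a + c'.2 • b) v +
            gB (G4 δ) (c'.1 • a + c'.2 • b) (c'.1 • a + c'.2 • b) / 2 * 1), ?_⟩
      linear_combination (norm := module) -h1
    have hb0 : c.2 - c'.2 = 0 := by
      by_contra hne
      apply hbw
      have h3 := sub_mem (Submodule.mem_sup_left (T := F ∙ a) hmem)
        (Submodule.mem_sup_right (S := F ∙ w)
          (Submodule.smul_mem _ (c.1 - c'.1) (Submodule.mem_span_singleton_self a)))
      rw [add_sub_cancel_left] at h3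
      exact (Submodule.smul_mem_iff _ hne).1 h3
    rw [hb0, zero_smul, add_zero] at hmem
    have ha0 : c.1 - c'.1 = 0 := by
      by_contra hne
      exact haw ((Submodule.smul_mem_iff _ hne).1 hmem)
    exact Prod.ext (sub_eq_zero.1 ha0) (sub_eq_zero.1 hb0)
  have hsurj : Function.Surjective f := by
    haveI : Fintype P := Fintype.ofFinite _
    refine ((Fintype.bijective_iff_injective_and_card f).2 ⟨finj, le_antisymm
      (Fintype.card_le_of_injective f finj) ?_⟩).2
    rw [Fintype.card_prod, ← pow_two, ← Nat.card_eq_fintype_card]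
    exact hb P hP hPp
  intro h hh
  obtain ⟨c, hc⟩ := hsurj ⟨h, hh⟩
  exact ⟨_, hx c, (congrArg (fun k : P => ((k : GL (Fin 4) F) : M4 F)) hc).symm⟩

/-- Elements of the group fixing a singular vector fix its orthogonal. -/
lemma perp_fix [Fintype F] (h2 : (2 : F) ≠ 0) (hd : ¬ IsSquare δ) (hp : p ≠ 2)
    (hO : ∀ A : GL (Fin 4) F, IsoW δ (A : M4 F) → A ∈ I)
    (hb : ∀ P : Subgroup (GL (Fin 4) F), P ≤ I → IsPGroup p P →
      Nat.card P ≤ Fintype.card F ^ 2)
    {w : V4} (hw0 : w ≠ 0) (hw : gB (G4 δ) w w = 0) {g : GL (Fin 4) F} (hg : g ∈ I)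
    (hgw : (g : M4 F) *ᵥ w = w) : ∀ y ∈ perp δ w, (g : M4 F) *ᵥ y ∈ perp δ w := by
  intro y hy
  by_contra hyn
  set G' := ((g⁻¹ : GL (Fin 4) F) : M4 F)
  have hGG : ∀ z, (g : M4 F) *ᵥ (G' *ᵥ z) = z := fun z => by
    rw [mulVec_mulVec, ← Units.val_mul, mul_inv_cancel, Units.val_one, one_mulVec]
  have hG'w : G' *ᵥ w = w := by
    conv_lhs => rw [← hgw]
    rw [mulVec_mulVec, ← Units.val_mul, inv_mul_cancel, Units.val_one, one_mulVec]
  -- `x` in `w⊥` with image in `w⊥`, independent of `w`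
  obtain ⟨x, ⟨hx, hgx⟩, hxw⟩ := exists_notMem
    (S := perp δ w ⊓ (perp δ w).comap (Matrix.toLin' (g : M4 F))) (T := F ∙ w) (by
      have h3 := Submodule.finrank_sup_add_finrank_inf_eq (perp δ w)
        ((perp δ w).comap (Matrix.toLin' (g : M4 F)))
      have h4 := Submodule.finrank_le (perp δ w ⊔ (perp δ w).comap (Matrix.toLin' (g : M4 F)))
      rw [Module.finrank_fin_fun] at h4
      have h5 : finrank F ((perp δ w).comap (Matrix.toLin' (g : M4 F))) = 3 := by
        have e : (perp δ w).comap (Matrix.toLin' (g : M4 F)) =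
            (perp δ w).map (Matrix.toLin' G') := by
          ext z
          constructor
          · intro hz
            exact ⟨_, hz, by
              simp only [Matrix.toLin'_apply]
              rw [mulVec_mulVec, ← Units.val_mul, inv_mul_cancel, Units.val_one, one_mulVec]⟩
          · rintro ⟨z', hz', rfl⟩
            rw [Submodule.mem_comap, Matrix.toLin'_apply, Matrix.toLin'_apply, hGG]
            exact hz'
        rw [e, ← LinearEquiv.finrank_eq (Submodule.equivMapOfInjective _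
          (fun a b hab => by
            have := congrArg (fun z => (g : M4 F) *ᵥ z) hab
            simpa [hGG] using this) _), finrank_perp hd hw0]
      rw [finrank_perp hd hw0, h5] at h3
      rw [finrank_span_singleton hw0]
      omega)
  replace hx : gB (G4 δ) w x = 0 := mem_perp.1 hx
  set c := (g : M4 F) *ᵥ x with hc
  have hcperp : c ∈ perp δ w := by simpa [hc] using hgx
  have hwp : w ∈ perp δ w := mem_perp.2 hw
  let L : Submodule F (V4) := (F ∙ w) ⊔ (F ∙ c)
  have hL : L ≤ perp δ w :=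
    sup_le ((Submodule.span_singleton_le_iff_mem _ _).2 hwp)
      ((Submodule.span_singleton_le_iff_mem _ _).2 hcperp)
  -- the conjugate of the Eichler transformation
  set e := eU δ h2 hw hx
  have het : ∀ z, ((g * e * g⁻¹ : GL (Fin 4) F) : M4 F) *ᵥ z - z =
      gB (G4 δ) w (G' *ᵥ z) • c - (gB (G4 δ) x (G' *ᵥ z) +
        gB (G4 δ) x x / 2 * gB (G4 δ) w (G' *ᵥ z)) • w := by
    intro z
    rw [Units.val_mul, Units.val_mul, ← mulVec_mulVec, ← mulVec_mulVec]
    show (g : M4 F) *ᵥ (eM δ w x *ᵥ (G' *ᵥ z)) - z = _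
    rw [eM_mulVec, mulVec_add, mulVec_sub, mulVec_sub, mulVec_smul, mulVec_smul, mulVec_smul, hgw,
      hGG, ← hc]
    module
  have hww : w ∈ F ∙ w := Submodule.mem_span_singleton_self w
  have hwc : ∀ α β : F, α • c - β • w ∈ L := fun α β => sub_mem
    (Submodule.mem_sup_right (Submodule.smul_mem _ _ (Submodule.mem_span_singleton_self c)))
    (Submodule.mem_sup_left (Submodule.smul_mem _ _ hww))
  have hGc : G' *ᵥ c = x := by
    rw [hc, mulVec_mulVec, ← Units.val_mul, inv_mul_cancel, Units.val_one, one_mulVec]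
  have htflag : g * e * g⁻¹ ∈ flagGrp δ w L le_sup_left hL := by
    refine mem_flagGrp.2 ⟨sub_eq_zero.1 ?_, fun z hz => ?_, fun z _ => ?_, fun z => ?_⟩
    · rw [het, hG'w, hw, gB_symm δ x w, hx]
      simp
    · obtain ⟨u, hu, v, hv, rfl⟩ := Submodule.mem_sup.1 hz
      obtain ⟨α, rfl⟩ := Submodule.mem_span_singleton.1 hu
      obtain ⟨β, rfl⟩ := Submodule.mem_span_singleton.1 hv
      rw [het, mulVec_add, mulVec_smul, mulVec_smul, hG'w, hGc, map_add, map_smul, map_smul, hw, hx,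
        smul_zero, smul_zero, add_zero, zero_smul, zero_sub]
      exact neg_mem (Submodule.smul_mem _ _ hww)
    · rw [het]; exact hwc _ _
    · rw [het]; exact hL (hwc _ _)
  have htI : g * e * g⁻¹ ∈ I := mul_mem (mul_mem hg (hO _ (eM_iso δ h2 hw hx))) (inv_mem hg)
  obtain ⟨x', hx', hxe⟩ := eq_eichler h2 hd hp hO hb hw0 hw
    (P := flagGrp δ w L le_sup_left hL ⊓ I) inf_le_right
    (IsPGroup.to_le (flagGrp_pgroup hp) inf_le_left)
    (fun x hx => ⟨eU_mem_flag h2 hw hx, hO _ (eM_iso δ h2 hw hx)⟩) _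
    ⟨htflag, htI⟩
  have h5 := het ((g : M4 F) *ᵥ y)
  -- the image of `y` outside `w⊥` is moved outside `F w`
  obtain ⟨z, hz, hzn⟩ : ∃ z ∈ perp δ w, G' *ᵥ z ∉ perp δ w := by
    by_contra hall
    push Not at hall
    have hmap : (perp δ w).map (Matrix.toLin' G') ≤ perp δ w := by
      rintro _ ⟨z, hz, rfl⟩
      simpa using hall z hz
    have heq := Submodule.eq_of_le_of_finrank_eq hmap
      (LinearEquiv.finrank_eq (Submodule.equivMapOfInjective _
        (fun a b hab => by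
          have := congrArg (fun z => (g : M4 F) *ᵥ z) hab
          simpa [hGG] using this) _)).symm
    obtain ⟨z, hz, hzy⟩ := Submodule.mem_map.1 ((SetLike.ext_iff.1 heq y).2 hy)
    apply hyn
    rw [← hzy, Matrix.toLin'_apply, hGG]
    exact hz
  have hkey := het z
  rw [hxe, eM_mulVec, mem_perp.1 hz] at hkey
  simp only [zero_smul, mul_zero, sub_zero, zero_sub, add_sub_cancel_left] at hkey
  have hne : gB (G4 δ) w (G' *ᵥ z) ≠ 0 := fun h0 => hzn (mem_perp.2 h0)
  have hcw : c ∈ F ∙ w := by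
    rw [← Submodule.smul_mem_iff _ hne]
    refine Submodule.mem_span_singleton.2 ⟨gB (G4 δ) x (G' *ᵥ z) +
      gB (G4 δ) x x / 2 * gB (G4 δ) w (G' *ᵥ z) - gB (G4 δ) x' z, ?_⟩
    linear_combination (norm := module) hkey
  obtain ⟨α, hα⟩ := Submodule.mem_span_singleton.1 hcw
  apply hxw
  refine Submodule.mem_span_singleton.2 ⟨α, ?_⟩
  rw [← hGc, ← hα, mulVec_smul, hG'w]

/-- The `p`-elements fixing a singular vector are Eichler transformations. -/
lemma pelem_eichler [Fintype F] (h2 : (2 : F) ≠ 0) (hd : ¬ IsSquare δ) (hp : p ≠ 2)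
    (hO : ∀ A : GL (Fin 4) F, IsoW δ (A : M4 F) → A ∈ I)
    (hb : ∀ P : Subgroup (GL (Fin 4) F), P ≤ I → IsPGroup p P →
      Nat.card P ≤ Fintype.card F ^ 2)
    {w : V4} (hw0 : w ≠ 0) (hw : gB (G4 δ) w w = 0) {h : GL (Fin 4) F} (hh : h ∈ I)
    (hhw : (h : M4 F) *ᵥ w = w) {k : ℕ} (hk : h ^ (p ^ k) = 1) :
    ∃ x, gB (G4 δ) w x = 0 ∧ (h : M4 F) = eM δ w x := by
  have hwp : F ∙ w ≤ perp δ w := (Submodule.span_singleton_le_iff_mem _ _).2 (mem_perp.2 hw)
  let A := flagGrp δ w (F ∙ w) le_rfl hwp ⊓ I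
  have hA : IsPGroup p A := IsPGroup.to_le (flagGrp_pgroup hp) inf_le_left
  have hH : IsPGroup p (Subgroup.zpowers h) := fun m => ⟨k, by
    obtain ⟨n, hn⟩ := Subgroup.mem_zpowers_iff.1 m.2
    apply Subtype.ext
    rw [SubmonoidClass.coe_pow, ← hn, ← zpow_natCast, ← _root_.zpow_mul, mul_comm, _root_.zpow_mul,
      zpow_natCast, hk, _root_.one_zpow, Subgroup.coe_one]⟩
  have conj : ∀ u : GL (Fin 4) F, u ∈ I → (u : M4 F) *ᵥ w = w →
      ∀ a ∈ A, u * a * u⁻¹ ∈ A := by
    intro u hu huw a ha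
    obtain ⟨⟨a0, -, a2, a3⟩, haI⟩ := ha
    have huI : ((u⁻¹ : GL (Fin 4) F) : M4 F) *ᵥ w = w := by
      conv_lhs => rw [← huw]
      rw [mulVec_mulVec, ← Units.val_mul, inv_mul_cancel, Units.val_one, one_mulVec]
    have f1 := perp_fix h2 hd hp hO hb hw0 hw hu huw
    have f2 := perp_fix h2 hd hp hO hb hw0 hw (inv_mem hu) huI
    have e : ∀ y, ((u * a * u⁻¹ : GL (Fin 4) F) : M4 F) *ᵥ y - y = (u : M4 F) *ᵥ
        ((a : M4 F) *ᵥ (((u⁻¹ : GL (Fin 4) F) : M4 F) *ᵥ y) -
          ((u⁻¹ : GL (Fin 4) F) : M4 F) *ᵥ y) := by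
      intro y
      have hu1 : (u : M4 F) *ᵥ (((u⁻¹ : GL (Fin 4) F) : M4 F) *ᵥ y) = y := by
        rw [mulVec_mulVec, ← Units.val_mul, mul_inv_cancel, Units.val_one, one_mulVec]
      rw [mulVec_sub, hu1, Units.val_mul, Units.val_mul, ← mulVec_mulVec, ← mulVec_mulVec]
    have fw : ∀ y ∈ F ∙ w, (u : M4 F) *ᵥ y ∈ F ∙ w := fun y hy => by
      obtain ⟨α, rfl⟩ := Submodule.mem_span_singleton.1 hy
      rw [mulVec_smul, huw]
      exact Submodule.smul_mem _ _ (Submodule.mem_span_singleton_self w)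
    have h0' : ((u * a * u⁻¹ : GL (Fin 4) F) : M4 F) *ᵥ w = w := by
      rw [Units.val_mul, Units.val_mul, ← mulVec_mulVec, ← mulVec_mulVec, huI, a0, huw]
    have huaI : u * a * u⁻¹ ∈ I := mul_mem (mul_mem hu haI) (inv_mem hu)
    refine ⟨mem_flagGrp.2 ⟨h0', fun y hy => ?_, fun y hy => ?_, fun y => ?_⟩, huaI⟩
    · rw [e]; exact fw _ (a2 _ (f2 y (hwp hy)))
    · rw [e]; exact fw _ (a2 _ (f2 y hy))
    · rw [e]; exact f1 _ (a3 _)
  have hnorm : Subgroup.zpowers h ≤ Subgroup.normalizer (A : Set (GL (Fin 4) F)) := by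
    rw [Subgroup.zpowers_le, Subgroup.mem_normalizer_iff]
    intro a
    refine ⟨conj h hh hhw a, fun ha => ?_⟩
    have hhI : ((h⁻¹ : GL (Fin 4) F) : M4 F) *ᵥ w = w := by
      conv_lhs => rw [← hhw]
      rw [mulVec_mulVec, ← Units.val_mul, inv_mul_cancel, Units.val_one, one_mulVec]
    simpa [mul_assoc] using conj h⁻¹ (inv_mem hh) hhI _ ha
  exact eq_eichler h2 hd hp hO hb hw0 hw
    (P := Subgroup.zpowers h ⊔ A) (sup_le (Subgroup.zpowers_le.2 hh) inf_le_right)
    (IsPGroup.to_sup_of_normal_right' hH hA hnorm)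
    (fun x hx => Subgroup.mem_sup_right ⟨eU_mem_flag h2 hw hx, hO _ (eM_iso δ h2 hw hx)⟩) h
    (Subgroup.mem_sup_left (Subgroup.mem_zpowers h))

end Groups

lemma solve_two [Fintype F] {p : ℕ} [CharP F p] [Fact p.Prime] (hp : p ≠ 2) {a b : F} (c : F)
    (ha : a ≠ 0) (hb : b ≠ 0) : ∃ x y : F, a * (x * x) + b * (y * y) = c := by
  obtain ⟨x, y, h⟩ := FiniteField.exists_root_sum_quadratic
    (f := Polynomial.C a * Polynomial.X ^ 2 - Polynomial.C c)
    (g := Polynomial.C b * Polynomial.X ^ 2)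
    (by
      rw [Polynomial.degree_sub_eq_left_of_degree_lt] <;> rw [Polynomial.degree_C_mul_X_pow 2 ha]
      · rfl
      · exact lt_of_le_of_lt Polynomial.degree_C_le (by norm_num))
    (Polynomial.degree_C_mul_X_pow 2 hb)
    (FiniteField.odd_card_of_char_ne_two (by rw [ringChar.eq F p]; exact hp))
  refine ⟨x, y, ?_⟩
  simp only [Polynomial.eval_sub, Polynomial.eval_mul, Polynomial.eval_C, Polynomial.eval_pow,
    Polynomial.eval_X] at h
  linear_combination h

/-- Two singular vectors and a common anisotropic orthogonal vector inside `o⊥`. -/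
lemma two_points [Fintype F] {p : ℕ} [CharP F p] [Fact p.Prime] (hp : p ≠ 2) (h2 : (2 : F) ≠ 0)
    (hd : ¬ IsSquare δ) {o : V4} (ho : gB (G4 δ) o o ≠ 0) :
    ∃ w₁ w₂ d : V4, gB (G4 δ) w₁ w₁ = 0 ∧ gB (G4 δ) w₂ w₂ = 0 ∧ gB (G4 δ) w₁ w₂ ≠ 0 ∧
      gB (G4 δ) w₁ d = 0 ∧ gB (G4 δ) w₂ d = 0 ∧ gB (G4 δ) d d ≠ 0 ∧ gB (G4 δ) w₁ o = 0 ∧
      gB (G4 δ) w₂ o = 0 ∧ gB (G4 δ) d o = 0 := by
  have ho0 : o ≠ 0 := fun h => ho (by simp [h])
  let B := gB (G4 δ)
  have hsymm : ∀ x y, B x y = B y x := gB_symm δ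
  haveI : Invertible (2 : F) := invertibleOfNonzero h2
  obtain ⟨v, hv⟩ := LinearMap.BilinForm.exists_orthogonal_basis
    (B := (B.domRestrict₁₂ (perp δ o) (perp δ o)))
    ⟨fun x y => hsymm _ _⟩
  have hfr := finrank_perp hd ho0
  have horth : ∀ i j, i ≠ j → B (v i : V4) (v j : V4) = 0 := fun i j hij => hv hij
  have hvo : ∀ i, B (v i : V4) o = 0 := fun i => by rw [hsymm]; exact mem_perp.1 (v i).2
  have hne : ∀ i, B (v i : V4) (v i : V4) ≠ 0 := by
    intro i hi
    apply v.ne_zero i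
    apply Subtype.ext
    refine nondeg hd fun y => ?_
    have hy : y - (B o y / B o o) • o ∈ perp δ o := by
      rw [mem_perp, map_sub, map_smul, smul_eq_mul, div_mul_cancel₀ _ ho, sub_self]
    have h0 : B (v i : V4) (y - (B o y / B o o) • o) = 0 := by
      have := congrArg (fun z : perp δ o => B (v i : V4) (z : V4)) (v.sum_repr ⟨_, hy⟩)
      simp only [Submodule.coe_sum, Submodule.coe_smul] at this
      rw [← this, map_sum]
      refine Finset.sum_eq_zero fun j _ => ?_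
      rw [map_smul]
      rcases eq_or_ne i j with rfl | hij
      · rw [hi, smul_zero]
      · rw [horth i j hij, smul_zero]
    rw [map_sub, map_smul, hvo, smul_zero, sub_zero] at h0
    exact h0
  let i0 : Fin (finrank F (perp δ o)) := ⟨0, by omega⟩
  let i1 : Fin (finrank F (perp δ o)) := ⟨1, by omega⟩
  let i2 : Fin (finrank F (perp δ o)) := ⟨2, by omega⟩
  set a := (v i0 : V4)
  set b := (v i1 : V4)
  set c := (v i2 : V4)
  have hab : B a b = 0 := horth _ _ (by simp [i0, i1])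
  have hac : B a c = 0 := horth _ _ (by simp [i0, i2])
  have hbc : B b c = 0 := horth _ _ (by simp [i1, i2])
  obtain ⟨x, y, hxy⟩ := solve_two (p := p) hp (-B c c) (hne i0) (hne i1)
  refine ⟨x • a + y • b + c, x • a + y • b - c, (-(B b b * y)) • a + (B a a * x) • b,
    ?_, ?_, ?_, ?_, ?_, ?_, ?_, ?_, ?_⟩
  all_goals
    simp only [map_add, map_sub, map_smul, map_neg, LinearMap.add_apply, LinearMap.sub_apply,
      LinearMap.smul_apply, LinearMap.neg_apply, smul_eq_mul, hsymm b a, hsymm c a, hsymm c b]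
  · simp only [show gB (G4 δ) = B from rfl, hab, hac, hbc, hsymm b a, hsymm c a, hsymm c b]
    linear_combination hxy
  · simp only [show gB (G4 δ) = B from rfl, hab, hac, hbc, hsymm b a, hsymm c a, hsymm c b]
    linear_combination hxy
  · simp only [show gB (G4 δ) = B from rfl, hab, hac, hbc, hsymm b a, hsymm c a, hsymm c b]
    intro h
    exact mul_ne_zero h2 (hne i2) (by linear_combination hxy - h)
  · simp only [show gB (G4 δ) = B from rfl, hab, hac, hbc, hsymm b a, hsymm c a, hsymm c b]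
    ring
  · simp only [show gB (G4 δ) = B from rfl, hab, hac, hbc, hsymm b a, hsymm c a, hsymm c b]
    ring
  · simp only [show gB (G4 δ) = B from rfl, hab, hac, hbc, hsymm b a, hsymm c a, hsymm c b]
    intro h
    refine mul_ne_zero (mul_ne_zero (hne i0) (hne i1)) (hne i2) ?_
    linear_combination (B a a * B b b) * hxy - h
  · simp only [show gB (G4 δ) = B from rfl, a, b, c, hvo]
    ring
  · simp only [show gB (G4 δ) = B from rfl, a, b, c, hvo]
    ring
  · simp only [show gB (G4 δ) = B from rfl, a, b, c, hvo]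
    ring

lemma quad_flip (f : Fin 4 → Fin 4 → F) (hsym : ∀ i j, f i j = f j i) (x : Fin 4 → F)
    {i j : Fin 4} (hij : i ≠ j)
    (h : ∀ s : Fin 4 → F, (∀ k, s k = 1 ∨ s k = -1) →
      ∑ k, ∑ l, f k l * (s k * x k) * (s l * x l) = 0) :
    (8 : F) * (f i j * x i * x j) = 0 := by
  classical
  let sg : Fin 4 → Fin 4 → F := fun a k => if k = a then -1 else 1
  have hs : ∀ a k, sg a k = 1 ∨ sg a k = -1 := fun a k => by simp [sg, or_comm]; tauto
  have h0 := h (fun _ => 1) (fun _ => Or.inl rfl)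
  have hi := h (sg i) (hs i)
  have hj := h (sg j) (hs j)
  have hb := h (fun k => sg i k * sg j k) fun k => by
    rcases hs i k with e | e <;> rcases hs j k with e' | e' <;> rw [e, e'] <;> simp
  have hc : ∀ k l : Fin 4, (1 - sg i k * sg i l) - sg j k * sg j l +
      (sg i k * sg j k) * (sg i l * sg j l) =
      if (k = i ∧ l = j) ∨ (k = j ∧ l = i) then 4 else 0 := by
    intro k l
    fin_cases i <;> fin_cases j <;> fin_cases k <;> fin_cases l <;>
      first | exact absurd rfl hij | (simp [sg] <;> norm_num)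
  have hsum : ∑ k, ∑ l, ((1 - sg i k * sg i l) - sg j k * sg j l +
      (sg i k * sg j k) * (sg i l * sg j l)) * (f k l * x k * x l) = 0 := by
    calc _ = ∑ k, ∑ l, f k l * (1 * x k) * (1 * x l) -
          ∑ k, ∑ l, f k l * (sg i k * x k) * (sg i l * x l) -
          ∑ k, ∑ l, f k l * (sg j k * x k) * (sg j l * x l) +
          ∑ k, ∑ l, f k l * (sg i k * sg j k * x k) * (sg i l * sg j l * x l) := by
            simp only [← Finset.sum_sub_distrib, ← Finset.sum_add_distrib]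
            exact Finset.sum_congr rfl fun k _ => Finset.sum_congr rfl fun l _ => by ring
      _ = 0 := by rw [h0, hi, hj, hb]; ring
  simp only [hc] at hsum
  rw [Finset.sum_eq_add_of_mem i j (Finset.mem_univ _) (Finset.mem_univ _) hij] at hsum
  · rw [Finset.sum_eq_single j, Finset.sum_eq_single i] at hsum
    · simp only [and_self, true_or, or_true, if_true, hsym j i] at hsum
      linear_combination hsum
    all_goals intros; simp_all
  · intro k _ hk
    exact Finset.sum_eq_zero fun l _ => by simp [hk.1, hk.2]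

lemma univ_four : ∀ i j k l : Fin 4, i ≠ j → k ≠ l → k ≠ i → k ≠ j → l ≠ i → l ≠ j →
    (Finset.univ : Finset (Fin 4)) = {i, j, k, l} := by decide

lemma vec_cases : ∀ i j : Fin 4, i ≠ j → ∃ k l : Fin 4,
    k ≠ l ∧ k ≠ i ∧ k ≠ j ∧ l ≠ i ∧ l ≠ j := by decide

end Ovoid

open Matrix Module Cfsg.Agent.Classical Ovoid in
open Cfsg.Agent.MaxSub.OrthWreathBig (gB) in
open scoped MatrixGroups Matrix in
/-- A group containing the isometries of one site with small `p`-subgroups consists of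
similitudes. -/
theorem simW_of_pgroup_bound {F : Type*} [Field F] [Fintype F] {δ : F} {p : ℕ} [Fact p.Prime]
    [CharP F p] (h2 : (2 : F) ≠ 0) (hd : ¬ IsSquare δ) {I : Subgroup (GL (Fin 4) F)}
    (hO : ∀ A : GL (Fin 4) F, IsoW δ (A : M4 F) → A ∈ I)
    (hb : ∀ P ≤ I, IsPGroup p P → Nat.card P ≤ Fintype.card F ^ 2) :
    ∀ g ∈ I, ∃ ν, SimW δ (g : M4 F) ν := by
  classical
  intro g hg
  have hp : p ≠ 2 := by
    rintro rfl
    exact h2 (by exact_mod_cast CharP.cast_eq_zero F 2)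
  -- singular vectors go to singular vectors
  have hsing : ∀ w, gB (G4 δ) w w = 0 → gB (G4 δ) ((g : M4 F) *ᵥ w) ((g : M4 F) *ᵥ w) = 0 := by
    intro w hw
    by_contra ho
    have hw0 : w ≠ 0 := fun h => ho (by simp [h])
    set o := (g : M4 F) *ᵥ w with hodef
    obtain ⟨w₁, w₂, d, hw1, hw2, hw12, hd1, hd2, hdd, ho1, ho2, hod⟩ := two_points hp h2 hd ho
    have hback : ∀ (u : Fin 4 → F) (hu : gB (G4 δ) u u = 0) (hud : gB (G4 δ) u d = 0),
        gB (G4 δ) u o = 0 →
        ∃ x, gB (G4 δ) w x = 0 ∧ ((g⁻¹ * eU δ h2 hu hud * g : GL (Fin 4) F) : M4 F) = eM δ w x := by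
      intro u hu hud huo
      have hu0 : F ∙ u ≤ perp δ u := (Submodule.span_singleton_le_iff_mem _ _).2 (mem_perp.2 hu)
      obtain ⟨k, hk⟩ := flagGrp_pgroup (p := p) hp
        ⟨eU δ h2 hu hud, eU_mem_flag h2 hu hud (hwL := le_rfl) (hL := hu0)⟩
      have hk' : (eU δ h2 hu hud) ^ (p ^ k) = 1 := by simpa using congrArg Subtype.val hk
      refine pelem_eichler h2 hd hp hO hb hw0 hw
        (mul_mem (mul_mem (inv_mem hg) (hO _ (eM_iso δ h2 hu hud))) hg) ?_ (k := k) ?_
      · rw [Units.val_mul, Units.val_mul, ← mulVec_mulVec, ← mulVec_mulVec, ← hodef,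
          show ((eU δ h2 hu hud : GL (Fin 4) F) : M4 F) *ᵥ o = o from ?_, hodef, mulVec_mulVec,
          ← Units.val_mul, inv_mul_cancel, Units.val_one, one_mulVec]
        show eM δ u d *ᵥ o = o
        rw [eM_mulVec, huo, hod]
        simp
      · have := conj_pow (i := p ^ k) (a := g⁻¹) (b := eU δ h2 hu hud)
        rw [inv_inv] at this
        rw [this, hk', mul_one, inv_mul_cancel]
    obtain ⟨x₁, hx1, e1⟩ := hback w₁ hw1 hd1 ho1
    obtain ⟨x₂, hx2, e2⟩ := hback w₂ hw2 hd2 ho2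
    set E₁ := eU δ h2 hw1 hd1
    set E₂ := eU δ h2 hw2 hd2
    have hcomm : E₁ * E₂ = E₂ * E₁ := by
      have h1 : g⁻¹ * E₁ * g * (g⁻¹ * E₂ * g) = g⁻¹ * E₂ * g * (g⁻¹ * E₁ * g) := by
        apply Units.ext
        rw [Units.val_mul, Units.val_mul (g⁻¹ * E₂ * g), e1, e2, eM_comm δ hw hx1 hx2]
      simp only [mul_assoc, mul_inv_cancel_left, mul_right_inj] at h1
      rw [← mul_assoc, ← mul_assoc] at h1
      exact mul_right_cancel h1
    have h5 := congrArg (fun u : GL (Fin 4) F => (u : M4 F) *ᵥ d) hcomm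
    simp only [Units.val_mul] at h5
    rw [← mulVec_mulVec, ← mulVec_mulVec] at h5
    change eM δ w₁ d *ᵥ (eM δ w₂ d *ᵥ d) = eM δ w₂ d *ᵥ (eM δ w₁ d *ᵥ d) at h5
    simp only [eM_mulVec, map_add, map_sub, map_smul, map_neg, hd1, hd2, gB_symm δ d w₁,
      gB_symm δ d w₂, hw1, hw2, gB_symm δ w₂ w₁, smul_eq_mul] at h5
    -- pair with `w₁`
    have h6 := congrArg (gB (G4 δ) w₁) h5
    simp only [map_add, map_sub, map_smul, map_neg, hd1, hw1, smul_eq_mul, mul_zero, zero_mul, zero_smul,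
      smul_zero, sub_zero, zero_sub, add_zero, zero_add, mul_one, one_mul, neg_zero] at h6
    field_simp at h6
    exact mul_ne_zero hdd hw12 (by linear_combination -h6)
  -- the pulled back form
  set S : M4 F := (g : M4 F)ᵀ * G4 δ * (g : M4 F) with hS
  have hSsym : ∀ i j, S i j = S j i := fun i j => by
    have : Sᵀ = S := by rw [hS, transpose_mul, transpose_mul, transpose_transpose, G4_transpose, mul_assoc]
    exact (congrFun (congrFun this j) i)
  have hzero : ∀ x : Fin 4 → F, (∑ k, wt δ k * (x k * x k)) = 0 →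
      ∑ k, ∑ l, S k l * x k * x l = 0 := by
    intro x hx
    have h1 := hsing x (by
      rw [gB_diag]
      simp only [Fin.sum_univ_four, wt, Matrix.cons_val_zero, Matrix.cons_val_one, Matrix.cons_val]
        at hx
      linear_combination hx)
    rw [gB_transport, ← hS] at h1
    rw [← h1, dotProduct]
    refine Finset.sum_congr rfl fun k _ => ?_
    rw [mulVec, dotProduct, Finset.mul_sum]
    exact Finset.sum_congr rfl fun l _ => by ring
  have hoff : ∀ i j, i ≠ j → S i j = 0 := by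
    intro i j hij
    obtain ⟨k, l, hkl, hki, hkj, hli, hlj⟩ := vec_cases i j hij
    obtain ⟨a, b, hab⟩ := solve_two (p := p) hp (-(wt δ i + wt δ j)) (wt_ne_zero hd k) (wt_ne_zero hd l)
    let x : Fin 4 → F := fun m => if m = k then a else if m = l then b else 1
    have hx : ∑ m, wt δ m * (x m * x m) = 0 := by
      have huniv : (Finset.univ : Finset (Fin 4)) = {i, j, k, l} :=
        univ_four i j k l hij hkl hki hkj hli hlj
      rw [huniv, Finset.sum_insert (by simp [hij, Ne.symm hki, Ne.symm hli]),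
        Finset.sum_insert (by simp [Ne.symm hkj, Ne.symm hlj]),
        Finset.sum_insert (by simp [hkl]), Finset.sum_singleton]
      simp [x, Ne.symm hki, Ne.symm hli, Ne.symm hkj, Ne.symm hlj, Ne.symm hkl]
      linear_combination hab
    have h8 := quad_flip S hSsym x hij fun s hs => hzero _ (by
      rw [← hx]
      refine Finset.sum_congr rfl fun m _ => ?_
      rcases hs m with e | e <;> rw [e] <;> ring)
    have h8' : (8 : F) ≠ 0 := by
      rw [show (8 : F) = 2 * 2 * 2 by norm_num]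
      exact mul_ne_zero (mul_ne_zero h2 h2) h2
    simpa [x, hki.symm, hkj.symm, hli.symm, hlj.symm] using (mul_eq_zero.1 h8).resolve_left h8'
  have hdiag : ∀ x : Fin 4 → F, (∑ k, wt δ k * (x k * x k)) = 0 →
      ∑ k, S k k * (x k * x k) = 0 := by
    intro x hx
    rw [← hzero x hx]
    refine Finset.sum_congr rfl fun k _ => ?_
    rw [Finset.sum_eq_single k (fun l _ hl => by rw [hoff k l hl.symm]; ring) (by simp)]
    ring
  have h0 : wt δ 0 = δ := rfl
  have hd0 : δ ≠ 0 := wt_ne_zero hd 0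
  obtain ⟨a, b, hab⟩ := solve_two (p := p) hp (-1 : F) hd0 one_ne_zero
  have t1 := hdiag ![a, 1, 0, b] (by simp [Fin.sum_univ_four, wt]; linear_combination hab)
  have t2 := hdiag ![a, 0, 1, b] (by simp [Fin.sum_univ_four, wt]; linear_combination hab)
  have t1' := hdiag ![a, 1, b, 0] (by simp [Fin.sum_univ_four, wt]; linear_combination hab)
  have t3 := hdiag ![a, 0, b, 1] (by simp [Fin.sum_univ_four, wt]; linear_combination hab)
  simp [Fin.sum_univ_four] at t1 t2 t1' t3
  have e12 : S 1 1 = S 2 2 := by linear_combination t1 - t2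
  have e13 : S 1 1 = S 3 3 := by linear_combination t1' - t3
  obtain ⟨a', b', hab'⟩ := solve_two (p := p) hp (-δ) (one_ne_zero (α := F)) one_ne_zero
  have t0 := hdiag ![1, a', b', 0] (by simp [Fin.sum_univ_four, wt]; linear_combination hab')
  simp [Fin.sum_univ_four] at t0
  have e0 : S 0 0 = δ * S 1 1 := by
    rw [← e12] at t0
    linear_combination t0 - S 1 1 * hab'
  have hS' : S = S 1 1 • G4 δ := by
    refine Matrix.ext fun i j => ?_
    rcases eq_or_ne i j with rfl | hij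
    · fin_cases i <;> simp [G4, wt, e0, ← e12, ← e13, mul_comm]
    · simp [G4, hij, hoff i j hij]
  refine ⟨S 1 1, fun h => ?_, hS'⟩
  have hdet : S.det ≠ 0 := by
    rw [hS, Matrix.det_mul, Matrix.det_mul, Matrix.det_transpose]
    have hgdet : (g : M4 F).det ≠ 0 := ((Matrix.isUnit_iff_isUnit_det _).1 g.isUnit).ne_zero
    exact mul_ne_zero (mul_ne_zero hgdet (G4_det hd).ne_zero) hgdet
  apply hdet
  rw [hS', h, zero_smul, Matrix.det_zero]

end Cfsg.Agent.MaxSub.OrthFour
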