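import Cfsg.Agent.MaxSub.OrthFour.Defs
import Cfsg.Agent.MaxSub.OrthFour.Omega
import Cfsg.Agent.MaxSub.OrthFour.Ovoid
import Mathlib.GroupTheory.Sylow

/-!
Stabilisers of slots in groups over the monomial group of two sites, and centralisers and
conjugates of site root elements.

The bound for the `p`-subgroups and the fact that conjugates of site root elements in the monomial
group are site root elements enter as hypotheses.
-/

set_option autoImplicit false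
set_option linter.unusedSectionVars false
set_option linter.unusedSimpArgs false
set_option linter.style.haveILetI false

namespace Cfsg.Agent.MaxSub.OrthFour.Stab

open Matrix Module Cfsg.Geo Cfsg.Agent.NotMax Cfsg.Agent.GeoClasses Cfsg.Agent.Classical
open Cfsg.Agent.MaxSub.TensorPowSp (gV fG siteHom)
open Cfsg.Agent.MaxSub.OrthWreathBig (gB cr sieM)
open scoped MatrixGroups Matrix

variable {F : Type*} [Field F] {δ : F}

/-! ### One site -/

lemma gB_nd (hδ : ¬ IsSquare δ) {a : Fin 4 → F} (h : ∀ b, gB (G4 δ) a b = 0) : a = 0 := by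
  funext q
  have := h (Pi.single q 1)
  rw [OrthWreathBig.gB_apply, fG, dotProduct_single, mul_one, G4, Matrix.vecMul_diagonal] at this
  exact (mul_eq_zero.1 this).resolve_right (wt_ne_zero hδ q)

lemma gB_ext (hδ : ¬ IsSquare δ) {a b : Fin 4 → F} (h : ∀ d, gB (G4 δ) d a = gB (G4 δ) d b) :
    a = b :=
  sub_eq_zero.1 <| gB_nd hδ fun d => by rw [gB_symm, map_sub, h, sub_self]

lemma gB_mulVec_mulVec (A : M4 F) (a b : Fin 4 → F) :
    gB (G4 δ) (A *ᵥ a) (A *ᵥ b) = (a ᵥ* (Aᵀ * G4 δ * A)) ⬝ᵥ b := by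
  rw [OrthWreathBig.gB_apply, fG, ← vecMul_transpose, vecMul_vecMul, dotProduct_mulVec,
    vecMul_vecMul]

lemma sim_iff {A : M4 F} {s : F} :
    Aᵀ * G4 δ * A = s • G4 δ ↔
      ∀ a b, gB (G4 δ) (A *ᵥ a) (A *ᵥ b) = s * gB (G4 δ) a b := by
  refine ⟨fun e a b => ?_, fun h => Matrix.ext fun r q => ?_⟩
  · rw [gB_mulVec_mulVec, e, vecMul_smul, smul_dotProduct]; rfl
  · have := h (Pi.single r 1) (Pi.single q 1)
    rw [gB_mulVec_mulVec] at this
    simpa [OrthWreathBig.gB_apply, fG] using this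

lemma det_G4 (δ : F) : (G4 δ).det = δ := by
  rw [G4, Matrix.det_diagonal, Fin.prod_univ_four]; simp [wt]

lemma det_ne_zero_of_sim (hδ : ¬ IsSquare δ) {A : M4 F} {s : F} (hs : s ≠ 0)
    (h : Aᵀ * G4 δ * A = s • G4 δ) : A.det ≠ 0 := by
  intro h0
  have := congrArg Matrix.det h
  rw [Matrix.det_mul, Matrix.det_mul, h0, mul_zero, Matrix.det_smul, det_G4] at this
  exact mul_ne_zero (pow_ne_zero _ hs) (fun e : δ = 0 => hδ (e ▸ IsSquare.zero)) this.symm

lemma sim_one {A : M4 F} (h : IsoW δ A) : Aᵀ * G4 δ * A = (1 : F) • G4 δ := by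
  rw [one_smul]; exact h

lemma det_ne_zero_of_iso (hδ : ¬ IsSquare δ) {A : M4 F} (h : IsoW δ A) : A.det ≠ 0 :=
  det_ne_zero_of_sim hδ one_ne_zero (sim_one h)

lemma det_sq_of_iso (hδ : ¬ IsSquare δ) {A : M4 F} (h : IsoW δ A) : A.det * A.det = 1 := by
  have := congrArg Matrix.det h
  rw [Matrix.det_mul, Matrix.det_mul, Matrix.det_transpose, det_G4] at this
  have hd : δ ≠ 0 := fun e => hδ (e ▸ IsSquare.zero)
  exact mul_right_cancel₀ hd (by linear_combination this)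

lemma iso_one : IsoW δ (1 : M4 F) := by simp [IsoW]

lemma reflW_mulVec (r a : Fin 4 → F) :
    reflW δ r *ᵥ a = a - (2 / gB (G4 δ) r r * gB (G4 δ) r a) • r := by
  rw [reflW, sub_mulVec, one_mulVec, smul_mulVec, OrthWreathBig.cr_mulVec, smul_smul]

lemma iso_reflW {r : Fin 4 → F} (hr : gB (G4 δ) r r ≠ 0) : IsoW δ (reflW δ r) := by
  have h : (reflW δ r)ᵀ * G4 δ * reflW δ r = (1 : F) • G4 δ := sim_iff.2 fun a b => by
    simp only [reflW_mulVec, map_sub, map_smul, LinearMap.sub_apply, LinearMap.smul_apply,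
      smul_eq_mul, gB_symm δ a r]
    field_simp
    ring
  rwa [one_smul] at h

lemma det_reflW {r : Fin 4 → F} (hr : gB (G4 δ) r r ≠ 0) : (reflW δ r).det = -1 := by
  rw [reflW, OrthWreathBig.cr, sub_eq_add_neg, ← neg_smul, ← smul_vecMulVec,
    Matrix.vecMulVec_eq Unit, Matrix.det_one_add_replicateCol_mul_replicateRow, dotProduct_smul,
    show (r ᵥ* G4 δ) ⬝ᵥ r = gB (G4 δ) r r from rfl, smul_eq_mul]
  field_simp
  ring

/-- A hyperbolic pair and an orthogonal basis of its perpendicular plane. -/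
structure Frame (δ : F) (w : Fin 4 → F) where
  v : Fin 4 → F
  e₁ : Fin 4 → F
  e₂ : Fin 4 → F
  ww : gB (G4 δ) w w = 0
  wv : gB (G4 δ) w v = 1
  vv : gB (G4 δ) v v = 0
  we₁ : gB (G4 δ) w e₁ = 0
  we₂ : gB (G4 δ) w e₂ = 0
  ve₁ : gB (G4 δ) v e₁ = 0
  ve₂ : gB (G4 δ) v e₂ = 0
  e₁₂ : gB (G4 δ) e₁ e₂ = 0
  n₁ : gB (G4 δ) e₁ e₁ ≠ 0
  n₂ : gB (G4 δ) e₂ e₂ ≠ 0
  dec : ∀ a, a = gB (G4 δ) v a • w + gB (G4 δ) w a • v +
    ((gB (G4 δ) e₁ e₁)⁻¹ * gB (G4 δ) e₁ a) • e₁ +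
    ((gB (G4 δ) e₂ e₂)⁻¹ * gB (G4 δ) e₂ a) • e₂

namespace Frame

variable {w : Fin 4 → F} (fr : Frame δ w)
include fr

lemma vw : gB (G4 δ) fr.v w = 1 := by rw [gB_symm, fr.wv]
lemma e₁w : gB (G4 δ) fr.e₁ w = 0 := by rw [gB_symm, fr.we₁]
lemma e₂w : gB (G4 δ) fr.e₂ w = 0 := by rw [gB_symm, fr.we₂]
lemma e₁v : gB (G4 δ) fr.e₁ fr.v = 0 := by rw [gB_symm, fr.ve₁]
lemma e₂v : gB (G4 δ) fr.e₂ fr.v = 0 := by rw [gB_symm, fr.ve₂]
lemma e₂₁ : gB (G4 δ) fr.e₂ fr.e₁ = 0 := by rw [gB_symm, fr.e₁₂]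

lemma ne_zero : w ≠ 0 := fun e => by simpa [e] using fr.wv

lemma gB_eq (a b : Fin 4 → F) :
    gB (G4 δ) a b = gB (G4 δ) fr.v a * gB (G4 δ) w b + gB (G4 δ) w a * gB (G4 δ) fr.v b +
      (gB (G4 δ) fr.e₁ fr.e₁)⁻¹ * gB (G4 δ) fr.e₁ a * gB (G4 δ) fr.e₁ b +
      (gB (G4 δ) fr.e₂ fr.e₂)⁻¹ * gB (G4 δ) fr.e₂ a * gB (G4 δ) fr.e₂ b := by
  conv_lhs => rw [fr.dec a]
  simp only [map_add, map_smul, LinearMap.add_apply, LinearMap.smul_apply, smul_eq_mul]

/-- Singular vectors orthogonal to each other are dependent. -/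
lemma perp_singular (hδ : ¬ IsSquare δ) {x : Fin 4 → F} (hx : gB (G4 δ) x x = 0)
    (hwx : gB (G4 δ) w x = 0) : x = gB (G4 δ) fr.v x • w := by
  set T : M4 F := Matrix.of fun r l => ![w, fr.v, fr.e₁, fr.e₂] l r with hT
  have hcol : ∀ l, T *ᵥ Pi.single l 1 = ![w, fr.v, fr.e₁, fr.e₂] l := fun l => by
    ext r; simp [hT]
  have hΓ : Tᵀ * G4 δ * T = !![0, 1, 0, 0; 1, 0, 0, 0; 0, 0, gB (G4 δ) fr.e₁ fr.e₁, 0;
      0, 0, 0, gB (G4 δ) fr.e₂ fr.e₂] := by
    ext r l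
    have := gB_mulVec_mulVec (δ := δ) T (Pi.single r 1) (Pi.single l 1)
    rw [hcol, hcol] at this
    simp only [single_one_vecMul, dotProduct_single_one, Matrix.row] at this
    rw [← this]
    fin_cases r <;> fin_cases l <;>
      simp [fr.ww, fr.wv, fr.vw, fr.vv, fr.we₁, fr.we₂, fr.ve₁, fr.ve₂, fr.e₁w, fr.e₂w, fr.e₁v,
        fr.e₂v, fr.e₁₂, fr.e₂₁]
  have hd := congrArg Matrix.det hΓ
  rw [Matrix.det_mul, Matrix.det_mul, Matrix.det_transpose, det_G4] at hd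
  rw [show (!![0, 1, 0, 0; 1, 0, 0, 0; 0, 0, gB (G4 δ) fr.e₁ fr.e₁, 0;
      0, 0, 0, gB (G4 δ) fr.e₂ fr.e₂] : M4 F).det =
      -(gB (G4 δ) fr.e₁ fr.e₁ * gB (G4 δ) fr.e₂ fr.e₂) by
    simp [Matrix.det_succ_row_zero, Fin.sum_univ_succ, Fin.succAbove]] at hd
  have hTd : T.det ≠ 0 := fun e => by
    simp [e] at hd
    rcases hd with hd | hd
    · exact fr.n₁ hd
    · exact fr.n₂ hd
  set c₁ := gB (G4 δ) fr.e₁ fr.e₁
  set c₂ := gB (G4 δ) fr.e₂ fr.e₂
  set a := c₁⁻¹ * gB (G4 δ) fr.e₁ x with ha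
  set b := c₂⁻¹ * gB (G4 δ) fr.e₂ x with hb
  have hdec := fr.dec x
  rw [hwx, zero_smul, add_zero] at hdec
  change x = gB (G4 δ) fr.v x • w + a • fr.e₁ + b • fr.e₂ at hdec
  have hq : a * a * c₁ + b * b * c₂ = 0 := by
    have := fr.gB_eq x x
    rw [hx, hwx] at this
    have n₁ : c₁ ≠ 0 := fr.n₁
    have n₂ : c₂ ≠ 0 := fr.n₂
    have e1 : a * a * c₁ = c₁⁻¹ * gB (G4 δ) fr.e₁ x * gB (G4 δ) fr.e₁ x := by
      rw [ha]; field_simp
    have e2 : b * b * c₂ = c₂⁻¹ * gB (G4 δ) fr.e₂ x * gB (G4 δ) fr.e₂ x := by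
      rw [hb]; field_simp
    rw [e1, e2]; linear_combination -this
  by_cases hb0 : b = 0
  · have ha0 : a = 0 := by
      simpa [hb0, show c₁ ≠ 0 from fr.n₁] using hq
    rw [ha0, hb0, zero_smul, zero_smul, add_zero, add_zero] at hdec
    exact hdec
  · refine absurd ⟨c₁ * a / (b * T.det), ?_⟩ hδ
    field_simp
    linear_combination b * b * hd - c₁ * hq

end Frame

lemma exists_gB_one (hδ : ¬ IsSquare δ) {a : Fin 4 → F} (ha : a ≠ 0) :
    ∃ b, gB (G4 δ) a b = 1 := by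
  obtain ⟨b, hb⟩ : ∃ b, gB (G4 δ) a b ≠ 0 := by
    by_contra! hno
    exact ha (gB_nd hδ hno)
  exact ⟨(gB (G4 δ) a b)⁻¹ • b, by rw [map_smul, smul_eq_mul, inv_mul_cancel₀ hb]⟩

lemma not_span_three (z : Fin 3 → Fin 4 → F) :
    ¬ ∀ a : Fin 4 → F, a ∈ Submodule.span F (Set.range z) := fun h => by
  have e : Submodule.span F (Set.range z) = ⊤ := eq_top_iff.2 fun a _ => h a
  have := finrank_range_le_card (R := F) z
  rw [Set.finrank, e, finrank_top, finrank_fin_fun, Fintype.card_fin] at this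
  omega

lemma exists_aniso (hδ : ¬ IsSquare δ) (h2 : (2 : F) ≠ 0)
    (π : (Fin 4 → F) →ₗ[F] (Fin 4 → F))
    (hπ : ∀ a b, gB (G4 δ) (π a) (π b) = gB (G4 δ) (π a) b) (h : ∃ a, π a ≠ 0) :
    ∃ a, gB (G4 δ) (π a) (π a) ≠ 0 := by
  by_contra! hno
  obtain ⟨a, ha⟩ := h
  refine ha (gB_nd hδ fun b => ?_)
  have h3 := hno (a + b)
  simp only [map_add, LinearMap.add_apply, hno a, hno b, gB_symm δ (π b) (π a)] at h3
  have : 2 * gB (G4 δ) (π a) b = 0 := by rw [← hπ]; linear_combination h3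
  exact (mul_eq_zero.1 this).resolve_left h2

lemma exists_frame (hδ : ¬ IsSquare δ) (h2 : (2 : F) ≠ 0) {w : Fin 4 → F} (hw0 : w ≠ 0)
    (hw : gB (G4 δ) w w = 0) : Nonempty (Frame δ w) := by
  obtain ⟨a, ha⟩ := exists_gB_one hδ hw0
  set v := a - (gB (G4 δ) a a / 2) • w
  have wv : gB (G4 δ) w v = 1 := by simp [v, ha, hw]
  have vw : gB (G4 δ) v w = 1 := by rw [gB_symm, wv]
  have vv : gB (G4 δ) v v = 0 := by
    simp only [v, map_sub, map_smul, LinearMap.sub_apply, LinearMap.smul_apply, smul_eq_mul, hw,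
      ha, gB_symm δ a w]
    field_simp; ring
  let π₁ : (Fin 4 → F) →ₗ[F] (Fin 4 → F) :=
    LinearMap.id - (gB (G4 δ) v).smulRight w - (gB (G4 δ) w).smulRight v
  have h₁ : ∀ x, π₁ x = x - gB (G4 δ) v x • w - gB (G4 δ) w x • v := fun x => rfl
  have pw : ∀ x, gB (G4 δ) w (π₁ x) = 0 := fun x => by simp [h₁, hw, wv]
  have pv' : ∀ x, gB (G4 δ) v (π₁ x) = 0 := fun x => by simp [h₁, vw, vv]
  have q₁ : ∀ x y, gB (G4 δ) (π₁ x) (π₁ y) = gB (G4 δ) (π₁ x) y := fun x y => by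
    conv_lhs => arg 2; rw [h₁ y]
    simp only [map_sub, map_smul, gB_symm δ (π₁ x) w, gB_symm δ (π₁ x) v, pw, pv', smul_zero,
      sub_zero]
  obtain ⟨a₁, n₁⟩ := exists_aniso hδ h2 π₁ q₁ (by
    by_contra! hno
    refine not_span_three ![w, v, 0] fun x => ?_
    have hx : x = gB (G4 δ) v x • w + gB (G4 δ) w x • v := by
      have := hno x; rw [h₁, sub_sub, sub_eq_zero] at this; exact this
    rw [hx]
    exact add_mem (Submodule.smul_mem _ _ (Submodule.subset_span ⟨0, rfl⟩))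
      (Submodule.smul_mem _ _ (Submodule.subset_span ⟨1, rfl⟩)))
  set e₁ := π₁ a₁
  have we₁ : gB (G4 δ) w e₁ = 0 := pw a₁
  have ve₁ : gB (G4 δ) v e₁ = 0 := pv' a₁
  let π₂ : (Fin 4 → F) →ₗ[F] (Fin 4 → F) :=
    π₁ - ((gB (G4 δ) e₁ e₁)⁻¹ • gB (G4 δ) e₁).smulRight e₁
  have h₂ : ∀ x, π₂ x = π₁ x - ((gB (G4 δ) e₁ e₁)⁻¹ * gB (G4 δ) e₁ x) • e₁ := fun x => rfl
  have e₁π : ∀ x, gB (G4 δ) e₁ (π₁ x) = gB (G4 δ) e₁ x := fun x => q₁ a₁ x
  have pw₂ : ∀ x, gB (G4 δ) w (π₂ x) = 0 := fun x => by simp [h₂, pw, we₁]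
  have pv₂ : ∀ x, gB (G4 δ) v (π₂ x) = 0 := fun x => by simp [h₂, pv', ve₁]
  have pe₂ : ∀ x, gB (G4 δ) e₁ (π₂ x) = 0 := fun x => by
    rw [h₂, map_sub, map_smul, e₁π, smul_eq_mul]; field_simp; ring
  have q₂ : ∀ x y, gB (G4 δ) (π₂ x) (π₂ y) = gB (G4 δ) (π₂ x) y := fun x y => by
    conv_lhs => arg 2; rw [h₂ y, h₁ y]
    simp only [map_sub, map_smul, gB_symm δ (π₂ x) w, gB_symm δ (π₂ x) v, gB_symm δ (π₂ x) e₁,
      pw₂, pv₂, pe₂, smul_zero, sub_zero]
  obtain ⟨a₂, n₂⟩ := exists_aniso hδ h2 π₂ q₂ (by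
    by_contra! hno
    refine not_span_three ![w, v, e₁] fun x => ?_
    have hx : x = gB (G4 δ) v x • w + gB (G4 δ) w x • v +
        ((gB (G4 δ) e₁ e₁)⁻¹ * gB (G4 δ) e₁ x) • e₁ := by
      have := hno x
      rw [h₂, h₁, sub_sub, sub_sub, sub_eq_zero] at this
      exact this.trans (by abel)
    rw [hx]
    exact add_mem (add_mem (Submodule.smul_mem _ _ (Submodule.subset_span ⟨0, rfl⟩))
      (Submodule.smul_mem _ _ (Submodule.subset_span ⟨1, rfl⟩)))
      (Submodule.smul_mem _ _ (Submodule.subset_span ⟨2, rfl⟩)))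
  set e₂ := π₂ a₂
  have we₂ : gB (G4 δ) w e₂ = 0 := pw₂ a₂
  have ve₂ : gB (G4 δ) v e₂ = 0 := pv₂ a₂
  have e₁₂ : gB (G4 δ) e₁ e₂ = 0 := pe₂ a₂
  have e₂₁ : gB (G4 δ) e₂ e₁ = 0 := by rw [gB_symm, e₁₂]
  have e₁w : gB (G4 δ) e₁ w = 0 := by rw [gB_symm, we₁]
  have e₁v : gB (G4 δ) e₁ v = 0 := by rw [gB_symm, ve₁]
  have e₂w : gB (G4 δ) e₂ w = 0 := by rw [gB_symm, we₂]
  have e₂v : gB (G4 δ) e₂ v = 0 := by rw [gB_symm, ve₂]
  have li : LinearIndependent F ![w, v, e₁, e₂] := by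
    rw [Fintype.linearIndependent_iff]
    intro c hc
    simp only [Fin.sum_univ_four, Matrix.cons_val_zero, Matrix.cons_val_one, Matrix.cons_val]
      at hc
    have k0 := congrArg (gB (G4 δ) v) hc
    have k1 := congrArg (gB (G4 δ) w) hc
    have k2 := congrArg (gB (G4 δ) e₁) hc
    have k3 := congrArg (gB (G4 δ) e₂) hc
    simp [vw, vv, ve₁, ve₂] at k0
    simp [hw, wv, we₁, we₂] at k1
    simp [e₁w, e₁v, e₁₂, n₁] at k2
    simp [e₂w, e₂v, e₂₁, n₂] at k3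
    intro l
    fin_cases l <;> assumption
  have hspan := li.span_eq_top_of_card_eq_finrank (by simp)
  refine ⟨⟨v, e₁, e₂, hw, wv, vv, we₁, we₂, ve₁, ve₂, e₁₂, n₁, n₂, fun x => ?_⟩⟩
  refine gB_ext hδ fun d => ?_
  have : (gB (G4 δ)).flip x = (gB (G4 δ)).flip (gB (G4 δ) v x • w + gB (G4 δ) w x • v +
      ((gB (G4 δ) e₁ e₁)⁻¹ * gB (G4 δ) e₁ x) • e₁ +
      ((gB (G4 δ) e₂ e₂)⁻¹ * gB (G4 δ) e₂ x) • e₂) := by
    refine LinearMap.ext_on_range hspan fun l => ?_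
    fin_cases l
    · simp [hw, wv, we₁, we₂]
    · simp [vw, vv, ve₁, ve₂]
    · simp [e₁w, e₁v, e₁₂]; field_simp
    · simp [e₂w, e₂v, e₂₁]; field_simp
  exact LinearMap.congr_fun this d

/-! ### Two sites -/

/-- The index with given entries at a site and at the other one. -/
def idx (i : Fin 2) (r q : Fin 4) : Fin 2 → Fin 4 := fun l => if l = i then r else q

/-- The pure vector with given vectors at a site and at the other one. -/
def pv (i : Fin 2) (a c : Fin 4 → F) : Vec F 2 := pureVec fun l => if l = i then a else c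

/-- Contraction at one site. -/
noncomputable def cmp (δ : F) (i : Fin 2) (u : Fin 4 → F) : Vec F 2 →ₗ[F] (Fin 4 → F) where
  toFun x q := ∑ r, (u ᵥ* G4 δ) r * x (idx i r q)
  map_add' x y := by ext q; simp [mul_add, Finset.sum_add_distrib]
  map_smul' s x := by ext q; simp [Finset.mul_sum, mul_left_comm]

lemma pv_idx (i : Fin 2) (a c : Fin 4 → F) (r q : Fin 4) :
    pv i a c (idx i r q) = a r * c q := by
  fin_cases i <;> simp [pv, idx, pureVec, Fin.prod_univ_two] <;> ring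

lemma idx_eta (i : Fin 2) (z : Fin 2 → Fin 4) : idx i (z i) (z (1 - i)) = z := by
  funext l
  fin_cases i <;> fin_cases l <;> simp [idx]

lemma vec_ext (i : Fin 2) {x y : Vec F 2} (h : ∀ r q, x (idx i r q) = y (idx i r q)) : x = y := by
  funext z
  rw [← idx_eta i z]
  exact h _ _

lemma sum_idx {R : Type*} [AddCommMonoid R] (i : Fin 2) (f : (Fin 2 → Fin 4) → R) :
    ∑ z, f z = ∑ r, ∑ q, f (idx i r q) := by
  rw [← Fintype.sum_prod_type']
  refine (Equiv.sum_comp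
    ({ toFun := fun rq => idx i rq.1 rq.2
       invFun := fun z => (z i, z (1 - i))
       left_inv := fun rq => by fin_cases i <;> simp [idx]
       right_inv := idx_eta i } : Fin 4 × Fin 4 ≃ (Fin 2 → Fin 4)) f).symm

lemma pv_add_left (i : Fin 2) (a a' c : Fin 4 → F) : pv i (a + a') c = pv i a c + pv i a' c :=
  vec_ext i fun r q => by simp [pv_idx, add_mul]

lemma pv_sub_left (i : Fin 2) (a a' c : Fin 4 → F) : pv i (a - a') c = pv i a c - pv i a' c :=
  vec_ext i fun r q => by simp [pv_idx, sub_mul]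

lemma pv_smul_left (i : Fin 2) (s : F) (a c : Fin 4 → F) : pv i (s • a) c = s • pv i a c :=
  vec_ext i fun r q => by simp [pv_idx, mul_assoc]

lemma pv_smul_right (i : Fin 2) (s : F) (a c : Fin 4 → F) : pv i a (s • c) = s • pv i a c :=
  vec_ext i fun r q => by simp [pv_idx, mul_left_comm]

lemma pv_add_right (i : Fin 2) (a c c' : Fin 4 → F) : pv i a (c + c') = pv i a c + pv i a c' :=
  vec_ext i fun r q => by simp [pv_idx, mul_add]

lemma pv_sub_right (i : Fin 2) (a c c' : Fin 4 → F) : pv i a (c - c') = pv i a c - pv i a c' :=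
  vec_ext i fun r q => by simp [pv_idx, mul_sub]

@[simp] lemma pv_zero_right (i : Fin 2) (a : Fin 4 → F) : pv i a 0 = 0 :=
  vec_ext i fun r q => by simp [pv_idx]

/-- Pure vectors as a linear function of the other site. -/
def pvL (i : Fin 2) (a : Fin 4 → F) : (Fin 4 → F) →ₗ[F] Vec F 2 where
  toFun := pv i a
  map_add' := pv_add_right i a
  map_smul' s c := pv_smul_right i s a c

lemma cmp_pv (i : Fin 2) (u a c : Fin 4 → F) :
    cmp δ i u (pv i a c) = gB (G4 δ) u a • c := by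
  ext q
  simp only [cmp, LinearMap.coe_mk, AddHom.coe_mk, pv_idx, Pi.smul_apply, smul_eq_mul,
    OrthWreathBig.gB_apply, fG, dotProduct, Finset.sum_mul]
  exact Finset.sum_congr rfl fun r _ => by ring

lemma cmp_add_left (i : Fin 2) (u u' : Fin 4 → F) (x : Vec F 2) :
    cmp δ i (u + u') x = cmp δ i u x + cmp δ i u' x := by
  ext q; simp [cmp, add_vecMul, add_mul, Finset.sum_add_distrib]

lemma cmp_smul_left (i : Fin 2) (s : F) (u : Fin 4 → F) (x : Vec F 2) :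
    cmp δ i (s • u) x = s • cmp δ i u x := by
  ext q; simp [cmp, smul_vecMul, Finset.mul_sum, mul_assoc]

lemma cmp_ext (hδ : ¬ IsSquare δ) (i : Fin 2) {x y : Vec F 2}
    (h : ∀ u, cmp δ i u x = cmp δ i u y) : x = y := by
  refine vec_ext i fun r q => ?_
  have := congrFun (h ((wt δ r)⁻¹ • Pi.single r 1)) q
  simp only [cmp, LinearMap.coe_mk, AddHom.coe_mk, G4, Matrix.vecMul_diagonal, Pi.smul_apply,
    Pi.single_apply, smul_eq_mul] at this
  simpa [mul_ite, ite_mul, wt_ne_zero hδ r] using this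

lemma site_mulVec_idx (i : Fin 2) (X : M4 F) (x : Vec F 2) (r q : Fin 4) :
    (site i X *ᵥ x) (idx i r q) = ∑ s, X r s * x (idx i s q) := by
  rw [Matrix.mulVec, dotProduct, sum_idx i]
  refine Finset.sum_congr rfl fun s _ => ?_
  rw [Finset.sum_eq_single q]
  · rw [site_apply_of_eq X (fun l hl => by simp [idx, hl])]
    simp [idx]
  · intro q' _ hq'
    rw [site_apply_of_ne (j := 1 - i) X (by fin_cases i <;> simp)
      (by fin_cases i <;> simp [idx, Ne.symm hq']), zero_mul]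
  · simp

lemma site_cr_mulVec (i : Fin 2) (a b : Fin 4 → F) (x : Vec F 2) :
    site i (cr (G4 δ) a b) *ᵥ x = pv i a (cmp δ i b x) :=
  vec_ext i fun r q => by
    rw [site_mulVec_idx, pv_idx]
    simp [cmp, OrthWreathBig.cr, Matrix.vecMulVec_apply, Finset.mul_sum, mul_assoc]

lemma site_self_pv (i : Fin 2) (A : M4 F) (a c : Fin 4 → F) :
    site i A *ᵥ pv i a c = pv i (A *ᵥ a) c := by
  rw [pv, pv, site_mulVec]
  congr 1
  funext l
  by_cases hl : l = i <;> simp [hl]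

lemma site_other_pv {i j : Fin 2} (hij : j ≠ i) (A : M4 F) (a c : Fin 4 → F) :
    site j A *ᵥ pv i a c = pv i a (A *ᵥ c) := by
  rw [pv, pv, site_mulVec]
  congr 1
  funext l
  by_cases hl : l = j
  · subst hl; simp [hij]
  · have : l = i := by omega
    subst this; simp [hl]

/-- The form of the two sites. -/
def bv (δ : F) (x y : Vec F 2) : F := x ⬝ᵥ gV (G4 δ) 2 *ᵥ y

lemma bv_pv (i : Fin 2) (a c : Fin 4 → F) (x : Vec F 2) :
    bv δ (pv i a c) x = gB (G4 δ) c (cmp δ i a x) := by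
  have e : ∀ r q, (∏ l, ((if l = i then a else c) ᵥ* G4 δ) (idx i r q l)) =
      (a ᵥ* G4 δ) r * (c ᵥ* G4 δ) q := fun r q => by
    fin_cases i <;> simp [idx, Fin.prod_univ_two] <;> ring
  rw [bv, dotProduct_mulVec, pv, gV, TensorPowSp.pureVec_vecMul, dotProduct, sum_idx i,
    Finset.sum_comm]
  simp only [OrthWreathBig.gB_apply, fG, dotProduct, cmp, LinearMap.coe_mk, AddHom.coe_mk,
    Finset.mul_sum, pureVec, e]
  exact Finset.sum_congr rfl fun q _ => Finset.sum_congr rfl fun r _ => by ring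

lemma bv_iso {g : MV F 2} (hg : IsoV δ g) (x y : Vec F 2) :
    bv δ (g *ᵥ x) (g *ᵥ y) = bv δ x y := by
  rw [bv, bv, mulVec_mulVec, ← vecMul_transpose, ← dotProduct_mulVec, mulVec_mulVec, ← mul_assoc,
    hg]

lemma iso_fix {g : MV F 2} (hg : IsoV δ g) {i : Fin 2} {w c d : Fin 4 → F}
    (h : g *ᵥ pv i w c = pv i w d) (x : Vec F 2) :
    gB (G4 δ) d (cmp δ i w (g *ᵥ x)) = gB (G4 δ) c (cmp δ i w x) := by
  rw [← bv_pv, ← h, bv_iso hg, bv_pv]

lemma isoV_one : IsoV δ (1 : MV F 2) := by simp [IsoV]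

lemma isoV_mul {g g' : MV F 2} (hg : IsoV δ g) (hg' : IsoV δ g') : IsoV δ (g * g') := by
  show (g * g')ᵀ * gV (G4 δ) 2 * (g * g') = _
  rw [transpose_mul, show g'ᵀ * gᵀ * gV (G4 δ) 2 * (g * g') =
    g'ᵀ * (gᵀ * gV (G4 δ) 2 * g) * g' by simp [mul_assoc], hg, hg']

lemma isoV_inv {g : GV F 2} (hg : IsoV δ (g : MV F 2)) :
    IsoV δ ((g⁻¹ : GV F 2) : MV F 2) := by
  show _ * gV (G4 δ) 2 * _ = _
  conv_lhs => arg 1; arg 2; rw [← hg]
  rw [← mul_assoc, ← mul_assoc, ← transpose_mul, Units.mul_inv, transpose_one, one_mul, mul_assoc,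
    Units.mul_inv, mul_one]

lemma isoV_pow {g : GV F 2} (hg : IsoV δ (g : MV F 2)) :
    ∀ n : ℕ, IsoV δ ((g ^ n : GV F 2) : MV F 2)
  | 0 => by simpa using isoV_one
  | n + 1 => by rw [pow_succ, Units.val_mul]; exact isoV_mul (isoV_pow hg n) hg

lemma glPure_pair (cs : Fin 2 → GL (Fin 4) F) {i j : Fin 2} (hij : i ≠ j) :
    ((glPure cs : GV F 2) : MV F 2) = site i (cs i : M4 F) * site j (cs j : M4 F) := by
  show pureMat (fun l => (cs l : M4 F)) = _
  unfold site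
  rw [pureMat_mul]
  congr 1
  funext l
  by_cases hl : l = i
  · subst hl; simp [hij]
  · have : l = j := by omega
    subst this; simp [hl]

lemma glPure_mem (cs : Fin 2 → GL (Fin 4) F) : glPure cs ∈ Wr F 2 :=
  Subgroup.subset_closure (Or.inl ⟨cs, fun x y => rfl⟩)

/-- An element acting at two different sites, with membership in the monomial group. -/
lemma exists_pair (i j : Fin 2) (hij : i ≠ j) {A B : M4 F} (hA : A.det ≠ 0) (hB : B.det ≠ 0) :
    ∃ g : GV F 2, g ∈ Wr F 2 ∧ (g : MV F 2) = site i A * site j B := by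
  refine ⟨glPure fun l => if l = i then Matrix.GeneralLinearGroup.mkOfDetNeZero A hA
    else Matrix.GeneralLinearGroup.mkOfDetNeZero B hB, glPure_mem _, ?_⟩
  rw [glPure_pair _ hij, if_pos rfl, if_neg hij.symm]
  rfl

lemma isoV_pair {i j : Fin 2} (hij : i ≠ j) {A B : M4 F} {ν : F} (hν : ν ≠ 0)
    (hA : Aᵀ * G4 δ * A = ν⁻¹ • G4 δ) (hB : Bᵀ * G4 δ * B = ν • G4 δ) :
    IsoV δ (site i A * site j B) := by
  have e : site i A * site j B = pureMat fun l => if l = i then A else B := by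
    rw [site, site, pureMat_mul]
    congr 1
    funext l
    by_cases hl : l = i
    · subst hl; simp [hij]
    · have : l = j := by omega
      subst this; simp [hl]
  show _ * gV (G4 δ) 2 * _ = _
  rw [e, gV, pureMat_transpose, pureMat_mul, pureMat_mul,
    show (fun l => (if l = i then A else B)ᵀ * G4 δ * (if l = i then A else B)) =
      fun l : Fin 2 => (if l = i then ν⁻¹ else ν) • G4 δ from funext fun l => by
        by_cases hl : l = i <;> simp [hl, hA, hB],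
    pureMat_smul]
  have : (∏ l : Fin 2, if l = i then ν⁻¹ else ν) = 1 := by
    fin_cases i <;> simp [Fin.prod_univ_two, hν]
  rw [this, one_smul]

/-! ### Root elements of one site -/

lemma sieM_mulVec' (u y a : Fin 4 → F) :
    sieM (G4 δ) u y *ᵥ a = gB (G4 δ) u a • y - gB (G4 δ) y a • u -
      (gB (G4 δ) y y / 2 * gB (G4 δ) u a) • u := by
  rw [OrthWreathBig.sieM_mulVec, OrthTensor.sie_apply]

lemma sieM_sq {u y : Fin 4 → F} (hu : gB (G4 δ) u u = 0) (hy : gB (G4 δ) u y = 0) :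
    sieM (G4 δ) u y * sieM (G4 δ) u y = (-gB (G4 δ) y y) • cr (G4 δ) u u := by
  have hy' : gB (G4 δ) y u = 0 := by rw [gB_symm, hy]
  simp only [sieM, mul_sub, sub_mul, smul_mul_assoc, mul_smul_comm, OrthWreathBig.cr_mul, hu, hy,
    hy', zero_smul, smul_zero]
  module

lemma sieM_mul' (h2 : (2 : F) ≠ 0) {u y y' : Fin 4 → F} (hu : gB (G4 δ) u u = 0)
    (hy : gB (G4 δ) u y = 0) (hy' : gB (G4 δ) u y' = 0) :
    (1 + sieM (G4 δ) u y) * (1 + sieM (G4 δ) u y') = 1 + sieM (G4 δ) u (y + y') := by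
  simp only [sieM, mul_add, add_mul, mul_sub, sub_mul, mul_one, one_mul, smul_mul_assoc,
    mul_smul_comm, OrthWreathBig.cr_mul, hu, hy, hy', gB_symm δ y u, zero_smul, smul_zero,
    OrthWreathBig.cr_add_left, OrthWreathBig.cr_add_right, map_add, LinearMap.add_apply,
    gB_symm δ y' y]
  match_scalars <;> field_simp <;> ring

lemma iso_sie (h2 : (2 : F) ≠ 0) {u y : Fin 4 → F} (hu : gB (G4 δ) u u = 0)
    (hy : gB (G4 δ) u y = 0) : IsoW δ (1 + sieM (G4 δ) u y) := by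
  have hy' : gB (G4 δ) y u = 0 := by rw [gB_symm, hy]
  have h : (1 + sieM (G4 δ) u y)ᵀ * G4 δ * (1 + sieM (G4 δ) u y) = (1 : F) • G4 δ :=
    sim_iff.2 fun a b => by
      simp only [add_mulVec, one_mulVec, sieM_mulVec', map_add, map_sub, map_smul,
        LinearMap.add_apply, LinearMap.sub_apply, LinearMap.smul_apply, smul_eq_mul, hu, hy, hy',
        gB_symm δ a u, gB_symm δ a y]
      field_simp
      ring
  rwa [one_smul] at h

/-! ### Layers over a slot -/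

/-- The vectors with a given vector at one site form an invariant subspace. -/
def Fx (i : Fin 2) (w : Fin 4 → F) (g : MV F 2) : Prop := ∀ c, ∃ d, g *ᵥ pv i w c = pv i w d

/-- Trivial action on a slot and on the layer above it. -/
def Lay (δ : F) (i : Fin 2) (w : Fin 4 → F) (k : MV F 2) : Prop :=
  (∀ c, k *ᵥ pv i w c = pv i w c) ∧
    ∀ x, cmp δ i w x = 0 → ∃ d, k *ᵥ x = x + pv i w d

lemma fx_of_fixesSlot {i : Fin 2} {w v : Fin 4 → F} (hwv : gB (G4 δ) w v = 1) {g : MV F 2}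
    (h : FixesSlot δ i w g) : Fx i w g := fun c => by
  obtain ⟨Y, hY⟩ := h
  refine ⟨cmp δ i w (Y *ᵥ pv i v c), ?_⟩
  have e : pv i w c = site i (cr (G4 δ) w w) *ᵥ pv i v c := by
    rw [site_cr_mulVec, cmp_pv, hwv, one_smul]
  rw [e, mulVec_mulVec, hY, ← mulVec_mulVec, site_cr_mulVec]

lemma pv_inj {i : Fin 2} {w v : Fin 4 → F} (hvw : gB (G4 δ) v w = 1) {c d : Fin 4 → F}
    (h : pv i w c = pv i w d) : c = d := by
  have := congrArg (cmp δ i v) h
  rwa [cmp_pv, cmp_pv, hvw, one_smul, one_smul] at this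

lemma inv_mulVec {g : GV F 2} {x y : Vec F 2} (h : (g : MV F 2) *ᵥ x = y) :
    ((g⁻¹ : GV F 2) : MV F 2) *ᵥ y = x := by
  rw [← h, mulVec_mulVec, Units.inv_mul, one_mulVec]

lemma fx_inv [Finite F] {i : Fin 2} {w v : Fin 4 → F} (hvw : gB (G4 δ) v w = 1) {g : GV F 2}
    (h : Fx i w (g : MV F 2)) : Fx i w ((g⁻¹ : GV F 2) : MV F 2) := by
  choose ρ hρ using h
  have hinj : Function.Injective ρ := fun c c' e => pv_inj hvw <| by
    rw [← inv_mulVec (hρ c), e, inv_mulVec (hρ c')]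
  intro d
  obtain ⟨c, rfl⟩ := (Finite.injective_iff_surjective.1 hinj) d
  exact ⟨c, inv_mulVec (hρ c)⟩

/-- The members of a group fixing a slot. -/
def St (M : Subgroup (GV F 2)) (i : Fin 2) (w : Fin 4 → F) : Subgroup (GV F 2) where
  carrier := {g | g ∈ M ∧ Fx i w (g : MV F 2) ∧ Fx i w ((g⁻¹ : GV F 2) : MV F 2)}
  one_mem' := ⟨one_mem M, fun c => ⟨c, by simp⟩, fun c => ⟨c, by simp⟩⟩
  mul_mem' := fun {a b} ha hb => by
    refine ⟨mul_mem ha.1 hb.1, fun c => ?_, fun c => ?_⟩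
    · obtain ⟨d, hd⟩ := hb.2.1 c
      obtain ⟨e, he⟩ := ha.2.1 d
      exact ⟨e, by rw [Units.val_mul, ← mulVec_mulVec, hd, he]⟩
    · obtain ⟨d, hd⟩ := ha.2.2 c
      obtain ⟨e, he⟩ := hb.2.2 d
      exact ⟨e, by rw [_root_.mul_inv_rev, Units.val_mul, ← mulVec_mulVec, hd, he]⟩
  inv_mem' := fun {a} ha => ⟨inv_mem ha.1, ha.2.2, by rw [inv_inv]; exact ha.2.1⟩

/-- The members of a group trivial on the layers of a slot. -/
def LayGp (δ : F) (M : Subgroup (GV F 2)) (i : Fin 2) (w : Fin 4 → F) : Subgroup (GV F 2) where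
  carrier := {g | g ∈ M ∧ Lay δ i w (g : MV F 2)}
  one_mem' := ⟨one_mem M, fun c => by simp, fun x _ => ⟨0, by simp⟩⟩
  mul_mem' := fun {a b} ha hb => by
    refine ⟨mul_mem ha.1 hb.1, fun c => ?_, fun x hx => ?_⟩
    · rw [Units.val_mul, ← mulVec_mulVec, hb.2.1, ha.2.1]
    · obtain ⟨d, hd⟩ := hb.2.2 x hx
      obtain ⟨e, he⟩ := ha.2.2 x hx
      exact ⟨e + d, by
        rw [Units.val_mul, ← mulVec_mulVec, hd, mulVec_add, he, ha.2.1, pv_add_right, add_assoc]⟩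
  inv_mem' := fun {a} ha => by
    refine ⟨inv_mem ha.1, fun c => inv_mulVec (ha.2.1 c), fun x hx => ?_⟩
    obtain ⟨d, hd⟩ := ha.2.2 x hx
    refine ⟨-d, inv_mulVec ?_⟩
    rw [mulVec_add, hd, ha.2.1, add_assoc, ← pv_add_right, add_neg_cancel, pv_zero_right, add_zero]

lemma layGp_le_st (M : Subgroup (GV F 2)) (i : Fin 2) (w : Fin 4 → F) :
    LayGp δ M i w ≤ St M i w :=
  fun _ hg => ⟨hg.1, fun c => ⟨c, hg.2.1 c⟩, fun c => ⟨c, inv_mulVec (hg.2.1 c)⟩⟩

lemma lay_pow {p : ℕ} [Fact p.Prime] [CharP F p] (hδ : ¬ IsSquare δ) (h2 : (2 : F) ≠ 0)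
    {i : Fin 2} {w : Fin 4 → F} {k : GV F 2} (hk : IsoV δ (k : MV F 2))
    (hl : Lay δ i w (k : MV F 2)) : k ^ p = 1 := by
  set D := (k : MV F 2) - 1 with hD
  have hD3 : D * (D * D) = 0 := by
    refine Matrix.ext_of_mulVec_single fun z => ?_
    rw [← mulVec_mulVec, ← mulVec_mulVec, zero_mulVec]
    set x : Vec F 2 := Pi.single z 1
    have hy : cmp δ i w (D *ᵥ x) = 0 := gB_ext hδ fun c => by
      rw [hD, sub_mulVec, one_mulVec, map_sub, map_sub, map_zero, sub_eq_zero]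
      exact iso_fix hk (hl.1 c) x
    obtain ⟨d, hd⟩ := hl.2 _ hy
    have hd' : D *ᵥ (D *ᵥ x) = pv i w d := by
      nth_rewrite 1 [hD]
      rw [sub_mulVec, one_mulVec, hd, add_sub_cancel_left]
    rw [hd', hD, sub_mulVec, one_mulVec, hl.1, sub_self]
  have hp3 : 3 ≤ p := by
    have := (Fact.out : p.Prime).two_le
    rcases eq_or_ne p 2 with rfl | hp
    · exact absurd (CharP.cast_eq_zero F 2) h2
    · omega
  haveI : CharP (MV F 2) p := Matrix.charP p
  refine Units.ext ?_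
  rw [Units.val_pow_eq_pow_val, show (k : MV F 2) = 1 + D by rw [hD]; abel,
    add_pow_char_of_commute p (Commute.one_left D), one_pow, ← Nat.add_sub_cancel' hp3, pow_add,
    pow_succ', pow_two, hD3, zero_mul, add_zero]
  rfl

/-! ### A bound for sections of a group -/

lemma exists_pgroup_card {G H : Type*} [Group G] [Finite G] [Group H] {p : ℕ} [Fact p.Prime]
    (f : G →* H) {R : Subgroup G} (hR : IsPGroup p R) (hRk : R ≤ f.ker) {P : Subgroup H}
    (hP : IsPGroup p P) (hPr : P ≤ f.range) :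
    ∃ T : Subgroup G, IsPGroup p T ∧ Nat.card R * Nat.card P ≤ Nat.card T := by
  set φ := f.subgroupComap P
  have hφ : Function.Surjective φ := fun y => by
    obtain ⟨x, hx⟩ := hPr y.2
    exact ⟨⟨x, by show f x ∈ P; rw [hx]; exact y.2⟩, Subtype.ext hx⟩
  have hRP : R ≤ P.comap f := fun x hx => by
    show f x ∈ P; rw [MonoidHom.mem_ker.1 (hRk hx)]; exact one_mem P
  obtain ⟨Q, hQ⟩ := (hR.comap_of_injective (P.comap f).subtype Subtype.val_injective).exists_le_sylow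
  have htop : (Q : Subgroup (P.comap f)).map φ = ⊤ := by
    have := (Q.mapSurjective hφ).is_maximal' (hP.to_subgroup ⊤) le_top
    rw [Sylow.coe_mapSurjective] at this
    exact this.symm
  refine ⟨(Q : Subgroup (P.comap f)).map (P.comap f).subtype, Q.2.map _, ?_⟩
  rw [Subgroup.card_map_of_injective Subtype.val_injective]
  set ψ := φ.comp (Q : Subgroup (P.comap f)).subtype
  have hr : ψ.range = ⊤ := by rw [MonoidHom.range_comp, Subgroup.range_subtype, htop]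
  rw [← ψ.ker.card_mul_index, Subgroup.index_ker, hr, Subgroup.card_top]
  refine Nat.mul_le_mul_right _ (Nat.card_le_card_of_injective (fun x : R =>
    (⟨⟨⟨x.1, hRP x.2⟩, hQ x.2⟩, Subtype.ext (MonoidHom.mem_ker.1 (hRk x.2))⟩ : ψ.ker)) ?_)
  intro x y e
  exact Subtype.ext (congrArg (fun z : ψ.ker => (((z : _) : P.comap f) : G)) e)

/-! ### The action on a slot -/

section Slot

variable {M : Subgroup (GV F 2)} {i : Fin 2} {w : Fin 4 → F} (fr : Frame δ w)

/-- The matrix of the action on a slot. -/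
noncomputable def rmat (i : Fin 2) (g : MV F 2) : M4 F :=
  LinearMap.toMatrix' ((cmp δ i fr.v).comp (g.mulVecLin.comp (pvL i w)))

lemma rmat_mulVec (g : MV F 2) (c : Fin 4 → F) :
    rmat fr i g *ᵥ c = cmp δ i fr.v (g *ᵥ pv i w c) := by
  rw [rmat, ← Matrix.toLin'_apply, Matrix.toLin'_toMatrix']
  rfl

lemma rmat_spec {g : MV F 2} (hg : Fx i w g) (c : Fin 4 → F) :
    g *ᵥ pv i w c = pv i w (rmat fr i g *ᵥ c) := by
  obtain ⟨d, hd⟩ := hg c
  rw [rmat_mulVec, hd, cmp_pv, fr.vw, one_smul]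

/-- The action on a slot as a homomorphism. -/
noncomputable def rho : St M i w →* GL (Fin 4) F :=
  MonoidHom.toHomUnits
    { toFun := fun g => rmat fr i ((g : GV F 2) : MV F 2)
      map_one' := Matrix.ext_of_mulVec_single fun z => by
        rw [rmat_mulVec, Subgroup.coe_one, Units.val_one, one_mulVec, cmp_pv, fr.vw, one_smul,
          one_mulVec]
      map_mul' := fun g g' => Matrix.ext_of_mulVec_single fun z => by
        rw [rmat_mulVec, Subgroup.coe_mul, Units.val_mul, ← mulVec_mulVec, rmat_spec fr g'.2.2.1,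
          rmat_spec fr g.2.2.1, cmp_pv, fr.vw, one_smul, ← mulVec_mulVec] }

lemma rho_spec (g : St M i w) (c : Fin 4 → F) :
    ((g : GV F 2) : MV F 2) *ᵥ pv i w c = pv i w ((rho fr g : M4 F) *ᵥ c) :=
  rmat_spec fr g.2.2.1 c

lemma rho_eq {g : St M i w} {B : M4 F}
    (h : ∀ c, ((g : GV F 2) : MV F 2) *ᵥ pv i w c = pv i w (B *ᵥ c)) : (rho fr g : M4 F) = B :=
  Matrix.ext_of_mulVec_single fun _ => pv_inj fr.vw ((rho_spec fr g _).symm.trans (h _))

/-- The vectors of the plane of a frame. -/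
def plane : F × F →ₗ[F] (Fin 4 → F) :=
  LinearMap.coprod (LinearMap.toSpanSingleton F _ fr.e₁) (LinearMap.toSpanSingleton F _ fr.e₂)

lemma plane_apply (s : F × F) : plane fr s = s.1 • fr.e₁ + s.2 • fr.e₂ := rfl

lemma w_plane (s : F × F) : gB (G4 δ) w (plane fr s) = 0 := by
  simp [plane_apply, fr.we₁, fr.we₂]

lemma v_plane (s : F × F) : gB (G4 δ) fr.v (plane fr s) = 0 := by
  simp [plane_apply, fr.ve₁, fr.ve₂]

lemma plane_v (s : F × F) : gB (G4 δ) (plane fr s) fr.v = 0 := by rw [gB_symm, v_plane]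

lemma plane_w (s : F × F) : gB (G4 δ) (plane fr s) w = 0 := by rw [gB_symm, w_plane]

/-- The root group of a frame. -/
noncomputable def root (h2 : (2 : F) ≠ 0) : Multiplicative (F × F) →* GL (Fin 4) F :=
  MonoidHom.toHomUnits
    { toFun := fun s => 1 + sieM (G4 δ) w (plane fr (Multiplicative.toAdd s))
      map_one' := by simp [sieM]
      map_mul' := fun s r => by
        rw [toAdd_mul, map_add, sieM_mul' h2 fr.ww (w_plane fr _) (w_plane fr _)] }

lemma root_val (h2 : (2 : F) ≠ 0) (s : Multiplicative (F × F)) :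
    (root fr h2 s : M4 F) = 1 + sieM (G4 δ) w (plane fr (Multiplicative.toAdd s)) := rfl

lemma root_v (h2 : (2 : F) ≠ 0) (s : Multiplicative (F × F)) :
    (root fr h2 s : M4 F) *ᵥ fr.v = fr.v + plane fr (Multiplicative.toAdd s) -
      (gB (G4 δ) (plane fr (Multiplicative.toAdd s)) (plane fr (Multiplicative.toAdd s)) / 2) • w := by
  rw [root_val, add_mulVec, one_mulVec, sieM_mulVec', fr.wv, plane_v]
  simp [add_sub_assoc]

lemma root_w (h2 : (2 : F) ≠ 0) (s : Multiplicative (F × F)) :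
    (root fr h2 s : M4 F) *ᵥ w = w := by
  rw [root_val, add_mulVec, one_mulVec, sieM_mulVec', fr.ww, plane_w]
  simp

lemma root_iso (h2 : (2 : F) ≠ 0) (s : Multiplicative (F × F)) :
    IsoW δ (root fr h2 s : M4 F) := iso_sie h2 fr.ww (w_plane fr _)

lemma root_det (hδ : ¬ IsSquare δ) (h2 : (2 : F) ≠ 0) (s : Multiplicative (F × F)) :
    (root fr h2 s : M4 F).det = 1 := by
  set r := Multiplicative.ofAdd ((2 : F)⁻¹ • Multiplicative.toAdd s)
  have hs : s = r * r := by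
    apply Multiplicative.toAdd.injective
    rw [toAdd_mul, toAdd_ofAdd, ← add_smul, ← two_mul, mul_inv_cancel₀ h2, one_smul]
  rw [hs, map_mul, Units.val_mul, Matrix.det_mul, det_sq_of_iso hδ (root_iso fr h2 r)]

lemma root_injective (h2 : (2 : F) ≠ 0) : Function.Injective (root fr h2) := by
  intro s r e
  have e' := congrArg (fun A : GL (Fin 4) F => (A : M4 F) *ᵥ fr.v) e
  simp only [root_v] at e'
  have k1 := congrArg (gB (G4 δ) fr.e₁) e'
  have k2 := congrArg (gB (G4 δ) fr.e₂) e'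
  simp [plane_apply, fr.e₁v, fr.e₁w, fr.e₁₂, fr.n₁] at k1
  simp [plane_apply, fr.e₂v, fr.e₂w, fr.e₂₁, fr.n₂] at k2
  exact Multiplicative.toAdd.injective (Prod.ext k1 k2)

/-- The root group of a frame at one site. -/
noncomputable def uHom (i : Fin 2) (h2 : (2 : F) ≠ 0) : Multiplicative (F × F) →* GV F 2 :=
  (Units.map (siteHom (F := F) (k := 4) i).toMonoidHom).comp (root fr h2)

lemma uHom_val (i : Fin 2) (h2 : (2 : F) ≠ 0) (s : Multiplicative (F × F)) :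
    (uHom fr i h2 s : MV F 2) = site i (root fr h2 s : M4 F) := rfl

lemma uHom_wr (i : Fin 2) (h2 : (2 : F) ≠ 0) (s : Multiplicative (F × F)) :
    uHom fr i h2 s ∈ Wr F 2 := by
  convert glPure_mem (Function.update (1 : Fin 2 → GL (Fin 4) F) i (root fr h2 s)) using 1
  refine Units.ext ?_
  rw [glPure_pair _ (show i ≠ 1 - i by fin_cases i <;> simp), uHom_val,
    Function.update_self, Function.update_of_ne (by fin_cases i <;> simp), Pi.one_apply,
    Units.val_one, site_one, mul_one]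

lemma uHom_injective (i : Fin 2) (h2 : (2 : F) ≠ 0) : Function.Injective (uHom fr i h2) :=
  fun _ _ e => root_injective fr h2 (Units.ext (TensorPowSp.site_injective i
    (congrArg (fun u : GV F 2 => (u : MV F 2)) e)))

lemma uHom_lay (i : Fin 2) (h2 : (2 : F) ≠ 0) (s : Multiplicative (F × F)) :
    Lay δ i w (uHom fr i h2 s : MV F 2) := by
  refine ⟨fun c => by rw [uHom_val, site_self_pv, root_w], fun x hx => ?_⟩
  refine ⟨-cmp δ i (plane fr (Multiplicative.toAdd s)) x, ?_⟩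
  rw [uHom_val, root_val, site_add, site_one, add_mulVec, one_mulVec, sieM,
    OrthWreathBig.site_sub, OrthWreathBig.site_sub, site_smul, sub_mulVec, sub_mulVec, smul_mulVec,
    site_cr_mulVec, site_cr_mulVec, site_cr_mulVec, hx, pv_zero_right, pv_zero_right, smul_zero,
    sub_zero, zero_sub, ← pvL_neg]
where
  pvL_neg {d : Fin 4 → F} : pv i w (-d) = -pv i w d := map_neg (pvL i w) d

end Slot

end Cfsg.Agent.MaxSub.OrthFour.Stab

namespace Cfsg.Agent.MaxSub.OrthFour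

open Matrix Cfsg.Geo Cfsg.Agent.NotMax Cfsg.Agent.GeoClasses Stab
open Cfsg.Agent.MaxSub.OrthWreathBig (gB cr sieM)
open scoped MatrixGroups Matrix

variable {F : Type*} [Field F] [Fintype F] {δ : F} {p : ℕ} [Fact p.Prime] [CharP F p]
  {M : Subgroup (GV F 2)}

/-- A pair of isometries of equal determinant at two sites is in the group. -/
lemma Stab.pair_mem (h : Over δ M)
    {g : GV F 2} (hg : g ∈ Wr F 2) {i j : Fin 2} (hij : i ≠ j) {A B : M4 F} (hA : IsoW δ A)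
    (hB : IsoW δ B) (hd : A.det = B.det) (he : (g : MV F 2) = site i A * site j B) : g ∈ M := by
  refine h.mem hg ?_
  fin_cases i <;> fin_cases j
  · exact absurd rfl hij
  · exact (pair_mem_Om_iff h.two h.nsq hA hB he).2 hd
  · exact (pair_mem_Om_iff h.two h.nsq hB hA (by rw [he]; exact site_comm hij A B)).2 hd.symm
  · exact absurd rfl hij

/-- The transposition of the sites times a site reflection is in `Ω`. -/
lemma Stab.exists_swap_mem (h2 : (2 : F) ≠ 0) (hδ : ¬ IsSquare δ) :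
    ∃ g : GV F 2, g ∈ Om δ 2 ∧ ∃ (a : Fin 2) (R : M4 F), IsoW δ R ∧
      (g : MV F 2) = site a R * factorPerm 4 (Equiv.swap 0 1) := by
  have hr : gB (G4 δ) (Pi.single 1 1) (Pi.single 1 1) ≠ 0 := by simp [gB_diag]
  obtain ⟨r, -, hre⟩ := exists_pair (0 : Fin 2) 1 (by decide)
    (det_ne_zero_of_iso hδ (Stab.iso_reflW hr)) (det_ne_zero_of_iso hδ (iso_one (δ := δ)))
  rw [site_one, mul_one] at hre
  refine ⟨r * glFactorPerm 4 (Equiv.swap 0 1), ?_, 0, reflW δ (Pi.single 1 1), Stab.iso_reflW hr, ?_⟩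
  · have := (Ev.site_refl (t := 2) h2 hδ le_rfl 0 hr).mul (Ev.swap h2 hδ (by decide : (0 : Fin 2) ≠ 1))
    rw [eR_two] at this
    refine (Ev.mem_iff h2 hδ (e := 1 + 3 * 4 ^ (2 - 2)) ?_).2 (by decide)
    rw [Units.val_mul, hre]
    exact this
  · rw [Units.val_mul, hre]; rfl

/-- The stabiliser of a slot is monomial. -/
theorem stab_le_two (h : Over δ M)
    (hb : ∀ P : Subgroup (GV F 2), P ≤ M → IsPGroup p ↥P →
      Nat.card ↥P ≤ Nat.card F ^ 4 ∧ ∀ a ∈ P, ∀ b ∈ P, a * b = b * a) :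
    ∀ g ∈ M, ∀ i w, w ≠ 0 → gB (G4 δ) w w = 0 → FixesSlot δ i w (g : MV F 2) →
      g ∈ Wr F 2 := by
  intro g₀ hg₀ i w hw0 hww hfix
  have hδ := h.nsq
  have h2 := h.two
  obtain ⟨fr⟩ := exists_frame hδ h2 hw0 hww
  obtain ⟨j, hij⟩ := exists_ne i
  have hij' := hij.symm
  have hgfx := fx_of_fixesSlot fr.wv hfix
  let g : St M i w := ⟨g₀, hg₀, hgfx, fx_inv fr.vw hgfx⟩
  set R : Subgroup (GV F 2) := LayGp δ M i w with hRdef
  -- the root group lies in the layer group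
  have huM : ∀ s, uHom fr i h2 s ∈ M := fun s =>
    Stab.pair_mem h (uHom_wr fr i h2 s) hij' (root_iso fr h2 s) iso_one
      (by rw [root_det fr hδ, det_one]) (by rw [uHom_val, site_one, mul_one])
  have huR : ∀ s, uHom fr i h2 s ∈ R := fun s => ⟨huM s, uHom_lay fr i h2 s⟩
  -- isometries lift
  have hlift : ∀ A : GL (Fin 4) F, IsoW δ (A : M4 F) → A ∈ (rho (M := M) (i := i) fr).range := by
    intro A hA
    obtain ⟨A', hA', hA'w, hA'd⟩ : ∃ A' : M4 F, IsoW δ A' ∧ A' *ᵥ w = w ∧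
        A'.det = (A : M4 F).det := by
      rcases mul_self_eq_one_iff.1 (det_sq_of_iso hδ hA) with e | e
      · exact ⟨1, iso_one, one_mulVec w, by rw [det_one, e]⟩
      · refine ⟨reflW δ fr.e₁, iso_reflW fr.n₁, ?_, by rw [det_reflW fr.n₁, e]⟩
        rw [Stab.reflW_mulVec, fr.e₁w, mul_zero, zero_smul, sub_zero]
    obtain ⟨u, huw, hue⟩ := exists_pair i j hij' (det_ne_zero_of_iso hδ hA')
      (det_ne_zero_of_iso hδ hA)
    have huc : ∀ c, (u : MV F 2) *ᵥ pv i w c = pv i w ((A : M4 F) *ᵥ c) := fun c => by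
      rw [hue, ← mulVec_mulVec, site_other_pv hij, site_self_pv, hA'w]
    have hufx : Fx i w (u : MV F 2) := fun c => ⟨_, huc c⟩
    exact ⟨⟨u, Stab.pair_mem h huw hij' hA' hA hA'd hue, hufx, fx_inv fr.vw hufx⟩,
      Units.ext (rho_eq fr huc)⟩
  -- the bound
  have hRpow : ∀ k ∈ R, k ^ p = 1 := fun k hk => lay_pow hδ h2 (h.isoV hk.1) hk.2
  have hRp : IsPGroup p (R.subgroupOf (St M i w)) := fun k => ⟨1, by
    rw [pow_one]; exact Subtype.ext (Subtype.ext (by simpa using hRpow _ k.2))⟩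
  have hRker : R.subgroupOf (St M i w) ≤ (rho fr).ker := fun k hk => Units.ext <|
    rho_eq fr fun c => by rw [(Subgroup.mem_subgroupOf.1 hk).2.1, Units.val_one, one_mulVec]
  have hRcard : Nat.card ↥(R.subgroupOf (St M i w)) = Nat.card ↥R :=
    Nat.card_congr (Subgroup.subgroupOfEquivOfLe (layGp_le_st M i w)).toEquiv
  have hbound : ∀ P ≤ (rho (M := M) (i := i) fr).range, IsPGroup p ↥P →
      Nat.card ↥R * Nat.card ↥P ≤ Nat.card F ^ 4 := by
    intro P hP hPp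
    obtain ⟨T, hT, hTc⟩ := exists_pgroup_card (rho fr) hRp hRker hPp hP
    rw [hRcard] at hTc
    refine hTc.trans ?_
    rw [← Subgroup.card_map_of_injective (K := T) (f := (St M i w).subtype) (Subgroup.subtype_injective _)]
    exact (hb _ (fun x hx => by obtain ⟨y, -, rfl⟩ := hx; exact y.2.1) (hT.map _)).1
  have hEcard : Nat.card (Multiplicative (F × F)) = Nat.card F ^ 2 := by
    show Nat.card (F × F) = _
    rw [Nat.card_prod, pow_two]
  have hRge : Nat.card F ^ 2 ≤ Nat.card ↥R := by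
    rw [← hEcard]
    exact Nat.card_le_card_of_injective (fun s => (⟨uHom fr i h2 s, huR s⟩ : R))
      fun a b e => uHom_injective fr i h2 (congrArg Subtype.val e)
  have hEp : IsPGroup p ↥(root fr h2).range := by
    rintro ⟨_, s, rfl⟩
    refine ⟨1, Subtype.ext ?_⟩
    rw [pow_one, SubgroupClass.coe_pow, ← map_pow, OneMemClass.coe_one]
    rw [show s ^ p = 1 from Multiplicative.toAdd.injective (by
      rw [toAdd_pow, toAdd_one, ← Nat.cast_smul_eq_nsmul F, CharP.cast_eq_zero, zero_smul]),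
      map_one]
  have hqpos : 0 < Nat.card F ^ 2 := pow_pos Nat.card_pos _
  have hRle : Nat.card ↥R ≤ Nat.card F ^ 2 := by
    have := hbound (root fr h2).range
      (fun A hA => by obtain ⟨s, rfl⟩ := hA; exact hlift _ (root_iso fr h2 s)) hEp
    rw [Nat.card_congr (MonoidHom.ofInjective (root_injective fr h2)).toEquiv.symm, hEcard,
      show Nat.card F ^ 4 = Nat.card F ^ 2 * Nat.card F ^ 2 by ring] at this
    exact Nat.le_of_mul_le_mul_right this hqpos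
  have hRu : ∀ k ∈ R, ∃ s, uHom fr i h2 s = k := by
    intro k hk
    have hbij := Function.Injective.bijective_of_nat_card_le
      (f := fun s => (⟨uHom fr i h2 s, huR s⟩ : R))
      (fun a b e => uHom_injective fr i h2 (congrArg Subtype.val e)) (hEcard ▸ hRle)
    obtain ⟨s, hs⟩ := hbij.2 ⟨k, hk⟩
    exact ⟨s, congrArg Subtype.val hs⟩
  obtain ⟨ν, hν, hB⟩ := simW_of_pgroup_bound h2 hδ (I := (rho (M := M) (i := i) fr).range) hlift (fun P hP hPp => by
    have := (Nat.mul_le_mul_right _ hRge).trans (hbound P hP hPp)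
    rw [show Nat.card F ^ 4 = Nat.card F ^ 2 * Nat.card F ^ 2 by ring] at this
    rw [← Nat.card_eq_fintype_card]
    exact Nat.le_of_mul_le_mul_left this hqpos) (rho fr g) ⟨g, rfl⟩
  set B : M4 F := (rho fr g : M4 F) with hBdef
  have hgc : ∀ c, (g₀ : MV F 2) *ᵥ pv i w c = pv i w (B *ᵥ c) := rho_spec fr g
  have hgI : IsoV δ (g₀ : MV F 2) := h.isoV hg₀
  have hBd : B.det ≠ 0 := det_ne_zero_of_sim hδ hν hB
  have hBs : ∀ d, ∃ c, B *ᵥ c = d := fun d =>
    ⟨B⁻¹ *ᵥ d, by rw [mulVec_mulVec, Matrix.mul_nonsing_inv _ (Ne.isUnit hBd), one_mulVec]⟩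
  -- the layers are preserved
  have hperp : ∀ x, cmp δ i w x = 0 → cmp δ i w ((g₀ : MV F 2) *ᵥ x) = 0 := fun x hx =>
    gB_ext hδ fun d => by
      obtain ⟨c, rfl⟩ := hBs d
      rw [iso_fix hgI (hgc c), hx, map_zero, map_zero]
  have hgv : ∀ c, cmp δ i w ((g₀ : MV F 2) *ᵥ pv i fr.v c) = ν⁻¹ • (B *ᵥ c) := fun c =>
    gB_ext hδ fun d => by
      obtain ⟨c', rfl⟩ := hBs d
      rw [iso_fix hgI (hgc c'), cmp_pv, fr.wv, one_smul, map_smul, sim_iff.1 hB, smul_eq_mul,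
        inv_mul_cancel_left₀ hν]
  have hnorm : ∀ k ∈ R, g₀ * k * g₀⁻¹ ∈ R := by
    intro k hk
    refine ⟨mul_mem (mul_mem hg₀ hk.1) (inv_mem hg₀), fun c => ?_, fun x hx => ?_⟩
    · obtain ⟨d, hd⟩ := (fx_inv fr.vw hgfx) c
      rw [Units.val_mul, Units.val_mul, ← mulVec_mulVec, hd, ← mulVec_mulVec, hk.2.1, ← hd,
        mulVec_mulVec, Units.mul_inv, one_mulVec]
    · set y := ((g₀⁻¹ : GV F 2) : MV F 2) *ᵥ x with hy
      have hxy : (g₀ : MV F 2) *ᵥ y = x := by rw [hy, mulVec_mulVec, Units.mul_inv, one_mulVec]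
      have hy0 : cmp δ i w y = 0 := gB_ext hδ fun c => by
        rw [← iso_fix hgI (hgc c) y, hxy, hx, map_zero, map_zero]
      obtain ⟨d, hd⟩ := hk.2.2 y hy0
      exact ⟨B *ᵥ d, by
        rw [Units.val_mul, Units.val_mul, ← mulVec_mulVec, ← hy, ← mulVec_mulVec, hd, mulVec_add,
          hxy, hgc]⟩
  -- images of the middle layer
  have hmid : ∀ s : F × F, ∃ f : F × F, ∀ c, ∃ d,
      (g₀ : MV F 2) *ᵥ pv i (plane fr s) c = pv i (plane fr f) (B *ᵥ c) + pv i w d := by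
    intro s
    obtain ⟨s', hs'⟩ := hRu _ (hnorm _ (huR (Multiplicative.ofAdd s)))
    refine ⟨ν⁻¹ • Multiplicative.toAdd s', fun c => ?_⟩
    set X := plane fr s
    set Y := plane fr (Multiplicative.toAdd s')
    set z := (g₀ : MV F 2) *ᵥ pv i fr.v c with hz
    have e := congrArg (fun u : GV F 2 => (u : MV F 2) *ᵥ z) hs'
    simp only [Units.val_mul, ← mulVec_mulVec] at e
    rw [show ((g₀⁻¹ : GV F 2) : MV F 2) *ᵥ z = pv i fr.v c from inv_mulVec rfl, uHom_val,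
      uHom_val, site_self_pv, root_v, toAdd_ofAdd, pv_sub_left, pv_add_left, pv_smul_left,
      mulVec_sub, mulVec_add, mulVec_smul, hgc, root_val, site_add, site_one, add_mulVec,
      one_mulVec, sieM, OrthWreathBig.site_sub, OrthWreathBig.site_sub, site_smul, sub_mulVec,
      sub_mulVec, smul_mulVec, site_cr_mulVec, site_cr_mulVec, site_cr_mulVec, hgv, ← hz] at e
    refine ⟨(gB (G4 δ) X X / 2) • (B *ᵥ c) - cmp δ i Y z - (gB (G4 δ) Y Y / 2) • (ν⁻¹ • (B *ᵥ c)),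
      ?_⟩
    rw [map_smul, pv_smul_left, pv_sub_right, pv_sub_right, pv_smul_right, pv_smul_right,
      pv_smul_right]
    simp only [pv_smul_right] at e
    linear_combination (norm := module) -e
  obtain ⟨s₁, hf₁⟩ := hmid (1, 0)
  obtain ⟨s₂, hf₂⟩ := hmid (0, 1)
  simp only [plane_apply fr (1, 0), plane_apply fr (0, 1), one_smul, zero_smul, add_zero,
    zero_add] at hf₁ hf₂
  set f₁ := plane fr s₁ with hf₁def
  set f₂ := plane fr s₂ with hf₂def
  have hgram : ∀ (e e' f f' : Fin 4 → F), gB (G4 δ) f w = 0 → gB (G4 δ) w f' = 0 →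
      (∀ c, ∃ d, (g₀ : MV F 2) *ᵥ pv i e c = pv i f (B *ᵥ c) + pv i w d) →
      (∀ c, ∃ d, (g₀ : MV F 2) *ᵥ pv i e' c = pv i f' (B *ᵥ c) + pv i w d) →
      gB (G4 δ) f f' = ν⁻¹ * gB (G4 δ) e e' := by
    intro e e' f f' hfw hwf he he'
    obtain ⟨d, hd⟩ := he w
    obtain ⟨d', hd'⟩ := he' fr.v
    have k := bv_iso hgI (pv i e w) (pv i e' fr.v)
    rw [bv_pv, cmp_pv, map_smul, fr.wv, smul_eq_mul, mul_one, hd, hd'] at k
    simp only [bv, mulVec_add, add_dotProduct, dotProduct_add] at k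
    simp only [← bv.eq_def, bv_pv, cmp_pv, map_smul, smul_eq_mul, hfw, hwf, fr.ww,
      sim_iff.1 hB, fr.wv, zero_mul, add_zero, mul_one] at k
    rw [← k]
    field_simp
  have g₁₁ := hgram _ _ f₁ f₁ (plane_w fr _) (w_plane fr _) hf₁ hf₁
  have g₂₂ := hgram _ _ f₂ f₂ (plane_w fr _) (w_plane fr _) hf₂ hf₂
  have g₁₂ := hgram _ _ f₁ f₂ (plane_w fr _) (w_plane fr _) hf₁ hf₂
  rw [fr.e₁₂, mul_zero] at g₁₂
  set A : M4 F := cr (G4 δ) w fr.v + ν⁻¹ • cr (G4 δ) fr.v w +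
    (gB (G4 δ) fr.e₁ fr.e₁)⁻¹ • cr (G4 δ) f₁ fr.e₁ +
    (gB (G4 δ) fr.e₂ fr.e₂)⁻¹ • cr (G4 δ) f₂ fr.e₂ with hAdef
  have hAv : ∀ a, A *ᵥ a = gB (G4 δ) fr.v a • w + (ν⁻¹ * gB (G4 δ) w a) • fr.v +
      ((gB (G4 δ) fr.e₁ fr.e₁)⁻¹ * gB (G4 δ) fr.e₁ a) • f₁ +
      ((gB (G4 δ) fr.e₂ fr.e₂)⁻¹ * gB (G4 δ) fr.e₂ a) • f₂ := fun a => by
    simp only [hAdef, add_mulVec, smul_mulVec, OrthWreathBig.cr_mulVec, smul_smul]
  have hAs : Aᵀ * G4 δ * A = ν⁻¹ • G4 δ := sim_iff.2 fun a b => by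
    rw [fr.gB_eq a b]
    have n₁ := fr.n₁
    have n₂ := fr.n₂
    simp only [hAv, map_add, map_smul, LinearMap.add_apply, LinearMap.smul_apply, smul_eq_mul,
      fr.ww, fr.wv, fr.vw, fr.vv, hf₁def ▸ w_plane fr s₁, hf₂def ▸ w_plane fr s₂,
      hf₁def ▸ plane_w fr s₁, hf₂def ▸ plane_w fr s₂, hf₁def ▸ v_plane fr s₁,
      hf₂def ▸ v_plane fr s₂, hf₁def ▸ plane_v fr s₁, hf₂def ▸ plane_v fr s₂, g₁₁, g₂₂, g₁₂,
      gB_symm δ f₂ f₁]
    field_simp
    ring
  have hAw : A *ᵥ w = w := by simp [hAv, fr.vw, fr.ww, fr.e₁w, fr.e₂w]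
  have hAe₁ : A *ᵥ fr.e₁ = f₁ := by simp [hAv, fr.ve₁, fr.we₁, fr.e₂₁, fr.n₁]
  have hAe₂ : A *ᵥ fr.e₂ = f₂ := by simp [hAv, fr.ve₂, fr.we₂, fr.e₁₂, fr.n₂]
  obtain ⟨W₀, hW₀, hW₀e⟩ := exists_pair i j hij' (det_ne_zero_of_sim hδ (inv_ne_zero hν) hAs) hBd
  have hW₀pv : ∀ a c, (W₀ : MV F 2) *ᵥ pv i a c = pv i (A *ᵥ a) (B *ᵥ c) := fun a c => by
    rw [hW₀e, ← mulVec_mulVec, site_other_pv hij, site_self_pv]
  set k := W₀⁻¹ * g₀ with hk
  have hkI : IsoV δ (k : MV F 2) := by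
    rw [hk, Units.val_mul]
    exact isoV_mul (isoV_inv (hW₀e ▸ isoV_pair hij' hν hAs hB)) hgI
  have hkl : Lay δ i w (k : MV F 2) := by
    refine ⟨fun c => ?_, fun x hx => ?_⟩
    · rw [hk, Units.val_mul, ← mulVec_mulVec, hgc]
      exact inv_mulVec (by rw [hW₀pv, hAw])
    · set d₁ := (gB (G4 δ) fr.e₁ fr.e₁)⁻¹ • cmp δ i fr.e₁ x
      set d₂ := (gB (G4 δ) fr.e₂ fr.e₂)⁻¹ • cmp δ i fr.e₂ x
      have hxd : x = pv i w (cmp δ i fr.v x) + pv i fr.e₁ d₁ + pv i fr.e₂ d₂ :=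
        cmp_ext hδ i fun u => by
          conv_lhs => rw [fr.dec u]
          simp only [Stab.cmp_add_left, Stab.cmp_smul_left, hx, smul_zero, add_zero, zero_add, map_add, cmp_pv, d₁,
            d₂, smul_smul, gB_symm δ u, mul_comm]
      obtain ⟨b₁, hb₁⟩ := hf₁ d₁
      obtain ⟨b₂, hb₂⟩ := hf₂ d₂
      obtain ⟨c, hc⟩ := hBs (b₁ + b₂)
      refine ⟨c, ?_⟩
      rw [hk, Units.val_mul, ← mulVec_mulVec]
      refine inv_mulVec ?_
      rw [hxd]
      simp only [mulVec_add, hW₀pv, hAw, hAe₁, hAe₂, hgc, hb₁, hb₂, hc, pv_add_right]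
      abel
  have hkp : k ^ p = 1 := lay_pow hδ h2 hkI hkl
  obtain ⟨n, hn⟩ : Odd p := (Fact.out : p.Prime).odd_of_ne_two fun e => h2 <| by
    subst e; exact_mod_cast CharP.cast_eq_zero F 2
  have hkO : k ∈ Om δ 2 := by
    have := mul_self_mem_Om h2 hδ (g := k ^ (n + 1)) (isoV_pow hkI _)
    rwa [← pow_add, show n + 1 + (n + 1) = p + 1 by omega, pow_succ, hkp, one_mul] at this
  have hW₀M : W₀ ∈ M := h.mem hW₀ (by
    rw [show W₀ = g₀ * k⁻¹ by simp [hk]]
    exact mul_mem (h.le hg₀) (inv_mem hkO))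
  obtain ⟨s, hs⟩ := hRu k ⟨mul_mem (inv_mem hW₀M) hg₀, hkl⟩
  rw [show g₀ = W₀ * k by simp [hk]]
  exact mul_mem hW₀ (hs ▸ uHom_wr fr i h2 s)

/-- The centraliser of a site root element is monomial. -/
theorem cenLe_siteU_two (h : Over δ M)
    (hb : ∀ P : Subgroup (GV F 2), P ≤ M → IsPGroup p ↥P →
      Nat.card ↥P ≤ Nat.card F ^ 4 ∧ ∀ a ∈ P, ∀ b ∈ P, a * b = b * a) :
    ∀ u ∈ M, IsSiteU δ (u : MV F 2) → CenLe M (u : MV F 2) := by
  rintro u - ⟨i, w, x, hw0, hww, hwx, hxx, hu⟩ g hg hgu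
  refine stab_le_two h hb g hg i w hw0 hww ⟨(g : MV F 2), ?_⟩
  rw [hu, site_add, site_one, mul_add, add_mul, mul_one, one_mul, add_right_inj] at hgu
  have h3 : (g : MV F 2) * site i (sieM (G4 δ) w x * sieM (G4 δ) w x) =
      site i (sieM (G4 δ) w x * sieM (G4 δ) w x) * (g : MV F 2) := by
    rw [← site_mul, ← mul_assoc, hgu, mul_assoc, hgu, ← mul_assoc]
  rw [sieM_sq hww hwx, site_smul, Matrix.mul_smul, Matrix.smul_mul] at h3
  exact smul_right_injective _ (neg_ne_zero.2 hxx) h3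

/-- An element sending a site root element into the monomial group is monomial. -/
theorem mem_Wr_of_conj_two (h : Over δ M)
    (hb : ∀ P : Subgroup (GV F 2), P ≤ M → IsPGroup p ↥P →
      Nat.card ↥P ≤ Nat.card F ^ 4 ∧ ∀ a ∈ P, ∀ b ∈ P, a * b = b * a)
    (hconj : ∀ g u : GV F 2, IsoV δ (g : MV F 2) → IsSiteU δ (u : MV F 2) →
      g * u * g⁻¹ ∈ Wr F 2 → IsSiteU δ ((g * u * g⁻¹ : GV F 2) : MV F 2))
    {g u : GV F 2} (hg : g ∈ M) (hu : IsSiteU δ (u : MV F 2))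
    (hgu : g * u * g⁻¹ ∈ Wr F 2) : g ∈ Wr F 2 := by
  have hδ := h.nsq
  have h2 := h.two
  obtain ⟨i', w', x', hw'0, hw'w', hw'x', hx'x', hu'⟩ := hconj g u (h.isoV hg) hu hgu
  obtain ⟨i, w, x, hw0, hww, hwx, hxx, hue⟩ := hu
  set P := site i (cr (G4 δ) w w) with hP
  set P' := site i' (cr (G4 δ) w' w') with hP'
  have hc : (g : MV F 2) * (u : MV F 2) =
      ((g * u * g⁻¹ : GV F 2) : MV F 2) * (g : MV F 2) := by
    rw [← Units.val_mul, ← Units.val_mul, inv_mul_cancel_right]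
  rw [hu', hue, site_add, site_add, site_one, site_one, mul_add, add_mul, mul_one, one_mul,
    add_right_inj] at hc
  have hsqr : (g : MV F 2) * site i (sieM (G4 δ) w x * sieM (G4 δ) w x) =
      site i' (sieM (G4 δ) w' x' * sieM (G4 δ) w' x') * (g : MV F 2) := by
    rw [← site_mul, ← site_mul, ← mul_assoc, hc, mul_assoc, hc, ← mul_assoc]
  rw [sieM_sq hww hwx, sieM_sq hw'w' hw'x', site_smul, site_smul, Matrix.mul_smul,
    Matrix.smul_mul, ← hP, ← hP'] at hsqr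
  have hgP : (g : MV F 2) * P =
      P' * ((gB (G4 δ) x x)⁻¹ * gB (G4 δ) x' x') • (g : MV F 2) := by
    rw [Matrix.mul_smul, ← smul_smul]
    refine (inv_smul_eq_iff₀ hxx).2 ?_ |>.symm
    rw [neg_smul, neg_smul, neg_inj] at hsqr
    exact hsqr.symm
  -- the same site
  have same : ∀ z : Fin 4 → F, z ≠ 0 → gB (G4 δ) z z = 0 → ∃ k : GV F 2, k ∈ M ∧ k ∈ Wr F 2 ∧
      ∃ Z, (k : MV F 2) * site i (cr (G4 δ) z z) = P * Z := by
    intro z hz0 hzz
    obtain ⟨fr⟩ := exists_frame hδ h2 hw0 hww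
    by_cases ha : gB (G4 δ) w z = 0
    · refine ⟨1, one_mem _, one_mem _,
        (gB (G4 δ) fr.v z * gB (G4 δ) fr.v z) • 1, ?_⟩
      conv_lhs => rw [fr.perp_singular hδ hzz ha]
      rw [OrthWreathBig.cr_smul_left, OrthWreathBig.cr_smul_right, smul_smul, site_smul,
        Units.val_one, one_mul, Matrix.mul_smul, mul_one]
    · obtain ⟨j, hij⟩ := exists_ne i
      have hr : gB (G4 δ) (w - z) (w - z) = -2 * gB (G4 δ) w z := by
        simp only [map_sub, LinearMap.sub_apply, hww, hzz, gB_symm δ z w]; ring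
      have hr0 : gB (G4 δ) (w - z) (w - z) ≠ 0 := by
        rw [hr]; exact mul_ne_zero (neg_ne_zero.2 h2) ha
      obtain ⟨k, hkw, hke⟩ := exists_pair i j hij.symm
        (det_ne_zero_of_iso hδ (iso_reflW hr0)) (det_ne_zero_of_iso hδ (iso_reflW fr.n₁))
      refine ⟨k, Stab.pair_mem h hkw hij.symm (iso_reflW hr0) (iso_reflW fr.n₁)
        (by rw [det_reflW hr0, det_reflW fr.n₁]) hke, hkw,
        site i (cr (G4 δ) fr.v z) * site j (reflW δ fr.e₁), ?_⟩
      have hz' : reflW δ (w - z) *ᵥ z = w := by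
        rw [Stab.reflW_mulVec, hr, show gB (G4 δ) (w - z) z = gB (G4 δ) w z by
          simp [hzz]]
        rw [show 2 / (-2 * gB (G4 δ) w z) * gB (G4 δ) w z = -1 by field_simp]
        module
      have hcr : reflW δ (w - z) * cr (G4 δ) z z = cr (G4 δ) w w * cr (G4 δ) fr.v z := by
        rw [OrthWreathBig.cr_mul, fr.wv, one_smul, OrthWreathBig.cr, mul_vecMulVec, hz']
        rfl
      rw [hke, mul_assoc, site_comm hij, ← mul_assoc, site_mul, hcr, ← site_mul, hP, mul_assoc]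
  -- move the slot to the same site
  obtain ⟨k₀, hk₀M, hk₀W, z, hz0, hzz, Z₀, hZ₀⟩ : ∃ k : GV F 2, k ∈ M ∧ k ∈ Wr F 2 ∧
      ∃ z, z ≠ 0 ∧ gB (G4 δ) z z = 0 ∧ ∃ Z, (k : MV F 2) * P' = site i (cr (G4 δ) z z) * Z := by
    by_cases hii : i' = i
    · exact ⟨1, one_mem _, one_mem _, w', hw'0, hw'w', 1, by rw [hP', hii]; simp⟩
    obtain ⟨k, hkO, a, R, hR, hke⟩ := Stab.exists_swap_mem h2 hδ
    have hkW : k ∈ Wr F 2 := by
      obtain ⟨b, hab⟩ := exists_ne a
      obtain ⟨r, hrW, hre⟩ := exists_pair a b hab.symm (det_ne_zero_of_iso hδ hR)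
        (det_ne_zero_of_iso hδ (iso_one (δ := δ)))
      rw [show k = r * glFactorPerm 4 (Equiv.swap 0 1) from Units.ext (by
        rw [hke, Units.val_mul, hre, site_one, mul_one]; rfl)]
      exact mul_mem hrW (Subgroup.subset_closure (Or.inr ⟨_, fun x y => rfl⟩))
    have hφ : (factorPerm 4 (Equiv.swap 0 1) : MV F 2) * site i' (cr (G4 δ) w' w') =
        site i (cr (G4 δ) w' w') * factorPerm 4 (Equiv.swap 0 1) := by
      rw [site, site, pureMat_mul_factorPerm]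
      congr 2
      funext l
      fin_cases i <;> fin_cases i' <;> fin_cases l <;> simp at hii ⊢
    by_cases hai : a = i
    · obtain ⟨v', hv'⟩ := exists_gB_one (δ := δ) hδ (a := R *ᵥ w') (fun e => hw'0 (by
        have := congrArg (R⁻¹ *ᵥ ·) e
        simpa [mulVec_mulVec, Matrix.nonsing_inv_mul _ (Ne.isUnit (det_ne_zero_of_iso hδ hR))]
          using this))
      refine ⟨k, h.mem hkW hkO, hkW, R *ᵥ w', fun e => ?_, ?_,
        site i (cr (G4 δ) v' w') * factorPerm 4 (Equiv.swap 0 1), ?_⟩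
      · simp [e] at hv'
      · rw [sim_iff.1 (sim_one hR), hw'w', mul_zero]
      · rw [hke, hP', mul_assoc, hφ, ← mul_assoc, hai, site_mul, ← mul_assoc, site_mul,
          OrthWreathBig.cr_mul, hv', one_smul]
        congr 2
        rw [OrthWreathBig.cr, mul_vecMulVec]
        rfl
    · refine ⟨k, h.mem hkW hkO, hkW, w', hw'0, hw'w',
        site a R * factorPerm 4 (Equiv.swap 0 1), ?_⟩
      rw [hke, hP', mul_assoc, hφ, ← mul_assoc, site_comm hai, mul_assoc]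
  obtain ⟨k₁, hk₁M, hk₁W, Z₁, hZ₁⟩ := same z hz0 hzz
  have hfix : FixesSlot δ i w ((k₁ * k₀ * g : GV F 2) : MV F 2) := by
    refine ⟨Z₁ * (Z₀ * (((gB (G4 δ) x x)⁻¹ * gB (G4 δ) x' x') • (g : MV F 2))), ?_⟩
    rw [← hP, Units.val_mul, Units.val_mul, mul_assoc, hgP, mul_assoc (k₁ : MV F 2),
      ← mul_assoc (k₀ : MV F 2), hZ₀, mul_assoc (site i _), ← mul_assoc, hZ₁, mul_assoc]
  have hwr := stab_le_two h hb _ (mul_mem (mul_mem hk₁M hk₀M) hg) i w hw0 hww hfix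
  exact ((Wr F 2).mul_mem_cancel_left (mul_mem hk₁W hk₀W)).1 hwr

end Cfsg.Agent.MaxSub.OrthFour
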