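import Cfsg.Agent.MaxSub.OrthFour.CountPerm
import Cfsg.Agent.MaxSub.OrthFour.GroupFour
import Cfsg.Agent.MaxSub.OrthFour.HalfBig
import Cfsg.Agent.MaxSub.OrthFour.Stab

/-!
Facts about root elements, half turns and pure tensors used to count the supports of conjugated
partnered root elements in a tensor power of an orthogonal space of dimension four.
-/

set_option autoImplicit false
set_option linter.unusedSectionVars false

namespace Cfsg.Agent.MaxSub.OrthFour.Count

open Matrix Cfsg.Geo Cfsg.Agent.NotMax Cfsg.Agent.GeoClasses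
open Cfsg.Agent.MaxSub.TensorPowSp (gV fG site_injective site_comm_pure)
open Cfsg.Agent.MaxSub.OrthWreathBig (gB cr sieM)
open scoped MatrixGroups Matrix

variable {F : Type*} [Field F] {δ : F} {t : ℕ}

/-- The isometries of one site as a group. -/
def isoSub (δ : F) : Subgroup (GL (Fin 4) F) where
  carrier := {A | IsoW δ (A : M4 F)}
  one_mem' := isoW_one
  mul_mem' ha hb := isoW_mul ha hb
  inv_mem' {A} hA := isoW_of_gB fun x y => by
    rw [← isoW_gB hA, mulVec_mulVec, mulVec_mulVec, Units.mul_inv, one_mulVec, one_mulVec]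

lemma mem_isoSub {A : GL (Fin 4) F} : A ∈ isoSub δ ↔ IsoW δ (A : M4 F) := Iff.rfl

/-! ### Root elements -/

lemma IsU.iso {A : M4 F} (h2 : (2 : F) ≠ 0) (h : IsU δ A) : IsoW δ A := by
  obtain ⟨w, x, -, hw, hx, -, rfl⟩ := h
  exact add_sieM_isoW h2 hw hx

lemma add_sieM_neg {w x : Fin 4 → F} (h2 : (2 : F) ≠ 0) (hw : gB (G4 δ) w w = 0)
    (hx : gB (G4 δ) w x = 0) : (1 + sieM (G4 δ) w x) * (1 + sieM (G4 δ) w (-x)) = 1 := by
  rw [add_sieM_mul h2 hw hx (by rw [map_neg, hx, neg_zero]), add_neg_cancel]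
  simp [OrthWreathBig.sieM]

/-- A root element as an invertible matrix. -/
noncomputable def uUnit {w x : Fin 4 → F} (h2 : (2 : F) ≠ 0) (hw : gB (G4 δ) w w = 0)
    (hx : gB (G4 δ) w x = 0) : GL (Fin 4) F where
  val := 1 + sieM (G4 δ) w x
  inv := 1 + sieM (G4 δ) w (-x)
  val_inv := add_sieM_neg h2 hw hx
  inv_val := by
    have := add_sieM_neg (x := -x) h2 hw (by rw [map_neg, hx, neg_zero])
    rwa [neg_neg] at this

lemma uUnit_isU {w x : Fin 4 → F} (h2 : (2 : F) ≠ 0) (hw0 : w ≠ 0) (hw : gB (G4 δ) w w = 0)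
    (hx : gB (G4 δ) w x = 0) (hxx : gB (G4 δ) x x ≠ 0) :
    IsU δ ((uUnit h2 hw hx : GL (Fin 4) F) : M4 F) := ⟨w, x, hw0, hw, hx, hxx, rfl⟩

lemma IsU.inv {u : GL (Fin 4) F} (h2 : (2 : F) ≠ 0) (h : IsU δ (u : M4 F)) :
    IsU δ ((u⁻¹ : GL (Fin 4) F) : M4 F) := by
  obtain ⟨w, x, hw0, hw, hx, hxx, e⟩ := h
  refine ⟨w, -x, hw0, hw, by rw [map_neg, hx, neg_zero], by simpa using hxx, ?_⟩
  refine Units.inv_eq_of_mul_eq_one_right ?_
  rw [e]; exact add_sieM_neg h2 hw hx

lemma IsU.not_scalar {A : M4 F} (h : IsU δ A) (c : F) : A ≠ c • 1 := by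
  intro e
  obtain ⟨w, x, hw0, hw, hx, hxx, e'⟩ := id h
  have hfix := (isU_fix hw0 hw hx hxx e').1
  rw [e, smul_mulVec, one_mulVec] at hfix
  have hc : c = 1 := smul_left_injective F hw0 (show c • w = (1 : F) • w by rw [hfix, one_smul])
  exact h.ne_one (by rw [e, hc, one_smul])

/-- A group of isometries normalised by all root elements and not scalar contains all of them. -/
theorem simple_iso [Finite F] (h2 : (2 : F) ≠ 0) (hd : ¬ IsSquare δ) (N : Subgroup (GL (Fin 4) F))
    (hN : ∀ x ∈ N, IsoW δ (x : M4 F))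
    (hn : ∀ u : GL (Fin 4) F, IsU δ (u : M4 F) → ∀ x ∈ N, u * x * u⁻¹ ∈ N)
    (hex : ∃ x ∈ N, ∀ c : F, (x : M4 F) ≠ c • 1) {u : GL (Fin 4) F} (hu : IsU δ (u : M4 F)) :
    u ∈ N := by
  refine OmW_le_of_normalised h2 hd hN ?_ (by
    obtain ⟨x, hx, hc⟩ := hex; exact ⟨x, hx, fun ⟨c, e⟩ => hc c e⟩) (Subgroup.subset_closure hu)
  intro g hg
  suffices h : (∀ x ∈ N, g * x * g⁻¹ ∈ N) ∧ ∀ x ∈ N, g⁻¹ * x * g ∈ N from h.1
  induction hg using Subgroup.closure_induction with
  | mem g hg =>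
    refine ⟨hn g hg, fun x hx => ?_⟩
    simpa using hn g⁻¹ (IsU.inv h2 hg) x hx
  | one => simp
  | mul a b _ _ ha hb =>
    refine ⟨fun x hx => ?_, fun x hx => ?_⟩
    · simpa [mul_assoc] using ha.1 _ (hb.1 x hx)
    · simpa [mul_assoc] using hb.2 _ (ha.2 x hx)
  | inv a _ ha => exact ⟨by simpa using ha.2, by simpa using ha.1⟩

section Prime

variable {p : ℕ} [Fact p.Prime] [CharP F p]

lemma IsU.gl_pow {u : GL (Fin 4) F} (h2 : (2 : F) ≠ 0) (h : IsU δ (u : M4 F)) : u ^ p = 1 :=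
  Units.ext (by rw [Units.val_pow_eq_pow_val, (h.unip h2).pw, Units.val_one])

lemma Unip.eq_one_of_scalar {A : M4 F} (h : Unip δ p A) {c : F} (e : A = c • 1) : A = 1 := by
  have hc : c = 1 := pow_smul_eq (a := (1 : M4 F)) (one_pow p) (e ▸ h.pw)
  rw [e, hc, one_smul]

lemma Unip.smul_eq {A B : M4 F} (hA : A ^ p = 1) (hB : B ^ p = 1) {c : F} (e : A = c • B) :
    A = B := by
  subst e
  rw [pow_smul_eq hB hA, one_smul]

/-- An isometry of order dividing the characteristic commuting with all root elements is trivial. -/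
lemma Unip.eq_one_of_commute_all [Finite F] (hd : ¬ IsSquare δ) (h2 : (2 : F) ≠ 0) {A : M4 F}
    (h : Unip δ p A) (hc : ∀ u : GL (Fin 4) F, IsU δ (u : M4 F) → Commute A (u : M4 F)) :
    A = 1 := by
  by_contra hA
  obtain ⟨v, hv0, hv, hvv⟩ := h.exists_fixed hA
  obtain ⟨w, w', x, x', hw0, hw0', hw, hw', hx, -, hx', hxx, -, -, hne⟩ := exists_noncomm hd
  have key : ∀ z, z ≠ 0 → gB (G4 δ) z z = 0 → gB (G4 δ) z x = 0 → ∃ c : F, z = c • v := by
    intro z hz0 hz hzx
    have hu := uUnit_isU h2 hz0 hz hzx hxx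
    have hfix : ((uUnit h2 hz hzx : GL (Fin 4) F) : M4 F) *ᵥ v = v :=
      h.fix_of_commute hd hA (hu.unip h2) (hc _ hu) hv0 hv hvv
    exact (hu.unip (p := p) h2).unique hd hu.ne_one hv0 hfix hvv (add_sieM_fix hz hzx) hz
  obtain ⟨a, ha⟩ := key w hw0 hw hx
  obtain ⟨b, hb⟩ := key w' hw0' hw' hx'
  have ha0 : a ≠ 0 := fun e => hw0 (by rw [ha, e, zero_smul])
  exact hne (b / a) (by rw [hb, ha, smul_smul, div_mul_cancel₀ _ ha0])

end Prime

/-! ### Half turns -/

lemma refl_fix {r y : Fin 4 → F} (h : gB (G4 δ) r y = 0) : reflW δ r *ᵥ y = y := by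
  rw [OrthFour.reflW_mulVec, h]; simp

lemma refl_neg {r : Fin 4 → F} (hr : gB (G4 δ) r r ≠ 0) : reflW δ r *ᵥ r = -r := by
  rw [OrthFour.reflW_mulVec]
  rw [show (gB (G4 δ) r r)⁻¹ * (2 * gB (G4 δ) r r) = 2 by field_simp]
  module

lemma half_mulVec {r s : Fin 4 → F} (hrs : gB (G4 δ) r s = 0) (y : Fin 4 → F) :
    (reflW δ r * reflW δ s) *ᵥ y = y - ((gB (G4 δ) r r)⁻¹ * (2 * gB (G4 δ) r y)) • r -
      ((gB (G4 δ) s s)⁻¹ * (2 * gB (G4 δ) s y)) • s := by
  rw [← mulVec_mulVec, OrthFour.reflW_mulVec s, mulVec_sub, mulVec_smul, refl_fix hrs,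
    OrthFour.reflW_mulVec r]

lemma half_not_scalar (h2 : (2 : F) ≠ 0) (hd : ¬ IsSquare δ) {r s : Fin 4 → F}
    (hr : gB (G4 δ) r r ≠ 0) (hs : gB (G4 δ) s s ≠ 0) (hrs : gB (G4 δ) r s = 0) (c : F) :
    reflW δ r * reflW δ s ≠ c • 1 := by
  intro e
  obtain ⟨d, hdd, hrd, hsd⟩ := HalfBig.exists_third h2 hd hr hs hrs
  have hd0 : d ≠ 0 := fun h => hdd (by simp [h])
  have hr0 : r ≠ 0 := fun h => hr (by simp [h])
  have e1 := half_mulVec hrs d
  rw [hrd, hsd, e, smul_mulVec, one_mulVec] at e1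
  have hc1 : c = 1 := smul_left_injective F hd0 (show c • d = (1 : F) • d by
    rw [e1, one_smul]; simp)
  have e2 := half_mulVec hrs r
  rw [e, smul_mulVec, one_mulVec, hc1, one_smul, gB_symm δ s r, hrs,
    show (gB (G4 δ) r r)⁻¹ * (2 * gB (G4 δ) r r) = 2 by field_simp] at e2
  have h3 : (2 : F) • r = 0 := by linear_combination (norm := module) e2
  exact hr0 ((smul_eq_zero.1 h3).resolve_left h2)

section Prime

variable {p : ℕ} [Fact p.Prime] [CharP F p]

/-- An isometry of order dividing the characteristic commuting with a half turn is trivial. -/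
lemma unip_half_eq_one (h2 : (2 : F) ≠ 0) (hd : ¬ IsSquare δ) {r s : Fin 4 → F}
    (hr : gB (G4 δ) r r ≠ 0) (hs : gB (G4 δ) s s ≠ 0) (hrs : gB (G4 δ) r s = 0)
    {A : M4 F} (hA : Unip δ p A) (hc : Commute A (reflW δ r * reflW δ s)) : A = 1 := by
  by_contra hA1
  obtain ⟨v, hv0, hv, hvv⟩ := hA.exists_fixed hA1
  have hH : IsoW δ (reflW δ r * reflW δ s) :=
    isoW_mul (HalfBig.refl_iso h2 hr) (HalfBig.refl_iso h2 hs)
  have hsr : gB (G4 δ) s r = 0 := by rw [gB_symm, hrs]
  have hHH : ∀ y, (reflW δ r * reflW δ s) *ᵥ ((reflW δ r * reflW δ s) *ᵥ y) = y := by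
    intro y
    rw [half_mulVec hrs, half_mulVec hrs y]
    simp only [map_sub, map_smul, smul_eq_mul, hrs, hsr]
    match_scalars <;> field_simp <;> ring
  obtain ⟨x, hvx, hxx, eA⟩ := hA.shape hd h2 hA1 hv0 hv hvv
  obtain ⟨H, hHdef⟩ : ∃ H, H = reflW δ r * reflW δ s := ⟨_, rfl⟩
  rw [← hHdef] at hH hHH hc
  obtain ⟨c, hcv⟩ := hA.unique hd hA1 hv0 hv hvv (w := H *ᵥ v)
    (by rw [mulVec_mulVec, hc.eq, ← mulVec_mulVec, hv]) (by rw [isoW_gB hH, hvv])
  have hcc : c * c = 1 := smul_left_injective F hv0 (show (c * c) • v = (1 : F) • v by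
    rw [one_smul]
    conv_rhs => rw [← hHH v, hcv, mulVec_smul, hcv, smul_smul])
  -- the image of `x`
  obtain ⟨z, hz⟩ : ∃ z, gB (G4 δ) v z ≠ 0 := by
    by_contra hno
    push Not at hno
    exact hv0 (gB_eq_zero hd hno)
  obtain ⟨y, hvy⟩ : ∃ y, gB (G4 δ) v y = 1 :=
    ⟨(gB (G4 δ) v z)⁻¹ • z, by rw [map_smul, smul_eq_mul, inv_mul_cancel₀ hz]⟩
  have hvHy : gB (G4 δ) v (H *ᵥ y) = c := by
    conv_lhs => rw [← hHH v, isoW_gB hH, hcv, map_smul, LinearMap.smul_apply, hvy, smul_eq_mul,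
      mul_one]
  obtain ⟨α, hα⟩ : ∃ α : F, H *ᵥ x = c • x + α • v := by
    have h1 : A *ᵥ (H *ᵥ y) = H *ᵥ (A *ᵥ y) := by rw [mulVec_mulVec, mulVec_mulVec, hc.eq]
    rw [eA, add_sieM_mulVec, add_sieM_mulVec, mulVec_add, hvHy, hvy, mulVec_sub, mulVec_sub,
      mulVec_smul, mulVec_smul, mulVec_smul, one_smul, hcv] at h1
    refine ⟨(gB (G4 δ) x y + gB (G4 δ) x x / 2) * c - gB (G4 δ) x (H *ᵥ y) -
      gB (G4 δ) x x / 2 * c, ?_⟩
    linear_combination (norm := module) -h1
  have hα0 : α = 0 := by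
    have h1 := hHH x
    rw [hα, mulVec_add, mulVec_smul, mulVec_smul, hα, hcv] at h1
    have h3 : (2 * c * α) • v = 0 := by
      rw [smul_add, smul_smul, smul_smul, smul_smul, hcc, one_smul, add_assoc, add_eq_left] at h1
      linear_combination (norm := module) h1
    have hc0 : c ≠ 0 := fun e => by simp [e] at hcc
    exact (mul_eq_zero.1 ((smul_eq_zero.1 h3).resolve_right hv0)).resolve_left (mul_ne_zero h2 hc0)
  rw [hα0, zero_smul, add_zero] at hα
  rw [hHdef, half_mulVec hrs] at hcv hα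
  have hv0' : ∀ a b : F, v = a • r + b • s → a = 0 → b = 0 → False :=
    fun a b e h1 h3 => hv0 (by rw [e, h1, h3, zero_smul, zero_smul, add_zero])
  rcases mul_self_eq_one_iff.1 hcc with rfl | rfl
  · -- both vectors are orthogonal to the plane
    have hperp : ∀ u, (u - ((gB (G4 δ) r r)⁻¹ * (2 * gB (G4 δ) r u)) • r -
        ((gB (G4 δ) s s)⁻¹ * (2 * gB (G4 δ) s u)) • s = (1 : F) • u) →
        gB (G4 δ) r u = 0 ∧ gB (G4 δ) s u = 0 := by
      intro u hu
      constructor
      · have := congrArg (gB (G4 δ) r) hu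
        simp only [map_sub, map_smul, smul_eq_mul, hrs, mul_zero, sub_zero, one_mul] at this
        field_simp at this
        exact (mul_eq_zero.1 (show (2 : F) * gB (G4 δ) r u = 0 by
          linear_combination -this)).resolve_left h2
      · have := congrArg (gB (G4 δ) s) hu
        simp only [map_sub, map_smul, smul_eq_mul, hsr, mul_zero, sub_zero, one_mul] at this
        field_simp at this
        exact (mul_eq_zero.1 (show (2 : F) * gB (G4 δ) s u = 0 by
          linear_combination -this)).resolve_left h2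
    obtain ⟨hrv, hsv⟩ := hperp v hcv
    obtain ⟨hrx, hsx⟩ := hperp x hα
    have hli : LinearIndependent F ![r, s, x, v] := by
      rw [Fintype.linearIndependent_iff]
      intro g hg
      simp only [Fin.sum_univ_four, Matrix.cons_val_zero, Matrix.cons_val_one, Matrix.cons_val] at hg
      have e0 := congrArg (gB (G4 δ) r) hg
      have e1 := congrArg (gB (G4 δ) s) hg
      have e2 := congrArg (gB (G4 δ) x) hg
      simp only [map_add, map_smul, map_zero, smul_eq_mul, hrs, hsr, hrx, hrv, hsx, hsv,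
        gB_symm δ x r, gB_symm δ x s, gB_symm δ x v, hvx, mul_zero, add_zero, zero_add,
        mul_eq_zero, hr, hs, hxx, or_false] at e0 e1 e2
      rw [e0, e1, e2, zero_smul, zero_smul, zero_smul, zero_add, zero_add, zero_add,
        smul_eq_zero] at hg
      intro i
      fin_cases i
      · exact e0
      · exact e1
      · exact e2
      · exact hg.resolve_right hv0
    refine hv0 (gB_eq_zero hd fun u => ?_)
    have hb : gB (G4 δ) v = 0 := by
      refine (basisOfLinearIndependentOfCardEqFinrank hli (by simp)).ext fun i => ?_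
      rw [coe_basisOfLinearIndependentOfCardEqFinrank, LinearMap.zero_apply]
      fin_cases i
      · simpa [gB_symm δ v r] using hrv
      · simpa [gB_symm δ v s] using hsv
      · simpa using hvx
      · simpa using hvv
    rw [hb, LinearMap.zero_apply]
  · -- both vectors lie in the plane
    have hspan : ∀ u, (u - ((gB (G4 δ) r r)⁻¹ * (2 * gB (G4 δ) r u)) • r -
        ((gB (G4 δ) s s)⁻¹ * (2 * gB (G4 δ) s u)) • s = (-1 : F) • u) →
        u = ((gB (G4 δ) r r)⁻¹ * gB (G4 δ) r u) • r + ((gB (G4 δ) s s)⁻¹ * gB (G4 δ) s u) • s := by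
      intro u hu
      have : (2 : F) • u = (2 : F) • (((gB (G4 δ) r r)⁻¹ * gB (G4 δ) r u) • r +
          ((gB (G4 δ) s s)⁻¹ * gB (G4 δ) s u) • s) := by
        linear_combination (norm := module) hu
      exact smul_right_injective _ h2 this
    obtain ⟨a, b, ev⟩ : ∃ a b : F, v = a • r + b • s := ⟨_, _, hspan v hcv⟩
    obtain ⟨a', b', ex⟩ : ∃ a' b' : F, x = a' • r + b' • s := ⟨_, _, hspan x hα⟩
    have e1 := hvv
    have e2 := hvx
    have e3 := hxx
    rw [ev] at e1 e2
    rw [ex] at e2 e3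
    simp only [map_add, map_smul, LinearMap.add_apply, LinearMap.smul_apply, smul_eq_mul, hrs, hsr,
      mul_zero, add_zero, zero_add] at e1 e2 e3
    have k1 : a * (gB (G4 δ) r r * (a * b' - a' * b)) = 0 := by linear_combination b' * e1 - b * e2
    have k2 : b * (gB (G4 δ) s s * (a' * b - a * b')) = 0 := by linear_combination a' * e1 - a * e2
    by_cases hab : a * b' - a' * b = 0
    · apply e3
      by_cases ha : a = 0
      · have hb : b ≠ 0 := fun hb => hv0' a b ev ha hb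
        simp only [ha, zero_mul, zero_sub, neg_eq_zero, mul_eq_zero, hb, or_false] at hab
        simp only [ha, hab, zero_mul, zero_add, mul_eq_zero, hb, hs, false_or, or_false] at e2
        simp [hab, e2]
      · have hb' : b' = a' * b / a := by field_simp; linear_combination hab
        rw [hb']
        field_simp
        linear_combination a' ^ 2 * e1
    · refine hv0' a b ev ((mul_eq_zero.1 k1).resolve_right (mul_ne_zero hr hab))
        ((mul_eq_zero.1 k2).resolve_right (mul_ne_zero hs ?_))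
      intro h; exact hab (by linear_combination -h)

end Prime

end Cfsg.Agent.MaxSub.OrthFour.Count
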