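import Cfsg.Agent.MaxSub.OrthFour.Monomial
import Cfsg.Agent.MaxSub.TensorPowSp.Normal

/-!
Isometries in the monomial group: normal form, conjugates of named elements, and the normaliser of the
root elements of the sites.
-/

set_option autoImplicit false
set_option linter.unusedSectionVars false
set_option linter.unusedSimpArgs false
set_option linter.unusedVariables false
set_option linter.style.haveILetI false

namespace Cfsg.Agent.MaxSub.OrthFour

open Matrix Module Cfsg.Geo Cfsg.Agent.NotMax Cfsg.Agent.GeoClasses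
open Cfsg.Agent.MaxSub.TensorPowSp (gV siteHom siteHom_apply site_injective iSup_range_eq_top
  conjMat_refl)
open Cfsg.Agent.MaxSub.OrthWreathBig (gB cr cr_mulVec cr_smul_left cr_smul_right sieM)
open scoped Matrix MatrixGroups

variable {F : Type*} [Field F] {δ : F} {t : ℕ}

namespace Wreath

lemma G4_ne_zero (hd : ¬ IsSquare δ) : G4 δ ≠ 0 := fun e => by
  have := G4_det hd
  rw [e] at this
  simp at this

lemma gV_ne_zero (hd : ¬ IsSquare δ) (t : ℕ) : gV (G4 δ) t ≠ 0 := fun e => by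
  have := congrFun (congrFun e fun _ => 0) fun _ => 0
  rw [gV_diag, Matrix.diagonal_apply_eq, Matrix.zero_apply, Finset.prod_eq_zero_iff] at this
  obtain ⟨i, -, hi⟩ := this
  exact wt_ne_zero hd 0 hi

lemma isoV_mul {g h : MV F t} (hg : IsoV δ g) (hh : IsoV δ h) : IsoV δ (g * h) := by
  unfold IsoV at *
  rw [transpose_mul, show hᵀ * gᵀ * gV (G4 δ) t * (g * h) = hᵀ * (gᵀ * gV (G4 δ) t * g) * h by
    simp only [mul_assoc], hg, hh]

lemma isoV_inv {g : GV F t} (hg : IsoV δ (g : MV F t)) : IsoV δ ((g⁻¹ : GV F t) : MV F t) := by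
  unfold IsoV at *
  conv_lhs => arg 1; arg 2; rw [← hg]
  simp only [← mul_assoc, ← transpose_mul, Units.mul_inv, transpose_one, one_mul]
  simp [mul_assoc]

lemma site_isoV {A : M4 F} (hA : IsoW δ A) (i : Fin t) : IsoV δ (site i A) := by
  rw [IsoV, gV, site, pureMat_transpose, pureMat_mul, pureMat_mul]
  congr 1
  funext j
  by_cases hj : j = i
  · subst hj; simpa [IsoW] using hA
  · simp [hj]

lemma siteU_isoV (h2 : (2 : F) ≠ 0) {u : MV F t} (hu : IsSiteU δ u) : IsoV δ u := by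
  obtain ⟨i, w, x, -, hw, hx, -, rfl⟩ := hu
  exact site_isoV (Site.sie_isoW h2 hw hx) i

/-- The factors of an isometry in normal form are similitudes. -/
lemma sim_of_isoV (hd : ¬ IsSquare δ) {cs : Fin t → GL (Fin 4) F} {π : Equiv.Perm (Fin t)}
    (h : IsoV δ ((glPure cs * glFactorPerm 4 π : GV F t) : MV F t)) :
    ∃ ν : Fin t → F, (∀ i, SimW δ (cs i : M4 F) (ν i)) ∧ ∏ i, ν i = 1 := by
  set E : Fin t → M4 F := fun i => (cs i : M4 F)ᵀ * G4 δ * (cs i : M4 F) with hE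
  have h1 : factorPerm 4 π⁻¹ * pureMat E * factorPerm 4 π = gV (G4 δ) t := by
    have h' : (pureMat (fun i => (cs i : M4 F)) * factorPerm 4 π)ᵀ * gV (G4 δ) t *
        (pureMat (fun i => (cs i : M4 F)) * factorPerm 4 π) = gV (G4 δ) t := h
    rw [transpose_mul, factorPerm_transpose_mul, pureMat_transpose] at h'
    conv_rhs => rw [← h']
    rw [hE, ← pureMat_mul, ← pureMat_mul]
    simp only [gV, mul_assoc]
  have h2 : pureMat E = gV (G4 δ) t := by
    have := congrArg (fun X => factorPerm 4 π * X * factorPerm 4 π⁻¹) h1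
    simp only [← mul_assoc, factorPerm_mul, mul_inv_cancel, factorPerm_one, one_mul] at this
    simp only [mul_assoc, factorPerm_mul, mul_inv_cancel, factorPerm_one, mul_one] at this
    rw [this, gV, ← mul_assoc, ← pureMat_mul_factorPerm (fun _ => G4 δ) π, mul_assoc, factorPerm_mul,
      mul_inv_cancel, factorPerm_one, mul_one]
  choose ν hν0 hν using fun i => pureMat_eq_smul_pureMat (A := E) (B := fun _ => G4 δ) (s := (1 : F))
    (by rw [h2, one_smul]; rfl) one_ne_zero (fun _ => G4_ne_zero hd) i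
  refine ⟨ν, fun i => ⟨hν0 i, hν i⟩, ?_⟩
  rw [show E = fun i => ν i • G4 δ from funext hν, pureMat_smul] at h2
  by_contra hne
  have h3 : (∏ i, ν i - 1) • gV (G4 δ) t = 0 := by
    rw [sub_smul, one_smul, sub_eq_zero]; exact h2
  exact gV_ne_zero hd t ((smul_eq_zero.1 h3).resolve_left (sub_ne_zero.2 hne))

lemma conj_cr {c : GL (Fin 4) F} {ν : F} (hc : SimW δ (c : M4 F) ν) (a b : Fin 4 → F) :
    (c : M4 F) * cr (G4 δ) a b * ((c⁻¹ : GL (Fin 4) F) : M4 F) =
      ν⁻¹ • cr (G4 δ) ((c : M4 F) *ᵥ a) ((c : M4 F) *ᵥ b) := by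
  have e : G4 δ * ((c⁻¹ : GL (Fin 4) F) : M4 F) = ν⁻¹ • ((c : M4 F)ᵀ * G4 δ) := by
    have := congrArg (fun X => X * ((c⁻¹ : GL (Fin 4) F) : M4 F)) hc.2
    simp only [smul_mul_assoc, mul_assoc, Units.mul_inv, mul_one] at this
    rw [this, smul_smul, inv_mul_cancel₀ hc.1, one_smul]
  rw [cr, cr, mul_vecMulVec, vecMulVec_mul, vecMul_vecMul, e, vecMul_smul, vecMulVec_smul,
    ← vecMul_vecMul, vecMul_transpose]

lemma conj_refl {c : GL (Fin 4) F} {ν : F} (hc : SimW δ (c : M4 F) ν) (r : Fin 4 → F) :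
    (c : M4 F) * reflW δ r * ((c⁻¹ : GL (Fin 4) F) : M4 F) = reflW δ ((c : M4 F) *ᵥ r) := by
  rw [reflW, mul_sub, sub_mul, mul_one, Units.mul_inv, mul_smul_comm, smul_mul_assoc, conj_cr hc,
    smul_smul, reflW, Site.sim_gB hc.2]
  congr 2
  rw [div_eq_mul_inv, div_eq_mul_inv, _root_.mul_inv_rev, mul_assoc]

lemma conj_sie {c : GL (Fin 4) F} {ν : F} (hc : SimW δ (c : M4 F) ν) (w x : Fin 4 → F) :
    (c : M4 F) * (1 + sieM (G4 δ) w x) * ((c⁻¹ : GL (Fin 4) F) : M4 F) =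
      1 + sieM (G4 δ) ((c : M4 F) *ᵥ w) (ν⁻¹ • ((c : M4 F) *ᵥ x)) := by
  rw [mul_add, add_mul, mul_one, Units.mul_inv]
  congr 1
  simp only [sieM, mul_sub, sub_mul, mul_smul_comm, smul_mul_assoc, conj_cr hc, cr_smul_left,
    cr_smul_right, map_smul, LinearMap.smul_apply, smul_eq_mul, Site.sim_gB hc.2]
  have := hc.1
  match_scalars <;> field_simp

lemma conj_site (cs : Fin t → GL (Fin 4) F) (π : Equiv.Perm (Fin t)) (i : Fin t) (X : M4 F) :
    conjGL (glPure cs * glFactorPerm 4 π : GV F t) (site i X) =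
      site (π i) ((cs (π i) : M4 F) * X * (((cs (π i))⁻¹ : GL (Fin 4) F) : M4 F)) :=
  conjGL_eq_of_mul_eq (Cfsg.Agent.GeoClasses.pureMat_update_mul cs π i X)

lemma conj_val (g u : GV F t) : ((g * u * g⁻¹ : GV F t) : MV F t) = conjGL g (u : MV F t) := rfl

lemma conj_half {c : GL (Fin 4) F} {ν : F} (hc : SimW δ (c : M4 F) ν) (r s : Fin 4 → F) :
    (c : M4 F) * (reflW δ r * reflW δ s) * ((c⁻¹ : GL (Fin 4) F) : M4 F) =
      reflW δ ((c : M4 F) *ᵥ r) * reflW δ ((c : M4 F) *ᵥ s) := by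
  rw [← conj_refl hc, ← conj_refl hc]
  simp only [mul_assoc, Units.inv_mul_cancel_left]

end Wreath

open Wreath

/-- **Normal form of monomial isometries.** -/
theorem exists_normal_form (h2 : (2 : F) ≠ 0) (hd : ¬ IsSquare δ) {g : GV F t} (hg : g ∈ Wr F t)
    (hgi : IsoV δ (g : MV F t)) :
    ∃ (cs : Fin t → GL (Fin 4) F) (π : Equiv.Perm (Fin t)) (ν : Fin t → F),
      (∀ i, SimW δ (cs i : M4 F) (ν i)) ∧ ∏ i, ν i = 1 ∧ g = glPure cs * glFactorPerm 4 π := by
  obtain ⟨cs, π, rfl⟩ := Monomial.exists_form hg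
  obtain ⟨ν, hν, hν1⟩ := sim_of_isoV hd hgi
  exact ⟨cs, π, ν, hν, hν1, rfl⟩

theorem isRefl_conj (h2 : (2 : F) ≠ 0) (hd : ¬ IsSquare δ) {g u : GV F t} (hg : g ∈ Wr F t)
    (hgi : IsoV δ (g : MV F t)) (hu : IsRefl δ (u : MV F t)) :
    IsRefl δ ((g * u * g⁻¹ : GV F t) : MV F t) := by
  obtain ⟨cs, π, ν, hν, -, rfl⟩ := exists_normal_form h2 hd hg hgi
  obtain ⟨i, r, hr, e⟩ := hu
  refine ⟨π i, (cs (π i) : M4 F) *ᵥ r, ?_, ?_⟩
  · rw [Site.sim_gB (hν _).2]; exact mul_ne_zero (hν _).1 hr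
  · rw [conj_val, e, conj_site, conj_refl (hν _)]

theorem isHalf_conj (h2 : (2 : F) ≠ 0) (hd : ¬ IsSquare δ) {g u : GV F t} (hg : g ∈ Wr F t)
    (hgi : IsoV δ (g : MV F t)) (hu : IsHalf δ (u : MV F t)) :
    IsHalf δ ((g * u * g⁻¹ : GV F t) : MV F t) := by
  obtain ⟨cs, π, ν, hν, -, rfl⟩ := exists_normal_form h2 hd hg hgi
  obtain ⟨i, r, s, hr, hs, hrs, e⟩ := hu
  refine ⟨π i, (cs (π i) : M4 F) *ᵥ r, (cs (π i) : M4 F) *ᵥ s, ?_, ?_, ?_, ?_⟩
  · rw [Site.sim_gB (hν _).2]; exact mul_ne_zero (hν _).1 hr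
  · rw [Site.sim_gB (hν _).2]; exact mul_ne_zero (hν _).1 hs
  · rw [Site.sim_gB (hν _).2, hrs, mul_zero]
  · rw [conj_val, e, conj_site, conj_half (hν _)]

theorem isSiteU_conj (h2 : (2 : F) ≠ 0) (hd : ¬ IsSquare δ) {g u : GV F t} (hg : g ∈ Wr F t)
    (hgi : IsoV δ (g : MV F t)) (hu : IsSiteU δ (u : MV F t)) :
    IsSiteU δ ((g * u * g⁻¹ : GV F t) : MV F t) := by
  obtain ⟨cs, π, ν, hν, -, rfl⟩ := exists_normal_form h2 hd hg hgi
  obtain ⟨i, w, x, hw, hww, hwx, hxx, e⟩ := hu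
  refine ⟨π i, (cs (π i) : M4 F) *ᵥ w, (ν (π i))⁻¹ • ((cs (π i) : M4 F) *ᵥ x), fun e' => hw ?_, ?_, ?_,
    ?_, ?_⟩
  · have := congrArg (fun z => ((cs (π i))⁻¹ : GL (Fin 4) F).val *ᵥ z) e'
    simpa [mulVec_mulVec] using this
  · rw [Site.sim_gB (hν _).2, hww, mul_zero]
  · rw [map_smul, Site.sim_gB (hν _).2, hwx, mul_zero, smul_zero]
  · simp only [map_smul, LinearMap.smul_apply, smul_eq_mul, Site.sim_gB (hν _).2]
    exact mul_ne_zero (inv_ne_zero (hν _).1)
      (mul_ne_zero (inv_ne_zero (hν _).1) (mul_ne_zero (hν _).1 hxx))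
  · rw [conj_val, e, conj_site, conj_sie (hν _)]

theorem isPairRefl_conj (h2 : (2 : F) ≠ 0) (hd : ¬ IsSquare δ) {g u : GV F t} (hg : g ∈ Wr F t)
    (hgi : IsoV δ (g : MV F t)) (hu : IsPairRefl δ (u : MV F t)) :
    IsPairRefl δ ((g * u * g⁻¹ : GV F t) : MV F t) := by
  obtain ⟨cs, π, ν, hν, -, rfl⟩ := exists_normal_form h2 hd hg hgi
  obtain ⟨i, j, r, s, hij, hr, hs, e⟩ := hu
  refine ⟨π i, π j, (cs (π i) : M4 F) *ᵥ r, (cs (π j) : M4 F) *ᵥ s, π.injective.ne hij, ?_, ?_, ?_⟩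
  · rw [Site.sim_gB (hν _).2]; exact mul_ne_zero (hν _).1 hr
  · rw [Site.sim_gB (hν _).2]; exact mul_ne_zero (hν _).1 hs
  · rw [conj_val, e, map_mul, conj_site, conj_site, conj_refl (hν _), conj_refl (hν _)]

theorem isBad_conj (h2 : (2 : F) ≠ 0) (hd : ¬ IsSquare δ) {g u : GV F 2} (hg : g ∈ Wr F 2)
    (hgi : IsoV δ (g : MV F 2)) (hu : IsBad δ (u : MV F 2)) :
    IsBad δ ((g * u * g⁻¹ : GV F 2) : MV F 2) := by
  obtain ⟨cs, π, ν, hν, -, rfl⟩ := exists_normal_form h2 hd hg hgi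
  obtain ⟨r, s, r', s', hr, hs, hrs, hr', hs', hrs', e⟩ := hu
  have key : ∀ (j : Fin 2) (a b : Fin 4 → F), gB (G4 δ) a a ≠ 0 → gB (G4 δ) b b ≠ 0 →
      gB (G4 δ) a b = 0 →
      gB (G4 δ) ((cs j : M4 F) *ᵥ a) ((cs j : M4 F) *ᵥ a) ≠ 0 ∧
      gB (G4 δ) ((cs j : M4 F) *ᵥ b) ((cs j : M4 F) *ᵥ b) ≠ 0 ∧
      gB (G4 δ) ((cs j : M4 F) *ᵥ a) ((cs j : M4 F) *ᵥ b) = 0 := fun j a b ha hb hab => by
    simp only [Site.sim_gB (hν _).2]
    exact ⟨mul_ne_zero (hν _).1 ha, mul_ne_zero (hν _).1 hb, by rw [hab, mul_zero]⟩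
  have hval : ((glPure cs * glFactorPerm 4 π * u * (glPure cs * glFactorPerm 4 π)⁻¹ : GV F 2) : MV F 2)
      = site (π 0) (reflW δ ((cs (π 0) : M4 F) *ᵥ r) * reflW δ ((cs (π 0) : M4 F) *ᵥ s)) *
        site (π 1) (reflW δ ((cs (π 1) : M4 F) *ᵥ r') * reflW δ ((cs (π 1) : M4 F) *ᵥ s')) := by
    rw [conj_val, e, map_mul, conj_site, conj_site, conj_half (hν _), conj_half (hν _)]
  have hne : π 0 ≠ π 1 := π.injective.ne (by decide)
  obtain ⟨a1, a2, a3⟩ := key (π 0) r s hr hs hrs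
  obtain ⟨b1, b2, b3⟩ := key (π 1) r' s' hr' hs' hrs'
  rcases (show π 0 = 0 ∧ π 1 = 1 ∨ π 0 = 1 ∧ π 1 = 0 by omega) with ⟨p0, p1⟩ | ⟨p0, p1⟩
  · exact ⟨_, _, _, _, a1, a2, a3, b1, b2, b3, by rw [hval, p0, p1]⟩
  · refine ⟨_, _, _, _, b1, b2, b3, a1, a2, a3, ?_⟩
    rw [hval, p0, p1, site_comm (by decide)]

/-- **Conjugates of site root elements lying in the monomial group are site root elements.** -/
theorem siteU_of_conj_mem [Finite F] (h2 : (2 : F) ≠ 0) (hd : ¬ IsSquare δ) {g u : GV F t}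
    (hgi : IsoV δ (g : MV F t)) (hu : IsSiteU δ (u : MV F t)) (hmem : g * u * g⁻¹ ∈ Wr F t) :
    IsSiteU δ ((g * u * g⁻¹ : GV F t) : MV F t) := by
  classical
  obtain ⟨p, hp⟩ := CharP.exists F
  haveI := hp
  have hpp : p.Prime := (CharP.char_is_prime_or_zero F p).resolve_right (CharP.ringChar_ne_zero_of_finite F |> fun h e => by
    subst e; exact h (ringChar.eq F 0))
  haveI := Fact.mk hpp
  haveI : ExpChar F p := ExpChar.prime hpp
  have hp2 : p ≠ 2 := fun e => h2 (by subst e; exact_mod_cast CharP.cast_eq_zero F 2)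
  have hnil : ∀ A : M4 F, A ^ p = 1 → (A - 1) ^ p = 0 := fun A hA => by
    rw [sub_pow_char_of_commute p (Commute.one_right A), hA, one_pow, sub_self]
  obtain ⟨cs, π, ν, hν, -, hv⟩ := exists_normal_form h2 hd hmem
    (isoV_mul (isoV_mul hgi (siteU_isoV h2 hu)) (isoV_inv hgi))
  obtain ⟨i₀, w, x, hw, hww, hwx, hxx, hue⟩ := hu
  haveI : NeZero t := ⟨(Fin.pos i₀).ne'⟩
  have hA1 : (1 + sieM (G4 δ) w x) ^ p = 1 := by
    rw [Site.sie_pow h2 hww hwx, CharP.cast_eq_zero, zero_smul, Site.sieM_zero, add_zero]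
  have hu1 : (u : MV F t) ≠ 1 := fun e => Site.Par.ne_one ⟨hw, hww, hwx, hxx⟩
    (site_injective i₀ (by rw [← hue, e, site_one]))
  have hup : u ^ p = 1 := Units.ext (by
    rw [Units.val_pow_eq_pow_val, hue, ← siteHom_apply, ← map_pow, hA1, map_one, Units.val_one])
  have hvp : (g * u * g⁻¹) ^ p = 1 := by rw [conj_pow, hup, mul_one, mul_inv_cancel]
  have hfix : Fintype.card (Fin t → Fin 4) ≤
      2 * finrank F (Slots.Fix ((g * u * g⁻¹ : GV F t) : MV F t)) := by
    have h1 := Slots.half_le_fix hd i₀ w x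
    rw [← hue] at h1
    exact h1.trans (Nat.mul_le_mul le_rfl (Slots.fix_le_conj g u))
  have hπ : π = 1 := Equiv.ext fun a => by
    by_contra ha
    rw [hv] at hvp hfix
    exact absurd (Monomial.fix_perm_lt hpp hp2 ha hvp) (not_lt.2 hfix)
  rw [hπ, Monomial.glFactorPerm_one, mul_one] at hv
  have hpowp : ∀ n, (glPure cs) ^ n = glPure (fun i => cs i ^ n) := fun n => by
    induction n with
    | zero => simp only [pow_zero]; exact Monomial.glPure_one.symm
    | succ n ih =>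
      rw [pow_succ, ih, Monomial.glPure_mul]
      exact congrArg glPure (funext fun i => (pow_succ (cs i) n).symm)
  rw [hv, hpowp] at hvp
  obtain ⟨-, hsc⟩ := Monomial.of_form_one (σ := 1) (C := fun i => cs i ^ p)
    (by rw [Monomial.glFactorPerm_one, mul_one, hvp])
  choose c hc0 hc using hsc
  have hsurj : Function.Surjective (frobenius F p) := Finite.surjective_of_injective (frobenius_inj F p)
  choose r hr using fun i => hsurj (c i)
  simp only [frobenius_def] at hr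
  have hr0 : ∀ i, r i ≠ 0 := fun i e => hc0 i (by rw [← hr i, e, zero_pow hpp.ne_zero])
  set A : Fin t → M4 F := fun i => (r i)⁻¹ • (cs i : M4 F) with hA
  have hAp : ∀ i, A i ^ p = 1 := fun i => by
    rw [hA, smul_pow, inv_pow, hr, ← Units.val_pow_eq_pow_val, hc, smul_smul, inv_mul_cancel₀ (hc0 i),
      one_smul]
  have hprod : ∏ i, r i = 1 := by
    refine frobenius_inj F p ?_
    rw [frobenius_def, map_one, ← Finset.prod_pow, Finset.prod_congr rfl fun i _ => hr i]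
    have h1 : pureMat (fun i => c i • (1 : M4 F)) = 1 := by
      rw [← funext hc]; exact congrArg Units.val hvp
    rw [pureMat_smul, pureMat_one] at h1
    simpa using congrFun (congrFun h1 fun _ => 0) fun _ => 0
  have hvA : ((g * u * g⁻¹ : GV F t) : MV F t) = pureMat A := by
    rw [hA, pureMat_smul, Finset.prod_inv_distrib, hprod, inv_one, one_smul, hv]
    rfl
  have hAiso : ∀ i, IsoW δ (A i) := fun i => by
    set μ := (r i)⁻¹ * (r i)⁻¹ * ν i
    have h1 : (A i)ᵀ * G4 δ * A i = μ • G4 δ := by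
      rw [hA, transpose_smul, smul_mul_assoc, smul_mul_assoc, mul_smul_comm, smul_smul, (hν i).2,
        smul_smul]
    have hn : ∀ n, ((A i) ^ n)ᵀ * G4 δ * (A i) ^ n = μ ^ n • G4 δ := fun n => by
      induction n with
      | zero => simp
      | succ n ih =>
        rw [pow_succ, transpose_mul, show (A i)ᵀ * ((A i) ^ n)ᵀ * G4 δ * ((A i) ^ n * A i) =
          (A i)ᵀ * (((A i) ^ n)ᵀ * G4 δ * (A i) ^ n) * A i by simp only [mul_assoc], ih,
          mul_smul_comm (μ ^ n) (A i)ᵀ (G4 δ), smul_mul_assoc (μ ^ n) ((A i)ᵀ * G4 δ) (A i), h1, smul_smul,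
          pow_succ]
    have := hn p
    rw [hAp, transpose_one, one_mul, mul_one] at this
    have h3 : (μ ^ p - 1) • G4 δ = 0 := by rw [sub_smul, one_smul, ← this, sub_self]
    have hμ : μ = 1 := frobenius_inj F p (by
      rw [frobenius_def, map_one]
      exact sub_eq_zero.1 ((smul_eq_zero.1 h3).resolve_right (G4_ne_zero hd)))
    rw [IsoW, h1, hμ, one_smul]
  obtain ⟨i, hi⟩ : ∃ i, A i ≠ 1 := by
    by_contra h
    push Not at h
    refine hu1 ?_
    have : g * u * g⁻¹ = 1 := Units.ext (by rw [hvA, funext h, pureMat_one, Units.val_one])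
    rw [conj_eq_one_iff] at this
    rw [this, Units.val_one]
  obtain ⟨w', x', hpar, hAi⟩ := Site.exists_par h2 hd hnil (hAiso i) (hAp i) hi
  obtain ⟨Q, hQ⟩ := TensorPowSp.exists_emb_of_commute i fun X =>
    TensorPowSp.site_comm_pure i X (Function.update A i 1) (Function.update_self i 1 A)
  have hsplit : ((g * u * g⁻¹ : GV F t) : MV F t) =
      site i (1 + sieM (G4 δ) w' x') * TensorPowSp.emb i Q := by
    rw [hvA, ← hQ, ← hAi, ← TensorPowSp.pureMat_update_mul _ (Function.update_self i 1 A),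
      Function.update_idem, Function.update_eq_self]
  by_cases hQ1 : Q = 1
  · rw [hQ1, map_one, mul_one] at hsplit
    exact ⟨i, w', x', hpar.1, hpar.2.1, hpar.2.2.1, hpar.2.2.2, hsplit⟩
  · rw [hsplit] at hfix
    exact absurd (Slots.fix_two_lt h2 hd i hpar hQ1) (not_lt.2 hfix)

/-- **An isometry sending all site root elements into the monomial group is monomial.** -/
theorem mem_Wr_of_conj_siteU [Finite F] (h2 : (2 : F) ≠ 0) (hd : ¬ IsSquare δ) (ht : 0 < t)
    {g : GV F t} (hgi : IsoV δ (g : MV F t))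
    (hg : ∀ u : GV F t, IsSiteU δ (u : MV F t) → g * u * g⁻¹ ∈ Wr F t) : g ∈ Wr F t := by
  classical
  haveI : NeZero t := ⟨ht.ne'⟩
  have himg : ∀ i w x, Site.Par δ w x →
      ∃ j X, conjGL g (site i (1 + sieM (G4 δ) w x)) = site j X := by
    intro i w x h
    obtain ⟨hw, hww, hwx, hxx⟩ := h
    let u : GV F t := ⟨site i (1 + sieM (G4 δ) w x), site i (1 + sieM (G4 δ) w (-x)),
      by rw [site_mul, Site.sie_mul_neg h2 hww hwx, site_one],
      by rw [site_mul, Site.sie_neg_mul h2 hww hwx, site_one]⟩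
    have hu : IsSiteU δ (u : MV F t) := ⟨i, w, x, hw, hww, hwx, hxx, rfl⟩
    obtain ⟨j, w', x', -, -, -, -, e⟩ := siteU_of_conj_mem h2 hd hgi hu (hg u hu)
    exact ⟨j, _, e⟩
  choose! J X hJ using himg
  have hnc : ∀ i w x w' x', Site.Par δ w x → Site.Par δ w' x' → (∀ c : F, w' ≠ c • w) →
      J i w x = J i w' x' := by
    intro i w x w' x' h h' hne
    by_contra hJne
    have hcomm := site_comm hJne (X i w x) (X i w' x')
    rw [← hJ i w x h, ← hJ i w' x' h', ← map_mul, ← map_mul, site_mul, site_mul] at hcomm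
    obtain ⟨c, hc⟩ := Site.line_of_comm h2 hd h h' (site_injective i ((conjGL g).injective hcomm))
    exact hne c hc
  obtain ⟨w₀, hw₀, hw₀w⟩ := Site.exists_singular (δ := δ) h2
  obtain ⟨y₀, hwy, hyy⟩ := Site.exists_opposite h2 hd hw₀ hw₀w
  obtain ⟨x₀, hwx₀, hyx₀, -, hxx₀⟩ := Site.exists_perp hd hwy hw₀w 0
  have hP : Site.Par δ w₀ x₀ := ⟨hw₀, hw₀w, hwx₀, hxx₀⟩
  have hP' : Site.Par δ y₀ x₀ := ⟨fun e => by simp [e] at hwy, hyy, hyx₀, hxx₀⟩
  have hyne : ∀ c : F, y₀ ≠ c • w₀ := fun c e => by simp [e, hw₀w] at hwy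
  have hall : ∀ i w x, Site.Par δ w x → J i w x = J i w₀ x₀ := by
    intro i w x h
    by_cases hm : ∀ c : F, w ≠ c • w₀
    · exact (hnc i w₀ x₀ w x hP h hm).symm
    · push Not at hm
      obtain ⟨c, rfl⟩ := hm
      refine (hnc i y₀ x₀ (c • w₀) x hP' h fun c' e => h.1 ?_).symm.trans
        (hnc i w₀ x₀ y₀ x₀ hP hP' hyne).symm
      have := congrArg (gB (G4 δ) w₀) e
      simp [hw₀w, hwy] at this
      rw [e, ← this, zero_smul]
  set σ : Fin t → Fin t := fun i => J i w₀ x₀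
  have hrange : ∀ i, ∀ Z ∈ (siteHom (F := F) (k := 4) i).range,
      conjGL g Z ∈ (siteHom (F := F) (k := 4) (σ i)).range := by
    intro i
    let A : Subalgebra F (M4 F) :=
      ((siteHom (F := F) (k := 4) (σ i)).range).comap ((conjGL g).toAlgHom.comp (siteHom i))
    have hA : A = ⊤ := Site.span_par h2 hd A fun w x h => by
      suffices hz' : conjGL g (site i (1 + sieM (G4 δ) w x)) ∈
          (siteHom (F := F) (k := 4) (σ i)).range from hz'
      rw [hJ i w x h, hall i w x h]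
      exact ⟨_, rfl⟩
    rintro _ ⟨Z, rfl⟩
    exact (hA ▸ Algebra.mem_top : Z ∈ A)
  have hinj : Function.Injective σ := by
    intro i i' e
    by_contra hne
    have hex : ∀ Z, ∃ W, site (σ i) W = conjGL g (site i Z) := fun Z => hrange i (site i Z) ⟨Z, rfl⟩
    choose θ hθ using hex
    let L : M4 F →ₗ[F] M4 F :=
      { toFun := θ
        map_add' := fun a b => site_injective (σ i) (by
          rw [hθ, site_add, map_add, ← hθ, ← hθ, site_add])
        map_smul' := fun c a => site_injective (σ i) (by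
          rw [hθ, site_smul, map_smul, ← hθ, RingHom.id_apply, site_smul]) }
    have hL : Function.Injective L := fun a b hab => site_injective i ((conjGL g).injective (by
      rw [← hθ, ← hθ]; exact congrArg _ hab))
    obtain ⟨Z, hZ⟩ := (LinearMap.injective_iff_surjective.1 hL) (X i' w₀ x₀)
    have h1 : site i Z = site i' (1 + sieM (G4 δ) w₀ x₀) := (conjGL g).injective (by
      rw [← hθ, show θ Z = X i' w₀ x₀ from hZ, hJ i' w₀ x₀ hP]
      exact congrArg (fun l => site l (X i' w₀ x₀)) e)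
    have h3 : Commute (1 + sieM (G4 δ) w₀ x₀) (1 + sieM (G4 δ) y₀ x₀) := by
      refine site_injective i' ?_
      rw [← site_mul, ← site_mul, ← h1]
      exact site_comm hne _ _
    obtain ⟨c, hc⟩ := Site.line_of_comm h2 hd hP hP' h3
    exact hyne c hc
  let π : Equiv.Perm (Fin t) := Equiv.ofBijective σ (Finite.injective_iff_bijective.1 hinj)
  have hL : ∀ i Y, siteHom (F := F) (k := 4) i Y =
      conjMat (LinearEquiv.refl F (Vec F t)) (pureMat (Function.update 1 i Y)) := by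
    intro i Y
    rw [siteHom_apply, conjMat_refl, site]
  obtain ⟨cs, hcs⟩ := normaliser_pure (by norm_num : 0 < 4) hL iSup_range_eq_top
    (fun i => site_injective i) π hrange
  rw [conjMat_refl] at hcs
  rw [show g = glPure cs * glFactorPerm 4 π from Units.ext hcs]
  exact Monomial.form_mem cs π

end Cfsg.Agent.MaxSub.OrthFour
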