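import Cfsg.Agent.MaxSub.OrthFour.CountPairs
import Cfsg.Agent.MaxSub.OrthFour.Wreath
import Mathlib.GroupTheory.NoncommPiCoprod
import Mathlib.GroupTheory.GroupAction.FixingSubgroup

/-!
An overgroup of the monomial subgroup of a tensor power of an orthogonal space of dimension four of
minus type in which the centralisers of half turns are monomial, and in which half turns leaving
the monomial group come with partners, is monomial: the partners need more sites than there are.
-/

set_option autoImplicit false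
set_option linter.unusedSectionVars false
set_option maxHeartbeats 800000

namespace Cfsg.Agent.MaxSub.OrthFour

open Matrix Cfsg.Geo Cfsg.Agent.NotMax Cfsg.Agent.GeoClasses
open Cfsg.Agent.MaxSub.TensorPowSp (gV fG site_injective site_comm_pure)
open Cfsg.Agent.MaxSub.OrthWreathBig (gB cr sieM)
open scoped MatrixGroups Matrix

variable {F : Type*} [Field F] [Finite F] {δ : F} {t : ℕ} {M : Subgroup (GV F t)}

namespace Count

lemma site_pow' (i : Fin t) (A : M4 F) (n : ℕ) : (site i (A ^ n) : MV F t) = site i A ^ n := by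
  induction n with
  | zero => rw [pow_zero, pow_zero, site_one]
  | succ n ih => rw [pow_succ, pow_succ, ← ih, site_mul]

/-- An element fixing all but two points, of odd order, fixes everything it permutes. -/
lemma perm_pair_fix {α : Type*} {p : ℕ} (hp : Odd p) {π : Equiv.Perm α} (hπ : π ^ p = 1) {a b : α}
    (ha : π a = a ∨ π a = b) (hb : π b = a ∨ π b = b) : π a = a := by
  rcases ha with ha | ha
  · exact ha
  obtain ⟨m, hm⟩ := hp
  rcases hb with hb | hb
  · have h2 : ∀ n : ℕ, (π ^ (2 * n)) a = a := by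
      intro n
      induction n with
      | zero => rfl
      | succ n ih =>
        rw [Nat.mul_succ, pow_add, Equiv.Perm.mul_apply, pow_two, Equiv.Perm.mul_apply, ha, hb, ih]
    have e : (π ^ p) a = b := by
      rw [hm, pow_succ', Equiv.Perm.mul_apply, h2, ha]
    rw [hπ] at e
    rw [ha, ← e]; rfl
  · obtain rfl : a = b := π.injective (ha.trans hb.symm)
    exact hb

theorem bad_false {g h : GV F t} {i0 : Fin t} {r s : Fin 4 → F} {σ : Equiv.Perm (Fin t)}
    (C : Cfg δ M g h i0 r s σ) : False := by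
  classical
  obtain ⟨p, hchar⟩ := CharP.exists F
  haveI hpF : Fact p.Prime := ⟨CharP.char_is_prime F p⟩
  have hodd : Odd p := C.p_odd
  have hp3 : 3 ≤ p := by
    obtain ⟨m, hm⟩ := hodd
    have := hpF.out.two_le
    omega
  have h2 := C.hM.two
  have hd := C.hM.nsq
  -- one representative of each pair
  set R : Finset (Fin t) := Finset.univ.filter fun i => i < σ i with hR
  have hRmem : ∀ {i}, i ∈ R ↔ i < σ i := fun {i} => by simp [hR]
  have hRsep : ∀ {j l}, j ∈ R → l ∈ R → j ≠ l → j ≠ σ l := by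
    intro j l hj hl hne e
    rw [hRmem] at hj hl
    rw [e, C.invol] at hj
    exact lt_asymm hj hl
  have hRcard : R.card + R.card = t := by
    have hc : Rᶜ = R.map σ.toEmbedding := by
      ext i
      simp only [Finset.mem_compl, Finset.mem_map, Equiv.coe_toEmbedding, hRmem, not_lt]
      constructor
      · intro hi
        exact ⟨σ i, by rw [C.invol]; exact lt_of_le_of_ne hi (C.fpf i), C.invol i⟩
      · rintro ⟨l, hl, rfl⟩
        rw [C.invol]; exact hl.le
    have := Finset.card_add_card_compl R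
    rw [hc, Finset.card_map, Fintype.card_fin] at this
    exact this
  set N : Finset (Fin t) := R.filter fun j => C.NF j with hN
  set K : Finset (Fin t) := R.filter fun j => ¬ C.NF j with hK
  have hNK : N.card + K.card = R.card := Finset.card_filter_add_card_filter_not _
  -- supports
  let S : Fin t → Finset (Fin t) := fun j =>
    Finset.univ.filter fun a => a ∈ Cfg.supp p δ g h σ j
  have hS : ∀ {j a}, a ∈ S j ↔ a ∈ Cfg.supp p δ g h σ j := fun {j a} => by simp [S]
  have hS2 : ∀ j ∈ N, 2 ≤ (S j).card := by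
    intro j hj
    obtain ⟨a, ha, b, hb, hab⟩ := C.supp_two (p := p) (Finset.mem_filter.1 hj).2
    exact Finset.one_lt_card.2 ⟨a, hS.2 ha, b, hS.2 hb, hab⟩
  have hSdisj : ∀ j ∈ N, ∀ l ∈ N, j ≠ l → Disjoint (S j) (S l) := by
    intro j hj l hl hne
    refine Finset.disjoint_left.2 fun a haj hal => ?_
    exact C.supp_disjoint (p := p) hne
      (hRsep (Finset.mem_filter.1 hj).1 (Finset.mem_filter.1 hl).1 hne) (Finset.mem_filter.1 hj).2
      (hS.1 haj) (hS.1 hal)
  set D : Finset (Fin t) := N.filter fun j => (S j).card = 2 with hD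
  set E : Finset (Fin t) := N.filter fun j => ¬ (S j).card = 2 with hE
  have hDE : D.card + E.card = N.card := Finset.card_filter_add_card_filter_not _
  have hDN : D ⊆ N := Finset.filter_subset _ _
  have hi0 : ∀ J : Finset (Fin t), i0 ∉ J.biUnion S := by
    intro J hmem
    obtain ⟨j, -, hj⟩ := Finset.mem_biUnion.1 hmem
    exact C.i0_not_supp (p := p) j (hS.1 hj)
  have hcount1 : 2 * D.card + 3 * E.card + 1 ≤ t := by
    have hcard : (N.biUnion S).card = ∑ j ∈ N, (S j).card := Finset.card_biUnion hSdisj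
    have hsum : 2 * D.card + 3 * E.card ≤ ∑ j ∈ N, (S j).card := by
      rw [← Finset.sum_filter_add_sum_filter_not N (fun j => (S j).card = 2)]
      refine add_le_add ?_ ?_
      · rw [mul_comm]
        exact Finset.card_nsmul_le_sum _ _ 2 fun j hj => (Finset.mem_filter.1 hj).2.ge
      · rw [mul_comm]
        refine Finset.card_nsmul_le_sum _ _ 3 fun j hj => ?_
        obtain ⟨hjN, hj2⟩ := Finset.mem_filter.1 hj
        have := hS2 j hjN
        omega
    have hle : (N.biUnion S).card ≤ (Finset.univ.erase i0).card :=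
      Finset.card_le_card fun a ha =>
        Finset.mem_erase.2 ⟨fun e => hi0 N (e ▸ ha), Finset.mem_univ a⟩
    rw [Finset.card_erase_of_mem (Finset.mem_univ i0), Finset.card_univ, Fintype.card_fin] at hle
    have := Fin.pos i0
    omega
  set U : Finset (Fin t) := (Finset.univ.erase i0) \ D.biUnion S with hU
  have hUcard : U.card + 2 * D.card + 1 = t := by
    have hsub : D.biUnion S ⊆ Finset.univ.erase i0 := fun a ha =>
      Finset.mem_erase.2 ⟨fun e => hi0 D (e ▸ ha), Finset.mem_univ a⟩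
    have h1 := Finset.card_sdiff_add_card_eq_card hsub
    rw [← hU] at h1
    have hsum2 : ∑ j ∈ D, (S j).card = D.card * 2 := by
      refine (Finset.sum_const_nat fun j hj => ?_)
      exact (Finset.mem_filter.1 (show j ∈ N.filter fun j => (S j).card = 2 from hj)).2
    rw [Finset.card_erase_of_mem (Finset.mem_univ i0), Finset.card_univ, Fintype.card_fin,
      Finset.card_biUnion fun j hj l hl => hSdisj j (hDN hj) l (hDN hl), hsum2] at h1
    have := Fin.pos i0
    omega
  -- the commuting permutations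
  obtain ⟨w, w', x, x', hw0, -, hw, -, hx, hx', -, hxx, hxx', hperp, -⟩ := exists_noncomm hd
  choose e1 he1 he1' using fun j => C.exists_gen j (uUnit_isU h2 hw0 hw hx hxx)
  choose e2 he2 he2' using fun j => C.exists_gen j (uUnit_isU h2 hw0 hw hx' hxx')
  have hfst : ∀ j (m n : ℕ), e1 j ^ m * e2 j ^ n = 1 → ((e1 j) ^ m = 1 ∧ (e2 j) ^ n = 1) := by
    intro j m n e
    have e' := congrArg (fun z : GL (Fin 4) F × GL (Fin 4) F => (z.1 : M4 F) *ᵥ x) e
    simp only [Prod.fst_mul, Prod.pow_fst, Units.val_mul, Units.val_pow_eq_pow_val, he1', he2',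
      Prod.fst_one, Units.val_one, one_mulVec] at e'
    rw [show ((uUnit h2 hw hx : GL (Fin 4) F) : M4 F) = 1 + sieM (G4 δ) w x from rfl,
      show ((uUnit h2 hw hx' : GL (Fin 4) F) : M4 F) = 1 + sieM (G4 δ) w x' from rfl,
      add_sieM_pow h2 hw hx, add_sieM_pow h2 hw hx',
      add_sieM_mul h2 hw (by simp [hx]) (by simp [hx']), add_sieM_mulVec, hx] at e'
    simp only [map_add, map_smul, LinearMap.add_apply, LinearMap.smul_apply, smul_eq_mul,
      gB_symm δ x' x, hperp, mul_zero, add_zero, zero_smul, sub_zero, zero_sub,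
      add_eq_left, neg_eq_zero, smul_eq_zero, mul_eq_zero, hxx, hw0, or_false] at e'
    have hm : (e1 j) ^ m = 1 := by
      obtain ⟨k, rfl⟩ := (CharP.cast_eq_zero_iff F p m).1 e'
      rw [pow_mul, C.gen_pow (he1 j), one_pow]
    rw [hm, one_mul] at e
    exact ⟨hm, e⟩
  have hcomm12 : ∀ j, e1 j * e2 j = e2 j * e1 j := by
    intro j
    have hz : e1 j * e2 j * (e1 j)⁻¹ * (e2 j)⁻¹ ∈ Gam δ g h σ j :=
      mul_mem (mul_mem (mul_mem (Subgroup.subset_closure (he1 j)) (Subgroup.subset_closure (he2 j)))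
        (inv_mem (Subgroup.subset_closure (he1 j)))) (inv_mem (Subgroup.subset_closure (he2 j)))
    have hz1 : (e1 j * e2 j * (e1 j)⁻¹ * (e2 j)⁻¹).1 = 1 := by
      have : (e1 j).1 * (e2 j).1 = (e2 j).1 * (e1 j).1 := by
        rw [he1', he2']
        refine Units.ext ?_
        show (1 + sieM (G4 δ) w x) * (1 + sieM (G4 δ) w x') = _ * _
        rw [add_sieM_mul h2 hw hx hx']
        show _ = (1 + sieM (G4 δ) w x') * (1 + sieM (G4 δ) w x)
        rw [add_sieM_mul h2 hw hx' hx, add_comm x' x]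
      simp only [Prod.fst_mul, Prod.fst_inv]
      rw [this, mul_inv_cancel_right, mul_inv_cancel]
    obtain ⟨hzc, -⟩ := C.scalar_fst hz (c := 1) (by rw [hz1, one_smul]; rfl)
    have hcj : e1 j * e2 j * (e1 j)⁻¹ = (e1 j * e2 j * (e1 j)⁻¹ * (e2 j)⁻¹) * e2 j := by group
    have hp1 := congrArg (· ^ p) hcj
    simp only [conj_pow, (hzc (e2 j)).mul_pow, C.gen_pow (he2 j), mul_one, mul_inv_cancel] at hp1
    have := C.eq_one_of_fst hz hz1 hp1.symm
    rw [mul_inv_eq_one, mul_inv_eq_iff_eq_mul] at this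
    exact this
  have hord : ∀ {j} {e : GL (Fin 4) F × GL (Fin 4) F}, e ∈ Gens δ g h σ j → orderOf e = p :=
    fun {j e} he => orderOf_eq_prime (C.gen_pow he) fun e' =>
      he.1.ne_one (by rw [e']; rfl)
  let A : K → Type _ := fun l => ↥(Subgroup.zpowers (e1 l)) × ↥(Subgroup.zpowers (e2 l))
  have hcq : ∀ (l : K) (a : ↥(Subgroup.zpowers (e1 l))) (b : ↥(Subgroup.zpowers (e2 l))),
      Commute (a : GL (Fin 4) F × GL (Fin 4) F) b := by
    intro l a b
    obtain ⟨m, hm⟩ := Subgroup.mem_zpowers_iff.1 a.2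
    obtain ⟨n, hn⟩ := Subgroup.mem_zpowers_iff.1 b.2
    rw [← hm, ← hn]
    exact Commute.zpow_zpow (hcomm12 l) m n
  let q : ∀ l : K, A l →* ↥(Gam δ g h σ l) := fun l =>
    (MonoidHom.noncommCoprod (Subgroup.zpowers (e1 l)).subtype (Subgroup.zpowers (e2 l)).subtype
      (hcq l)).codRestrict (Gam δ g h σ l) fun z =>
        mul_mem (Subgroup.zpowers_le.2 (Subgroup.subset_closure (he1 l)) z.1.2)
          (Subgroup.zpowers_le.2 (Subgroup.subset_closure (he2 l)) z.2.2)
  have hqval : ∀ (l : K) (z : A l), (q l z : GL (Fin 4) F × GL (Fin 4) F) =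
      (z.1 : GL (Fin 4) F × GL (Fin 4) F) * z.2 := fun l z => rfl
  have hzp : ∀ (l : K) (z : A l), z ^ p = 1 := by
    intro l z
    refine Prod.ext (Subtype.ext ?_) (Subtype.ext ?_)
    · obtain ⟨m, hm⟩ := Subgroup.mem_zpowers_iff.1 z.1.2
      rw [Prod.pow_fst, SubgroupClass.coe_pow, ← hm, ← zpow_natCast, ← _root_.zpow_mul, mul_comm,
        _root_.zpow_mul, zpow_natCast, C.gen_pow (he1 l), _root_.one_zpow]
      rfl
    · obtain ⟨m, hm⟩ := Subgroup.mem_zpowers_iff.1 z.2.2
      rw [Prod.pow_snd, SubgroupClass.coe_pow, ← hm, ← zpow_natCast, ← _root_.zpow_mul, mul_comm,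
        _root_.zpow_mul, zpow_natCast, C.gen_pow (he2 l), _root_.one_zpow]
      rfl
  let f : ∀ l : K, A l →* Equiv.Perm (Fin t) := fun l => (C.pj l).comp (q l)
  have hpjcomm : ∀ l l' : K, l ≠ l' → ∀ (y : ↥(Gam δ g h σ l)) (y' : ↥(Gam δ g h σ l')),
      Commute (C.pj l y) (C.pj l' y') := by
    intro l l' hne y y'
    refine Commute.map ?_ (sitePerm F t)
    exact Subtype.ext (C.phi_commute (p := p) (fun e => hne (Subtype.ext e))
      (hRsep (Finset.mem_filter.1 l.2).1 (Finset.mem_filter.1 l'.2).1 fun e => hne (Subtype.ext e))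
      y.1 y'.1).eq
  have hfc : Pairwise fun l l' => ∀ a b, Commute (f l a) (f l' b) := fun l l' hne a b =>
    hpjcomm l l' hne _ _
  let Θ := MonoidHom.noncommPiCoprod f hfc
  have hinj : Function.Injective Θ := by
    refine (injective_iff_map_eq_one Θ).2 fun z hz => funext fun l => ?_
    have hsplit : z = Pi.mulSingle l (z l) * Function.update z l 1 := funext fun i => by
      rcases eq_or_ne i l with rfl | hi <;> simp [*]
    rw [hsplit, map_mul, MonoidHom.noncommPiCoprod_mulSingle] at hz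
    have hrest : ∀ d : ↥(Gam δ g h σ l), Commute (C.pj l d) (Θ (Function.update z l 1)) := by
      intro d
      refine Finset.noncommProd_commute _ _ _ _ fun i _ => ?_
      rcases eq_or_ne i l with rfl | hi
      · rw [Function.update_self, map_one]; exact Commute.one_right _
      · exact hpjcomm l i hi.symm d _
    have hfl : f l (z l) = (Θ (Function.update z l 1))⁻¹ := eq_inv_of_mul_eq_one_left hz
    have hYgam := (q l (z l)).2
    have hYp : (q l (z l) : GL (Fin 4) F × GL (Fin 4) F) ^ p = 1 := by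
      rw [← SubgroupClass.coe_pow, ← map_pow, hzp, map_one, OneMemClass.coe_one]
    have hY1 : (q l (z l) : GL (Fin 4) F × GL (Fin 4) F).1 = 1 := by
      refine Units.ext (Unip.eq_one_of_commute_all (p := p) hd h2
        ⟨(C.gam_spec hYgam).1, ?_⟩ ?_)
      · rw [← Units.val_pow_eq_pow_val, ← Prod.pow_fst, hYp]; rfl
      intro u hu
      obtain ⟨d, hdg, hd1⟩ := C.exists_gen l hu
      subst hd1
      obtain ⟨c, hc⟩ := C.ker_scalar (p := p) (Finset.mem_filter.1 l.2).2
        (q l (z l) * ⟨d, Subgroup.subset_closure hdg⟩ * (q l (z l))⁻¹ *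
          (⟨d, Subgroup.subset_closure hdg⟩ : ↥(Gam δ g h σ l))⁻¹) (by
        simp only [map_mul, map_inv]
        have : Commute (f l (z l)) (C.pj l ⟨d, Subgroup.subset_closure hdg⟩) := by
          rw [hfl]; exact (hrest _).symm.inv_left
        show f l (z l) * _ * (f l (z l))⁻¹ * _ = 1
        rw [this.eq, mul_inv_cancel_right, mul_inv_cancel])
      have hcu := congrArg (· * ((d.1 : M4 F) * ((q l (z l)).1.1 : M4 F))) hc
      simp only [Subgroup.coe_mul, InvMemClass.coe_inv, Prod.fst_mul, Prod.fst_inv, smul_mul_assoc,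
        one_mul] at hcu
      rw [← Units.val_mul d.1, ← Units.val_mul] at hcu
      refine commute_of_smul (hdg.1.unip (p := p) h2).pw (c := c) ?_
      rw [← Units.val_mul, ← Units.val_mul]
      simpa [mul_assoc] using hcu
    have hY : (q l (z l) : GL (Fin 4) F × GL (Fin 4) F) = 1 := C.eq_one_of_fst hYgam hY1 hYp
    rw [hqval] at hY
    obtain ⟨m, hm⟩ := mem_powers_iff_mem_zpowers.2 (z l).1.2
    obtain ⟨n, hn⟩ := mem_powers_iff_mem_zpowers.2 (z l).2.2
    rw [← hm, ← hn] at hY
    obtain ⟨hm1, hn1⟩ := hfst l m n hY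
    exact Prod.ext (Subtype.ext (hm.symm.trans hm1)) (Subtype.ext (hn.symm.trans hn1))
  have hcardP : Nat.card ↥Θ.range = p ^ (2 * K.card) := by
    rw [← Nat.card_congr (MonoidHom.ofInjective hinj).toEquiv, Nat.card_pi]
    have : ∀ l : K, Nat.card (A l) = p ^ 2 := fun l => by
      rw [Nat.card_prod, Nat.card_zpowers, Nat.card_zpowers, hord (he1 l), hord (he2 l), pow_two]
    rw [Finset.prod_congr rfl fun l _ => this l, Finset.prod_const, Finset.card_univ,
      Fintype.card_coe, ← pow_mul]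
  have hPfix : Θ.range ≤ fixingSubgroup (Equiv.Perm (Fin t)) (Uᶜ : Set (Fin t)) := by
    rw [MonoidHom.noncommPiCoprod_range]
    refine iSup_le fun l => ?_
    rintro _ ⟨z, rfl⟩
    rw [mem_fixingSubgroup_iff]
    intro a ha
    show C.pj l (q l z) a = a
    rw [Set.mem_compl_iff, Finset.mem_coe, hU, Finset.mem_sdiff, not_and_or, not_not,
      Finset.mem_erase, not_and_or] at ha
    rcases ha with (ha | ha) | ha
    · rw [not_ne_iff.1 ha]; exact C.pj_fix (p := p) l _
    · exact absurd (Finset.mem_univ a) ha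
    obtain ⟨j, hj, haS⟩ := Finset.mem_biUnion.1 ha
    obtain ⟨hjN, hj2⟩ := Finset.mem_filter.1 hj
    obtain ⟨hjR, hjNF⟩ := Finset.mem_filter.1 hjN
    obtain ⟨hlR, hlNF⟩ := Finset.mem_filter.1 l.2
    have hne : j ≠ l := fun e => hlNF (e ▸ hjNF)
    obtain ⟨u, v, huv, hSj⟩ := Finset.card_eq_two.1 hj2
    have hpres : ∀ b ∈ S j, C.pj l (q l z) b = u ∨ C.pj l (q l z) b = v := fun b hb => by
      have := hS.2 (C.pj_supp (p := p) hne (hRsep hjR hlR hne) (q l z) (hS.1 hb))
      simpa [hSj] using this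
    have hπ : C.pj l (q l z) ^ p = 1 := by
      rw [← map_pow, ← map_pow, hzp, map_one, map_one]
    have hu' := hpres u (by simp [hSj])
    have hv' := hpres v (by simp [hSj])
    rw [hSj, Finset.mem_insert, Finset.mem_singleton] at haS
    rcases haS with rfl | rfl
    · exact perm_pair_fix hodd hπ hu' hv'
    · exact perm_pair_fix hodd hπ hv'.symm hu'.symm
  have hcount2 : 3 * (2 * K.card) ≤ U.card := by
    refine three_mul_exp_le hp3 U _ Θ.range ?_ (fun π hπ a ha => ?_) hcardP
    · rintro _ ⟨a, rfl⟩ _ ⟨b, rfl⟩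
      rw [← map_mul, ← map_mul]
      congr 1
      funext l
      refine Prod.ext ?_ ?_ <;> exact Std.Commutative.comm (op := (· * ·)) _ _
    · exact (mem_fixingSubgroup_iff _).1 (hPfix hπ) a (by simpa using ha)
  omega

end Count

/-- If the centralisers of half turns are monomial and half turns leaving the monomial group have
partners, the overgroup is monomial. -/
theorem monomial_big (ht : 3 ≤ t) (hM : Over δ M)
    (hhalf : ∀ x ∈ M, IsHalf δ (x : MV F t) → CenLe M (x : MV F t))
    (hpart : ∀ {h g : GV F t}, h ∈ M → IsHalf δ (h : MV F t) → g ∈ M → g * h * g⁻¹ ∉ Wr F t →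
      ∃ σ : Equiv.Perm (Fin t), (∀ i, σ i ≠ i) ∧ (∀ i, σ (σ i) = i) ∧
        (∀ (i : Fin t) (A : M4 F),
          (∃ u : GV F t, (u : MV F t) = site i A ∧ IsSiteU δ (u : MV F t)) →
          ∃ B : M4 F, (∃ u : GV F t, (u : MV F t) = site (σ i) B ∧ IsSiteU δ (u : MV F t)) ∧
            Commute (site i A * site (σ i) B) ((g * h * g⁻¹ : GV F t) : MV F t)) ∧
        ∀ (i : Fin t) (X : M4 F), IsoW δ X → (∀ c : F, X ≠ c • 1) →
          ¬ Commute (site i X) ((g * h * g⁻¹ : GV F t) : MV F t)) :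
    M ≤ Wr F t := by
  classical
  obtain ⟨p, hchar⟩ := CharP.exists F
  haveI : Fact p.Prime := ⟨CharP.char_is_prime F p⟩
  have hsites : ∀ (i : Fin t) (A : M4 F) (u : GV F t), IsoW δ A → (u : MV F t) = site i A →
      u ∈ M := by
    intro i A u hA hu
    refine hM.mem ?_ (site_mem_Om hM.two hM.nsq ht hA hu)
    have e : u = glPure (Function.update (1 : Fin t → GL (Fin 4) F) i
        (Matrix.GeneralLinearGroup.mkOfDetNeZero A (hA.sim.det_ne hM.nsq))) :=
      Units.ext (by rw [hu, Count.coe_glPure_update]; rfl)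
    rw [e]; exact Count.glPure_mem_Wr _
  have good : ∀ h ∈ M, IsHalf δ (h : MV F t) → ∀ g ∈ M, g * h * g⁻¹ ∈ Wr F t := by
    intro h hh hH g hg
    by_contra hbad
    obtain ⟨σ, hσ, hσ2, hpar, hsingle⟩ := hpart hh hH hg hbad
    have hcen := hhalf h hh hH
    obtain ⟨i0, r, s, hr, hs, hrs, he⟩ := hH
    refine Count.bad_false (M := M) (g := g) (h := h) (i0 := i0) (r := r) (s := s) (σ := σ)
      ⟨hM, hsites, hg, hr, hs, hrs, he, ?_, hσ, hσ2, ?_, ?_,
        fun x u => siteU_of_conj_mem hM.two hM.nsq⟩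
    · intro y hy hyh
      exact hcen y hy (by rw [← Units.val_mul, ← Units.val_mul, hyh])
    · intro i A hA
      obtain ⟨w, x, hw0, hw, hx, hxx, eA⟩ := id hA
      obtain ⟨B, ⟨v', hv', hB⟩, hc⟩ := hpar i A
        ⟨glPure (Function.update (1 : Fin t → GL (Fin 4) F) i A), Count.coe_glPure_update i A,
          ⟨i, w, x, hw0, hw, hx, hxx, by rw [Count.coe_glPure_update, eA]⟩⟩
      rw [hv'] at hB
      have hBU := Count.isU_of_isSiteU hM.two hB
      obtain ⟨v, y, hv0, hv, hy, hyy, eB⟩ := id hBU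
      refine ⟨Count.uUnit hM.two hv hy, ⟨v, y, hv0, hv, hy, hyy, rfl⟩, Units.ext ?_⟩
      rw [Units.val_mul _ (g * h * g⁻¹), Units.val_mul (g * h * g⁻¹), Count.coe_pairGV (hσ i).symm]
      rw [eB] at hc
      exact hc.eq
    · intro i X u hX hu hc
      by_contra hne
      refine hsingle i (X : M4 F) hX (not_exists.1 hne) ?_
      rw [← hu]
      exact congrArg Units.val hc
  intro g hg
  refine mem_Wr_of_conj_siteU hM.two hM.nsq (by omega) (hM.isoV hg) fun u hu => ?_
  have huM : u ∈ M := by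
    obtain ⟨i, w, x, hw0, hw, hx, hxx, e⟩ := id hu
    exact hsites i _ u (Count.add_sieM_isoW hM.two hw hx) e
  obtain ⟨i, w, x, hw0, hw, hx, hxx, eu⟩ := hu
  have h2 := hM.two
  obtain ⟨fr⟩ : Nonempty (Stab.Frame δ w) := ⟨Stab.exists_frame hM.nsq h2 hw0 hw |>.some⟩
  set z := gB (G4 δ) fr.e₂ x • fr.e₁ - gB (G4 δ) fr.e₁ x • fr.e₂ with hz
  have hwz : gB (G4 δ) w z = 0 := by simp [hz, fr.we₁, fr.we₂]
  have hxz : gB (G4 δ) x z = 0 := by
    simp only [hz, map_sub, map_smul, smul_eq_mul, gB_symm δ x fr.e₁, gB_symm δ x fr.e₂]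
    ring
  have hzz : gB (G4 δ) z z ≠ 0 := by
    have e : gB (G4 δ) z z =
        gB (G4 δ) fr.e₁ fr.e₁ * gB (G4 δ) fr.e₂ fr.e₂ * gB (G4 δ) x x := by
      have hxx' := fr.gB_eq x x
      rw [hx, mul_zero, zero_mul, zero_add, zero_add] at hxx'
      simp only [hz, map_sub, map_smul, LinearMap.sub_apply, LinearMap.smul_apply, smul_eq_mul,
        fr.e₁₂, fr.e₂₁, mul_zero, sub_zero, zero_sub]
      rw [hxx']
      field_simp [fr.n₁, fr.n₂]
      ring
    rw [e]
    exact mul_ne_zero (mul_ne_zero fr.n₁ fr.n₂) hxx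
  -- the half turn inverting the root element
  have hHiso : IsoW δ (reflW δ x * reflW δ z) :=
    Count.isoW_mul (HalfBig.refl_iso h2 hxx) (HalfBig.refl_iso h2 hzz)
  set H := Matrix.GeneralLinearGroup.mkOfDetNeZero (reflW δ x * reflW δ z)
    (hHiso.sim.det_ne hM.nsq) with hHdef
  set h : GV F t := glPure (Function.update (1 : Fin t → GL (Fin 4) F) i H) with hh
  have hhval : (h : MV F t) = site i (reflW δ x * reflW δ z) := by
    rw [hh, Count.coe_glPure_update]; rfl
  have hhM : h ∈ M := hsites i _ h hHiso hhval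
  have hhalf' : IsHalf δ (h : MV F t) := ⟨i, x, z, hxx, hzz, hxz, hhval⟩
  have hHw : (reflW δ x * reflW δ z) *ᵥ w = w := by
    rw [Count.half_mulVec hxz, gB_symm δ x w, hx, gB_symm δ z w, hwz]; simp
  have hHx : (reflW δ x * reflW δ z) *ᵥ x = -x := by
    rw [Count.half_mulVec hxz, gB_symm δ z x, hxz,
      show (gB (G4 δ) x x)⁻¹ * (2 * gB (G4 δ) x x) = 2 by field_simp]
    module
  have hinv : h * u = u⁻¹ * h := by
    refine eq_inv_mul_iff_mul_eq.2 (Units.ext ?_)
    have hc : (H : M4 F) * (1 + sieM (G4 δ) w x) * ((H⁻¹ : GL (Fin 4) F) : M4 F) =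
        1 + sieM (G4 δ) w (-x) := by
      rw [conj_sieM (A := H) hHiso]
      show 1 + sieM (G4 δ) ((reflW δ x * reflW δ z) *ᵥ w) ((reflW δ x * reflW δ z) *ᵥ x) = _
      rw [hHw, hHx]
    rw [Units.val_mul, Units.val_mul, hhval, eu, site_mul, site_mul]
    congr 1
    have hc' : (H : M4 F) * (1 + sieM (G4 δ) w x) = (1 + sieM (G4 δ) w (-x)) * (H : M4 F) := by
      rw [← hc, mul_assoc _ _ (H : M4 F), Units.inv_mul, mul_one]
    change (1 + sieM (G4 δ) w x) * ((H : M4 F) * (1 + sieM (G4 δ) w x)) = (H : M4 F)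
    rw [hc', ← mul_assoc, Count.add_sieM_neg h2 hw hx, one_mul]
  have k1 := good h hhM hhalf' g hg
  have k2 := good h hhM hhalf' (g * u) (mul_mem hg huM)
  have hsq : g * (u * u) * g⁻¹ ∈ Wr F t := by
    have : g * (u * u) * g⁻¹ = (g * u * h * (g * u)⁻¹) * (g * h * g⁻¹)⁻¹ := by
      have e : h * u⁻¹ = u * h := by
        rw [mul_inv_eq_iff_eq_mul, mul_assoc, hinv, mul_inv_cancel_left]
      rw [show g * u * h * (g * u)⁻¹ = g * u * (h * u⁻¹) * g⁻¹ by group, e]
      group
    rw [this]
    exact mul_mem k2 (inv_mem k1)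
  have hup : u ^ p = 1 := Units.ext (by
    rw [Units.val_pow_eq_pow_val, eu, ← Count.site_pow', Units.val_one,
      (Count.IsU.unip (p := p) h2 ⟨w, x, hw0, hw, hx, hxx, rfl⟩).pw, site_one])
  have hodd : Odd p := by
    rcases (Fact.out : p.Prime).eq_two_or_odd' with e | e
    · subst e; exact absurd (CharP.cast_eq_zero F 2) (by exact_mod_cast h2)
    · exact e
  obtain ⟨m, hm⟩ := hodd
  have hu2 : u = (u * u) ^ (m + 1) := by
    rw [← pow_two, ← pow_mul, show 2 * (m + 1) = p + 1 by omega, pow_succ, hup, one_mul]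
  rw [hu2, ← conj_pow]
  exact pow_mem hsq _

end Cfsg.Agent.MaxSub.OrthFour
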