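import Cfsg.Agent.MaxSub.OrthFour.Base

/-!
Isometries of prime order equal to the characteristic on an orthogonal space of dimension four of
minus type: they fix one singular line and are root elements.
-/

set_option autoImplicit false
set_option linter.unusedSectionVars false

namespace Cfsg.Agent.MaxSub.OrthFour.Count

open Matrix Cfsg.Agent.NotMax Cfsg.Agent.GeoClasses
open Cfsg.Agent.MaxSub.TensorPowSp (gV fG)
open Cfsg.Agent.MaxSub.OrthWreathBig (gB cr sieM cr_mulVec cr_mul)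
open scoped MatrixGroups Matrix

variable {F : Type*} [Field F] {δ : F}

/-- A root element of one site. -/
def IsU (δ : F) (A : M4 F) : Prop :=
  ∃ w x, w ≠ 0 ∧ gB (G4 δ) w w = 0 ∧ gB (G4 δ) w x = 0 ∧ gB (G4 δ) x x ≠ 0 ∧
    A = 1 + sieM (G4 δ) w x

/-- An isometry of order dividing the prime. -/
structure Unip (δ : F) (p : ℕ) (A : M4 F) : Prop where
  iso : IsoW δ A
  pw : A ^ p = 1

lemma isoW_gB {A : M4 F} (h : IsoW δ A) (x y : Fin 4 → F) :
    gB (G4 δ) (A *ᵥ x) (A *ᵥ y) = gB (G4 δ) x y := by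
  simp only [OrthWreathBig.gB_apply, fG]
  rw [← Matrix.vecMul_transpose, Matrix.vecMul_vecMul, Matrix.dotProduct_mulVec,
    Matrix.vecMul_vecMul]
  rw [show Aᵀ * G4 δ * A = G4 δ from h]

lemma isoW_of_gB {A : M4 F}
    (h : ∀ x y, gB (G4 δ) (A *ᵥ x) (A *ᵥ y) = gB (G4 δ) x y) : IsoW δ A := by
  refine Matrix.ext fun i j => ?_
  have := h (Pi.single i 1) (Pi.single j 1)
  simp only [OrthWreathBig.gB_apply, fG] at this
  rw [← Matrix.vecMul_transpose, Matrix.vecMul_vecMul, Matrix.dotProduct_mulVec,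
    Matrix.vecMul_vecMul] at this
  simpa using this

lemma isoW_mul {A B : M4 F} (hA : IsoW δ A) (hB : IsoW δ B) : IsoW δ (A * B) :=
  isoW_of_gB fun x y => by rw [← mulVec_mulVec, ← mulVec_mulVec, isoW_gB hA, isoW_gB hB]

lemma isoW_one : IsoW δ (1 : M4 F) := by simp [IsoW]

lemma isoW_scalar {c : F} (hδ : ¬ IsSquare δ) (h : IsoW δ (c • (1 : M4 F))) : c = 1 ∨ c = -1 := by
  have e := congrFun (congrFun h 0) 0
  simp [G4, wt, Matrix.smul_apply] at e
  refine mul_self_eq_one_iff.1 (mul_right_cancel₀ (b := δ) (fun e0 => hδ (e0 ▸ IsSquare.zero)) ?_)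
  linear_combination e

lemma gB_eq_zero (hδ : ¬ IsSquare δ) {x : Fin 4 → F} (h : ∀ y, gB (G4 δ) x y = 0) : x = 0 := by
  have h0 : δ ≠ 0 := fun e => hδ (e ▸ IsSquare.zero)
  funext i
  have := h (Pi.single i 1)
  rw [gB_diag] at this
  fin_cases i <;> simp_all

lemma minor {d a b c e a' b' c' e' : F} (hδ : ¬ IsSquare d)
    (hvv : d * a * a + b * b + c * c + e * e = 0)
    (hww : d * a' * a' + b' * b' + c' * c' + e' * e' = 0)
    (hvw : d * a * a' + b * b' + c * c' + e * e' = 0) :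
    a * b' = b * a' ∧ c * e' = e * c' := by
  have h : (c * e' - e * c') ^ 2 = d * (a * b' - b * a') ^ 2 := by
    linear_combination (c * c + e * e) * hww - (d * a' * a' + b' * b') * hvv -
      (c * c' + e * e' - d * a * a' - b * b') * hvw
  rcases eq_or_ne (a * b' - b * a') 0 with h0 | h0
  · rw [h0] at h
    exact ⟨sub_eq_zero.1 h0, sub_eq_zero.1 (pow_eq_zero_iff two_ne_zero |>.1 (by simpa using h))⟩
  · exact absurd ⟨(c * e' - e * c') / (a * b' - b * a'), by field_simp; linear_combination -h⟩ hδ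

lemma singular_dep (hδ : ¬ IsSquare δ) {v w : Fin 4 → F} (hv : v ≠ 0)
    (hvv : gB (G4 δ) v v = 0) (hww : gB (G4 δ) w w = 0) (hvw : gB (G4 δ) v w = 0) :
    ∃ c : F, w = c • v := by
  rw [gB_diag] at hvv hww hvw
  obtain ⟨h01, h23⟩ := minor hδ hvv hww hvw
  obtain ⟨h02, h31⟩ := minor (a := v 0) (b := v 2) (c := v 3) (e := v 1) (a' := w 0) (b' := w 2)
    (c' := w 3) (e' := w 1) hδ (by linear_combination hvv) (by linear_combination hww)
    (by linear_combination hvw)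
  obtain ⟨h03, h12⟩ := minor (a := v 0) (b := v 3) (c := v 1) (e := v 2) (a' := w 0) (b' := w 3)
    (c' := w 1) (e' := w 2) hδ (by linear_combination hvv) (by linear_combination hww)
    (by linear_combination hvw)
  have key : ∀ i j, v i * w j = v j * w i := by
    intro i j
    fin_cases i <;> fin_cases j <;>
      first
      | rfl
      | exact h01 | exact h02 | exact h03 | exact h23 | exact h31 | exact h12
      | exact h01.symm | exact h02.symm | exact h03.symm | exact h23.symm | exact h31.symm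
      | exact h12.symm
  obtain ⟨i, hi⟩ := Function.ne_iff.1 hv
  refine ⟨w i / v i, funext fun j => ?_⟩
  simp only [Pi.smul_apply, smul_eq_mul]
  rw [div_mul_eq_mul_div, eq_div_iff (show v i ≠ 0 from hi)]
  linear_combination key i j

lemma add_sieM_mulVec (w x y : Fin 4 → F) :
    (1 + sieM (G4 δ) w x) *ᵥ y = y + (gB (G4 δ) w y • x - gB (G4 δ) x y • w -
      (gB (G4 δ) x x / 2 * gB (G4 δ) w y) • w) := by
  rw [add_mulVec, one_mulVec, OrthWreathBig.sieM_mulVec, OrthTensor.sie_apply]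

lemma add_sieM_fix {w x : Fin 4 → F} (hw : gB (G4 δ) w w = 0) (hx : gB (G4 δ) w x = 0) :
    (1 + sieM (G4 δ) w x) *ᵥ w = w := by
  rw [add_sieM_mulVec, hw, gB_symm, hx]; simp

lemma add_sieM_isoW {w x : Fin 4 → F} (h2 : (2 : F) ≠ 0) (hw : gB (G4 δ) w w = 0)
    (hx : gB (G4 δ) w x = 0) : IsoW δ (1 + sieM (G4 δ) w x) := by
  refine isoW_of_gB fun y z => ?_
  rw [add_sieM_mulVec, add_sieM_mulVec]
  simp only [map_add, map_sub, map_smul, LinearMap.add_apply, LinearMap.sub_apply,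
    LinearMap.smul_apply, smul_eq_mul, gB_symm δ y w, gB_symm δ y x, gB_symm δ x w, hw, hx]
  field_simp
  ring

lemma add_sieM_mul {w x x' : Fin 4 → F} (h2 : (2 : F) ≠ 0) (hw : gB (G4 δ) w w = 0)
    (hx : gB (G4 δ) w x = 0) (hx' : gB (G4 δ) w x' = 0) :
    (1 + sieM (G4 δ) w x) * (1 + sieM (G4 δ) w x') = 1 + sieM (G4 δ) w (x + x') := by
  refine Matrix.ext_of_mulVec_single fun i => ?_
  rw [← mulVec_mulVec, add_sieM_mulVec, add_sieM_mulVec, add_sieM_mulVec]
  simp only [map_add, map_sub, map_smul, LinearMap.add_apply, LinearMap.sub_apply,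
    LinearMap.smul_apply, smul_eq_mul, gB_symm δ x w, gB_symm δ x' x, hw, hx, hx']
  match_scalars <;> field_simp <;> ring

lemma add_sieM_pow {w x : Fin 4 → F} (h2 : (2 : F) ≠ 0) (hw : gB (G4 δ) w w = 0)
    (hx : gB (G4 δ) w x = 0) (n : ℕ) :
    (1 + sieM (G4 δ) w x) ^ n = 1 + sieM (G4 δ) w ((n : F) • x) := by
  induction n with
  | zero => simp [OrthWreathBig.sieM]
  | succ n ih =>
    rw [pow_succ, ih, add_sieM_mul h2 hw (by simp [hx]) hx, Nat.cast_succ, add_smul, one_smul]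

lemma isU_fix {A : M4 F} {w x : Fin 4 → F} (hw0 : w ≠ 0) (hw : gB (G4 δ) w w = 0)
    (hx : gB (G4 δ) w x = 0) (hxx : gB (G4 δ) x x ≠ 0) (e : A = 1 + sieM (G4 δ) w x) :
    A *ᵥ w = w ∧ A *ᵥ x ≠ x := by
  subst e
  refine ⟨add_sieM_fix hw hx, fun e => ?_⟩
  rw [add_sieM_mulVec, hx] at e
  exact hw0 ((smul_eq_zero.1 (neg_eq_zero.1 (by simpa using e))).resolve_left hxx)

lemma IsU.ne_one {A : M4 F} (h : IsU δ A) : A ≠ 1 := by
  obtain ⟨w, x, hw0, hw, hx, hxx, e⟩ := h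
  rintro rfl
  exact (isU_fix hw0 hw hx hxx e).2 (one_mulVec x)

variable {p : ℕ} [hp : Fact p.Prime] [CharP F p]

lemma IsU.unip {A : M4 F} (h2 : (2 : F) ≠ 0) (h : IsU δ A) : Unip δ p A := by
  obtain ⟨w, x, hw0, hw, hx, hxx, rfl⟩ := h
  refine ⟨add_sieM_isoW h2 hw hx, ?_⟩
  rw [add_sieM_pow h2 hw hx, CharP.cast_eq_zero, zero_smul]
  simp [OrthWreathBig.sieM]

lemma Unip.nil {A : M4 F} (h : Unip δ p A) : (A - 1) ^ p = 0 := by
  rw [sub_pow_char_of_commute (p := p) (Commute.one_right A), h.pw, one_pow, sub_self]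

lemma Unip.mulVec_of_smul {A : M4 F} (h : Unip δ p A) {v : Fin 4 → F} (hv : v ≠ 0) {c : F}
    (e : A *ᵥ v = c • v) : A *ᵥ v = v := by
  have : ∀ n : ℕ, (A ^ n) *ᵥ v = c ^ n • v := by
    intro n
    induction n with
    | zero => simp
    | succ n ih => rw [pow_succ, ← mulVec_mulVec, e, mulVec_smul, ih, smul_smul, pow_succ']
  have hc := this p
  rw [h.pw, one_mulVec] at hc
  have hcp : c ^ p = 1 := (smul_left_injective F hv (show c ^ p • v = (1 : F) • v by
    rw [one_smul]; exact hc.symm))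
  have : c = 1 := frobenius_inj F p (by simpa [frobenius_def] using hcp)
  rw [e, this, one_smul]

/-- The last nonzero iterate. -/
lemma Unip.chain {A : M4 F} (h : Unip δ p A) {x : Fin 4 → F} (hx : (A - 1) *ᵥ x ≠ 0) :
    ∃ n : ℕ, ((A - 1) ^ (n + 1)) *ᵥ x ≠ 0 ∧ ((A - 1) ^ (n + 2)) *ᵥ x = 0 := by
  classical
  have hex : ∃ n, ((A - 1) ^ (n + 2)) *ᵥ x = 0 := ⟨p, by rw [pow_add, h.nil, zero_mul, zero_mulVec]⟩
  rcases hN : Nat.find hex with _ | m
  · exact ⟨0, by simpa using hx, by simpa [hN] using Nat.find_spec hex⟩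
  · exact ⟨m + 1, Nat.find_min hex (by omega : m < Nat.find hex), by
      simpa [hN] using Nat.find_spec hex⟩

lemma Unip.fix_of_kernel {A : M4 F} (h : Unip δ p A) {y : Fin 4 → F}
    (hy : (A - 1) *ᵥ ((A - 1) *ᵥ y) = 0) :
    A *ᵥ ((A - 1) *ᵥ y) = (A - 1) *ᵥ y ∧
      gB (G4 δ) ((A - 1) *ᵥ y) ((A - 1) *ᵥ y) = 0 := by
  have hfix : A *ᵥ ((A - 1) *ᵥ y) = (A - 1) *ᵥ y := by
    rwa [sub_mulVec, one_mulVec, sub_eq_zero] at hy
  refine ⟨hfix, ?_⟩
  have := isoW_gB h.iso y ((A - 1) *ᵥ y)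
  rw [hfix] at this
  have e : (A - 1) *ᵥ y = A *ᵥ y - y := by rw [sub_mulVec, one_mulVec]
  conv_lhs => arg 1; rw [e]
  simp only [map_sub, LinearMap.sub_apply, this, sub_self]

lemma Unip.sub_perp {A : M4 F} (h : Unip δ p A) {v y : Fin 4 → F} (hv : A *ᵥ v = v) :
    gB (G4 δ) v ((A - 1) *ᵥ y) = 0 := by
  have := isoW_gB h.iso v y
  rw [hv] at this
  rw [sub_mulVec, one_mulVec, map_sub, this, sub_self]

lemma Unip.exists_fixed {A : M4 F} (h : Unip δ p A) (hA : A ≠ 1) :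
    ∃ v, v ≠ 0 ∧ A *ᵥ v = v ∧ gB (G4 δ) v v = 0 := by
  obtain ⟨i, hi⟩ : ∃ i, (A - 1) *ᵥ Pi.single i 1 ≠ 0 := by
    by_contra hno
    push Not at hno
    exact hA (sub_eq_zero.1 (Matrix.ext_of_mulVec_single fun i => by rw [hno i, zero_mulVec]))
  obtain ⟨n, h1, h2⟩ := h.chain hi
  rw [pow_succ', ← mulVec_mulVec] at h1
  rw [pow_succ', pow_succ', ← mulVec_mulVec, ← mulVec_mulVec] at h2
  exact ⟨_, h1, h.fix_of_kernel h2⟩

lemma Unip.unique (hδ : ¬ IsSquare δ) {A : M4 F} (h : Unip δ p A) (hA : A ≠ 1) {v w : Fin 4 → F}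
    (hv0 : v ≠ 0) (hv : A *ᵥ v = v) (hvv : gB (G4 δ) v v = 0) (hw : A *ᵥ w = w)
    (hww : gB (G4 δ) w w = 0) : ∃ c : F, w = c • v := by
  by_cases hvw : gB (G4 δ) v w = 0
  · exact singular_dep hδ hv0 hvv hww hvw
  exfalso
  have hNv : (A - 1) *ᵥ v = 0 := by rw [sub_mulVec, one_mulVec, hv, sub_self]
  have hNw : (A - 1) *ᵥ w = 0 := by rw [sub_mulVec, one_mulVec, hw, sub_self]
  obtain ⟨i, hi⟩ : ∃ i, (A - 1) *ᵥ Pi.single i 1 ≠ 0 := by
    by_contra hno
    push Not at hno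
    exact hA (sub_eq_zero.1 (Matrix.ext_of_mulVec_single fun i => by rw [hno i, zero_mulVec]))
  set y : Fin 4 → F := Pi.single i 1
  obtain ⟨n, h1, h2⟩ := h.chain hi
  rw [pow_succ', ← mulVec_mulVec] at h1
  rw [pow_succ', pow_succ', ← mulVec_mulVec, ← mulVec_mulVec] at h2
  obtain ⟨hf, hs⟩ := h.fix_of_kernel h2
  obtain ⟨c, hc⟩ := singular_dep hδ hv0 hvv hs (h.sub_perp hv)
  have := h.sub_perp hw (y := ((A - 1) ^ n) *ᵥ y)
  rw [hc, map_smul, smul_eq_mul, gB_symm] at this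
  rcases mul_eq_zero.1 this with h0 | h0
  · exact h1 (by rw [hc, h0, zero_smul])
  · exact hvw h0

/-- An isometry of prime order is determined by its singular fixed vector and one more vector. -/
lemma Unip.shape (hδ : ¬ IsSquare δ) (h2 : (2 : F) ≠ 0) {A : M4 F} (h : Unip δ p A) (hA : A ≠ 1)
    {v : Fin 4 → F} (hv0 : v ≠ 0) (hv : A *ᵥ v = v) (hvv : gB (G4 δ) v v = 0) :
    ∃ x, gB (G4 δ) v x = 0 ∧ gB (G4 δ) x x ≠ 0 ∧ A = 1 + sieM (G4 δ) v x := by
  have hperp : ∀ y, gB (G4 δ) v y = 0 → ∃ c : F, (A - 1) *ᵥ y = c • v := by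
    intro y hy
    by_cases hN : (A - 1) *ᵥ y = 0
    · exact ⟨0, by rw [hN, zero_smul]⟩
    obtain ⟨n, h1, h3⟩ := h.chain hN
    rw [pow_succ', ← mulVec_mulVec] at h1
    rw [pow_succ', pow_succ', ← mulVec_mulVec, ← mulVec_mulVec] at h3
    obtain ⟨hf, hs⟩ := h.fix_of_kernel h3
    obtain ⟨c, hc⟩ := singular_dep hδ hv0 hvv hs (h.sub_perp hv)
    rcases n with _ | m
    · exact ⟨c, by simpa using hc⟩
    exfalso
    set z := ((A - 1) ^ m) *ᵥ y with hz
    have hu : ((A - 1) ^ (m + 1)) *ᵥ y = (A - 1) *ᵥ z := by rw [pow_succ', ← mulVec_mulVec]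
    rw [hu] at hc h1
    have hzv : gB (G4 δ) v z = 0 := by
      rcases m with _ | k
      · simpa [hz] using hy
      · rw [hz, pow_succ', ← mulVec_mulVec]; exact h.sub_perp hv
    set u := (A - 1) *ᵥ z with hu'
    have huv : gB (G4 δ) v u = 0 := h.sub_perp hv
    have e := isoW_gB h.iso z u
    rw [show A *ᵥ z = z + u by rw [hu', sub_mulVec, one_mulVec]; abel,
      show A *ᵥ u = u + c • v by rw [← hc, sub_mulVec, one_mulVec]; abel] at e
    simp only [map_add, map_smul, LinearMap.add_apply, smul_eq_mul, gB_symm δ z v, hzv,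
      gB_symm δ u v, huv, mul_zero, add_zero] at e
    obtain ⟨d, hd⟩ := singular_dep hδ hv0 hvv (by linear_combination e) huv
    exact h1 (by rw [hd, mulVec_smul, sub_mulVec, one_mulVec, hv, sub_self, smul_zero])
  obtain ⟨z, hz⟩ : ∃ z, gB (G4 δ) v z ≠ 0 := by
    by_contra hno
    push Not at hno
    exact hv0 (gB_eq_zero hδ hno)
  set v' := (gB (G4 δ) v z)⁻¹ • z -
    (gB (G4 δ) ((gB (G4 δ) v z)⁻¹ • z) ((gB (G4 δ) v z)⁻¹ • z) / 2) • v with hv'
  have hvv' : gB (G4 δ) v v' = 1 := by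
    simp only [hv', map_sub, map_smul, smul_eq_mul, hvv, mul_zero, sub_zero, inv_mul_cancel₀ hz]
  have hv'v' : gB (G4 δ) v' v' = 0 := by
    simp only [hv', map_sub, map_smul, smul_eq_mul, LinearMap.sub_apply, LinearMap.smul_apply,
      hvv, gB_symm δ z v]
    field_simp
    ring
  set a := (A - 1) *ᵥ v' with ha
  have hva : gB (G4 δ) v a = 0 := h.sub_perp hv
  set x := a - gB (G4 δ) v' a • v with hx
  have hvx : gB (G4 δ) v x = 0 := by simp [hx, hva, hvv]
  have hxv' : gB (G4 δ) x v' = 0 := by simp [hx, gB_symm δ a v', hvv']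
  have hAv' : A *ᵥ v' = v' + a := by rw [ha, sub_mulVec, one_mulVec]; abel
  have hax : a = x + gB (G4 δ) v' a • v := by rw [hx]; abel
  have hκ : gB (G4 δ) v' a = -(gB (G4 δ) x x / 2) := by
    have e := isoW_gB h.iso v' v'
    rw [hAv', hax] at e
    simp only [map_add, map_smul, LinearMap.add_apply, LinearMap.smul_apply, smul_eq_mul, hv'v',
      hvx, gB_symm δ x v, gB_symm δ v' x, hxv', hvv', gB_symm δ v' v, hvv] at e
    field_simp
    linear_combination e
  have hφ : ∀ y, gB (G4 δ) v y = 0 → (A - 1) *ᵥ y = -(gB (G4 δ) x y) • v := by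
    intro y hy
    obtain ⟨c, hc⟩ := hperp y hy
    have e := isoW_gB h.iso y v'
    rw [show A *ᵥ y = y + c • v by rw [← hc, sub_mulVec, one_mulVec]; abel, hAv', hax] at e
    simp only [map_add, map_smul, LinearMap.add_apply, LinearMap.smul_apply, smul_eq_mul, hvx,
      hvv', hvv, gB_symm δ y v, hy, gB_symm δ y x, mul_zero, add_zero, mul_one] at e
    rw [hc]
    congr 1
    linear_combination e
  have hAeq : A = 1 + sieM (G4 δ) v x := by
    refine Matrix.ext_of_mulVec_single fun i => ?_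
    set y : Fin 4 → F := Pi.single i 1
    have hy' : gB (G4 δ) v (y - gB (G4 δ) v y • v') = 0 := by simp [hvv']
    have e := hφ _ hy'
    rw [mulVec_sub, mulVec_smul, ← ha, sub_eq_iff_eq_add, hax, hκ] at e
    rw [show A *ᵥ y = y + (A - 1) *ᵥ y by rw [sub_mulVec, one_mulVec]; abel, e, add_sieM_mulVec]
    simp only [map_sub, map_smul, smul_eq_mul, hxv', mul_zero, sub_zero]
    module
  refine ⟨x, hvx, fun hxx => hA ?_, hAeq⟩
  obtain ⟨d, hd⟩ := singular_dep hδ hv0 hvv hxx hvx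
  rw [hd] at hxv'
  simp only [map_smul, LinearMap.smul_apply, smul_eq_mul, hvv', mul_one] at hxv'
  rw [hAeq, hd, hxv', zero_smul]
  simp [OrthWreathBig.sieM]

lemma Unip.isU (hδ : ¬ IsSquare δ) (h2 : (2 : F) ≠ 0) {A : M4 F} (h : Unip δ p A) (hA : A ≠ 1) :
    IsU δ A := by
  obtain ⟨v, hv0, hv, hvv⟩ := h.exists_fixed hA
  obtain ⟨x, hx, hxx, e⟩ := h.shape hδ h2 hA hv0 hv hvv
  exact ⟨v, x, hv0, hvv, hx, hxx, e⟩

/-- An element commuting with a root element fixes its singular vector. -/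
lemma Unip.fix_of_commute (hδ : ¬ IsSquare δ) {A B : M4 F} (hA : Unip δ p A) (hA1 : A ≠ 1)
    (hB : Unip δ p B) (hc : Commute A B) {v : Fin 4 → F} (hv0 : v ≠ 0) (hv : A *ᵥ v = v)
    (hvv : gB (G4 δ) v v = 0) : B *ᵥ v = v := by
  obtain ⟨c, e⟩ := hA.unique hδ hA1 hv0 hv hvv (w := B *ᵥ v)
    (by rw [mulVec_mulVec, hc.eq, ← mulVec_mulVec, hv]) (by rw [isoW_gB hB.iso, hvv])
  exact hB.mulVec_of_smul hv0 e

/-- The root elements commuting with one root element commute. -/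
lemma Unip.commute_trans (hδ : ¬ IsSquare δ) (h2 : (2 : F) ≠ 0) {A B C : M4 F} (hA : Unip δ p A)
    (hA1 : A ≠ 1) (hB : Unip δ p B) (hC : Unip δ p C) (hAB : Commute A B) (hAC : Commute A C) :
    Commute B C := by
  obtain ⟨v, hv0, hv, hvv⟩ := hA.exists_fixed hA1
  by_cases hB1 : B = 1
  · rw [hB1]; exact Commute.one_left C
  by_cases hC1 : C = 1
  · rw [hC1]; exact Commute.one_right B
  obtain ⟨x, hx, -, rfl⟩ := hB.shape hδ h2 hB1 hv0 (hA.fix_of_commute hδ hA1 hB hAB hv0 hv hvv) hvv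
  obtain ⟨y, hy, -, rfl⟩ := hC.shape hδ h2 hC1 hv0 (hA.fix_of_commute hδ hA1 hC hAC hv0 hv hvv) hvv
  show _ * _ = _ * _
  rw [add_sieM_mul h2 hvv hx hy, add_sieM_mul h2 hvv hy hx, add_comm x y]

/-- There are two root elements which do not commute. -/
lemma exists_noncomm [Finite F] (hδ : ¬ IsSquare δ) :
    ∃ w w' x x' : Fin 4 → F, w ≠ 0 ∧ w' ≠ 0 ∧ gB (G4 δ) w w = 0 ∧ gB (G4 δ) w' w' = 0 ∧
      gB (G4 δ) w x = 0 ∧ gB (G4 δ) w x' = 0 ∧ gB (G4 δ) w' x = 0 ∧
      gB (G4 δ) x x ≠ 0 ∧ gB (G4 δ) x' x' ≠ 0 ∧ gB (G4 δ) x x' = 0 ∧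
      (∀ c : F, w' ≠ c • w) := by
  have := Fintype.ofFinite F
  have h0 : δ ≠ 0 := fun e => hδ (e ▸ IsSquare.zero)
  obtain ⟨a, b, hab⟩ : ∃ a b : F, a ^ 2 + b ^ 2 = -1 := by
    have h2 : ringChar F ≠ 2 := fun e => hδ (FiniteField.isSquare_of_char_two e δ)
    obtain ⟨a, b, hab⟩ := FiniteField.exists_root_sum_quadratic (R := F)
      (f := Polynomial.X ^ 2) (g := Polynomial.X ^ 2 - Polynomial.C (-1))
      (Polynomial.degree_X_pow 2) (Polynomial.degree_X_pow_sub_C (by norm_num) _)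
      (FiniteField.odd_card_of_char_ne_two h2)
    exact ⟨a, b, by simp at hab; linear_combination hab⟩
  refine ⟨![0, 1, a, b], ![0, -1, a, b], ![1, 0, 0, 0], ![0, 0, -b, a], ?_, ?_, ?_, ?_, ?_, ?_, ?_,
    ?_, ?_, ?_, ?_⟩
  · intro e; simpa using congrFun e 1
  · intro e; simpa using congrFun e 1
  all_goals try simp only [gB_diag, Matrix.cons_val_zero, Matrix.cons_val_one, Matrix.cons_val]
  · linear_combination hab
  · linear_combination hab
  · ring
  · ring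
  · ring
  · simpa using h0
  · intro e
    exact one_ne_zero (α := F) (by linear_combination hab - e)
  · ring
  · intro c e
    have e1 := congrFun e 1
    have e2 := congrFun e 2
    have e3 := congrFun e 3
    simp at e1 e2 e3
    have h2 : (2 : F) ≠ 0 := fun e => hδ (FiniteField.isSquare_of_char_two
      (CharP.ringChar_of_prime_eq_zero Nat.prime_two (by exact_mod_cast e)) δ)
    subst e1
    have ha : a = 0 := (mul_eq_zero.1 (show (2 : F) * a = 0 by linear_combination e2)).resolve_left h2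
    have hb : b = 0 := (mul_eq_zero.1 (show (2 : F) * b = 0 by linear_combination e3)).resolve_left h2
    rw [ha, hb] at hab
    exact one_ne_zero (α := F) (by linear_combination hab)

end Cfsg.Agent.MaxSub.OrthFour.Count
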