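import Cfsg.Agent.MaxSub.OrthFour.CountPure

/-!
Partnered root elements moved into the monomial group by an element which takes one half turn out
of it: their supports avoid the site of the half turn and are pairwise disjoint.
-/

set_option autoImplicit false
set_option linter.unusedSectionVars false
set_option maxHeartbeats 800000

namespace Cfsg.Agent.MaxSub.OrthFour.Count

open Matrix Cfsg.Geo Cfsg.Agent.NotMax Cfsg.Agent.GeoClasses
open Cfsg.Agent.MaxSub.TensorPowSp (gV fG site_injective site_comm_pure)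
open Cfsg.Agent.MaxSub.OrthWreathBig (gB cr sieM)
open scoped MatrixGroups Matrix

variable {F : Type*} [Field F] {δ : F} {t : ℕ}

/-- Two matrices placed at two sites. -/
def pairHom (a b : Fin t) : GL (Fin 4) F × GL (Fin 4) F →* (Fin t → GL (Fin 4) F) where
  toFun z := fun l => if l = a then z.1 else if l = b then z.2 else 1
  map_one' := funext fun l => by simp
  map_mul' z z' := funext fun l => by
    simp only [Pi.mul_apply, Prod.fst_mul, Prod.snd_mul]
    split_ifs <;> simp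

lemma pairHom_apply (a b : Fin t) (z : GL (Fin 4) F × GL (Fin 4) F) (l : Fin t) :
    pairHom a b z l = if l = a then z.1 else if l = b then z.2 else 1 := rfl

lemma pairHom_commute {a b c d : Fin t} (hac : a ≠ c) (had : a ≠ d) (hbc : b ≠ c) (hbd : b ≠ d)
    (z z' : GL (Fin 4) F × GL (Fin 4) F) : Commute (pairHom a b z) (pairHom c d z') := by
  funext l
  simp only [Pi.mul_apply, pairHom_apply]
  by_cases hla : l = a
  · subst hla; simp [hac, had]
  by_cases hlb : l = b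
  · subst hlb; simp [hla, hbc, hbd]
  simp [hla, hlb]

/-- The pure tensor of two matrices at two sites. -/
noncomputable def pairGV (a b : Fin t) : GL (Fin 4) F × GL (Fin 4) F →* GV F t :=
  (pureHom F t).comp (pairHom a b)

lemma coe_pairGV {a b : Fin t} (hab : a ≠ b) (z : GL (Fin 4) F × GL (Fin 4) F) :
    ((pairGV a b z : GV F t) : MV F t) = site a (z.1 : M4 F) * site b (z.2 : M4 F) := by
  show ((glPure (pairHom a b z) : GV F t) : MV F t) = _
  rw [coe_glPure, site, site, pureMat_mul]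
  congr 1; funext l
  rw [pairHom_apply]
  by_cases hla : l = a
  · subst hla; simp [hab]
  by_cases hlb : l = b
  · subst hlb; simp [hla]
  simp [hla, hlb]

/-- The standing situation: a half turn `h` whose conjugate by `g` is not monomial, and the
partners. -/
structure Cfg [Finite F] (δ : F) (M : Subgroup (GV F t)) (g h : GV F t) (i0 : Fin t)
    (r s : Fin 4 → F) (σ : Equiv.Perm (Fin t)) : Prop where
  hM : Over δ M
  sites : ∀ (i : Fin t) (A : M4 F) (u : GV F t), IsoW δ A → (u : MV F t) = site i A → u ∈ M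
  gmem : g ∈ M
  hr : gB (G4 δ) r r ≠ 0
  hs : gB (G4 δ) s s ≠ 0
  hrs : gB (G4 δ) r s = 0
  hh : (h : MV F t) = site i0 (reflW δ r * reflW δ s)
  cen : ∀ y ∈ M, y * h = h * y → y ∈ Wr F t
  fpf : ∀ i, σ i ≠ i
  invol : ∀ i, σ (σ i) = i
  part : ∀ i (A : GL (Fin 4) F), IsU δ (A : M4 F) → ∃ B : GL (Fin 4) F, IsU δ (B : M4 F) ∧
    pairGV i (σ i) (A, B) * (g * h * g⁻¹) = g * h * g⁻¹ * pairGV i (σ i) (A, B)
  single : ∀ i (X : GL (Fin 4) F) (u : GV F t), IsoW δ (X : M4 F) → (u : MV F t) = site i (X : M4 F) →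
    u * (g * h * g⁻¹) = g * h * g⁻¹ * u → ∃ c : F, (X : M4 F) = c • 1
  conjU : ∀ x u : GV F t, IsoV δ (x : MV F t) → IsSiteU δ (u : MV F t) → x * u * x⁻¹ ∈ Wr F t →
    IsSiteU δ ((x * u * x⁻¹ : GV F t) : MV F t)

/-- The partnered root elements at the site `j`. -/
def Gens (δ : F) (g h : GV F t) (σ : Equiv.Perm (Fin t)) (j : Fin t) :
    Set (GL (Fin 4) F × GL (Fin 4) F) :=
  {z | IsU δ (z.1 : M4 F) ∧ IsU δ (z.2 : M4 F) ∧
    pairGV j (σ j) z * (g * h * g⁻¹) = g * h * g⁻¹ * pairGV j (σ j) z}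

/-- The group of the partnered root elements at the site `j`. -/
def Gam (δ : F) (g h : GV F t) (σ : Equiv.Perm (Fin t)) (j : Fin t) :
    Subgroup (GL (Fin 4) F × GL (Fin 4) F) := Subgroup.closure (Gens δ g h σ j)

/-- The partnered elements conjugated by the inverse of `g`. -/
noncomputable def phi (g : GV F t) (σ : Equiv.Perm (Fin t)) (j : Fin t) :
    GL (Fin 4) F × GL (Fin 4) F →* GV F t :=
  (MulAut.conj g⁻¹).toMonoidHom.comp (pairGV j (σ j))

lemma phi_apply (g : GV F t) (σ : Equiv.Perm (Fin t)) (j : Fin t)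
    (z : GL (Fin 4) F × GL (Fin 4) F) : phi g σ j z = g⁻¹ * pairGV j (σ j) z * g := by
  simp [phi]

variable [Finite F] {M : Subgroup (GV F t)} {g h : GV F t} {i0 : Fin t} {r s : Fin 4 → F}
  {σ : Equiv.Perm (Fin t)}

namespace Cfg

variable (C : Cfg δ M g h i0 r s σ)
include C

lemma gam_spec {j : Fin t} {x : GL (Fin 4) F × GL (Fin 4) F} (hx : x ∈ Gam δ g h σ j) :
    IsoW δ (x.1 : M4 F) ∧ IsoW δ (x.2 : M4 F) ∧
      pairGV j (σ j) x * (g * h * g⁻¹) = g * h * g⁻¹ * pairGV j (σ j) x := by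
  have hle : Gam δ g h σ j ≤ ((isoSub δ).prod (isoSub δ)) ⊓
      (Subgroup.centralizer {g * h * g⁻¹}).comap (pairGV j (σ j)) := by
    refine (Subgroup.closure_le _).2 fun z hz => ?_
    exact ⟨⟨hz.1.iso C.hM.two, hz.2.1.iso C.hM.two⟩,
      Subgroup.mem_centralizer_singleton_iff.2 hz.2.2⟩
  obtain ⟨⟨h1, h2⟩, h3⟩ := hle hx
  exact ⟨h1, h2, Subgroup.mem_centralizer_singleton_iff.1 h3⟩

lemma site_mem (i : Fin t) (A : GL (Fin 4) F) (hA : IsoW δ (A : M4 F)) :
    glPure (Function.update (1 : Fin t → GL (Fin 4) F) i A) ∈ M :=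
  C.sites i _ _ hA (coe_glPure_update i A)

lemma pair_mem {j : Fin t} {x : GL (Fin 4) F × GL (Fin 4) F} (hx : x ∈ Gam δ g h σ j) :
    pairGV j (σ j) x ∈ M := by
  obtain ⟨h1, h2, -⟩ := C.gam_spec hx
  have e : pairGV j (σ j) x = glPure (Function.update (1 : Fin t → GL (Fin 4) F) j x.1) *
      glPure (Function.update (1 : Fin t → GL (Fin 4) F) (σ j) x.2) :=
    Units.ext (by
      rw [Units.val_mul, coe_glPure_update, coe_glPure_update, coe_pairGV (C.fpf j).symm])
  rw [e]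
  exact mul_mem (C.site_mem _ _ h1) (C.site_mem _ _ h2)

lemma phi_comm {j : Fin t} {x : GL (Fin 4) F × GL (Fin 4) F} (hx : x ∈ Gam δ g h σ j) :
    phi g σ j x * h = h * phi g σ j x := by
  have e := congrArg (fun z => g⁻¹ * z * g) (C.gam_spec hx).2.2
  simpa [phi_apply, mul_assoc] using e

lemma phi_mem {j : Fin t} {x : GL (Fin 4) F × GL (Fin 4) F} (hx : x ∈ Gam δ g h σ j) :
    phi g σ j x ∈ Wr F t := by
  refine C.cen _ ?_ (C.phi_comm hx)
  rw [phi_apply]
  exact mul_mem (mul_mem (inv_mem C.gmem) (C.pair_mem hx)) C.gmem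

lemma phi_isoV {j : Fin t} {x : GL (Fin 4) F × GL (Fin 4) F} (hx : x ∈ Gam δ g h σ j) :
    IsoV δ ((phi g σ j x : GV F t) : MV F t) := by
  refine C.hM.isoV ?_
  rw [phi_apply]
  exact mul_mem (mul_mem (inv_mem C.gmem) (C.pair_mem hx)) C.gmem

/-- The permutation of the conjugated partnered elements. -/
noncomputable def pj (j : Fin t) : ↥(Gam δ g h σ j) →* Equiv.Perm (Fin t) :=
  (sitePerm F t).comp
    (((phi g σ j).comp (Gam δ g h σ j).subtype).codRestrict (Wr F t) fun x => C.phi_mem x.2)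

lemma pj_spec (j : Fin t) (x : ↥(Gam δ g h σ j)) :
    ∃ A, phi g σ j x.1 = glPure A * glFactorPerm 4 (C.pj j x) :=
  sitePerm_spec (F := F) (t := t) ⟨phi g σ j x.1, C.phi_mem x.2⟩

lemma exists_gen (j : Fin t) {u : GL (Fin 4) F} (hu : IsU δ (u : M4 F)) :
    ∃ e ∈ Gens δ g h σ j, e.1 = u := by
  obtain ⟨B, hB, hc⟩ := C.part j u hu
  exact ⟨(u, B), ⟨hu, hB, hc⟩, rfl⟩

lemma scalar_fst {j : Fin t} {x : GL (Fin 4) F × GL (Fin 4) F} (hx : x ∈ Gam δ g h σ j) {c : F}
    (hc : (x.1 : M4 F) = c • 1) : (∀ y, Commute x y) ∧ x ^ 2 = 1 := by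
  obtain ⟨h1, h2, h3⟩ := C.gam_spec hx
  have hc0 : c ≠ 0 := fun e => val_ne_zero x.1 (by rw [hc, e, zero_smul])
  obtain ⟨d, hd⟩ := C.single (σ j) x.2 (glPure (Function.update 1 (σ j) x.2)) h2
    (coe_glPure_update _ _) (by
      refine Units.ext ?_
      have e := congrArg Units.val h3
      rw [Units.val_mul (pairGV j (σ j) x), Units.val_mul (g * h * g⁻¹), coe_pairGV (C.fpf j).symm, hc, site_smul, site_one,
        smul_mul_assoc, one_mul, smul_mul_assoc, mul_smul_comm] at e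
      rw [Units.val_mul (glPure _), Units.val_mul (g * h * g⁻¹), coe_glPure_update]
      exact smul_right_injective _ hc0 e)
  have hsq : ∀ {A : GL (Fin 4) F} {a : F}, (A : M4 F) = a • 1 → IsoW δ (A : M4 F) → A ^ 2 = 1 := by
    intro A a e hA
    refine Units.ext ?_
    rw [Units.val_pow_eq_pow_val, e, smul_pow, one_pow, Units.val_one]
    rw [e] at hA
    rcases isoW_scalar C.hM.nsq hA with rfl | rfl <;> simp
  refine ⟨fun y => Prod.ext (Units.ext ?_) (Units.ext ?_), Prod.ext (hsq hc h1) (hsq hd h2)⟩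
  · simp [hc]
  · simp [hd]

section Prime

variable {p : ℕ} [Fact p.Prime] [CharP F p]
include p

lemma p_odd : Odd p := by
  rcases (Fact.out : p.Prime).eq_two_or_odd' with h2 | h2
  · subst h2
    exact absurd (CharP.cast_eq_zero F 2) (by exact_mod_cast C.hM.two)
  · exact h2

lemma eq_one_of_fst {j : Fin t} {x : GL (Fin 4) F × GL (Fin 4) F} (hx : x ∈ Gam δ g h σ j)
    (h1 : x.1 = 1) (hp : x ^ p = 1) : x = 1 := by
  obtain ⟨m, hm⟩ := C.p_odd (p := p)
  have h2 := (C.scalar_fst hx (c := 1) (by rw [h1, one_smul]; rfl)).2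
  rwa [hm, pow_succ, pow_mul, h2, one_pow, one_mul] at hp

lemma gen_pow {j : Fin t} {e : GL (Fin 4) F × GL (Fin 4) F} (he : e ∈ Gens δ g h σ j) :
    e ^ p = 1 := Prod.ext (he.1.gl_pow C.hM.two) (he.2.1.gl_pow C.hM.two)

/-- A subgroup normalised by the partnered elements and not scalar at `j` contains all of them. -/
theorem full {j : Fin t} (N : Subgroup (GL (Fin 4) F × GL (Fin 4) F)) (hN : N ≤ Gam δ g h σ j)
    (hn : ∀ e ∈ Gens δ g h σ j, ∀ x ∈ N, e * x * e⁻¹ ∈ N)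
    (hex : ∃ x ∈ N, ∀ c : F, (x.1 : M4 F) ≠ c • 1) {e : GL (Fin 4) F × GL (Fin 4) F}
    (he : e ∈ Gens δ g h σ j) : e ∈ N := by
  obtain ⟨y, hy, hy1⟩ : e.1 ∈ N.map (MonoidHom.fst _ _) := by
    refine simple_iso C.hM.two C.hM.nsq _ ?_ ?_ ?_ he.1
    · rintro _ ⟨x, hx, rfl⟩
      exact (C.gam_spec (hN hx)).1
    · rintro u hu _ ⟨x, hx, rfl⟩
      obtain ⟨f, hf, rfl⟩ := C.exists_gen j hu
      exact ⟨f * x * f⁻¹, hn f hf x hx, rfl⟩
    · obtain ⟨x, hx, hc⟩ := hex
      exact ⟨x.1, ⟨x, hx, rfl⟩, hc⟩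
  change y.1 = e.1 at hy1
  have hz : e⁻¹ * y ∈ Gam δ g h σ j := mul_mem (inv_mem (Subgroup.subset_closure he)) (hN hy)
  obtain ⟨hzc, hz2⟩ := C.scalar_fst hz (c := 1) (by simp [hy1])
  have hyp : y ^ p = e⁻¹ * y := by
    obtain ⟨m, hm⟩ := C.p_odd (p := p)
    have e' : y = e * (e⁻¹ * y) := by group
    conv_lhs => rw [e', (hzc e).symm.mul_pow, C.gen_pow he, one_mul, hm, pow_succ, pow_mul, hz2,
      one_pow, one_mul]
  have : e = y * (e⁻¹ * y)⁻¹ := by group
  rw [this]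
  exact mul_mem hy (inv_mem (hyp ▸ pow_mem hy p))

/-- The permutations of the partnered elements at `j` are trivial. -/
def NF (j : Fin t) : Prop :=
  ∀ e (he : e ∈ Gens δ g h σ j), C.pj j ⟨e, Subgroup.subset_closure he⟩ = 1

lemma ker_scalar_aux {j : Fin t} {Q : Type*} [Group Q] (f : ↥(Gam δ g h σ j) →* Q)
    (x : ↥(Gam δ g h σ j)) (hx : f x = 1)
    (hno : ∀ c : F, ((x : GL (Fin 4) F × GL (Fin 4) F).1 : M4 F) ≠ c • 1)
    (e : GL (Fin 4) F × GL (Fin 4) F) (he : e ∈ Gens δ g h σ j) :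
    f ⟨e, Subgroup.subset_closure he⟩ = 1 := by
  have hmem : e ∈ f.ker.map (Gam δ g h σ j).subtype := by
    refine C.full (p := p) _ (Subgroup.map_subtype_le _) ?_
      ⟨x.1, Subgroup.mem_map.2 ⟨x, MonoidHom.mem_ker.2 hx, rfl⟩, hno⟩ he
    intro d hd z hz
    obtain ⟨y, hy, rfl⟩ := Subgroup.mem_map.1 hz
    obtain ⟨d', hd'⟩ : ∃ d' : ↥(Gam δ g h σ j), (Gam δ g h σ j).subtype d' = d :=
      ⟨⟨d, Subgroup.subset_closure hd⟩, rfl⟩
    refine Subgroup.mem_map.2 ⟨d' * y * d'⁻¹, f.normal_ker.conj_mem y hy d', ?_⟩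
    rw [map_mul, map_mul, map_inv, hd']
  obtain ⟨y, hy, hye⟩ := Subgroup.mem_map.1 hmem
  rw [show (⟨e, Subgroup.subset_closure he⟩ : ↥(Gam δ g h σ j)) = y from Subtype.ext hye.symm]
  exact MonoidHom.mem_ker.1 hy

lemma ker_scalar {j : Fin t} (hj : ¬ C.NF j) (x : ↥(Gam δ g h σ j)) (hx : C.pj j x = 1) :
    ∃ c : F, ((x : GL (Fin 4) F × GL (Fin 4) F).1 : M4 F) = c • 1 := by
  by_contra hno
  exact hj fun e he => C.ker_scalar_aux (p := p) (C.pj j) x hx (not_exists.1 hno) e he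

lemma nf_factors {j : Fin t} (hj : C.NF j) {e : GL (Fin 4) F × GL (Fin 4) F}
    (he : e ∈ Gens δ g h σ j) :
    ∃ A : Fin t → GL (Fin 4) F, phi g σ j e = glPure A ∧ ∀ i, Unip δ p (A i : M4 F) := by
  obtain ⟨A, hA⟩ := C.pj_spec j ⟨e, Subgroup.subset_closure he⟩
  rw [hj e he, perm_one, mul_one] at hA
  exact exists_unip_factors C.hM.nsq (by rw [← map_pow, C.gen_pow he, map_one])
    (C.phi_isoV (Subgroup.subset_closure he)) hA

/-- The sites moved by the conjugated partnered elements at `j`. -/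
def supp (p : ℕ) (δ : F) (g h : GV F t) (σ : Equiv.Perm (Fin t)) (j : Fin t) : Set (Fin t) :=
  {a | ∃ e ∈ Gens δ g h σ j, ∃ A : Fin t → GL (Fin 4) F, phi g σ j e = glPure A ∧
    (∀ i, Unip δ p (A i : M4 F)) ∧ A a ≠ 1}

omit C in
lemma h_update (C : Cfg δ M g h i0 r s σ) :
    ∃ H : GL (Fin 4) F, (H : M4 F) = reflW δ r * reflW δ s ∧
      h = glPure (Function.update (1 : Fin t → GL (Fin 4) F) i0 H) := by
  refine ⟨Matrix.GeneralLinearGroup.mkOfDetNeZero (reflW δ r * reflW δ s) (by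
    rw [det_mul, OrthFour.det_reflW C.hr, OrthFour.det_reflW C.hs]; simp), rfl, Units.ext ?_⟩
  rw [coe_glPure_update, C.hh]; rfl

lemma i0_not_supp (j : Fin t) : i0 ∉ supp p δ g h σ j := by
  rintro ⟨e, he, A, hA, hu, hne⟩
  obtain ⟨H, hH, eh⟩ := C.h_update
  have hc := C.phi_comm (j := j) (Subgroup.subset_closure he)
  rw [hA, eh] at hc
  have := glPure_comm (fun i => (hu i).pw) hc.symm i0
  rw [Function.update_self, hH] at this
  exact hne (Units.ext (unip_half_eq_one C.hM.two C.hM.nsq C.hr C.hs C.hrs (hu i0) this.symm))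

lemma pair_not_siteU {j : Fin t} {e : GL (Fin 4) F × GL (Fin 4) F} (he : e ∈ Gens δ g h σ j) :
    ¬ IsSiteU δ ((pairGV j (σ j) e : GV F t) : MV F t) := by
  rintro ⟨l, w, x, hw0, hw, hx, hxx, eq⟩
  have e' : pairGV j (σ j) e =
      glPure (Function.update (1 : Fin t → GL (Fin 4) F) l (uUnit C.hM.two hw hx)) :=
    Units.ext (by rw [eq, coe_glPure_update]; rfl)
  by_cases hl : l = j
  · obtain ⟨c, -, hc⟩ := glPure_factor (A := pairHom j (σ j) e) e' (σ j)
    rw [Function.update_of_ne (hl ▸ C.fpf j)] at hc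
    exact he.2.1.not_scalar c (by simpa [pairHom_apply, C.fpf j] using hc)
  · obtain ⟨c, -, hc⟩ := glPure_factor (A := pairHom j (σ j) e) e' j
    rw [Function.update_of_ne (Ne.symm hl)] at hc
    exact he.1.not_scalar c (by simpa [pairHom_apply] using hc)

lemma supp_two {j : Fin t} (hj : C.NF j) :
    ∃ a ∈ supp p δ g h σ j, ∃ b ∈ supp p δ g h σ j, a ≠ b := by
  obtain ⟨w, w', x, x', hw0, -, hw, -, hx, -, -, hxx, -, -, -⟩ := exists_noncomm C.hM.nsq
  obtain ⟨e, he, -⟩ := C.exists_gen j (uUnit_isU C.hM.two hw0 hw hx hxx)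
  obtain ⟨A, hA, hu⟩ := C.nf_factors (p := p) hj he
  by_contra hno
  push Not at hno
  have hone : ∃ a : Fin t, ∀ i, i ≠ a → A i = 1 := by
    by_cases hex : ∃ a, A a ≠ 1
    · obtain ⟨a, ha⟩ := hex
      refine ⟨a, fun i hi => by_contra fun hi' => hi ?_⟩
      exact hno i ⟨e, he, A, hA, hu, hi'⟩ a ⟨e, he, A, hA, hu, ha⟩
    · push Not at hex
      exact ⟨j, fun i _ => hex i⟩
  obtain ⟨a, ha⟩ := hone
  have hAeq : A = Function.update (1 : Fin t → GL (Fin 4) F) a (A a) := funext fun i => by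
    rcases eq_or_ne i a with rfl | hi <;> simp [*]
  have hphi : pairGV j (σ j) e = g * phi g σ j e * g⁻¹ := by rw [phi_apply]; group
  by_cases hAa : A a = 1
  · have hA1 : A = 1 := funext fun i => by
      rcases eq_or_ne i a with rfl | hi
      · exact hAa
      · exact ha i hi
    rw [hA, hA1, glPure_one, mul_one, mul_inv_cancel] at hphi
    obtain ⟨c, -, hc⟩ := glPure_factor (A := pairHom j (σ j) e) (B := 1)
      (hphi.trans glPure_one.symm) j
    exact he.1.not_scalar c (by simpa [pairHom_apply] using hc)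
  refine C.pair_not_siteU (p := p) he ?_
  obtain ⟨v, y, hv0, hv, hy, hyy, eU⟩ := (hu a).isU C.hM.nsq C.hM.two
    (fun e1 => hAa (Units.ext e1))
  rw [hphi]
  refine C.conjU g _ (C.hM.isoV C.gmem) ⟨a, v, y, hv0, hv, hy, hyy, ?_⟩ ?_
  · rw [hA, hAeq, coe_glPure_update, eU]
  · rw [← hphi]; exact glPure_mem_Wr _

lemma phi_commute {j l : Fin t} (h1 : j ≠ l) (h2 : j ≠ σ l)
    (x y : GL (Fin 4) F × GL (Fin 4) F) : Commute (phi g σ j x) (phi g σ l y) := by
  refine ((pairHom_commute h1 h2 ?_ ?_ x y).map (pureHom F t)).map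
    (MulAut.conj g⁻¹).toMonoidHom
  · intro e; exact h2 (by rw [← e, C.invol])
  · intro e; exact h1 (σ.injective e)

lemma supp_disjoint {j l : Fin t} (h1 : j ≠ l) (h2 : j ≠ σ l) (hj : C.NF j) {a : Fin t}
    (haj : a ∈ supp p δ g h σ j) : a ∉ supp p δ g h σ l := by
  rintro ⟨f, -, B, hB, huB, hBne⟩
  have hcomm : ∀ e ∈ Gens δ g h σ j, ∀ A : Fin t → GL (Fin 4) F, phi g σ j e = glPure A →
      (∀ i, Unip δ p (A i : M4 F)) → Commute (B a : M4 F) (A a : M4 F) := by
    intro e _ A hA huA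
    have hc := (C.phi_commute h1 h2 e f).eq
    rw [hA, hB] at hc
    exact glPure_comm (fun i => (huA i).pw) hc.symm a
  -- the elements trivial at the site `a`
  let N : Subgroup (GL (Fin 4) F × GL (Fin 4) F) :=
    { carrier := {x | x ∈ Gam δ g h σ j ∧ ∀ X : M4 F,
        Commute ((phi g σ j x : GV F t) : MV F t) (site a X)}
      one_mem' := ⟨one_mem _, fun X => by rw [map_one]; exact Commute.one_left _⟩
      mul_mem' := fun {x y} hx hy => ⟨mul_mem hx.1 hy.1, fun X => by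
        rw [map_mul, Units.val_mul]; exact (hx.2 X).mul_left (hy.2 X)⟩
      inv_mem' := fun {x} hx => ⟨inv_mem hx.1, fun X => by
        rw [map_inv]; exact (hx.2 X).units_inv_left⟩ }
  have hnormal : ∀ e ∈ Gens δ g h σ j, ∀ x ∈ N, e * x * e⁻¹ ∈ N := by
    intro e he x hx
    refine ⟨mul_mem (mul_mem (Subgroup.subset_closure he) hx.1)
      (inv_mem (Subgroup.subset_closure he)), fun X => ?_⟩
    obtain ⟨A, hA, -⟩ := C.nf_factors (p := p) hj he
    have hX := hx.2 ((((A a)⁻¹ : GL (Fin 4) F) : M4 F) * X * (A a : M4 F))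
    have econj : site a X = ((glPure A : GV F t) : MV F t) *
        site a ((((A a)⁻¹ : GL (Fin 4) F) : M4 F) * X * (A a : M4 F)) *
        (((glPure A)⁻¹ : GV F t) : MV F t) := by
      rw [← pureHom_apply, ← map_inv, pureHom_apply, pureHom_apply, coe_glPure, coe_glPure,
        pureMat_conj_site _ _ (fun i => by simp)]
      congr 1
      simp [mul_assoc]
    show _ * _ = _ * _
    generalize (site a ((((A a)⁻¹ : GL (Fin 4) F) : M4 F) * X * (A a : M4 F)) : MV F t) = S at hX econj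
    rw [econj, map_mul, map_mul, map_inv, hA, Units.val_mul, Units.val_mul]
    simp only [mul_assoc, Units.inv_mul_cancel_left]
    rw [← mul_assoc ((phi g σ j x : GV F t) : MV F t), hX.eq, mul_assoc]
  have hfull : ∀ e ∈ Gens δ g h σ j, e ∈ N := by
    obtain ⟨w, w', x, x', hw0, hw0', hw, hw', hx, -, hx', hxx, -, -, hne⟩ := exists_noncomm C.hM.nsq
    obtain ⟨e₁, he₁, he₁'⟩ := C.exists_gen j (uUnit_isU C.hM.two hw0 hw hx hxx)
    obtain ⟨e₂, he₂, he₂'⟩ := C.exists_gen j (uUnit_isU C.hM.two hw0' hw' hx' hxx)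
    refine fun e he => C.full (p := p) N (fun x hx => hx.1) hnormal
      ⟨e₁ * e₂ * e₁⁻¹ * e₂⁻¹, ⟨?_, fun X => ?_⟩, ?_⟩ he
    · exact mul_mem (mul_mem (mul_mem (Subgroup.subset_closure he₁) (Subgroup.subset_closure he₂))
        (inv_mem (Subgroup.subset_closure he₁))) (inv_mem (Subgroup.subset_closure he₂))
    · obtain ⟨A₁, hA₁, hu₁⟩ := C.nf_factors (p := p) hj he₁
      obtain ⟨A₂, hA₂, hu₂⟩ := C.nf_factors (p := p) hj he₂
      have hc : Commute (A₁ a) (A₂ a) := by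
        have hB1 : (B a : M4 F) ≠ 1 := fun e => hBne (Units.ext e)
        exact Units.ext ((huB a).commute_trans C.hM.nsq C.hM.two hB1 (hu₁ a) (hu₂ a)
          (hcomm e₁ he₁ A₁ hA₁ hu₁) (hcomm e₂ he₂ A₂ hA₂ hu₂)).eq
      rw [map_mul, map_mul, map_mul, map_inv, map_inv, hA₁, hA₂, ← pureHom_apply,
        ← pureHom_apply, ← map_inv, ← map_inv, ← map_mul, ← map_mul, ← map_mul, pureHom_apply,
        coe_glPure]
      refine (site_comm_pure a X _ ?_).symm
      have : A₁ a * A₂ a * (A₁ a)⁻¹ * (A₂ a)⁻¹ = 1 := by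
        rw [hc.eq, mul_inv_cancel_right, mul_inv_cancel]
      simpa using congrArg Units.val this
    · intro c hc
      have hmul : (e₁.1 : M4 F) * e₂.1 = c • ((e₂.1 : M4 F) * e₁.1) := by
        have : ((e₁ * e₂ * e₁⁻¹ * e₂⁻¹).1 * (e₂.1 * e₁.1) : GL (Fin 4) F) = e₁.1 * e₂.1 := by
          simp only [Prod.fst_mul, Prod.fst_inv]; group
        have := congrArg Units.val this
        rw [Units.val_mul, hc, smul_mul_assoc, one_mul, Units.val_mul, Units.val_mul] at this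
        exact this.symm
      have h2 := he₂.1.unip (p := p) C.hM.two
      have h1 := he₁.1.unip (p := p) C.hM.two
      have hcm : Commute (e₁.1 : M4 F) e₂.1 := commute_of_smul h2.pw hmul
      rw [he₁', he₂'] at hcm
      have hu := uUnit_isU C.hM.two hw0 hw hx hxx
      have hu' := uUnit_isU C.hM.two hw0' hw' hx' hxx
      have hfix := (hu.unip (p := p) C.hM.two).fix_of_commute C.hM.nsq hu.ne_one
        (hu'.unip C.hM.two) hcm hw0 (add_sieM_fix hw hx) hw
      obtain ⟨k, hk⟩ := (hu'.unip (p := p) C.hM.two).unique C.hM.nsq hu'.ne_one hw0 hfix hw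
        (add_sieM_fix hw' hx') hw'
      exact hne k hk
  obtain ⟨e, he, A, hA, huA, hAne⟩ := haj
  obtain ⟨c, hc⟩ := glPure_scalar (A := A) (i := a) fun X => by
    have := ((hfull e he).2 X).eq
    rwa [hA] at this
  exact hAne (Units.ext ((huA a).eq_one_of_scalar hc))

lemma pj_fix (l : Fin t) (x : ↥(Gam δ g h σ l)) : C.pj l x i0 = i0 := by
  by_contra hne
  obtain ⟨H, hH, eh⟩ := C.h_update
  obtain ⟨A, hA⟩ := C.pj_spec l x
  have hc := C.phi_comm x.2
  obtain ⟨y, hy⟩ : ∃ y, y = phi g σ l x.1 := ⟨_, rfl⟩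
  rw [← hy] at hc hA
  rw [eh] at hc
  obtain ⟨c, hc0, e⟩ := conj_glPure_factor _ A (C.pj l x) hA hc i0
  rw [Function.update_self, Function.update_of_ne hne, Pi.one_apply, Units.val_one, one_mul,
    hH] at e
  refine half_not_scalar C.hM.two C.hM.nsq C.hr C.hs C.hrs c ?_
  have e' := congrArg ((((A (C.pj l x i0))⁻¹ : GL (Fin 4) F) : M4 F) * ·) e
  simpa [mul_smul_comm] using e'

lemma pj_supp {j l : Fin t} (h1 : j ≠ l) (h2 : j ≠ σ l) (x : ↥(Gam δ g h σ l)) {a : Fin t}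
    (ha : a ∈ supp p δ g h σ j) : C.pj l x a ∈ supp p δ g h σ j := by
  obtain ⟨e, he, A, hA, hu, hne⟩ := ha
  refine ⟨e, he, A, hA, hu, fun hbad => hne ?_⟩
  obtain ⟨B, hB⟩ := C.pj_spec l x
  have hc := (C.phi_commute h1 h2 e x.1).eq.symm
  rw [hA] at hc
  obtain ⟨c, -, e'⟩ := conj_glPure_factor A B (C.pj l x) hB hc a
  rw [hbad, Units.val_one, one_mul] at e'
  refine Units.ext ((hu a).eq_one_of_scalar (c := c) ?_)
  have e'' := congrArg ((((B (C.pj l x a))⁻¹ : GL (Fin 4) F) : M4 F) * ·) e'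
  simpa [mul_smul_comm] using e''

end Prime

end Cfg

end Cfsg.Agent.MaxSub.OrthFour.Count
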