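import Cfsg.Agent.MaxSub.OrthFour.CountFour
import Cfsg.Agent.MaxSub.TensorPowSp.Normal

/-!
The permutation and the factors of members of the monomial group of a tensor power, and a bound for
commutative groups of permutations of prime power order.
-/

set_option autoImplicit false
set_option linter.unusedSectionVars false

namespace Cfsg.Agent.MaxSub.OrthFour.Count

open Matrix Cfsg.Geo Cfsg.Agent.NotMax Cfsg.Agent.GeoClasses
open Cfsg.Agent.MaxSub.TensorPowSp (gV fG site_injective)
open scoped MatrixGroups Matrix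

variable {F : Type*} [Field F] {t : ℕ}

lemma glPure_mul (A B : Fin t → GL (Fin 4) F) : glPure A * glPure B = glPure (A * B) :=
  Units.ext (pureMat_mul _ _)

lemma glPure_one : glPure (1 : Fin t → GL (Fin 4) F) = 1 := Units.ext (pureMat_one 4 t)

/-- Pure tensors as a homomorphism. -/
noncomputable def pureHom (F : Type*) [Field F] (t : ℕ) : (Fin t → GL (Fin 4) F) →* GV F t where
  toFun := glPure
  map_one' := glPure_one
  map_mul' A B := (glPure_mul A B).symm

lemma pureHom_apply (A : Fin t → GL (Fin 4) F) : pureHom F t A = glPure A := rfl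

lemma perm_mul (π ρ : Equiv.Perm (Fin t)) :
    (glFactorPerm 4 π * glFactorPerm 4 ρ : GV F t) = glFactorPerm 4 (π * ρ) :=
  Units.ext (factorPerm_mul _ _)

lemma perm_one : (glFactorPerm 4 (1 : Equiv.Perm (Fin t)) : GV F t) = 1 :=
  Units.ext (factorPerm_one 4 t)

lemma perm_mul_glPure (π : Equiv.Perm (Fin t)) (B : Fin t → GL (Fin 4) F) :
    glFactorPerm 4 π * glPure B = glPure (fun i => B (π.symm i)) * glFactorPerm 4 π := by
  refine Units.ext (Eq.symm ?_)
  show pureMat _ * factorPerm 4 π = factorPerm 4 π * pureMat _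
  rw [pureMat_mul_factorPerm]
  simp

lemma form_mul (A B : Fin t → GL (Fin 4) F) (π ρ : Equiv.Perm (Fin t)) :
    glPure A * glFactorPerm 4 π * (glPure B * glFactorPerm 4 ρ) =
      glPure (fun i => A i * B (π.symm i)) * glFactorPerm 4 (π * ρ) := by
  rw [mul_assoc, ← mul_assoc (glFactorPerm 4 π), perm_mul_glPure, mul_assoc, perm_mul,
    ← mul_assoc, glPure_mul]
  rfl

lemma exists_form {g : GV F t} (hg : g ∈ Wr F t) :
    ∃ (π : Equiv.Perm (Fin t)) (A : Fin t → GL (Fin 4) F), g = glPure A * glFactorPerm 4 π := by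
  induction hg using Subgroup.closure_induction with
  | mem x hx =>
    rcases hx with ⟨As, h⟩ | ⟨σ, h⟩
    · exact ⟨1, As, by rw [perm_one, mul_one]; exact Units.ext (by ext x y; exact h x y)⟩
    · exact ⟨σ, 1, by rw [glPure_one, one_mul]; exact Units.ext (by ext x y; exact h x y)⟩
  | one => exact ⟨1, 1, by rw [glPure_one, perm_one, one_mul]⟩
  | mul x y _ _ hx hy =>
    obtain ⟨π, A, rfl⟩ := hx
    obtain ⟨ρ, B, rfl⟩ := hy
    exact ⟨π * ρ, _, form_mul A B π ρ⟩
  | inv x _ hx =>
    obtain ⟨π, A, rfl⟩ := hx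
    refine ⟨π⁻¹, fun i => (A (π i))⁻¹, inv_eq_of_mul_eq_one_right ?_⟩
    rw [form_mul, mul_inv_cancel, perm_one, mul_one,
      show (fun i => A i * (A (π (π.symm i)))⁻¹) = 1 from funext fun i => by simp, glPure_one]

lemma glPure_mem_Wr (A : Fin t → GL (Fin 4) F) : glPure A ∈ Wr F t :=
  Subgroup.subset_closure (Or.inl ⟨A, fun _ _ => rfl⟩)

lemma perm_eq_one {B : Fin t → M4 F} {ρ : Equiv.Perm (Fin t)}
    (h : pureMat B = factorPerm 4 ρ) : ρ = 1 := by
  classical
  refine Equiv.ext fun j => ?_
  by_contra hne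
  simp only [Equiv.Perm.one_apply] at hne
  have h0 : ∀ x : Fin t → Fin 4, ∏ i, B i (x i) (x (ρ i)) = 1 := fun x => by
    simpa [pureMat, factorPerm] using congrFun (congrFun h x) (x ∘ ρ)
  have hz : ∀ i, B i 0 0 ≠ 0 := fun i hi => by
    have := h0 fun _ => 0
    rw [Finset.prod_eq_zero (Finset.mem_univ i) hi] at this
    exact zero_ne_one this
  have hj1 : B j 0 1 ≠ 0 := fun hi => by
    have := h0 (Function.update (fun _ => 0) (ρ j) 1)
    rw [Finset.prod_eq_zero (Finset.mem_univ j) (by simp [Function.update_of_ne (Ne.symm hne), hi])]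
      at this
    exact zero_ne_one this
  have := congrFun (congrFun h fun _ => (0 : Fin 4)) (Function.update (fun _ => 0) j 1)
  simp only [factorPerm, pureMat] at this
  rw [if_neg] at this
  · obtain ⟨i, -, hi⟩ := Finset.prod_eq_zero_iff.1 this
    rcases eq_or_ne i j with rfl | hij
    · simp at hi; exact hj1 hi
    · simp [Function.update_of_ne hij] at hi; exact hz i hi
  · intro e
    have := congrFun e j
    simp at this

lemma perm_unique {A B : Fin t → GL (Fin 4) F} {π ρ : Equiv.Perm (Fin t)}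
    (h : glPure A * glFactorPerm 4 π = glPure B * glFactorPerm 4 ρ) : π = ρ := by
  have e : glPure (B⁻¹ * A) = (glFactorPerm 4 (ρ * π⁻¹) : GV F t) := by
    have := congrArg (fun z => (pureHom F t B)⁻¹ * z * glFactorPerm 4 π⁻¹) h
    simp only [pureHom_apply, mul_assoc, perm_mul, mul_inv_cancel, perm_one, mul_one] at this
    rw [← glPure_mul, ← pureHom_apply, map_inv, pureHom_apply, this, inv_mul_cancel_left]
  have := perm_eq_one (congrArg Units.val e)
  exact (mul_inv_eq_one.1 this).symm

/-- The permutation of a member of the monomial group. -/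
noncomputable def sitePerm (F : Type*) [Field F] (t : ℕ) : ↥(Wr F t) →* Equiv.Perm (Fin t) :=
  MonoidHom.mk' (fun g => (exists_form g.2).choose) fun g g' => by
    obtain ⟨A, hA⟩ := (exists_form g.2).choose_spec
    obtain ⟨B, hB⟩ := (exists_form g'.2).choose_spec
    obtain ⟨C, hC⟩ := (exists_form (g * g').2).choose_spec
    have e := form_mul A B (exists_form g.2).choose (exists_form g'.2).choose
    rw [← hA, ← hB, ← Subgroup.coe_mul] at e
    exact perm_unique (hC.symm.trans e)

lemma sitePerm_spec (g : ↥(Wr F t)) :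
    ∃ A, (g : GV F t) = glPure A * glFactorPerm 4 (sitePerm F t g) :=
  (exists_form g.2).choose_spec

/-! ### Factors -/

lemma val_ne_zero (A : GL (Fin 4) F) : (A : M4 F) ≠ 0 := A.ne_zero

lemma glPure_factor {A B : Fin t → GL (Fin 4) F} (h : glPure A = glPure B) (i : Fin t) :
    ∃ c : F, c ≠ 0 ∧ (A i : M4 F) = c • (B i : M4 F) :=
  pureMat_eq_smul_pureMat (s := (1 : F)) (A := fun i => (A i : M4 F)) (B := fun i => (B i : M4 F))
    (by rw [one_smul]; exact congrArg Units.val h) one_ne_zero (fun i => val_ne_zero _) i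

lemma pow_smul_eq {M : Type*} [Ring M] [Algebra F M] {p : ℕ} [Fact p.Prime] [CharP F p] [Nontrivial M]
    {c : F} {a : M} (ha : a ^ p = 1) (hb : (c • a) ^ p = 1) : c = 1 := by
  rw [smul_pow, ha] at hb
  have h1 : c ^ p = 1 := smul_left_injective F (one_ne_zero (α := M))
    (show c ^ p • (1 : M) = (1 : F) • 1 by rw [one_smul, hb])
  exact frobenius_inj F p (by simpa [frobenius_def] using h1)

lemma commute_of_smul {p : ℕ} [Fact p.Prime] [CharP F p] {A B : GL (Fin 4) F} {c : F}
    (hB : (B : M4 F) ^ p = 1) (h : (A : M4 F) * B = c • ((B : M4 F) * A)) :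
    Commute (A : M4 F) B := by
  have e : (A * B * A⁻¹ : GL (Fin 4) F) = (c • (B : M4 F)) := by
    simp only [Units.val_mul]
    rw [h, smul_mul_assoc, mul_assoc, Units.mul_inv, mul_one]
  have hp : ((A * B * A⁻¹ : GL (Fin 4) F) : M4 F) ^ p = 1 := by
    rw [← Units.val_pow_eq_pow_val, conj_pow, show B ^ p = 1 from Units.ext (by simp [hB]), mul_one,
      mul_inv_cancel, Units.val_one]
  rw [e] at hp
  rw [pow_smul_eq hB hp, one_smul] at h
  exact h

lemma glPure_comm {p : ℕ} [Fact p.Prime] [CharP F p] {A B : Fin t → GL (Fin 4) F}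
    (hB : ∀ i, (B i : M4 F) ^ p = 1) (h : glPure A * glPure B = glPure B * glPure A) (i : Fin t) :
    Commute (A i : M4 F) (B i) := by
  rw [glPure_mul, glPure_mul] at h
  obtain ⟨c, -, e⟩ := glPure_factor h i
  exact commute_of_smul (hB i) (by simpa using e)

lemma glPure_scalar {A : Fin t → GL (Fin 4) F} {i : Fin t}
    (h : ∀ X : M4 F, ((glPure A : GV F t) : MV F t) * site i X =
      site i X * ((glPure A : GV F t) : MV F t)) :
    ∃ c : F, (A i : M4 F) = c • 1 := by
  have h' : ∀ Y : GL (Fin 4) F, ∃ c : F, (A i : M4 F) * Y = c • ((Y : M4 F) * A i) := by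
    intro Y
    have e : glPure A * glPure (Function.update 1 i Y) = glPure (Function.update 1 i Y) * glPure A := by
      refine Units.ext ?_
      have hs : ((glPure (Function.update 1 i Y) : GV F t) : MV F t) = site i (Y : M4 F) := by
        show pureMat _ = _
        rw [site]; congr 1; funext j
        rcases eq_or_ne j i with rfl | hj <;> simp [*]
      rw [Units.val_mul, Units.val_mul, hs]
      exact h _
    rw [glPure_mul, glPure_mul] at e
    obtain ⟨c, -, e⟩ := glPure_factor e i
    exact ⟨c, by simpa using e⟩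
  have hc : ∀ X : M4 F, Commute (site i (A i : M4 F)) (site i X) := by
    intro X
    set R := Function.update (fun j => (A j : M4 F)) i 1 with hR
    have hpure : ((glPure A : GV F t) : MV F t) = site i (A i : M4 F) * pureMat R := by
      show pureMat _ = _
      rw [site, pureMat_mul]; congr 1; funext j
      rcases eq_or_ne j i with rfl | hj <;> simp [hR, *]
    have hRinv : ∃ R', pureMat R * R' = 1 := by
      refine ⟨pureMat (Function.update (fun j => (((A j)⁻¹ : GL (Fin 4) F) : M4 F)) i 1), ?_⟩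
      rw [pureMat_mul, ← pureMat_one 4 t]; congr 1; funext j
      rcases eq_or_ne j i with rfl | hj <;> simp [hR, *]
    obtain ⟨R', hR'⟩ := hRinv
    have hcm : Commute (site i X) (pureMat R) := TensorPowSp.site_comm_pure i X R (by simp [hR])
    have e := h X
    rw [hpure, mul_assoc, ← hcm.eq, ← mul_assoc, ← mul_assoc] at e
    have e' := congrArg (· * R') e
    show _ * _ = _ * _
    simpa [mul_assoc, hR'] using e'
  have hZ : ∀ X : M4 F, Commute X (A i : M4 F) := fun X => by
    refine site_injective (F := F) (k := 4) i ?_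
    rw [← site_mul, ← site_mul]
    exact (hc X).eq.symm
  obtain ⟨c, hc'⟩ := Matrix.mem_range_scalar_of_commute_single (M := (A i : M4 F))
    fun a b _ => hZ _
  exact ⟨c, by rw [← hc', Matrix.smul_one_eq_diagonal]; rfl⟩

lemma conj_glPure_factor {z : GV F t} (A C : Fin t → GL (Fin 4) F) (π : Equiv.Perm (Fin t))
    (hz : z = glPure C * glFactorPerm 4 π) (hc : z * glPure A = glPure A * z) (i : Fin t) :
    ∃ c : F, c ≠ 0 ∧
      (C (π i) : M4 F) * A i = c • ((A (π i) : M4 F) * C (π i)) := by
  subst hz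
  rw [mul_assoc, perm_mul_glPure, ← mul_assoc, glPure_mul, ← mul_assoc, glPure_mul] at hc
  obtain ⟨c, hc0, e⟩ := glPure_factor (mul_right_cancel hc) (π i)
  exact ⟨c, hc0, by simpa using e⟩

/-! ### Commutative groups of permutations of prime power order -/

lemma three_mul_le {p : ℕ} (hp : 3 ≤ p) (j : ℕ) : 3 * j ≤ p ^ j := by
  refine le_trans ?_ (Nat.pow_le_pow_left hp j)
  induction j with
  | zero => simp
  | succ n ih =>
    rw [pow_succ]
    have : 1 ≤ 3 ^ n := Nat.one_le_pow _ _ (by norm_num)
    rcases n with _ | n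
    · simp
    · have : 3 ≤ 3 ^ (n + 1) := Nat.le_self_pow (Nat.succ_ne_zero n) 3
      omega

theorem three_mul_exp_le {α : Type*} [DecidableEq α] {p : ℕ} [hp : Fact p.Prime] (hp3 : 3 ≤ p)
    (U : Finset α) : ∀ (k : ℕ) (P : Subgroup (Equiv.Perm α)),
      (∀ g ∈ P, ∀ h ∈ P, g * h = h * g) → (∀ g ∈ P, ∀ a, a ∉ U → g a = a) →
      Nat.card ↥P = p ^ k → 3 * k ≤ U.card := by
  classical
  induction U using Finset.strongInduction with
  | H U ih =>
    intro k P hcomm hfix hcard
    rcases Nat.eq_zero_or_pos k with rfl | hk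
    · simp
    obtain ⟨g, hg, a, hga⟩ : ∃ g ∈ P, ∃ a, g a ≠ a := by
      by_contra hno
      push Not at hno
      have : P = ⊥ := by
        rw [eq_bot_iff]; intro g hg
        exact Subgroup.mem_bot.2 (Equiv.ext fun a => hno g hg a)
      rw [this, Subgroup.card_bot] at hcard
      exact absurd hcard.symm (Nat.one_lt_pow hk.ne' hp.out.one_lt).ne'
    have : Finite ↥P := Nat.finite_of_card_ne_zero (by rw [hcard]; exact pow_ne_zero _ hp.out.ne_zero)
    have haU : a ∈ U := by by_contra h; exact hga (hfix g hg a h)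
    set O : Set α := MulAction.orbit ↥P a with hO
    have hOU : O ⊆ ↑U := by
      rintro _ ⟨⟨x, hx⟩, rfl⟩
      by_contra hb
      have h1 := hfix x⁻¹ (P.inv_mem hx) _ hb
      simp only [Subgroup.mk_smul, Equiv.Perm.smul_def] at h1 hb
      rw [Equiv.Perm.coe_inv, Equiv.symm_apply_apply] at h1
      exact hb (h1 ▸ haU)
    have hfin : O.Finite := U.finite_toSet.subset hOU
    have := hfin.fintype
    set St : Subgroup ↥P := MulAction.stabilizer ↥P a
    set P' : Subgroup (Equiv.Perm α) := St.map P.subtype with hP'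
    have hP'le : P' ≤ P := Subgroup.map_subtype_le _
    have hmul : Nat.card O * Nat.card ↥P' = p ^ k := by
      rw [hP', Subgroup.card_map_of_injective P.subtype_injective, ← hcard]
      exact (Nat.card_prod _ _).symm.trans
        (Nat.card_congr (MulAction.orbitProdStabilizerEquivGroup ↥P a))
    obtain ⟨j, hj, hjO⟩ := (Nat.dvd_prime_pow hp.out).1 ⟨_, hmul.symm⟩
    have hP'card : Nat.card ↥P' = p ^ (k - j) := by
      refine Nat.eq_of_mul_eq_mul_left (pow_pos hp.out.pos j) ?_
      rw [← pow_add, Nat.add_sub_cancel' hj, ← hjO, hmul]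
    have hrec := ih (U \ hfin.toFinset) (Finset.sdiff_ssubset
        (by intro b hb; exact hOU (hfin.mem_toFinset.1 hb))
        ⟨a, hfin.mem_toFinset.2 (MulAction.mem_orbit_self a)⟩) (k - j) P'
      (fun x hx y hy => hcomm x (hP'le hx) y (hP'le hy)) (fun x hx b hb => ?_) hP'card
    · have hsplit : (U \ hfin.toFinset).card + hfin.toFinset.card = U.card :=
        Finset.card_sdiff_add_card_eq_card (by intro b hb; exact hOU (hfin.mem_toFinset.1 hb))
      have hOc : hfin.toFinset.card = p ^ j := by
        rw [← hjO, Nat.card_eq_card_finite_toFinset hfin]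
      have := three_mul_le hp3 j
      omega
    · rw [Finset.mem_sdiff, not_and_or, not_not, hfin.mem_toFinset] at hb
      obtain ⟨⟨x, hxP⟩, hxS, rfl⟩ := Subgroup.mem_map.1 hx
      rcases hb with hb | ⟨⟨y, hy⟩, rfl⟩
      · exact hfix x hxP b hb
      · have hxa : x a = a := hxS
        show x (y a) = y a
        rw [← Equiv.Perm.mul_apply, hcomm x hxP y hy, Equiv.Perm.mul_apply, hxa]

end Cfsg.Agent.MaxSub.OrthFour.Count
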