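import Cfsg.Agent.MaxSub.OrthFour.CountAux

/-!
Pure tensors of order the characteristic: normalised factors, and site root elements.
-/

set_option autoImplicit false
set_option linter.unusedSectionVars false

namespace Cfsg.Agent.MaxSub.OrthFour.Count

open Matrix Cfsg.Geo Cfsg.Agent.NotMax Cfsg.Agent.GeoClasses
open Cfsg.Agent.MaxSub.TensorPowSp (gV fG site_injective site_comm_pure)
open Cfsg.Agent.MaxSub.OrthWreathBig (gB cr sieM)
open scoped MatrixGroups Matrix

variable {F : Type*} [Field F] {δ : F} {t : ℕ}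

lemma coe_glPure (A : Fin t → GL (Fin 4) F) :
    ((glPure A : GV F t) : MV F t) = pureMat fun i => (A i : M4 F) := rfl

lemma coe_glPure_update (i : Fin t) (X : GL (Fin 4) F) :
    ((glPure (Function.update 1 i X) : GV F t) : MV F t) = site i (X : M4 F) := by
  rw [coe_glPure, site]; congr 1; funext j
  rcases eq_or_ne j i with rfl | hj <;> simp [*]

lemma pureMat_conj_site (A B : Fin t → M4 F) (hAB : ∀ i, A i * B i = 1) (i : Fin t) (X : M4 F) :
    pureMat A * site i X * pureMat B = site i (A i * X * B i) := by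
  rw [site, site, pureMat_mul, pureMat_mul]; congr 1; funext j
  rcases eq_or_ne j i with rfl | hj <;> simp [*]

lemma site_eq_site {i l : Fin t} (hil : l ≠ i) {A B : GL (Fin 4) F}
    (h : site i (A : M4 F) = (site l (B : M4 F) : MV F t)) : ∃ c : F, (A : M4 F) = c • 1 := by
  rw [← coe_glPure_update, ← coe_glPure_update] at h
  obtain ⟨c, -, e⟩ := glPure_factor (Units.ext h) i
  exact ⟨c, by simpa [Function.update_of_ne hil.symm] using e⟩

lemma isU_of_isSiteU (h2 : (2 : F) ≠ 0) {i : Fin t} {B : M4 F}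
    (h : IsSiteU δ (site i B : MV F t)) : IsU δ B := by
  obtain ⟨l, w, x, hw0, hw, hx, hxx, e⟩ := h
  have hU : IsU δ (1 + sieM (G4 δ) w x) := ⟨w, x, hw0, hw, hx, hxx, rfl⟩
  by_cases hil : l = i
  · subst hil
    rwa [site_injective l e]
  exfalso
  have hneg : (1 + sieM (G4 δ) w (-x)) * (1 + sieM (G4 δ) w x) = 1 := by
    have := add_sieM_neg (x := -x) h2 hw (by rw [map_neg, hx, neg_zero])
    rwa [neg_neg] at this
  have e' : site l (1 + sieM (G4 δ) w (-x)) * site i B = (1 : MV F t) := by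
    rw [e, site_mul, hneg, site_one]
  have hd : B.det ≠ 0 := by
    intro h0
    obtain ⟨v, hv0, hv⟩ := Matrix.exists_mulVec_eq_zero_iff.2 h0
    obtain ⟨Z, hZ⟩ : ∃ Z : M4 F, Z = vecMulVec v (fun _ => (1 : F)) := ⟨_, rfl⟩
    have hz : B * Z = 0 := by rw [hZ, mul_vecMulVec, hv]; exact zero_vecMulVec _
    have h1 : (site i Z : MV F t) = site i 0 := by
      rw [← one_mul (site i Z : MV F t), ← e', mul_assoc, site_mul, hz, site_zero, mul_zero]
    obtain ⟨j, hj⟩ := Function.ne_iff.1 hv0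
    exact hj (by simpa [hZ, vecMulVec_apply] using congrFun (congrFun (site_injective i h1) j) j)
  obtain ⟨c, hc⟩ := site_eq_site (Ne.symm hil) (A := uUnit h2 hw hx)
    (B := Matrix.GeneralLinearGroup.mkOfDetNeZero B hd) (show site l _ = site i _ from e.symm)
  exact hU.not_scalar c hc

lemma isoW_pow {A : M4 F} {c : F} (h : Aᵀ * G4 δ * A = c • G4 δ) (n : ℕ) :
    (A ^ n)ᵀ * G4 δ * A ^ n = c ^ n • G4 δ := by
  induction n with
  | zero => simp
  | succ n ih =>
    rw [pow_succ, transpose_mul, show Aᵀ * (A ^ n)ᵀ * G4 δ * (A ^ n * A) =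
      Aᵀ * ((A ^ n)ᵀ * G4 δ * A ^ n) * A by simp only [mul_assoc], ih, mul_smul_comm, smul_mul_assoc,
      h, smul_smul, pow_succ]

section Prime

variable {p : ℕ} [Fact p.Prime] [CharP F p]

lemma smul_G4_inj {c : F} (hd : ¬ IsSquare δ) (h : c • G4 δ = (1 : F) • G4 δ) : c = 1 :=
  smul_left_injective F (fun e => by
    have := congrArg Matrix.det e
    rw [Matrix.det_zero] at this
    exact (isUnit_iff_ne_zero.1 (G4_det hd)) this) h

/-- A pure tensor of order the characteristic preserving the form has unipotent isometry factors. -/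
lemma exists_unip_factors [Finite F] (hd : ¬ IsSquare δ) {z : GV F t} (hp : z ^ p = 1)
    (hiso : IsoV δ (z : MV F t)) {A : Fin t → GL (Fin 4) F} (hA : z = glPure A) :
    ∃ B : Fin t → GL (Fin 4) F, z = glPure B ∧ ∀ i, Unip δ p (B i : M4 F) := by
  have hone : glPure (A ^ p) = glPure (1 : Fin t → GL (Fin 4) F) := by
    rw [← pureHom_apply, map_pow, pureHom_apply, ← hA, hp, glPure_one]
  have hc : ∀ i, ∃ c : F, c ≠ 0 ∧ (A i : M4 F) ^ p = c • 1 := fun i => by
    obtain ⟨c, hc0, e⟩ := glPure_factor hone i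
    exact ⟨c, hc0, by simpa using e⟩
  choose c hc0 hc using hc
  have hroot : ∀ i, ∃ d : F, d ^ p = c i := fun i => by
    obtain ⟨d, hd⟩ := (Finite.injective_iff_surjective.1 (frobenius_inj F p)) (c i)
    exact ⟨d, by simpa [frobenius_def] using hd⟩
  choose d hdd using hroot
  have hd0 : ∀ i, d i ≠ 0 := fun i h => hc0 i (by
    rw [← hdd, h, zero_pow (Fact.out : p.Prime).ne_zero])
  obtain ⟨B, hB⟩ : ∃ B : Fin t → GL (Fin 4) F, ∀ i, (B i : M4 F) = (d i)⁻¹ • (A i : M4 F) :=
    ⟨fun i => Matrix.GeneralLinearGroup.mkOfDetNeZero ((d i)⁻¹ • (A i : M4 F)) (by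
      rw [det_smul]
      exact mul_ne_zero (pow_ne_zero _ (inv_ne_zero (hd0 i)))
        (isUnit_iff_ne_zero.1 ((Matrix.isUnit_iff_isUnit_det _).1 (A i).isUnit))), fun i => rfl⟩
  have hBp : ∀ i, (B i : M4 F) ^ p = 1 := fun i => by
    rw [hB, smul_pow, hc, smul_smul, inv_pow, hdd, inv_mul_cancel₀ (hc0 i), one_smul]
  have hz : (z : MV F t) = (∏ i, d i) • ((glPure B : GV F t) : MV F t) := by
    rw [hA, coe_glPure, coe_glPure, ← pureMat_smul]
    congr 1; funext i
    rw [hB, smul_smul, mul_inv_cancel₀ (hd0 i), one_smul]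
  have hglp : ((glPure B : GV F t) : MV F t) ^ p = 1 := by
    have hB1 : B ^ p = 1 := funext fun i => Units.ext (by simp [hBp])
    rw [← Units.val_pow_eq_pow_val, ← pureHom_apply, ← map_pow, hB1, map_one, Units.val_one]
  have : Nonempty (Fin t → Fin 4) := ⟨fun _ => 0⟩
  have hd1 : ∏ i, d i = 1 :=
    pow_smul_eq hglp (by rw [← hz, ← Units.val_pow_eq_pow_val, hp, Units.val_one])
  have hzB : z = glPure B := Units.ext (by rw [hz, hd1, one_smul])
  refine ⟨B, hzB, fun i => ⟨?_, hBp i⟩⟩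
  have e : pureMat (fun j => (B j : M4 F)ᵀ * G4 δ * (B j : M4 F)) = pureMat fun _ : Fin t => G4 δ := by
    have h := hiso
    rw [IsoV, hzB, coe_glPure, pureMat_transpose, gV, pureMat_mul, pureMat_mul] at h
    exact h
  obtain ⟨k, -, hk⟩ := pureMat_eq_smul_pureMat (s := (1 : F))
    (A := fun j => (B j : M4 F)ᵀ * G4 δ * (B j : M4 F)) (B := fun _ : Fin t => G4 δ)
    (by rw [one_smul]; exact e) one_ne_zero (fun j h0 => by
      have := congrArg Matrix.det h0
      rw [Matrix.det_zero] at this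
      exact (isUnit_iff_ne_zero.1 (G4_det hd)) this) i
  have hkp := isoW_pow hk p
  rw [hBp, transpose_one, one_mul, mul_one] at hkp
  have hk1 : k ^ p = 1 := smul_G4_inj hd (by rw [one_smul, ← hkp])
  have : k = 1 := frobenius_inj F p (by simpa [frobenius_def] using hk1)
  rw [this, one_smul] at hk
  exact hk

lemma unip_factors_eq {A B : Fin t → GL (Fin 4) F} (hA : ∀ i, Unip δ p (A i : M4 F))
    (hB : ∀ i, Unip δ p (B i : M4 F)) (h : glPure A = glPure B) : A = B := funext fun i => by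
  obtain ⟨c, -, e⟩ := glPure_factor h i
  exact Units.ext (Unip.smul_eq (hA i).pw (hB i).pw e)

end Prime

end Cfsg.Agent.MaxSub.OrthFour.Count
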