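import Cfsg.Agent.MaxSub.OrthFour.Base

/-!
Named elements and conditions for tensor powers of an orthogonal space of dimension four.
-/

set_option autoImplicit false
set_option linter.unusedSectionVars false

namespace Cfsg.Agent.MaxSub.OrthFour

open Matrix Cfsg.Geo Cfsg.Agent.NotMax Cfsg.Agent.GeoClasses
open Cfsg.Agent.MaxSub.TensorPowSp (gV)
open Cfsg.Agent.MaxSub.OrthWreathBig (gB cr sieM)
open scoped MatrixGroups Matrix

variable {F : Type*} [Field F] {t : ℕ}

/-- A product of two half turns at the two sites. -/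
def IsBad (δ : F) (g : MV F 2) : Prop :=
  ∃ r s r' s', gB (G4 δ) r r ≠ 0 ∧ gB (G4 δ) s s ≠ 0 ∧ gB (G4 δ) r s = 0 ∧
    gB (G4 δ) r' r' ≠ 0 ∧ gB (G4 δ) s' s' ≠ 0 ∧ gB (G4 δ) r' s' = 0 ∧
    g = site 0 (reflW δ r * reflW δ s) * site 1 (reflW δ r' * reflW δ s')

/-- The group contains a long root element of pure shape. -/
def PureRoot (δ : F) (M : Subgroup (GV F t)) : Prop :=
  ∃ g ∈ M, ∃ i w x, w ≠ 0 ∧ gB (G4 δ) w w = 0 ∧ gB (G4 δ) w x = 0 ∧ gB (G4 δ) x x ≠ 0 ∧
    (g : MV F t) =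
      1 + skV δ (pureVec (Function.update (fun _ : Fin t => w) i x)) (pureVec fun _ => w)

/-- The group contains a long root element through the point of two copies of a singular vector. -/
def RootTwo (δ : F) (M : Subgroup (GV F 2)) : Prop :=
  ∃ g ∈ M, ∃ w a b, w ≠ 0 ∧ gB (G4 δ) w w = 0 ∧ gB (G4 δ) w a = 0 ∧ gB (G4 δ) w b = 0 ∧
    (gB (G4 δ) a a ≠ 0 ∨ gB (G4 δ) b b ≠ 0) ∧
    (g : MV F 2) = 1 + skV δ (pureVec ![a, w] + pureVec ![w, b]) (pureVec ![w, w])

/-- A matrix of two sites acting at the sites `i` and `j`. -/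
def liftPair (i j : Fin t) (X : MV F 2) : MV F t := fun a b =>
  if ∀ l, l ≠ i → l ≠ j → a l = b l then X ![a i, a j] ![b i, b j] else 0

/-- The subspace of the vectors with a given vector at one site is invariant. -/
def FixesSlot (δ : F) (i : Fin t) (w : Fin 4 → F) (g : MV F t) : Prop :=
  ∃ Y : MV F t, g * site i (cr (G4 δ) w w) = site i (cr (G4 δ) w w) * Y

/-- Every member acting at two sites is monomial. -/
def PairsLe (M : Subgroup (GV F t)) : Prop :=
  ∀ (i j : Fin t), i ≠ j → ∀ g ∈ M, (∃ X, (g : MV F t) = liftPair i j X) → g ∈ Wr F t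

end Cfsg.Agent.MaxSub.OrthFour

namespace Cfsg.Agent.MaxSub.OrthFour

open Matrix Cfsg.Agent.NotMax
open Cfsg.Agent.MaxSub.OrthWreathBig (gB cr)

variable {F : Type*} [Field F] {t : ℕ}

/-- The matrix fixes every vector with a given vector at one site. -/
def TrivSlot (δ : F) (i : Fin t) (r : Fin 4 → F) (g : MV F t) : Prop :=
  g * site i (cr (G4 δ) r r) = site i (cr (G4 δ) r r)

/-- An orthogonal frame of one site. -/
def IsFrame (δ : F) (f : Fin 4 → Fin 4 → F) : Prop :=
  (∀ l, gB (G4 δ) (f l) (f l) ≠ 0) ∧ ∀ l m, l ≠ m → gB (G4 δ) (f l) (f m) = 0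

/-- Commuting with the reflections of a frame at one site. -/
def CommFrame (δ : F) (i : Fin t) (f : Fin 4 → Fin 4 → F) (g : MV F t) : Prop :=
  ∀ l, g * site i (reflW δ (f l)) = site i (reflW δ (f l)) * g

end Cfsg.Agent.MaxSub.OrthFour
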