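import Cfsg.Agent.MaxSub.OrthFour.Defs

/-!
The dihedral argument for two involutions which are not conjugate, and the traces which tell the
named involutions of tensor powers apart.
-/

set_option autoImplicit false
set_option linter.unusedSectionVars false

namespace Cfsg.Agent.MaxSub.OrthFour

section Dihedral

variable {G : Type*} [Group G]

/-- A power of the product of two involutions moves the first by its square. -/
theorem conj_pow_left {a b : G} (ha : a * a = 1) (hb : b * b = 1) (n : ℕ) :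
    (a * b) ^ n * a * ((a * b) ^ n)⁻¹ = (a * b) ^ (n + n) * a := by
  induction n with
  | zero => simp
  | succ n ih =>
    have hbi : b⁻¹ = b := inv_eq_of_mul_eq_one_right hb
    have hai : a⁻¹ = a := inv_eq_of_mul_eq_one_right ha
    have hdi : (a * b)⁻¹ = b * a := by rw [mul_inv_rev, hbi, hai]
    have hc : a * b * (a * b) ^ (n + n) = (a * b) ^ (n + n) * (a * b) :=
      ((Commute.refl (a * b)).pow_right (n + n)).eq
    have h2 : (a * b) ^ (n + 1 + (n + 1)) = (a * b) ^ (n + n) * (a * b) * (a * b) := by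
      rw [show n + 1 + (n + 1) = n + n + 1 + 1 by omega, pow_succ, pow_succ]
    have h1 : (a * b) ^ (n + 1) * a * ((a * b) ^ (n + 1))⁻¹
        = (a * b) * ((a * b) ^ n * a * ((a * b) ^ n)⁻¹) * (a * b)⁻¹ := by
      rw [pow_succ', mul_inv_rev]
      simp only [mul_assoc]
    rw [h1, ih, ← mul_assoc (a * b), hc, hdi, h2]
    simp only [mul_assoc]

/-- A power of the product of two involutions moves the second by its square. -/
theorem conj_pow_right {a b : G} (ha : a * a = 1) (hb : b * b = 1) (n : ℕ) :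
    (a * b) ^ n * b * ((a * b) ^ n)⁻¹ = (a * b) ^ (n + n) * b := by
  have hc : (a * b) ^ n * (a * b) * ((a * b) ^ n)⁻¹ = a * b := by
    rw [((Commute.refl (a * b)).pow_left n).eq, mul_inv_cancel_right]
  calc (a * b) ^ n * b * ((a * b) ^ n)⁻¹
      = (a * b) ^ n * a * (a * b) * ((a * b) ^ n)⁻¹ := by
        rw [mul_assoc ((a * b) ^ n) a (a * b), ← mul_assoc a a b, ha, one_mul]
    _ = ((a * b) ^ n * a * ((a * b) ^ n)⁻¹) * ((a * b) ^ n * (a * b) * ((a * b) ^ n)⁻¹) := by
        group
    _ = (a * b) ^ (n + n) * b := by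
        rw [hc, conj_pow_left ha hb n, mul_assoc, ← mul_assoc a a b, ha, one_mul]

/-- Two involutions whose product has odd order are conjugate in the group they generate. -/
theorem exists_conj_of_odd {a b : G} (ha : a * a = 1) (hb : b * b = 1)
    (ho : Odd (orderOf (a * b))) :
    ∃ c ∈ Subgroup.closure ({a, b} : Set G), c * a * c⁻¹ = b := by
  obtain ⟨k, hk⟩ := ho
  have hab : a * b ∈ Subgroup.closure ({a, b} : Set G) :=
    Subgroup.mul_mem _ (Subgroup.subset_closure (Set.mem_insert a {b}))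
      (Subgroup.subset_closure (Set.mem_insert_of_mem a (Set.mem_singleton b)))
  refine ⟨(a * b) ^ k, Subgroup.pow_mem _ hab k, ?_⟩
  have h1 : (a * b) ^ (k + k) * (a * b) = 1 :=
    (pow_succ (a * b) (k + k)).symm.trans
      ((congrArg (fun n : ℕ => (a * b) ^ n) (show k + k + 1 = orderOf (a * b) by omega)).trans
        (pow_orderOf_eq_one (a * b)))
  have hbi : b⁻¹ = b := inv_eq_of_mul_eq_one_right hb
  have hai : a⁻¹ = a := inv_eq_of_mul_eq_one_right ha
  have h2 : (a * b) ^ (k + k) = b * a := by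
    rw [eq_inv_of_mul_eq_one_left h1, mul_inv_rev, hbi, hai]
  rw [conj_pow_left ha hb k, h2, mul_assoc, ha, mul_one]

/-- Two non-conjugate involutions centralise an involution `w` of the group they generate, and
`w * a`, `w * b` are conjugates of `a`, `b` in one of the two orders; in the first order some `c`
squares to `w`. -/
theorem exists_top [Finite G] {a b : G} (ha : a * a = 1) (hb : b * b = 1)
    (hne : ∀ c ∈ Subgroup.closure ({a, b} : Set G), c * a * c⁻¹ ≠ b) :
    ∃ w ∈ Subgroup.closure ({a, b} : Set G), w ≠ 1 ∧ w * w = 1 ∧ w * a = a * w ∧ w * b = b * w ∧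
      ((∃ c ∈ Subgroup.closure ({a, b} : Set G),
          c * c = w ∧ c * a * c⁻¹ = w * a ∧ c * b * c⁻¹ = w * b) ∨
        ∃ c ∈ Subgroup.closure ({a, b} : Set G), ∃ d ∈ Subgroup.closure ({a, b} : Set G),
          c * b * c⁻¹ = w * a ∧ d * a * d⁻¹ = w * b) := by
  obtain ⟨m, hm⟩ : Even (orderOf (a * b)) := by
    rw [← Nat.not_odd_iff_even]
    intro ho
    obtain ⟨c, hc, e⟩ := exists_conj_of_odd ha hb ho
    exact hne c hc e
  have hai : a⁻¹ = a := inv_eq_of_mul_eq_one_right ha
  have hbi : b⁻¹ = b := inv_eq_of_mul_eq_one_right hb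
  have hdm : a * b ∈ Subgroup.closure ({a, b} : Set G) :=
    Subgroup.mul_mem _ (Subgroup.subset_closure (Set.mem_insert a {b}))
      (Subgroup.subset_closure (Set.mem_insert_of_mem a (Set.mem_singleton b)))
  have hda := fun n : ℕ => conj_pow_left ha hb n
  have hdb := fun n : ℕ => conj_pow_right ha hb n
  set w := (a * b) ^ m with hw
  have hww : w * w = 1 := by rw [hw, ← pow_add, ← hm, pow_orderOf_eq_one]
  have hwi : w⁻¹ = w := inv_eq_of_mul_eq_one_right hww
  have hcomm : ∀ x : G, w * x * w⁻¹ = w * w * x → w * x = x * w := fun x hx => by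
    rw [hww, one_mul, mul_inv_eq_iff_eq_mul] at hx
    exact hx
  have hwa : w * a = a * w := hcomm a (by rw [hw, ← pow_add, hda m])
  have hwb : w * b = b * w := hcomm b (by rw [hw, ← pow_add, hdb m])
  refine ⟨w, Subgroup.pow_mem _ hdm m, fun h1 => ?_, hww, hwa, hwb, ?_⟩
  · have hpos : 0 < orderOf (a * b) := orderOf_pos (a * b)
    have := Nat.le_of_dvd (by omega) (orderOf_dvd_of_pow_eq_one h1)
    omega
  rcases Nat.even_or_odd m with ⟨k, hk⟩ | ⟨k, hk⟩
  · refine Or.inl ⟨(a * b) ^ k, Subgroup.pow_mem _ hdm k, ?_, ?_, ?_⟩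
    · rw [← pow_add, ← hk]
    · rw [hda, ← hk]
    · rw [hdb, ← hk]
  · refine Or.inr ⟨(a * b) ^ (k + 1), Subgroup.pow_mem _ hdm _, (a * b) ^ k, Subgroup.pow_mem _ hdm _, ?_, ?_⟩
    · rw [hdb, hw, show k + 1 + (k + 1) = m + 1 by omega, pow_succ, mul_assoc, mul_assoc, hb,
        mul_one]
    · rw [hda, hw, show m = k + k + 1 by omega, pow_succ, mul_assoc ((a * b) ^ (k + k)), mul_assoc,
        hb, mul_one]

end Dihedral

section Trace

open Matrix Cfsg.Geo Cfsg.Agent.NotMax Cfsg.Agent.GeoClasses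
open Cfsg.Agent.MaxSub.OrthWreathBig (gB cr)
open Cfsg.Agent.MaxSub.TensorPowSp (fG)
open scoped MatrixGroups Matrix

variable {F : Type*} [Field F] {t : ℕ}

theorem trace_pureMat {k : ℕ} (A : Fin t → Matrix (Fin k) (Fin k) F) :
    (pureMat A).trace = ∏ i, (A i).trace := by
  simp only [Matrix.trace, Matrix.diag, pureMat]
  exact (Fintype.prod_sum fun i (l : Fin k) => A i l l).symm

theorem site_mul_site_two (A B : M4 F) :
    (site 0 A : MV F 2) * site 1 B = pureMat ![A, B] := by
  rw [site, site, pureMat_mul]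
  congr 1
  funext l
  fin_cases l <;> simp

theorem trace_site (i : Fin 2) (A : M4 F) : (site i A : MV F 2).trace = 4 * A.trace := by
  rw [site, trace_pureMat, Fin.prod_univ_two]
  fin_cases i <;> simp [Matrix.trace_one, mul_comm]

theorem trace_cr (δ : F) (a b : Fin 4 → F) : (cr (G4 δ) a b).trace = gB (G4 δ) b a := by
  rw [cr, Matrix.trace_vecMulVec, OrthWreathBig.gB_apply, fG, dotProduct_comm]

theorem trace_reflW {δ : F} {r : Fin 4 → F} (hr : gB (G4 δ) r r ≠ 0) :
    (reflW δ r).trace = 2 := by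
  rw [reflW, Matrix.trace_sub, Matrix.trace_one, Matrix.trace_smul, trace_cr, smul_eq_mul,
    div_mul_cancel₀ _ hr]
  simp [Fintype.card_fin]
  norm_num

theorem trace_reflW_mul {δ : F} {r s : Fin 4 → F} (hr : gB (G4 δ) r r ≠ 0)
    (hs : gB (G4 δ) s s ≠ 0) (hrs : gB (G4 δ) r s = 0) : (reflW δ r * reflW δ s).trace = 0 := by
  rw [reflW, reflW, sub_mul, one_mul, mul_sub, mul_one, Matrix.smul_mul, Matrix.mul_smul,
    OrthWreathBig.cr_mul, hrs, zero_smul, smul_zero, smul_zero, sub_zero, Matrix.trace_sub,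
    Matrix.trace_sub, Matrix.trace_one, Matrix.trace_smul, Matrix.trace_smul, trace_cr, trace_cr,
    smul_eq_mul, smul_eq_mul, div_mul_cancel₀ _ hr, div_mul_cancel₀ _ hs]
  simp [Fintype.card_fin]
  norm_num

theorem IsPairRefl.trace {δ : F} {g : MV F 2} (h : IsPairRefl δ g) : g.trace = 4 := by
  obtain ⟨i, j, r, s, hij, hr, hs, rfl⟩ := h
  rw [site, site, pureMat_mul, trace_pureMat, Fin.prod_univ_two]
  fin_cases i <;> fin_cases j <;> simp_all [trace_reflW] <;> norm_num

theorem IsHalf.trace {δ : F} {g : MV F 2} (h : IsHalf δ g) : g.trace = 0 := by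
  obtain ⟨i, r, s, hr, hs, hrs, rfl⟩ := h
  rw [trace_site, trace_reflW_mul hr hs hrs, mul_zero]

theorem IsBad.trace {δ : F} {g : MV F 2} (h : IsBad δ g) : g.trace = 0 := by
  obtain ⟨r, s, r', s', hr, hs, hrs, -, -, -, rfl⟩ := h
  rw [site_mul_site_two, trace_pureMat, Fin.prod_univ_two]
  simp [trace_reflW_mul hr hs hrs]

theorem trace_neg_one_two : ((-1 : MV F 2)).trace = -16 := by
  rw [Matrix.trace_neg, Matrix.trace_one]
  norm_num

/-- Conjugate elements have the same trace. -/
theorem trace_conj {n : Type*} [Fintype n] [DecidableEq n] (g x : GL n F) :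
    ((g * x * g⁻¹ : GL n F) : Matrix n n F).trace = ((x : GL n F) : Matrix n n F).trace := by
  rw [Units.val_mul, Units.val_mul, Matrix.trace_mul_cycle, ← Units.val_mul, inv_mul_cancel,
    Units.val_one, one_mul]

end Trace

end Cfsg.Agent.MaxSub.OrthFour
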