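import Cfsg.Agent.MaxSub.OrthFour.FrameNormal

/-!
The members of an overgroup commuting with the reflections of a frame at one site and trivial on one
of its slots are monomial.
-/

set_option autoImplicit false
set_option linter.unusedSectionVars false
set_option linter.style.haveILetI false

namespace Cfsg.Agent.MaxSub.OrthFour

open Matrix Cfsg.Geo Cfsg.Agent.NotMax Cfsg.Agent.GeoClasses Slot
open Cfsg.Agent.MaxSub.TensorPowSp (gV site_injective)
open Cfsg.Agent.MaxSub.OrthWreathBig (gB cr sieM cr_mul cr_mulVec)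
open scoped MatrixGroups Matrix

variable {F : Type*} [Field F] {s : ℕ} {δ : F}

namespace Slot

/-- The projection on a member of a frame. -/
noncomputable def pr (δ : F) (f : Fin 4 → Fin 4 → F) (n : Fin 4) : M4 F :=
  (gB (G4 δ) (f n) (f n))⁻¹ • cr (G4 δ) (f n) (f n)

/-- The coordinate covector of a member of a frame. -/
noncomputable def dualRow (δ : F) (f : Fin 4 → Fin 4 → F) (n : Fin 4) : Fin 4 → F :=
  (gB (G4 δ) (f n) (f n))⁻¹ • (f n ᵥ* G4 δ)

lemma pr_eq (f : Fin 4 → Fin 4 → F) (n : Fin 4) :
    pr δ f n = vecMulVec (f n) (dualRow δ f n) := by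
  ext a b
  simp [pr, dualRow, cr, vecMulVec_apply, mul_left_comm]

lemma dual_dot {f : Fin 4 → Fin 4 → F} (hf : IsFrame δ f) (n m : Fin 4) :
    dualRow δ f n ⬝ᵥ f m = if n = m then 1 else 0 := by
  rw [dualRow, smul_dotProduct, smul_eq_mul]
  have e : (f n ᵥ* G4 δ) ⬝ᵥ f m = gB (G4 δ) (f n) (f m) := rfl
  rw [e]
  by_cases h : n = m
  · subst h; rw [if_pos rfl, inv_mul_cancel₀ (hf.1 n)]
  · rw [if_neg h, hf.2 n m h, mul_zero]

lemma pr_mulVec {f : Fin 4 → Fin 4 → F} (hf : IsFrame δ f) (n m : Fin 4) :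
    pr δ f n *ᵥ f m = if n = m then f m else 0 := by
  rw [pr_eq, vecMulVec_mulVec, dual_dot hf]
  by_cases h : n = m
  · subst h; simp
  · simp [h]

lemma pr_sum {f : Fin 4 → Fin 4 → F} (hf : IsFrame δ f) : ∑ n, pr δ f n = 1 := by
  set C : M4 F := Matrix.of fun a n => f n a
  set D : M4 F := Matrix.of fun n b => dualRow δ f n b
  have h : D * C = 1 := by
    ext n m
    rw [Matrix.one_apply, ← dual_dot hf n m]
    rfl
  rw [← mul_eq_one_comm.1 h]
  ext a b
  simp [C, D, pr_eq, Matrix.sum_apply, Matrix.mul_apply, vecMulVec_apply]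

lemma pr_idem {f : Fin 4 → Fin 4 → F} (hf : IsFrame δ f) (n : Fin 4) :
    pr δ f n * pr δ f n = pr δ f n := by
  rw [pr, Matrix.smul_mul, Matrix.mul_smul, cr_mul, smul_smul, smul_smul, mul_assoc,
    inv_mul_cancel₀ (hf.1 n), mul_one]

lemma pr_form {f : Fin 4 → Fin 4 → F} (n : Fin 4) :
    (pr δ f n)ᵀ * G4 δ = G4 δ * pr δ f n := by
  ext a b
  simp only [G4, Matrix.mul_diagonal, Matrix.diagonal_mul, Matrix.transpose_apply, pr,
    Matrix.smul_apply, cr, vecMulVec_apply, Matrix.vecMul_diagonal, smul_eq_mul]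
  ring

lemma pr_ne_zero {f : Fin 4 → Fin 4 → F} (hf : IsFrame δ f) (n : Fin 4) : pr δ f n ≠ 0 := by
  intro e
  have h := pr_mulVec hf n n
  rw [e, if_pos rfl, Matrix.zero_mulVec] at h
  exact hf.1 n (by rw [← h]; simp)

lemma reflW_frame (f : Fin 4 → Fin 4 → F) (n : Fin 4) :
    reflW δ (f n) = 1 - (2 : F) • pr δ f n := by
  rw [reflW, pr, smul_smul, div_eq_mul_inv]

/-- The blocks of a matrix commuting with the reflections of a frame at one site. -/
def Blk (δ : F) (i : Fin (s + 1)) (f : Fin 4 → Fin 4 → F) (g : MV F (s + 1))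
    (h : Fin 4 → MV F s) : Prop :=
  ∀ n, g * kr i (pr δ f n) 1 = kr i (pr δ f n) (h n)

variable {i : Fin (s + 1)} {f : Fin 4 → Fin 4 → F}

lemma Blk.mul {g g' : MV F (s + 1)} {h h' : Fin 4 → MV F s} (hg : Blk δ i f g h)
    (hg' : Blk δ i f g' h') : Blk δ i f (g * g') fun n => h n * h' n := fun n => by
  calc g * g' * kr i (pr δ f n) 1 = g * (kr i (pr δ f n) 1 * kr i 1 (h' n)) := by
        rw [Matrix.mul_assoc, hg' n, kr_mul, Matrix.mul_one, Matrix.one_mul]
    _ = kr i (pr δ f n) (h n * h' n) := by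
        rw [← Matrix.mul_assoc, hg n, kr_mul, Matrix.mul_one]

lemma Blk.one : Blk δ i f (1 : MV F (s + 1)) fun _ => 1 := fun _ => Matrix.one_mul _

lemma Blk.lift (X : MV F s) : Blk δ i f (kr i 1 X) fun _ => X := fun n => by
  rw [kr_mul, Matrix.one_mul, Matrix.mul_one]

lemma Blk.unique (hf : IsFrame δ f) {g : MV F (s + 1)} {h h' : Fin 4 → MV F s}
    (hg : Blk δ i f g h) (hg' : Blk δ i f g h') (n : Fin 4) : h n = h' n :=
  kr_right_inj (pr_ne_zero hf n) ((hg n).symm.trans (hg' n))

lemma Blk.inv (hf : IsFrame δ f) {g : GV F (s + 1)} {h : Fin 4 → MV F s}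
    (hg : Blk δ i f (g : MV F (s + 1)) h) {h' : Fin 4 → MV F s}
    (hg' : Blk δ i f ((g⁻¹ : GV F (s + 1)) : MV F (s + 1)) h') (n : Fin 4) :
    h n * h' n = 1 := by
  refine kr_right_inj (i := i) (pr_ne_zero hf n) ?_
  rw [← hg.mul hg' n, Units.mul_inv, Matrix.one_mul]

lemma Blk.eq_sum (hf : IsFrame δ f) {g : MV F (s + 1)} {h : Fin 4 → MV F s}
    (hg : Blk δ i f g h) : g = ∑ n, kr i (pr δ f n) (h n) := by
  calc g = g * kr i (∑ n, pr δ f n) 1 := by rw [pr_sum hf, kr_one, Matrix.mul_one]
    _ = _ := by rw [kr_sum_left, Matrix.mul_sum]; exact Finset.sum_congr rfl fun n _ => hg n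

/-- The sandwich by a matrix of rank one at one site. -/
lemma kr_sandwich (a b : Fin 4 → F) (Z : MV F (s + 1)) :
    kr i (vecMulVec a b) 1 * Z * kr i (vecMulVec a b) 1 = kr i (vecMulVec a b)
      (Matrix.of fun x y => ∑ p, ∑ q, b p * Z (i.insertNth p x) (i.insertNth q y) * a q) := by
  have e : ∀ (p : Fin 4) (x : Fin s → Fin 4),
      (i.insertNth p x : Fin (s + 1) → Fin 4) ∘ i.succAbove = x := fun p x => funext (by simp)
  have h1 : ∀ (u : Fin (s + 1) → Fin 4) (q : Fin 4) (y : Fin s → Fin 4),
      (kr i (vecMulVec a b) 1 * Z) u (i.insertNth q y) =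
        a (u i) * ∑ p, b p * Z (i.insertNth p (u ∘ i.succAbove)) (i.insertNth q y) := by
    intro u q y
    rw [Matrix.mul_apply, sum_split i, Finset.mul_sum]
    refine Finset.sum_congr rfl fun p _ => ?_
    rw [Finset.sum_eq_single (u ∘ i.succAbove)]
    · rw [kr_apply, e, Fin.insertNth_apply_same, Matrix.one_apply_eq, vecMulVec_apply]
      ring
    · intro x _ hx
      rw [kr_apply, e, Matrix.one_apply_ne (Ne.symm hx), mul_zero, zero_mul]
    · simp
  ext u v
  rw [Matrix.mul_apply, sum_split i, kr_apply, Matrix.of_apply, vecMulVec_apply, Finset.mul_sum]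
  conv_rhs => rw [Finset.sum_congr rfl fun p _ => Finset.mul_sum _ _ _, Finset.sum_comm]
  refine Finset.sum_congr rfl fun q _ => ?_
  rw [Finset.sum_eq_single (v ∘ i.succAbove)]
  · rw [h1, kr_apply, e, Fin.insertNth_apply_same, Matrix.one_apply_eq, vecMulVec_apply,
      Finset.mul_sum, Finset.sum_mul]
    exact Finset.sum_congr rfl fun p _ => by ring
  · intro x _ hx
    rw [kr_apply _ _ _ (i.insertNth q x), e, Matrix.one_apply_ne hx, mul_zero, mul_zero]
  · simp

lemma exists_blk (h2 : (2 : F) ≠ 0) (hf : IsFrame δ f) {g : MV F (s + 1)}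
    (hg : CommFrame δ i f g) : ∃ h, Blk δ i f g h := by
  have hc : ∀ n, g * kr i (pr δ f n) 1 = kr i (pr δ f n) 1 * g := by
    intro n
    have e := hg n
    rw [reflW_frame, site_self, kr_sub_left, kr_one, kr_smul_left, mul_sub, sub_mul, Matrix.mul_one,
      Matrix.one_mul, Matrix.mul_smul, Matrix.smul_mul, sub_right_inj] at e
    exact smul_right_injective _ h2 e
  refine ⟨fun n => _, fun n => (?_ : _ = kr i (pr δ f n)
    (Matrix.of fun x y => ∑ p, ∑ q,
      dualRow δ f n p * g (i.insertNth p x) (i.insertNth q y) * f n q))⟩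
  calc g * kr i (pr δ f n) 1 = g * kr i (pr δ f n) 1 * kr i (pr δ f n) 1 := by
        rw [Matrix.mul_assoc, kr_mul, pr_idem hf, Matrix.one_mul]
    _ = _ := by rw [hc n, pr_eq, kr_sandwich]

lemma Blk.isoV (hf : IsFrame δ f) {g : MV F (s + 1)} (hg : IsoV δ g) {h : Fin 4 → MV F s}
    (hh : Blk δ i f g h) (n : Fin 4) : IsoV δ (h n) := by
  have e1 : kr i ((pr δ f n)ᵀ * G4 δ * pr δ f n) ((h n)ᵀ * gV (G4 δ) s * h n) =
      kr i ((pr δ f n)ᵀ * G4 δ * pr δ f n) (gV (G4 δ) s) := by
    have l : (g * kr i (pr δ f n) 1)ᵀ * gV (G4 δ) (s + 1) * (g * kr i (pr δ f n) 1) =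
        (kr i (pr δ f n) 1)ᵀ * gV (G4 δ) (s + 1) * kr i (pr δ f n) 1 := by
      rw [Matrix.transpose_mul]
      have hg' : gᵀ * gV (G4 δ) (s + 1) * g = gV (G4 δ) (s + 1) := hg
      simp only [Matrix.mul_assoc] at hg' ⊢
      rw [← Matrix.mul_assoc gᵀ, ← Matrix.mul_assoc (gᵀ * _), Matrix.mul_assoc gᵀ, hg']
    rw [hh n, gV_split δ i, kr_transpose, kr_transpose, kr_mul, kr_mul, kr_mul, kr_mul,
      Matrix.transpose_one, Matrix.one_mul, Matrix.mul_one] at l
    exact l
  refine kr_right_inj (fun e => ?_) e1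
  rw [pr_form, Matrix.mul_assoc, pr_idem hf] at e
  have := congrArg (fun X : M4 F => f n ⬝ᵥ X *ᵥ f n) e
  simp only [← mulVec_mulVec, pr_mulVec hf, if_true, Matrix.zero_mulVec, dotProduct_zero,
    dotProduct_mulVec] at this
  exact hf.1 n this

lemma scalar_iso [NeZero s] (hd : ¬ IsSquare δ) {h : MV F s} (hh : IsoV δ h) {c : F}
    (hc : h = c • 1) : h = 1 ∨ h = -1 := by
  subst hc
  rw [IsoV, Matrix.transpose_smul, Matrix.transpose_one, Matrix.smul_mul, Matrix.one_mul,
    Matrix.mul_smul, Matrix.mul_one, smul_smul] at hh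
  have := congrFun (congrFun hh 0) 0
  rw [Matrix.smul_apply, gV_diag, Matrix.diagonal_apply_eq, smul_eq_mul,
    mul_eq_right₀ (Finset.prod_ne_zero_iff.2 fun l _ => wt_ne_zero hd _)] at this
  rcases mul_self_eq_one_iff.1 this with rfl | rfl
  · exact Or.inl (one_smul F _)
  · exact Or.inr (neg_one_smul F _)

/-- A monomial matrix made of two site blocks has proportional parts. -/
lemma two_site_scalar (hf : IsFrame δ f) {g : GV F (s + 1)} (hgW : g ∈ Wr F (s + 1)) {j : Fin s}
    {A : Fin 4 → M4 F} (hg : Blk δ i f (g : MV F (s + 1)) fun n => site j (A n)) {l m : Fin 4}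
    (hlm : l ≠ m) (hl : A l = 1) : ∃ c : F, A m = c • 1 := by
  have mv : ∀ (P : M4 F) (X : MV F s) (v : Fin 4 → F) (W : Fin s → Fin 4 → F) (p : Fin 4)
      (x : Fin s → Fin 4), (kr i P X *ᵥ pureVec (i.insertNth v W)) (i.insertNth p x) =
        (P *ᵥ v) p * (X *ᵥ pureVec W) x := by
    intro P X v W p x
    rw [Matrix.mulVec, dotProduct, sum_split i, Matrix.mulVec, Matrix.mulVec, dotProduct,
      dotProduct, Finset.sum_mul_sum]
    refine Finset.sum_congr rfl fun q _ => Finset.sum_congr rfl fun y _ => ?_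
    rw [kr_insertNth]
    simp only [pureVec, Fin.prod_univ_succAbove _ i, Fin.insertNth_apply_same,
      Fin.insertNth_apply_succAbove]
    ring
  have eig : ∀ w : Fin 4 → F, ∃ c : F, A m *ᵥ w = c • w := by
    intro w
    rcases eq_or_ne w 0 with rfl | hw
    · exact ⟨0, by simp⟩
    set e0 : Fin 4 → F := Pi.single 0 1 with he0
    set W : Fin s → Fin 4 → F := Function.update (fun _ => e0) j w with hW
    obtain ⟨u, hu⟩ := (pure_of_mem_Wr hgW).1 (i.insertNth (f l + f m) W)
    set R : (Fin s → Fin 4) → F := fun x => ∏ r, u (i.succAbove r) (x r) with hR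
    have key : ∀ p x, f l p * pureVec W x + f m p * (site j (A m) *ᵥ pureVec W) x =
        u i p * R x := by
      intro p x
      have h1 := congrFun hu (i.insertNth p x)
      rw [hg.eq_sum hf, Matrix.sum_mulVec, Finset.sum_apply] at h1
      simp only [mv, Matrix.mulVec_add, pr_mulVec hf, Pi.add_apply, add_mul,
        Finset.sum_add_distrib] at h1
      rw [Finset.sum_eq_single l (fun n _ hn => by simp [hn]) (by simp),
        Finset.sum_eq_single m (fun n _ hn => by simp [hn]) (by simp)] at h1
      simp only [if_true, hl, site_one, Matrix.one_mulVec] at h1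
      rw [h1, pureVec, Fin.prod_univ_succAbove _ i]
      simp [hR]
    have proj : ∀ n x, (if n = l then pureVec W x else 0) +
        (if n = m then (site j (A m) *ᵥ pureVec W) x else 0) = (dualRow δ f n ⬝ᵥ u i) * R x := by
      intro n x
      have h1 : ∑ p, dualRow δ f n p * (f l p * pureVec W x + f m p * (site j (A m) *ᵥ pureVec W) x)
          = ∑ p, dualRow δ f n p * (u i p * R x) := by simp only [key]
      simp only [mul_add, Finset.sum_add_distrib, ← mul_assoc, ← Finset.sum_mul] at h1
      change (dualRow δ f n ⬝ᵥ f l) * _ + (dualRow δ f n ⬝ᵥ f m) * _ = _ at h1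
      rw [dual_dot hf, dual_dot hf] at h1
      simp only [ite_mul, one_mul, zero_mul] at h1
      exact h1
    obtain ⟨p0, hp0⟩ := Function.ne_iff.1 hw
    have hval : ∀ (z : Fin 4 → F) (p : Fin 4),
        pureVec (Function.update (fun _ : Fin s => e0) j z) (Function.update 0 j p) = z p := by
      intro z p
      rw [pureVec, Finset.prod_eq_single j]
      · simp
      · intro r _ hr; simp [hr, he0]
      · simp
    have hα : dualRow δ f l ⬝ᵥ u i ≠ 0 := by
      intro h0
      have h := proj l (Function.update 0 j p0)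
      rw [if_pos rfl, if_neg hlm, add_zero, hW, hval, h0, zero_mul] at h
      exact hp0 h
    refine ⟨(dualRow δ f m ⬝ᵥ u i) / (dualRow δ f l ⬝ᵥ u i), funext fun p => ?_⟩
    have h1 := proj l (Function.update 0 j p)
    have h2 := proj m (Function.update 0 j p)
    rw [if_pos rfl, if_neg hlm, add_zero, hW, hval] at h1
    rw [if_neg hlm.symm, if_pos rfl, zero_add, site_mulVec, hW, Function.update_self,
      Function.update_idem, hval] at h2
    rw [h2, Pi.smul_apply, smul_eq_mul, h1, ← mul_assoc, div_mul_cancel₀ _ hα]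
  choose c hc using eig
  have hoff : ∀ a b, a ≠ b → A m a b = 0 := fun a b hab => by
    have h := congrFun (hc (Pi.single b 1)) a
    simpa [hab] using h
  refine ⟨A m 0 0, Matrix.ext fun a b => ?_⟩
  by_cases hab : a = b
  · subst hab
    rw [Matrix.smul_apply, Matrix.one_apply_eq, smul_eq_mul, mul_one]
    rcases eq_or_ne a 0 with rfl | ha
    · rfl
    · have h := hc (Pi.single a 1 + Pi.single 0 1)
      have ha' := congrFun h a
      have h0' := congrFun h 0
      simp [Matrix.mulVec_add, hoff a 0 ha, hoff 0 a (Ne.symm ha), ha, Ne.symm ha] at ha' h0'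
      rw [ha', h0']
  · simp [hoff a b hab, hab]

lemma pairs_two_site (hf : IsFrame δ f) {g : GV F (s + 1)} {j : Fin s} {A : Fin 4 → M4 F}
    (hg : Blk δ i f (g : MV F (s + 1)) fun n => site j (A n)) :
    ∃ X, (g : MV F (s + 1)) = liftPair i (i.succAbove j) X := by
  refine ⟨Matrix.of fun a b => ∑ n, pr δ f n (a 0) (b 0) * A n (a 1) (b 1), ?_⟩
  ext a b
  rw [hg.eq_sum hf, Matrix.sum_apply, liftPair]
  by_cases hab : ∀ l, l ≠ i → l ≠ i.succAbove j → a l = b l
  · rw [if_pos hab]
    simp only [Matrix.of_apply, Matrix.cons_val_zero, Matrix.cons_val_one]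
    refine Finset.sum_congr rfl fun n _ => ?_
    rw [kr_apply, site_apply_of_eq _ fun r hr => ?_]
    · rfl
    · exact hab _ (Fin.succAbove_ne i r) fun e => hr (Fin.succAbove_right_injective e)
  · rw [if_neg hab]
    push Not at hab
    obtain ⟨l, hli, hlj, hne⟩ := hab
    obtain ⟨r, rfl⟩ := Fin.exists_succAbove_eq hli
    refine Finset.sum_eq_zero fun n _ => ?_
    rw [kr_apply, site_apply_of_ne _ (j := r) (fun e => hlj (e ▸ rfl)) hne, mul_zero]

end Slot

open Slot in
/-- A member commuting with the reflections of a frame at one site and trivial on one of its slots is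
monomial. -/
theorem mem_Wr_of_commFrame [Finite F] (hs : 2 ≤ s)
    (hD : Dicho F δ s) {M : Subgroup (GV F (s + 1))} (hM : Over δ M) (hPairs : PairsLe M) :
    ∀ g ∈ M, ∀ i f, IsFrame δ f → CommFrame δ i f (g : MV F (s + 1)) → ∀ l,
      TrivSlot δ i (f l) (g : MV F (s + 1)) → g ∈ Wr F (s + 1) := by
  classical
  intro g hg i f hf hcf l htl
  haveI : NeZero s := ⟨by omega⟩
  have hd := hM.nsq
  have hspan : Algebra.adjoin F (Roots δ) = ⊤ := adjoin_roots hM.two hd
  have liftM : ∀ X ∈ Wr F s ⊓ Om δ s, liftG i X ∈ M := fun X hX =>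
    hM.mem (liftG_mem_Wr i hX.1) (liftG_mem_Om hM.two i hX.2)
  suffices hall : ∀ S : Finset (Fin 4), l ∉ S → ∀ g ∈ M, ∀ h, Blk δ i f (g : MV F (s + 1)) h →
      (∀ n, n ∉ S → h n = 1) → ∀ n, h n = 1 ∨ h n = -1 by
    obtain ⟨h, hh⟩ := exists_blk hM.two hf hcf
    have hl : h l = 1 := by
      refine kr_right_inj (i := i) (pr_ne_zero hf l) ?_
      rw [← hh l]
      have e : (g : MV F (s + 1)) * site i (cr (G4 δ) (f l) (f l)) =
        site i (cr (G4 δ) (f l) (f l)) := htl
      rw [site_self] at e
      rw [pr, kr_smul_left, Matrix.mul_smul, e]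
    have hS := hall (Finset.univ.erase l) (by simp) g hg h hh fun n hn => by
      obtain rfl : n = l := by simpa using hn
      exact hl
    set ε : Fin 4 → F := fun n => if h n = 1 then 1 else -1
    have hε : ∀ n, h n = ε n • 1 := fun n => by
      by_cases e : h n = 1
      · simp [ε, e]
      · rw [(hS n).resolve_left e]; simp [ε, e]
    set A : M4 F := ∑ n, ε n • pr δ f n
    have hgA : (g : MV F (s + 1)) = site i A := by
      rw [hh.eq_sum hf, site_self, kr_sum_left]
      exact Finset.sum_congr rfl fun n _ => by rw [hε n, kr_smul_left, kr_smul_right]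
    have hA : IsUnit A := by
      have hun : IsUnit (site i A : MV F (s + 1)) := hgA ▸ g.isUnit
      refine (Matrix.isUnit_iff_isUnit_det A).2 (isUnit_iff_ne_zero.2 fun h0 => ?_)
      obtain ⟨v, hv, hv0⟩ := Matrix.exists_mulVec_eq_zero_iff.2 h0
      have e : (site i A : MV F (s + 1)) * site i (vecMulVec v v) = 0 := by
        rw [site_mul, Matrix.mul_vecMulVec, hv0, zero_vecMulVec, site_zero]
      have := hun.mul_right_eq_zero.1 e
      rw [← site_zero i] at this
      obtain ⟨a, ha⟩ := Function.ne_iff.1 hv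
      have := congrFun (congrFun (site_injective i this) a) a
      simp [vecMulVec_apply] at this
      exact ha this
    obtain ⟨u, hu⟩ := hA
    rw [Units.ext (hgA.trans ((sG_val i u).trans (by rw [hu])).symm)]
    exact sG_mem_Wr i u
  intro S
  induction S using Finset.strongInduction with
  | _ S ih =>
    intro hlS g hg h hh hoff
    by_contra hcon
    push Not at hcon
    obtain ⟨m, hm1, hm2⟩ := hcon
    have hmS : m ∈ S := by
      by_contra e
      exact hm1 (hoff m e)
    -- the projection of the group of the blocks of `S`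
    let N : Subgroup (GV F s) :=
      { carrier := {x | ∃ g ∈ M, ∃ h, Blk δ i f ((g : GV F (s + 1)) : MV F (s + 1)) h ∧
          (∀ n, n ∉ S → h n = 1) ∧ (x : MV F s) = h m}
        one_mem' := ⟨1, one_mem M, fun _ => 1, Blk.one, fun _ _ => rfl, rfl⟩
        mul_mem' := by
          rintro x y ⟨g, hg, h, hh, ho, hx⟩ ⟨g', hg', h', hh', ho', hy⟩
          exact ⟨g * g', mul_mem hg hg', _, hh.mul hh', fun n hn => by
            simp only [ho n hn, ho' n hn, Matrix.one_mul], by rw [Units.val_mul, hx, hy]⟩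
        inv_mem' := by
          rintro x ⟨g, hg, h, hh, ho, hx⟩
          have hinv : ∀ n, IsUnit (h n) := fun n => by
            have hdet : IsUnit (h n).det := by
              have e := congrArg Matrix.det (hh.isoV hf (hM.isoV hg) n)
              rw [Matrix.det_mul, Matrix.det_mul, Matrix.det_transpose] at e
              have h0 : (gV (G4 δ) s).det ≠ 0 := by
                rw [gV_diag, Matrix.det_diagonal]
                exact Finset.prod_ne_zero_iff.2 fun a _ =>
                  Finset.prod_ne_zero_iff.2 fun r _ => wt_ne_zero hd _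
              refine isUnit_iff_ne_zero.2 fun e0 => h0 ?_
              rw [← e, e0, mul_zero]
            exact (Matrix.isUnit_iff_isUnit_det _).2 hdet
          have hh' : Blk δ i f ((g⁻¹ : GV F (s + 1)) : MV F (s + 1))
              fun n => (((hinv n).unit⁻¹ : GV F s) : MV F s) := fun n => by
            calc ((g⁻¹ : GV F (s + 1)) : MV F (s + 1)) * kr i (pr δ f n) 1
                = ((g⁻¹ : GV F (s + 1)) : MV F (s + 1)) * ((g : MV F (s + 1)) *
                  kr i (pr δ f n) 1 * kr i 1 (((hinv n).unit⁻¹ : GV F s) : MV F s)) := by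
                  rw [hh n, kr_mul, Matrix.mul_one]
                  congr 2
                  exact (hinv n).mul_val_inv.symm
              _ = kr i (pr δ f n) (((hinv n).unit⁻¹ : GV F s) : MV F s) := by
                  rw [Matrix.mul_assoc, ← Matrix.mul_assoc _ (g : MV F (s + 1)), Units.inv_mul,
                    Matrix.one_mul, kr_mul, Matrix.mul_one, Matrix.one_mul]
          refine ⟨g⁻¹, inv_mem hg, _, hh', fun n hn => ?_, ?_⟩
          · have : (hinv n).unit = 1 := Units.ext (by rw [IsUnit.unit_spec]; exact ho n hn)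
            simp [this]
          · have : x = (hinv m).unit := Units.ext (by rw [IsUnit.unit_spec]; exact hx)
            rw [this] }
    have hiso : ∀ x ∈ N, IsoV δ (x : MV F s) := by
      rintro x ⟨g, hg, h, hh, -, hx⟩
      rw [hx]
      exact hh.isoV hf (hM.isoV hg) m
    have hnorm : ∀ X ∈ Wr F s ⊓ Om δ s, ∀ x ∈ N, X * x * X⁻¹ ∈ N := by
      rintro X hX x ⟨g, hg, h, hh, ho, hx⟩
      have hL := liftM X hX
      refine ⟨liftG i X * g * (liftG i X)⁻¹, mul_mem (mul_mem hL hg) (inv_mem hL),
        fun n => (X : MV F s) * h n * ((X⁻¹ : GV F s) : MV F s), ?_, fun n hn => ?_, ?_⟩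
      · rw [Units.val_mul, Units.val_mul, ← map_inv, liftG_val, liftG_val]
        exact ((Blk.lift _).mul hh).mul (Blk.lift _)
      · simp only [ho n hn, Matrix.mul_one, Units.mul_inv]
      · rw [Units.val_mul, Units.val_mul, hx]
    have hiso_m := hh.isoV hf (hM.isoV hg) m
    obtain ⟨x, hx, j, A, hA, hxA⟩ := exists_site_of_normalised hM.two hd hs hspan hD N hiso hnorm (by
      obtain ⟨u, hu⟩ : IsUnit (h m) := by
        have hdet : (h m).det ≠ 0 := fun e0 => by
          have e := congrArg Matrix.det hiso_m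
          rw [Matrix.det_mul, Matrix.det_mul, e0, mul_zero] at e
          rw [gV_diag, Matrix.det_diagonal] at e
          exact Finset.prod_ne_zero_iff.2 (fun a _ =>
            Finset.prod_ne_zero_iff.2 fun r _ => wt_ne_zero hd _) e.symm
        exact (Matrix.isUnit_iff_isUnit_det _).2 (isUnit_iff_ne_zero.2 hdet)
      refine ⟨u, ⟨g, hg, h, hh, hoff, hu⟩, ?_⟩
      rintro ⟨c, hc⟩
      rw [hu] at hc
      rcases scalar_iso hd hiso_m hc with e | e
      · exact hm1 e
      · exact hm2 e)
    obtain ⟨g', hg', h', hh', ho', hx'⟩ := hx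
    have hsite : ∀ n, ∃ B, h' n = site j B := by
      intro n
      refine eq_site_of_commute j fun r hr X => commute_all hspan (fun U hU => ?_) X
      obtain ⟨u, huW, huS, hu⟩ := exists_siteU hU r
      have huO := siteU_mem_Om hM.two hd huS
      have hL := liftM u ⟨huW, huO⟩
      have hc : Commute (u : MV F s) (h' m) := by
        rw [← hx', hxA, hu]; exact site_comm hr U A
      set k : Fin 4 → MV F s := fun n => (u : MV F s) * h' n * ((u⁻¹ : GV F s) : MV F s) with hk
      obtain ⟨v, hv⟩ : IsUnit (h' n) := by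
        have hdet : (h' n).det ≠ 0 := fun e0 => by
          have e := congrArg Matrix.det (hh'.isoV hf (hM.isoV hg') n)
          rw [Matrix.det_mul, Matrix.det_mul, e0, mul_zero] at e
          rw [gV_diag, Matrix.det_diagonal] at e
          exact Finset.prod_ne_zero_iff.2 (fun a _ =>
            Finset.prod_ne_zero_iff.2 fun r _ => wt_ne_zero hd _) e.symm
        exact (Matrix.isUnit_iff_isUnit_det _).2 (isUnit_iff_ne_zero.2 hdet)
      obtain ⟨h'', hh''⟩ : ∃ h'', Blk δ i f ((g'⁻¹ : GV F (s + 1)) : MV F (s + 1)) h'' := by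
        refine exists_blk hM.two hf fun r => ?_
        have e : (g' : MV F (s + 1)) * site i (reflW δ (f r)) =
            site i (reflW δ (f r)) * g' := by
          have hP : (g' : MV F (s + 1)) * kr i (pr δ f r) 1 = kr i (pr δ f r) 1 * g' := by
            rw [hh' r]
            conv_rhs => rw [hh'.eq_sum hf, Matrix.mul_sum]
            rw [Finset.sum_eq_single r]
            · rw [kr_mul, pr_idem hf, Matrix.one_mul]
            · intro q _ hq
              rw [kr_mul]
              have : pr δ f r * pr δ f q = 0 := by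
                rw [pr, pr, Matrix.smul_mul, Matrix.mul_smul, cr_mul, hf.2 r q (Ne.symm hq)]
                simp
              rw [this, kr_zero_left]
            · simp
          rw [reflW_frame, site_self, kr_sub_left, kr_one, kr_smul_left, mul_sub, sub_mul,
            Matrix.mul_one, Matrix.one_mul, Matrix.mul_smul, Matrix.smul_mul, hP]
        have hc' : Commute (g' : MV F (s + 1)) (site i (reflW δ (f r))) := e
        exact hc'.units_inv_left.eq
      have hinv := Blk.inv hf hh' hh''
      have hcomm : Blk δ i f ((liftG i u * g' * (liftG i u)⁻¹ * g'⁻¹ : GV F (s + 1)) :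
          MV F (s + 1)) fun n => k n * h'' n := by
        rw [Units.val_mul, Units.val_mul, Units.val_mul, ← map_inv, liftG_val, liftG_val]
        exact (((Blk.lift _).mul hh').mul (Blk.lift _)).mul hh''
      have hsign := ih (S.erase m) (Finset.erase_ssubset hmS)
        (fun e => hlS (Finset.mem_of_mem_erase e)) _
        (mul_mem (mul_mem (mul_mem hL hg') (inv_mem hL)) (inv_mem hg')) _ hcomm (fun q hq => by
          rcases eq_or_ne q m with rfl | hqm
          · simp only [hk, hc.eq]
            rw [Matrix.mul_assoc (h' q), Units.mul_inv, Matrix.mul_one, hinv q]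
          · have hqS : q ∉ S := fun e => hq (Finset.mem_erase.2 ⟨hqm, e⟩)
            simp only [hk]
            rw [ho' q hqS, Matrix.mul_one, Units.mul_inv, Matrix.one_mul]
            have := hinv q
            rwa [ho' q hqS, Matrix.one_mul] at this) n
      have hcase : ∃ c : F, (u : MV F s) * h' n = c • (h' n * u) := by
        have e2 : h'' n * h' n = 1 := mul_eq_one_comm.1 (hinv n)
        have e3 : k n * h'' n * h' n * (u : MV F s) = (u : MV F s) * h' n := by
          rw [Matrix.mul_assoc (k n), e2, Matrix.mul_one, hk]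
          simp only [Matrix.mul_assoc, Units.inv_mul, Matrix.mul_one]
        rcases hsign with e | e <;> rw [e] at e3
        · exact ⟨1, by rw [← e3, Matrix.one_mul, one_smul]⟩
        · exact ⟨-1, by rw [← e3, neg_one_smul, Matrix.neg_mul, Matrix.one_mul, Matrix.neg_mul]⟩
      obtain ⟨c, hc'⟩ := hcase
      rw [hu] at hc'
      exact commute_of_root hU r (hv ▸ v.isUnit) hc'
    choose B hB using hsite
    have hB' : Blk δ i f (g' : MV F (s + 1)) fun n => site j (B n) := fun n => by
      rw [hh' n, hB n]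
    have hgW := hPairs i (i.succAbove j) (Fin.succAbove_ne i j).symm g' hg' (pairs_two_site hf hB')
    have hBl : B l = 1 := site_injective j (by rw [← hB l, ho' l hlS, site_one])
    obtain ⟨c, hc⟩ := two_site_scalar hf hgW hB' (fun e : l = m => hlS (e ▸ hmS)) hBl
    have hAB : A = B m := site_injective j (by rw [← hxA, hx', hB m])
    exact hA ⟨c, hAB.trans hc⟩

end Cfsg.Agent.MaxSub.OrthFour
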