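import Cfsg.Agent.MaxSub.OrthFour.HalfThree.Index

/-!
Two sites over three elements: the centralisers of the site half turns are monomial.

The facts of the neighbouring files are taken as explicit hypotheses:
* `hker`: the members commuting with a site half turn and fixing pointwise its eigenspace of the
  eigenvalue one act at that site only;
* `hclass`: a member conjugating a site root element into the monomial group is monomial.
-/

set_option autoImplicit false
set_option linter.unusedSectionVars false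

namespace Cfsg.Agent.MaxSub.OrthFour

open Matrix Cfsg.Geo Cfsg.Agent.NotMax Cfsg.Agent.GeoClasses
open Cfsg.Agent.MaxSub.OrthWreathBig (gB)
open scoped MatrixGroups Matrix

variable {F : Type*} [Field F] [Finite F] {δ : F}

/-- Two sites over three elements: the centralisers of the half turns are monomial. -/
theorem cenLe_half_three (hq : Nat.card F = 3) {M : Subgroup (GV F 2)} (h : Over δ M)
    (hker : ∀ x ∈ M, ∀ (i : Fin 2) r s, gB (G4 δ) r r ≠ 0 → gB (G4 δ) s s ≠ 0 →
      gB (G4 δ) r s = 0 → (x : MV F 2) = site i (reflW δ r * reflW δ s) → ∀ g ∈ M,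
      (g : MV F 2) * (x : MV F 2) = (x : MV F 2) * (g : MV F 2) →
      (g : MV F 2) * (1 + (x : MV F 2)) = 1 + (x : MV F 2) → ∃ A, (g : MV F 2) = site i A)
    (hclass : ∀ g ∈ M, ∀ u ∈ M, IsSiteU δ (u : MV F 2) → g * u * g⁻¹ ∈ Wr F 2 → g ∈ Wr F 2) :
    ∀ x ∈ M, IsHalf δ (x : MV F 2) → CenLe M (x : MV F 2) := by
  intro x _ hx g hg hgx
  have h3 : HalfThree.Three F := hq
  obtain ⟨c, ⟨hcM, hcW⟩, ε, hε, e⟩ := HalfThree.exists_conj h3 h hx
  have hgx' : g * x = x * g := Units.ext (by simpa using hgx)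
  have ec : ((c * x * c⁻¹ : GV F 2) : MV F 2) = ε • HalfThree.jM F := by
    rw [Units.val_mul, Units.val_mul, e, smul_mul_assoc, smul_mul_assoc, mul_assoc, Units.mul_inv,
      mul_one]
  have hk : c * g * c⁻¹ ∈ HalfThree.cenJ M := by
    refine HalfThree.mem_cenJ.2 ⟨M.mul_mem (M.mul_mem hcM hg) (M.inv_mem hcM), ?_⟩
    have hcomm : (c * g * c⁻¹) * (c * x * c⁻¹) = (c * x * c⁻¹) * (c * g * c⁻¹) := by
      rw [show c * g * c⁻¹ * (c * x * c⁻¹) = c * (g * x) * c⁻¹ by group, hgx']
      group
    have : ((c * g * c⁻¹ : GV F 2) : MV F 2) * ((c * x * c⁻¹ : GV F 2) : MV F 2) =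
        ((c * x * c⁻¹ : GV F 2) : MV F 2) * ((c * g * c⁻¹ : GV F 2) : MV F 2) := by
      rw [← Units.val_mul, ← Units.val_mul, hcomm]
    rw [ec, mul_smul_comm, smul_mul_assoc] at this
    have hε0 : ε ≠ 0 := by rcases hε with rfl | rfl <;> simp
    exact smul_right_injective _ hε0 this
  have hw := HalfThree.cenJ_le h3 h hker hclass hk
  have := (Wr F 2).mul_mem ((Wr F 2).mul_mem ((Wr F 2).inv_mem hcW) hw) hcW
  rwa [show c⁻¹ * (c * g * c⁻¹) * c = g by group] at this

end Cfsg.Agent.MaxSub.OrthFour
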