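import Cfsg.Agent.MaxSub.OrthFour.EGen
import Cfsg.Agent.MaxSub.OrthFour.HalfBig
import Cfsg.Agent.MaxSub.TensorPowSp.Shape
import Cfsg.Agent.MaxSub.TensorPowSp.Normal

/-!
Centralisers of half turns for two sites.

The facts of the neighbouring files are taken as explicit hypotheses:
* `hb`: a `p`-subgroup has order at most `q⁴` and is abelian;
* `hU`: the centralisers of the site root elements are monomial;
* `hstab`: the stabiliser of a singular slot is monomial.
-/

set_option autoImplicit false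
set_option linter.unusedSectionVars false
set_option linter.unusedSimpArgs false
set_option linter.style.haveILetI false

namespace Cfsg.Agent.MaxSub.OrthFour

open Matrix Cfsg.Geo Cfsg.Agent.NotMax Cfsg.Agent.GeoClasses
open Cfsg.Agent.MaxSub.TensorPowSp (gV fG site_injective glPure_mul glPure_one)
open Cfsg.Agent.MaxSub.OrthWreathBig (gB cr sieM cr_mul cr_add_left cr_add_right cr_smul_left
  cr_smul_right cr_mulVec)
open scoped MatrixGroups Matrix

variable {F : Type*} [Field F] {δ : F}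

namespace HalfTwo

/-! ### One site -/

/-- The orthogonal projection onto the plane of two orthogonal vectors. -/
noncomputable def pl (δ : F) (r s : Fin 4 → F) : M4 F :=
  (gB (G4 δ) r r)⁻¹ • cr (G4 δ) r r + (gB (G4 δ) s s)⁻¹ • cr (G4 δ) s s

lemma half_eq {r s : Fin 4 → F} (hrs : gB (G4 δ) r s = 0) :
    reflW δ r * reflW δ s = 1 - (2 : F) • pl δ r s := by
  simp only [reflW, pl, sub_mul, mul_sub, one_mul, mul_one, smul_mul_assoc, mul_smul_comm, cr_mul,
    hrs, zero_smul, smul_zero, sub_zero, smul_add, smul_smul]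
  rw [div_eq_mul_inv, div_eq_mul_inv]
  abel

lemma pl_mulVec (r s z : Fin 4 → F) : pl δ r s *ᵥ z =
    ((gB (G4 δ) r r)⁻¹ * gB (G4 δ) r z) • r + ((gB (G4 δ) s s)⁻¹ * gB (G4 δ) s z) • s := by
  simp only [pl, add_mulVec, smul_mulVec, cr_mulVec, smul_smul]

lemma pl_self {r s : Fin 4 → F} (hr : gB (G4 δ) r r ≠ 0) (hrs : gB (G4 δ) r s = 0) :
    pl δ r s *ᵥ r = r := by
  rw [pl_mulVec, inv_mul_cancel₀ hr, gB_symm δ s r, hrs, mul_zero, zero_smul, one_smul, add_zero]

lemma pl_comm (r s : Fin 4 → F) : pl δ s r = pl δ r s := add_comm _ _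

/-- An isometry of order `p` of the plane is the identity. -/
lemma fix_of_pow {p : ℕ} [Fact p.Prime] [CharP F p] (h2 : (2 : F) ≠ 0) {A : M4 F}
    (hA : IsoW δ A) {r s : Fin 4 → F} (hr : gB (G4 δ) r r ≠ 0) (hs : gB (G4 δ) s s ≠ 0)
    (hrs : gB (G4 δ) r s = 0) (hc : A * pl δ r s = pl δ r s * A) (hp : A ^ p = 1) :
    A *ᵥ r = r := by
  obtain ⟨α, hα⟩ : ∃ α, α = gB (G4 δ) r r := ⟨_, rfl⟩
  obtain ⟨β, hβ⟩ : ∃ β, β = gB (G4 δ) s s := ⟨_, rfl⟩
  have hsr : gB (G4 δ) s r = 0 := by rw [gB_symm, hrs]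
  have ex : ∀ z, pl δ r s *ᵥ z = z → ∃ a b, A *ᵥ z = a • r + b • s := fun z hz =>
    ⟨α⁻¹ * gB (G4 δ) r (A *ᵥ z), β⁻¹ * gB (G4 δ) s (A *ᵥ z), by
      rw [hα, hβ, ← pl_mulVec, mulVec_mulVec, ← hc, ← mulVec_mulVec, hz]⟩
  obtain ⟨a, b, hAr⟩ := ex r (pl_self hr hrs)
  obtain ⟨c, d, hAs⟩ := ex s (by rw [← pl_comm]; exact pl_self hs hsr)
  have g1 : a * a * α + b * b * β = α := by
    have := hA.gB_eq r r
    simp only [hAr, map_add, map_smul, LinearMap.add_apply, LinearMap.smul_apply, smul_eq_mul, hrs,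
      hsr, ← hα, ← hβ] at this
    linear_combination this
  have g2 : c * c * α + d * d * β = β := by
    have := hA.gB_eq s s
    simp only [hAs, map_add, map_smul, LinearMap.add_apply, LinearMap.smul_apply, smul_eq_mul, hrs,
      hsr, ← hα, ← hβ] at this
    linear_combination this
  have g3 : a * c * α + b * d * β = 0 := by
    have := hA.gB_eq r s
    simp only [hAr, hAs, map_add, map_smul, LinearMap.add_apply, LinearMap.smul_apply, smul_eq_mul,
      hrs, hsr, ← hα, ← hβ] at this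
    linear_combination this
  have hα0 : α ≠ 0 := hα ▸ hr
  have hβ0 : β ≠ 0 := hβ ▸ hs
  have hD : (a * d - b * c) * (a * d - b * c) = 1 := by
    have : (a * d - b * c) * (a * d - b * c) * (α * β) = 1 * (α * β) := by
      linear_combination (c * c * α + d * d * β) * g1 + α * g2 - (a * c * α + b * d * β) * g3
    exact mul_right_cancel₀ (mul_ne_zero hα0 hβ0) this
  have hcD : c * α = -((a * d - b * c) * b * β) := by
    linear_combination (-c) * g1 + a * g3
  have hdD : d = a * (a * d - b * c) := by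
    refine mul_right_cancel₀ hα0 ?_
    linear_combination (-d) * g1 + b * g3
  have hAA : A *ᵥ (A *ᵥ r) = (a * a + b * c) • r + (b * (a + d)) • s := by
    rw [hAr, mulVec_add, mulVec_smul, mulVec_smul, hAr, hAs]
    module
  have hpo : ∀ n, A ^ n *ᵥ (A *ᵥ r) = A ^ (n + 1) *ᵥ r := fun n => by
    rw [mulVec_mulVec, pow_succ]
  have hpr : A ^ p *ᵥ r = r := by rw [hp, one_mulVec]
  rcases mul_self_eq_one_iff.1 hD with h | h
  · rw [h] at hcD hdD
    obtain ⟨μ, hμ⟩ : ∃ μ, μ = 2 * a - 2 := ⟨_, rfl⟩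
    have step : (A - 1) ^ 2 *ᵥ r = μ • (A *ᵥ r) := by
      have e1 : (A - 1) ^ 2 = A * A - A - A + 1 := by rw [sq]; noncomm_ring
      rw [e1, add_mulVec, sub_mulVec, sub_mulVec, one_mulVec, ← mulVec_mulVec, hAA, hAr, hμ]
      have e2 : a * a + b * c = 2 * a * a - 1 := mul_right_cancel₀ hα0 (by
        linear_combination b * hcD - g1)
      rw [e2, hdD]
      match_scalars <;> ring
    have iter : ∀ n, (A - 1) ^ (2 * n) *ᵥ r = μ ^ n • (A ^ n *ᵥ r) := by
      intro n
      induction n with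
      | zero => simp
      | succ n ih =>
        have cm : Commute A ((A - 1) ^ (2 * n)) :=
          ((Commute.refl A).sub_right (Commute.one_right A)).pow_right _
        rw [mul_add, mul_one, pow_add, ← mulVec_mulVec, step, mulVec_smul, mulVec_mulVec, ← cm.eq,
          ← mulVec_mulVec, ih, mulVec_smul, smul_smul, mulVec_mulVec, ← pow_succ', ← pow_succ']
    have h0 := iter p
    rw [hpr, pow_mul', sub_pow_char_of_commute p (Commute.one_right A), hp, one_pow, sub_self,
      zero_pow two_ne_zero, zero_mulVec, eq_comm, smul_eq_zero] at h0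
    have hr0 : r ≠ 0 := fun e => hr (by simp [e])
    have hμ0 : μ = 0 := pow_eq_zero_iff (Nat.Prime.ne_zero Fact.out) |>.1 (h0.resolve_right hr0)
    have ha : a = 1 := mul_left_cancel₀ h2 (by linear_combination hμ0 - hμ)
    have hb : b = 0 := by
      have : b * b * β = 0 := by subst ha; linear_combination g1
      simpa [hβ0] using this
    rw [hAr, ha, hb, one_smul, zero_smul, add_zero]
  · rw [h] at hcD hdD
    have e : A *ᵥ (A *ᵥ r) = r := by
      rw [hAA, hdD, show a * a + b * c = 1 from mul_right_cancel₀ hα0 (by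
        linear_combination b * hcD + g1)]
      match_scalars <;> ring
    obtain ⟨m, hm⟩ := (Nat.Prime.odd_of_ne_two (Fact.out : p.Prime) fun hp2 => h2 (by
      subst hp2; exact_mod_cast CharP.cast_eq_zero F 2))
    have ev : ∀ m, A ^ (2 * m) *ᵥ r = r := by
      intro m
      induction m with
      | zero => simp
      | succ m ih => rw [mul_add, mul_one, pow_add, ← mulVec_mulVec, sq, ← mulVec_mulVec, e, ih]
    rw [hm, pow_succ', ← mulVec_mulVec, ev] at hpr
    exact hpr

/-- An isometry of order `p` fixing the complement of a plane is trivial. -/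
lemma eq_one_of_pow {p : ℕ} [Fact p.Prime] [CharP F p] (h2 : (2 : F) ≠ 0) {A : M4 F}
    (hA : IsoW δ A) {r s : Fin 4 → F} (hr : gB (G4 δ) r r ≠ 0) (hs : gB (G4 δ) s s ≠ 0)
    (hrs : gB (G4 δ) r s = 0) (hc : A * pl δ r s = pl δ r s * A)
    (hfix : A * (1 - pl δ r s) = 1 - pl δ r s) (hp : A ^ p = 1) : A = 1 := by
  have e1 := fix_of_pow h2 hA hr hs hrs hc hp
  have e2 := fix_of_pow h2 hA hs hr (by rw [gB_symm, hrs]) (by rw [pl_comm]; exact hc) hp
  have e : A * pl δ r s = pl δ r s := Matrix.ext_iff_mulVec.2 fun z => by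
    rw [← mulVec_mulVec, pl_mulVec, mulVec_add, mulVec_smul, mulVec_smul, e1, e2]
  calc A = A * (1 - pl δ r s) + A * pl δ r s := by rw [← mul_add, sub_add_cancel, mul_one]
    _ = 1 := by rw [hfix, e, sub_add_cancel]

/-- A third orthogonal anisotropic vector extends to a frame. -/
lemma exists_fourth (h2 : (2 : F) ≠ 0) (hd : ¬ IsSquare δ) {r s d : Fin 4 → F}
    (hr : gB (G4 δ) r r ≠ 0) (hs : gB (G4 δ) s s ≠ 0) (hd' : gB (G4 δ) d d ≠ 0)
    (hrs : gB (G4 δ) r s = 0) (hrd : gB (G4 δ) r d = 0) (hsd : gB (G4 δ) s d = 0) :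
    ∃ e, gB (G4 δ) e e ≠ 0 ∧ gB (G4 δ) r e = 0 ∧ gB (G4 δ) s e = 0 ∧ gB (G4 δ) d e = 0 := by
  by_contra hc
  let π : (Fin 4 → F) → (Fin 4 → F) := fun y => y - (gB (G4 δ) r y / gB (G4 δ) r r) • r -
    (gB (G4 δ) s y / gB (G4 δ) s s) • s - (gB (G4 δ) d y / gB (G4 δ) d d) • d
  have hπ : ∀ y, gB (G4 δ) r (π y) = 0 ∧ gB (G4 δ) s (π y) = 0 ∧ gB (G4 δ) d (π y) = 0 := fun y => by
    simp only [π, map_sub, map_smul, smul_eq_mul, gB_symm δ s r, gB_symm δ d r, gB_symm δ d s, hrs,
      hrd, hsd, mul_zero, sub_zero, div_mul_cancel₀ _ hr, div_mul_cancel₀ _ hs,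
      div_mul_cancel₀ _ hd', sub_self, and_self]
  have hiso : ∀ e, gB (G4 δ) r e = 0 → gB (G4 δ) s e = 0 → gB (G4 δ) d e = 0 →
      gB (G4 δ) e e = 0 := fun e h1 h3 h4 => by_contra fun hne => hc ⟨e, hne, h1, h3, h4⟩
  let L : (Fin 4 → F) →ₗ[F] F × F × F :=
    (gB (G4 δ) r).prod ((gB (G4 δ) s).prod (gB (G4 δ) d))
  have hker : LinearMap.ker L ≠ ⊥ := by
    refine LinearMap.ker_ne_bot_of_finrank_lt ?_
    simp [Module.finrank_prod]
  obtain ⟨y, hy, hy0⟩ := Submodule.exists_mem_ne_zero_of_ne_bot hker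
  have hL := LinearMap.mem_ker.1 hy
  have hyr : gB (G4 δ) r y = 0 := congrArg Prod.fst hL
  have hys : gB (G4 δ) s y = 0 := congrArg (fun z => z.2.1) hL
  have hyd : gB (G4 δ) d y = 0 := congrArg (fun z => z.2.2) hL
  have hall : ∀ z, gB (G4 δ) y z = 0 := by
    intro z
    obtain ⟨a1, a2, a3⟩ := hπ z
    have h1 : gB (G4 δ) (y + π z) (y + π z) = 0 :=
      hiso _ (by rw [map_add, hyr, a1, add_zero]) (by rw [map_add, hys, a2, add_zero])
        (by rw [map_add, hyd, a3, add_zero])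
    have hyz : gB (G4 δ) y (π z) = 0 := by
      simp only [map_add, LinearMap.add_apply, hiso y hyr hys hyd, hiso _ a1 a2 a3] at h1
      rw [gB_symm δ (π z) y] at h1
      exact (mul_eq_zero.1 (show 2 * gB (G4 δ) y (π z) = 0 by linear_combination h1)).resolve_left h2
    simpa [π, gB_symm δ y r, gB_symm δ y s, gB_symm δ y d, hyr, hys, hyd] using hyz
  apply hy0
  funext l
  have := hall (Pi.single l 1)
  rw [gB_diag] at this
  have h0 : δ ≠ 0 := fun e => hd (e ▸ IsSquare.zero)
  fin_cases l <;> simp at this ⊢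
  all_goals first
    | exact this
    | exact this.resolve_left h0

/-- Two orthogonal anisotropic vectors extend to a frame. -/
lemma exists_compl (h2 : (2 : F) ≠ 0) (hd : ¬ IsSquare δ) {r s : Fin 4 → F}
    (hr : gB (G4 δ) r r ≠ 0) (hs : gB (G4 δ) s s ≠ 0) (hrs : gB (G4 δ) r s = 0) :
    ∃ r' s', gB (G4 δ) r' r' ≠ 0 ∧ gB (G4 δ) s' s' ≠ 0 ∧ gB (G4 δ) r' s' = 0 ∧
      pl δ r s + pl δ r' s' = 1 ∧
      ∃ m, m ≠ 0 ∧ gB (G4 δ) r r * gB (G4 δ) s s * gB (G4 δ) r' r' * gB (G4 δ) s' s' =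
        m * m * δ := by
  obtain ⟨d, hd', hrd, hsd⟩ := HalfBig.exists_third h2 hd hr hs hrs
  obtain ⟨e, he, hre, hse, hde⟩ := exists_fourth h2 hd hr hs hd' hrs hrd hsd
  refine ⟨d, e, hd', he, hde, ?_⟩
  set f : Fin 4 → Fin 4 → F := ![r, s, d, e] with hf
  set q : Fin 4 → F := fun l => gB (G4 δ) (f l) (f l) with hq
  let B : M4 F := Matrix.of fun k l => f l k
  have hcol : ∀ l, B *ᵥ Pi.single l 1 = f l := fun l => by ext k; simp [B]
  have hG : Bᵀ * G4 δ * B = Matrix.diagonal q := by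
    ext l m
    have e1 : (Bᵀ * G4 δ * B) l m = gB (G4 δ) (f l) (f m) := by
      rw [← hcol l, ← hcol m, OrthWreathBig.gB_apply, fG, ← dotProduct_mulVec, mulVec_mulVec,
        ← vecMul_transpose, ← dotProduct_mulVec, mulVec_mulVec, ← mul_assoc]
      simp
    rw [e1]
    by_cases h : l = m
    · subst h; simp [hq]
    · rw [diagonal_apply_ne _ h]
      fin_cases l <;> fin_cases m <;>
        simp_all [gB_symm δ s r, gB_symm δ d r, gB_symm δ d s, gB_symm δ e r, gB_symm δ e s,
          gB_symm δ e d]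
  have hq0 : ∀ l, q l ≠ 0 := fun l => by fin_cases l <;> simp [hq, hf, hr, hs, hd', he]
  have hdet : B.det * B.det * δ = q 0 * q 1 * q 2 * q 3 := by
    have := congrArg Matrix.det hG
    rw [det_mul, det_mul, det_transpose, det_diagonal, Fin.prod_univ_four, G4, det_diagonal,
      Fin.prod_univ_four] at this
    rw [← this]; simp [wt]; ring
  have hBd : B.det ≠ 0 := fun h0 => by
    rw [h0, mul_zero, zero_mul] at hdet
    simp [hq0] at hdet
  refine ⟨?_, B.det, hBd, by rw [hdet]; simp [hq, hf]⟩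
  have hinv : (Matrix.diagonal fun l => (q l)⁻¹) * (Bᵀ * G4 δ) * B = 1 := by
    rw [mul_assoc, hG, diagonal_mul_diagonal]
    simp [hq0]
  have h1 := mul_eq_one_comm.1 hinv
  rw [← h1]
  refine Matrix.ext_iff_mulVec.2 fun z => ?_
  have e2 : ∀ l, ((Bᵀ * G4 δ) *ᵥ z) l = gB (G4 δ) (f l) z := fun l => by
    rw [OrthWreathBig.gB_apply, fG]
    rfl
  have e3 : (Matrix.diagonal fun l => (q l)⁻¹) *ᵥ ((Bᵀ * G4 δ) *ᵥ z) =
      fun l => (q l)⁻¹ * gB (G4 δ) (f l) z := funext fun l => by rw [mulVec_diagonal, e2]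
  rw [← mulVec_mulVec, ← mulVec_mulVec, e3, add_mulVec, pl_mulVec, pl_mulVec]
  funext k
  simp [mulVec, dotProduct, Fin.sum_univ_four, B, hq, hf]
  ring

/-- A plane with square minus discriminant is hyperbolic. -/
lemma pl_hyperbolic (h2 : (2 : F) ≠ 0) {r s : Fin 4 → F} (hr : gB (G4 δ) r r ≠ 0)
    (hs : gB (G4 δ) s s ≠ 0) (hrs : gB (G4 δ) r s = 0)
    (hsq : IsSquare (-(gB (G4 δ) r r * gB (G4 δ) s s))) :
    ∃ w v, gB (G4 δ) w w = 0 ∧ gB (G4 δ) v v = 0 ∧ gB (G4 δ) w v = 1 ∧
      pl δ r s = cr (G4 δ) w v + cr (G4 δ) v w := by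
  obtain ⟨m, hm⟩ := hsq
  obtain ⟨a, ha⟩ : ∃ a, a = gB (G4 δ) r r := ⟨_, rfl⟩
  obtain ⟨b, hb⟩ : ∃ b, b = gB (G4 δ) s s := ⟨_, rfl⟩
  rw [← ha, ← hb] at hm
  have ha0 : a ≠ 0 := ha ▸ hr
  have hb0 : b ≠ 0 := hb ▸ hs
  have hsr : gB (G4 δ) s r = 0 := by rw [gB_symm, hrs]
  have hm0 : m ≠ 0 := fun e => by rw [e, mul_zero, neg_eq_zero] at hm; exact mul_ne_zero ha0 hb0 hm
  refine ⟨m • r + a • s, (2 * a * m * m)⁻¹ • (m • r - a • s), ?_, ?_, ?_, ?_⟩
  · simp only [map_add, map_smul, LinearMap.add_apply, LinearMap.smul_apply, smul_eq_mul, hrs, hsr,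
      ← ha, ← hb]
    linear_combination (-a) * hm
  · simp only [map_sub, map_smul, LinearMap.sub_apply, LinearMap.smul_apply, smul_eq_mul, hrs, hsr,
      ← ha, ← hb]
    linear_combination (-a * (2 * a * m * m)⁻¹ * (2 * a * m * m)⁻¹) * hm
  · simp only [map_add, map_sub, map_smul, LinearMap.add_apply, LinearMap.smul_apply, smul_eq_mul,
      hrs, hsr, ← ha, ← hb]
    field_simp
    linear_combination hm
  · simp only [pl, ← ha, ← hb, sub_eq_add_neg, cr_add_left, cr_add_right, ← neg_smul,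
      cr_smul_left, cr_smul_right, smul_add, smul_smul]
    match_scalars <;> field_simp <;> first | ring1 | linear_combination hm | linear_combination -hm | linear_combination (-2) * hm

/-- The singular plane of a complementary pair. -/
lemma exists_hyperbolic [Finite F] (h2 : (2 : F) ≠ 0) (hd : ¬ IsSquare δ) {r s : Fin 4 → F}
    (hr : gB (G4 δ) r r ≠ 0) (hs : gB (G4 δ) s s ≠ 0) (hrs : gB (G4 δ) r s = 0) :
    ∃ r' s' w v, gB (G4 δ) r' r' ≠ 0 ∧ gB (G4 δ) s' s' ≠ 0 ∧ gB (G4 δ) r' s' = 0 ∧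
      (pl δ r' s' = pl δ r s ∨ pl δ r' s' = 1 - pl δ r s) ∧
      gB (G4 δ) w w = 0 ∧ gB (G4 δ) v v = 0 ∧ gB (G4 δ) w v = 1 ∧
      pl δ r' s' = cr (G4 δ) w v + cr (G4 δ) v w := by
  obtain ⟨d, e, hd', he, hde, hsum, m, hm0, hm⟩ := exists_compl h2 hd hr hs hrs
  by_cases h1 : IsSquare (-(gB (G4 δ) r r * gB (G4 δ) s s))
  · obtain ⟨w, v, hww, hvv, hwv, he'⟩ := pl_hyperbolic h2 hr hs hrs h1
    exact ⟨r, s, w, v, hr, hs, hrs, Or.inl rfl, hww, hvv, hwv, he'⟩
  · have h3 : IsSquare (-(gB (G4 δ) d d * gB (G4 δ) e e)) := by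
      by_contra h3
      refine hd ?_
      classical
      letI := Fintype.ofFinite F
      have hc : ringChar F ≠ 2 := fun hc => h2 (by
        haveI : CharP F 2 := ringChar.of_eq hc
        exact_mod_cast CharP.cast_eq_zero F 2)
      have hm2 : IsSquare (m * m * δ) := by
        rw [← hm, show gB (G4 δ) r r * gB (G4 δ) s s * gB (G4 δ) d d * gB (G4 δ) e e =
          -(gB (G4 δ) r r * gB (G4 δ) s s) * -(gB (G4 δ) d d * gB (G4 δ) e e) by ring]
        have n1 := (quadraticChar_neg_one_iff_not_isSquare (F := F)).2 h1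
        have n3 := (quadraticChar_neg_one_iff_not_isSquare (F := F)).2 h3
        refine (quadraticChar_one_iff_isSquare ?_).1 (by rw [map_mul, n1, n3]; norm_num)
        simp [hr, hs, hd', he]
      obtain ⟨u, hu⟩ := hm2
      exact ⟨u / m, by field_simp; linear_combination hu⟩
    obtain ⟨w, v, hww, hvv, hwv, he'⟩ := pl_hyperbolic h2 hd' he hde h3
    exact ⟨d, e, w, v, hd', he, hde, Or.inr (by rw [← hsum]; abel), hww, hvv, hwv, he'⟩

/-- An anisotropic plane is nonzero and proper. -/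
lemma half_not_central (h2 : (2 : F) ≠ 0) (hd : ¬ IsSquare δ) {r s : Fin 4 → F}
    (hr : gB (G4 δ) r r ≠ 0) (hs : gB (G4 δ) s s ≠ 0) (hrs : gB (G4 δ) r s = 0) :
    ¬ ∀ Z, Commute (pl δ r s) Z := by
  intro h
  obtain ⟨d, hd', hrd, hsd⟩ := HalfBig.exists_third h2 hd hr hs hrs
  have hz : pl δ r s *ᵥ d = 0 := by
    rw [pl_mulVec, hrd, hsd, mul_zero, mul_zero, zero_smul, zero_smul, add_zero]
  have h1 := congrArg (fun X : M4 F => X *ᵥ r) (h (cr (G4 δ) d r)).eq
  simp only [← mulVec_mulVec, cr_mulVec, pl_self hr hrs, mulVec_smul, hz, smul_zero] at h1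
  rcases smul_eq_zero.1 h1.symm with h1 | h1
  · exact hr h1
  · exact hd' (by simp [h1])

/-! ### Two sites -/

lemma exists_form {g : GV F 2} (hg : g ∈ Wr F 2) :
    ∃ (π : Equiv.Perm (Fin 2)) (A : Fin 2 → GL (Fin 4) F), g = glPure A * glFactorPerm 4 π := by
  have pm : ∀ (π : Equiv.Perm (Fin 2)) (B : Fin 2 → GL (Fin 4) F),
      glFactorPerm 4 π * glPure B = glPure (fun i => B (π.symm i)) * glFactorPerm 4 π := by
    intro π B
    refine Units.ext (Eq.symm ?_)
    refine (pureMat_mul_factorPerm (fun i => (B (π.symm i) : M4 F)) π).trans ?_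
    simp only [Equiv.symm_apply_apply]
    rfl
  have fm : ∀ (π ρ : Equiv.Perm (Fin 2)),
      (glFactorPerm 4 π * glFactorPerm 4 ρ : GV F 2) = glFactorPerm 4 (π * ρ) := fun π ρ =>
    Units.ext (factorPerm_mul π ρ)
  have f1 : (glFactorPerm 4 (1 : Equiv.Perm (Fin 2)) : GV F 2) = 1 :=
    Units.ext (factorPerm_one 4 2)
  induction hg using Subgroup.closure_induction with
  | mem x hx =>
    rcases hx with ⟨As, h⟩ | ⟨σ, h⟩
    · exact ⟨1, As, by rw [f1, mul_one]; exact Units.ext (by ext x y; exact h x y)⟩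
    · exact ⟨σ, 1, by rw [glPure_one, one_mul]; exact Units.ext (by ext x y; exact h x y)⟩
  | one => exact ⟨1, 1, by rw [glPure_one, f1, one_mul]⟩
  | mul x y _ _ hx hy =>
    obtain ⟨π, A, rfl⟩ := hx
    obtain ⟨ρ, B, rfl⟩ := hy
    exact ⟨π * ρ, A * fun i => B (π.symm i), by
      rw [mul_assoc, ← mul_assoc (glFactorPerm 4 π), pm, mul_assoc, fm, ← mul_assoc, glPure_mul]⟩
  | inv x _ hx =>
    obtain ⟨π, A, rfl⟩ := hx
    refine ⟨π⁻¹, fun i => (A (π i))⁻¹, inv_eq_of_mul_eq_one_right ?_⟩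
    rw [mul_assoc, ← mul_assoc (glFactorPerm 4 π), pm, mul_assoc, fm, ← mul_assoc, glPure_mul,
      mul_inv_cancel, f1, mul_one,
      show (A * fun i => (A (π (π.symm i)))⁻¹) = 1 from funext fun i => by simp, glPure_one]

lemma eq_smul_one_of_comm {X : M4 F} (h : ∀ Z, Commute X Z) : ∃ c : F, X = c • 1 := by
  obtain ⟨c, hc⟩ := Matrix.mem_range_scalar_of_commute_single (M := X) fun i j _ => (h _).symm
  exact ⟨c, by rw [← hc, Matrix.scalar_apply, Matrix.smul_one_eq_diagonal]⟩

/-- The monomial elements fixing the complement of the plane at one site live at that site. -/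
lemma exists_site [Finite F] {M : Subgroup (GV F 2)} (hM : Over δ M) {i : Fin 2}
    {r s : Fin 4 → F} (hr : gB (G4 δ) r r ≠ 0) (hs : gB (G4 δ) s s ≠ 0)
    (hrs : gB (G4 δ) r s = 0) {g : GV F 2} (hg : g ∈ M) (hW : g ∈ Wr F 2)
    (hc : (g : MV F 2) * site i (pl δ r s) = site i (pl δ r s) * g)
    (hf : (g : MV F 2) * site i (1 - pl δ r s) = site i (1 - pl δ r s)) :
    ∃ A : M4 F, IsoW δ A ∧ A.det = 1 ∧ A * pl δ r s = pl δ r s * A ∧
      A * (1 - pl δ r s) = 1 - pl δ r s ∧ (g : MV F 2) = site i A := by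
  obtain ⟨P, hP⟩ : ∃ P, P = pl δ r s := ⟨_, rfl⟩
  rw [← hP] at hc hf ⊢
  obtain ⟨j, hji⟩ := exists_ne i
  obtain ⟨π, A, rfl⟩ := exists_form hW
  have hv : ((glPure A * glFactorPerm 4 π : GV F 2) : MV F 2) =
      pureMat (fun l => (A l : M4 F)) * factorPerm 4 π := rfl
  rw [hv] at hc hf
  have hπi : π i = i := by
    by_contra hne
    have e1 : (factorPerm 4 π : MV F 2) * site i P = site (π i) P * factorPerm 4 π := by
      unfold site
      rw [pureMat_mul_factorPerm]
      congr 2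
      funext l
      by_cases hl : l = i <;> simp [hl]
    have e2 : pureMat (fun l => (A l : M4 F)) * site (π i) P =
        site (π i) ((A (π i) : M4 F) * P * (((A (π i))⁻¹ : GL (Fin 4) F) : M4 F)) *
          pureMat (fun l => (A l : M4 F)) := by
      rw [site, site, pureMat_mul, pureMat_mul]
      congr 1
      funext l
      by_cases hl : l = π i
      · subst hl; simp [mul_assoc]
      · simp [hl]
    rw [mul_assoc, e1, ← mul_assoc, e2, mul_assoc, ← hv] at hc
    have e3 := (glPure A * glFactorPerm 4 π : GV F 2).isUnit.mul_right_cancel hc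
    refine half_not_central hM.two hM.nsq hr hs hrs fun Z => ?_
    rw [← hP]
    refine site_injective i ?_
    rw [← site_mul, ← site_mul, ← e3, site_comm hne]
  have hπ : π = 1 := Equiv.ext fun l => by
    by_cases hl : l = i
    · rw [hl, hπi, Equiv.Perm.one_apply]
    · rw [Equiv.Perm.one_apply]
      have hne : π l ≠ i := fun e => hl (π.injective (e.trans hπi.symm))
      omega
  subst hπ
  rw [factorPerm_one, mul_one] at hc hf hv
  have hsplit : pureMat (fun l => (A l : M4 F)) = site i (A i : M4 F) * site j (A j : M4 F) := by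
    rw [site, site, pureMat_mul]
    congr 1
    funext l
    have hlj : l = i ∨ l = j := by omega
    rcases hlj with rfl | rfl <;> simp [hji, hji.symm]
  have hP1 : (A i : M4 F) * (1 - P) ≠ 0 := by
    intro e
    have e' := congrArg (fun X => (((A i)⁻¹ : GL (Fin 4) F) : M4 F) * X) e
    simp only [← mul_assoc, Units.inv_mul, one_mul, mul_zero] at e'
    exact half_not_central hM.two hM.nsq hr hs hrs fun Z => by
      rw [← hP, show P = 1 from (sub_eq_zero.1 e').symm]; exact Commute.one_left Z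
  have hsc : ∀ Z, Commute (A j : M4 F) Z := by
    intro Z
    have e0 : site i ((A i : M4 F) * (1 - P)) * site j (A j : M4 F) = site i (1 - P) := by
      rw [← site_mul, mul_assoc, site_comm hji.symm, ← mul_assoc, ← hsplit]; exact hf
    have e1 : site i ((A i : M4 F) * (1 - P)) *
        site j ((A j : M4 F) * Z - Z * (A j : M4 F)) = 0 := by
      rw [OrthWreathBig.site_sub, mul_sub, ← site_mul j, ← site_mul j, ← mul_assoc, e0,
        ← mul_assoc, site_comm hji.symm ((A i : M4 F) * (1 - P)) Z, mul_assoc, e0,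
        site_comm hji.symm, sub_self]
    have := TensorPowSp.eq_zero_of_site_mul hP1 (fun X => site_comm hji.symm X _) e1
    exact sub_eq_zero.1 (site_injective j (this.trans (site_zero j).symm))
  obtain ⟨c, hcj⟩ := eq_smul_one_of_comm hsc
  have hgA : pureMat (fun l => (A l : M4 F)) = site i (c • (A i : M4 F)) := by
    rw [hsplit, hcj, site_smul, site_smul, site_one, mul_smul_comm, mul_one]
  rw [hgA] at hc hf hv
  set B := c • (A i : M4 F)
  have hA : IsoW δ B := by
    have h1 : IsoV δ (site i (c • (A i : M4 F))) := hv ▸ hM.isoV hg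
    have hG := G4_det hM.nsq
    have e : site i (Bᵀ * G4 δ * B * (G4 δ)⁻¹) * gV (G4 δ) 2 = gV (G4 δ) 2 := by
      refine Eq.trans ?_ h1
      rw [site, gV, pureMat_mul, site, pureMat_transpose, pureMat_mul, pureMat_mul]
      congr 1
      funext l
      by_cases hl : l = i
      · subst hl; simp [B, mul_assoc, nonsing_inv_mul _ hG]
      · simp [hl]
    have hgV : IsUnit (gV (G4 δ) 2).det := by
      rw [gV_diag, det_diagonal, isUnit_iff_ne_zero]
      exact Finset.prod_ne_zero_iff.2 fun a _ =>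
        Finset.prod_ne_zero_iff.2 fun l _ => wt_ne_zero hM.nsq _
    have e' : site i (Bᵀ * G4 δ * B * (G4 δ)⁻¹) = (1 : MV F 2) := by
      have := congrArg (· * (gV (G4 δ) 2)⁻¹) e
      simpa [mul_assoc, mul_nonsing_inv _ hgV] using this
    have e'' := site_injective i (e'.trans (site_one i).symm)
    have := congrArg (· * G4 δ) e''
    simpa [IsoW, mul_assoc, nonsing_inv_mul _ hG] using this
  refine ⟨B, hA, ?_, ?_, ?_, hv⟩
  · have h1iso : IsoW δ (1 : M4 F) := by rw [IsoW, transpose_one, one_mul, mul_one]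
    rcases (show i = 0 ∨ i = 1 by omega) with rfl | rfl
    · exact ((pair_mem_Om_iff hM.two hM.nsq hA h1iso (by rw [hv, site_one, mul_one])).1
        (hM.le hg)).trans det_one
    · exact ((pair_mem_Om_iff hM.two hM.nsq h1iso hA (by rw [hv, site_one, one_mul])).1
        (hM.le hg)).symm.trans det_one
  · exact site_injective i (by rw [← site_mul, ← site_mul, hc])
  · exact site_injective i (by rw [← site_mul, hf])

lemma unit_site_mem_Wr {i : Fin 2} {A : M4 F} (hA : A.det ≠ 0) : siteUnit i A hA ∈ Wr F 2 := by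
  refine Subgroup.subset_closure (Or.inl
    ⟨Function.update 1 i (Matrix.GeneralLinearGroup.mkOfDetNeZero A hA), fun a b => ?_⟩)
  show site i A a b = _
  unfold site pureMat
  refine Finset.prod_congr rfl fun l _ => ?_
  by_cases hl : l = i
  · subst hl; simp [Matrix.GeneralLinearGroup.mkOfDetNeZero]
  · simp [hl]

/-- A pair of isometries with equal determinant is realised in the group. -/
lemma exists_pair [Finite F] {M : Subgroup (GV F 2)} (hM : Over δ M) {i j : Fin 2} (hij : i ≠ j)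
    {A B : M4 F} (hA : IsoW δ A) (hB : IsoW δ B) (hd : A.det = B.det) :
    ∃ g ∈ M, g ∈ Wr F 2 ∧ (g : MV F 2) = site i A * site j B := by
  have hW := mul_mem (unit_site_mem_Wr (i := i) (hA.sim.det_ne hM.nsq))
    (unit_site_mem_Wr (i := j) (hB.sim.det_ne hM.nsq))
  refine ⟨_, hM.mem hW ?_, hW, rfl⟩
  rcases (show i = 0 ∧ j = 1 ∨ i = 1 ∧ j = 0 by omega) with ⟨rfl, rfl⟩ | ⟨rfl, rfl⟩
  · exact (pair_mem_Om_iff hM.two hM.nsq hA hB rfl).2 hd
  · exact (pair_mem_Om_iff hM.two hM.nsq hB hA (site_comm hij A B)).2 hd.symm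

/-- The members fixing the complement of a plane at one site. -/
def ker (δ : F) (M : Subgroup (GV F 2)) (i : Fin 2) (r s : Fin 4 → F) : Subgroup (GV F 2) where
  carrier := {g | g ∈ M ∧ (g : MV F 2) * site i (pl δ r s) = site i (pl δ r s) * g ∧
    (g : MV F 2) * site i (1 - pl δ r s) = site i (1 - pl δ r s)}
  one_mem' := ⟨one_mem _, by rw [Units.val_one, one_mul, mul_one], by rw [Units.val_one, one_mul]⟩
  mul_mem' := fun {a b} ha hb => ⟨mul_mem ha.1 hb.1,
    by rw [Units.val_mul, mul_assoc, hb.2.1, ← mul_assoc, ha.2.1, mul_assoc],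
    by rw [Units.val_mul, mul_assoc, hb.2.2, ha.2.2]⟩
  inv_mem' := fun {a} ha => ⟨inv_mem ha.1, (Commute.units_inv_left ha.2.1).eq, by
    conv_lhs => rw [← ha.2.2, ← mul_assoc, Units.inv_mul, one_mul]⟩

/-- The members fixing the complement of a plane at one site act at that site only. -/
lemma ker_site [Finite F] {p : ℕ} [Fact p.Prime] [CharP F p] {M : Subgroup (GV F 2)}
    (hM : Over δ M)
    (hb : ∀ P ≤ M, IsPGroup p P → Nat.card P ≤ Nat.card F ^ 4 ∧ ∀ a ∈ P, ∀ b ∈ P, a * b = b * a)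
    (hU : ∀ u ∈ M, IsSiteU δ (u : MV F 2) → CenLe M (u : MV F 2))
    {i : Fin 2} {r s : Fin 4 → F} (hr : gB (G4 δ) r r ≠ 0) (hs : gB (G4 δ) s s ≠ 0)
    (hrs : gB (G4 δ) r s = 0) {g : GV F 2} (hg : g ∈ M)
    (hc : (g : MV F 2) * site i (pl δ r s) = site i (pl δ r s) * g)
    (hf : (g : MV F 2) * site i (1 - pl δ r s) = site i (1 - pl δ r s)) :
    ∃ A : M4 F, IsoW δ A ∧ A.det = 1 ∧ A * pl δ r s = pl δ r s * A ∧
      A * (1 - pl δ r s) = 1 - pl δ r s ∧ (g : MV F 2) = site i A := by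
  obtain ⟨K, hK⟩ : ∃ K, K = ker δ M i r s := ⟨_, rfl⟩
  have hgK : g ∈ K := hK ▸ ⟨hg, hc, hf⟩
  have hKM : K ≤ M := fun k hk => (hK ▸ hk : k ∈ ker δ M i r s).1
  obtain ⟨j, hji⟩ := exists_ne i
  obtain ⟨r', s', w, v, hr', hs', hrs', -, hww, hvv, hwv, he⟩ :=
    exists_hyperbolic hM.two hM.nsq hr hs hrs
  have hw0 : w ≠ 0 := fun e => by simp [e] at hwv
  have hn : ∀ (u : GV F 2) x, gB (G4 δ) w x = 0 →
      (u : MV F 2) = site j (1 + sieM (G4 δ) w x) → u ∈ M → ∀ k ∈ K, u * k * u⁻¹ ∈ K := by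
    intro u x _ hu huM k hk
    subst hK
    have c1 : ∀ X : M4 F, (u : MV F 2) * site i X = site i X * (u : MV F 2) := fun X => by
      rw [hu, site_comm hji]
    have c2 : ∀ X : M4 F, ((u⁻¹ : GV F 2) : MV F 2) * site i X = site i X * ((u⁻¹ : GV F 2) : MV F 2) := fun X =>
      (Commute.units_inv_left (c1 X)).eq
    refine ⟨mul_mem (mul_mem huM hk.1) (inv_mem huM), ?_, ?_⟩
    · rw [Units.val_mul, Units.val_mul, mul_assoc, c2, ← mul_assoc, mul_assoc (u : MV F 2), hk.2.1,
        ← mul_assoc (u : MV F 2), c1, mul_assoc, mul_assoc, mul_assoc]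
    · rw [Units.val_mul, Units.val_mul, mul_assoc, c2, ← mul_assoc, mul_assoc (u : MV F 2), hk.2.2,
        c1, mul_assoc, Units.mul_inv, mul_one]
  have hEM : ∀ x, siteUHom hM.two j w hww x ∈ M := fun x => by
    by_cases h1 : siteUHom hM.two j w hww x = 1
    · rw [h1]; exact one_mem _
    · exact hM.mem (siteUHom_mem_Wr hM.two j w hww x)
        (siteU_mem_Om hM.two hM.nsq (isSiteU_siteUHom hM.two hM.nsq j hw0 hww h1))
  have hn' : ∀ (u : GV F 2) x, gB (G4 δ) w x = 0 →
      (u : MV F 2) = site j (1 + sieM (G4 δ) w x) → ∀ k ∈ K, u * k * u⁻¹ ∈ K := fun u x hx hu => by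
    refine hn u x hx hu ?_
    have hu' : u = siteUHom hM.two j w hww (Multiplicative.ofAdd ⟨x, LinearMap.mem_ker.2 hx⟩) :=
      Units.ext (by rw [hu, val_siteUHom]; rfl)
    rw [hu']; exact hEM _
  have hndvd : ¬ p ∣ Nat.card K := by
    intro hdvd
    obtain ⟨k, hk⟩ := exists_prime_orderOf_dvd_card' p hdvd
    let N : Subgroup (GV F 2) := Subgroup.normalizer (K : Set (GV F 2)) ⊓ M
    have hKN : K ≤ N := le_inf Subgroup.le_normalizer hKM
    -- the root group of the other site lies in `N`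
    have hEN : ∀ x, siteUHom hM.two j w hww x ∈ N := fun x => ⟨Subgroup.mem_normalizer_iff.2
      fun h => ⟨fun hh => hn' _ _ (LinearMap.mem_ker.1 x.toAdd.2) (val_siteUHom hM.two j w hww x) h hh,
        fun hh => by
          have := hn' _ _ (LinearMap.mem_ker.1 (x⁻¹).toAdd.2) (val_siteUHom hM.two j w hww x⁻¹) _ hh
          rwa [map_inv, inv_inv, show (siteUHom hM.two j w hww x)⁻¹ *
            (siteUHom hM.two j w hww x * h * (siteUHom hM.two j w hww x)⁻¹) *
              siteUHom hM.two j w hww x = h by group] at this⟩, hEM x⟩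
    have hpE : IsPGroup p ((siteUHom hM.two j w hww).range.subgroupOf N) := by
      rintro ⟨⟨g', hN⟩, hg'⟩
      obtain ⟨x, hx⟩ := hg'
      refine ⟨1, Subtype.ext (Subtype.ext ?_)⟩
      show g' ^ p ^ 1 = 1
      rw [pow_one, ← show siteUHom hM.two j w hww x = g' from hx]
      exact siteUHom_pow_char hM.two j w hww x
    obtain ⟨S, hS⟩ := hpE.exists_le_sylow
    let kN : N := ⟨k.1, hKN k.2⟩
    have hkN : orderOf kN = p := by
      rw [← Subgroup.orderOf_coe]; exact (Subgroup.orderOf_coe k).trans hk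
    have hzp : IsPGroup p (Subgroup.zpowers kN) :=
      IsPGroup.of_card (n := 1) (by rw [Nat.card_zpowers, hkN, pow_one])
    obtain ⟨T, hT⟩ := hzp.exists_le_sylow
    obtain ⟨c, hcT⟩ := MulAction.exists_smul_eq N T S
    have hkS : c * kN * c⁻¹ ∈ (S : Subgroup N) := by
      rw [← hcT, Sylow.coe_subgroup_smul]
      exact Subgroup.smul_mem_pointwise_smul _ (MulAut.conj c) T.1 (hT (Subgroup.mem_zpowers kN))
    have hk'K : ((c * kN * c⁻¹ : N) : GV F 2) ∈ K :=
      (Subgroup.mem_normalizer_iff.1 (c.2.1) k.1).1 k.2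
    obtain ⟨-, habel⟩ := hb ((S : Subgroup N).map N.subtype)
      (by rintro _ ⟨y, -, rfl⟩; exact y.2.2) (S.2.map N.subtype)
    obtain ⟨d, hd, hrd, hsd⟩ := HalfBig.exists_third hM.two hM.nsq hr' hs' hrs'
    have hwd : gB (G4 δ) w d = 0 := by
      have hpw : pl δ r' s' *ᵥ w = w := by
        rw [he, add_mulVec, cr_mulVec, cr_mulVec, gB_symm δ v w, hwv, hww, zero_smul, one_smul,
          add_zero]
      rw [← hpw, pl_mulVec]
      simp [hrd, hsd]
    obtain ⟨x, hx⟩ : ∃ x : Multiplicative (perpW δ w), x.toAdd.1 = d :=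
      ⟨Multiplicative.ofAdd ⟨d, LinearMap.mem_ker.2 hwd⟩, rfl⟩
    have hu : IsSiteU δ ((siteUHom hM.two j w hww x : GV F 2) : MV F 2) :=
      ⟨j, w, d, hw0, hww, hwd, hd, by rw [val_siteUHom, hx]⟩
    have hcomm := habel _ ⟨_, hkS, rfl⟩ _ ⟨⟨_, hEN x⟩, hS ⟨x, rfl⟩, rfl⟩
    simp only [Subgroup.subtype_apply] at hcomm
    have hk'W : ((c * kN * c⁻¹ : N) : GV F 2) ∈ Wr F 2 := by
      refine hU _ (hEM x) hu _ (hKM hk'K) ?_
      rw [← Units.val_mul, ← Units.val_mul, hcomm]
    subst hK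
    obtain ⟨A, hA, -, hAc, hAf, hAv⟩ := exists_site hM hr hs hrs (hKM hk'K) hk'W hk'K.2.1 hk'K.2.2
    have hpow : (c * kN * c⁻¹) ^ p = 1 := by
      rw [conj_pow, ← hkN, pow_orderOf_eq_one, mul_one, mul_inv_cancel]
    have hAp : A ^ p = 1 := site_injective i (by
      rw [← TensorPowSp.siteHom_apply, map_pow, TensorPowSp.siteHom_apply, site_one, ← hAv,
        ← Units.val_pow_eq_pow_val, ← SubmonoidClass.coe_pow, hpow]
      rfl)
    have hA1 := eq_one_of_pow hM.two hA hr hs hrs hAc hAf hAp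
    have h1 : c * kN * c⁻¹ = 1 := Subtype.ext (Units.ext (by rw [hAv, hA1, site_one]; rfl))
    rw [conj_eq_one_iff] at h1
    rw [h1, orderOf_one] at hkN
    exact (Fact.out : p.Prime).one_lt.ne hkN
  exact exists_site hM hr hs hrs hg (le_Wr_of_normalized hM hU hKM hndvd hw0 hww hn' hgK) hc hf

end HalfTwo

open HalfTwo

section Group

variable [Finite F] {p : ℕ} [Fact p.Prime] [CharP F p] {M : Subgroup (GV F 2)}

omit [Finite F] [Fact p.Prime] [CharP F p] in
lemma HalfTwo.site_half (i : Fin 2) {r s : Fin 4 → F} (hrs : gB (G4 δ) r s = 0) :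
    site i (reflW δ r * reflW δ s) = (1 : MV F 2) - (2 : F) • site i (pl δ r s) := by
  rw [half_eq hrs, OrthWreathBig.site_sub, site_one, site_smul]

omit [Finite F] [Fact p.Prime] [CharP F p] in
lemma HalfTwo.comm_of_half (h2 : (2 : F) ≠ 0) {i : Fin 2} {r s : Fin 4 → F}
    (hrs : gB (G4 δ) r s = 0) {g : MV F 2}
    (h : g * site i (reflW δ r * reflW δ s) = site i (reflW δ r * reflW δ s) * g) :
    g * site i (pl δ r s) = site i (pl δ r s) * g := by
  rw [site_half i hrs, mul_sub, sub_mul, mul_one, one_mul, mul_smul_comm, smul_mul_assoc,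
    sub_right_inj] at h
  exact smul_right_injective _ h2 h

/-- The members centralising a half turn and fixing its fixed space act at one site as rotations
of the plane. -/
theorem kernel_le (hM : Over δ M)
    (hb : ∀ P ≤ M, IsPGroup p P → Nat.card P ≤ Nat.card F ^ 4 ∧ ∀ a ∈ P, ∀ b ∈ P, a * b = b * a)
    (hU : ∀ u ∈ M, IsSiteU δ (u : MV F 2) → CenLe M (u : MV F 2))
    {i : Fin 2} {r s : Fin 4 → F} (hr : gB (G4 δ) r r ≠ 0) (hs : gB (G4 δ) s s ≠ 0)
    (hrs : gB (G4 δ) r s = 0) {g : GV F 2} (hg : g ∈ M)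
    (hc : (g : MV F 2) * site i (reflW δ r * reflW δ s) = site i (reflW δ r * reflW δ s) * g)
    (hf : (g : MV F 2) * (1 + site i (reflW δ r * reflW δ s)) =
      1 + site i (reflW δ r * reflW δ s)) :
    ∃ A : M4 F, IsoW δ A ∧ A.det = 1 ∧
      A * (reflW δ r * reflW δ s) = reflW δ r * reflW δ s * A ∧
      A * (1 + reflW δ r * reflW δ s) = 1 + reflW δ r * reflW δ s ∧ (g : MV F 2) = site i A := by
  have e : (1 : MV F 2) + site i (reflW δ r * reflW δ s) = (2 : F) • site i (1 - pl δ r s) := by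
    rw [site_half i hrs, OrthWreathBig.site_sub, site_one]
    module
  rw [e, mul_smul_comm] at hf
  obtain ⟨A, hA, hd, hAc, hAf, hAv⟩ := ker_site hM hb hU hr hs hrs hg
    (comm_of_half hM.two hrs hc) (smul_right_injective _ hM.two hf)
  refine ⟨A, hA, hd, ?_, ?_, hAv⟩
  · rw [half_eq hrs, mul_sub, sub_mul, mul_one, one_mul, mul_smul_comm, smul_mul_assoc, hAc]
  · rw [half_eq hrs, show (1 : M4 F) + (1 - (2 : F) • pl δ r s) = (2 : F) • (1 - pl δ r s) by module,
      mul_smul_comm, hAf]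

/-- The same for the other eigenspace. -/
theorem kernel_le_neg (hM : Over δ M)
    (hb : ∀ P ≤ M, IsPGroup p P → Nat.card P ≤ Nat.card F ^ 4 ∧ ∀ a ∈ P, ∀ b ∈ P, a * b = b * a)
    (hU : ∀ u ∈ M, IsSiteU δ (u : MV F 2) → CenLe M (u : MV F 2))
    {i : Fin 2} {r s : Fin 4 → F} (hr : gB (G4 δ) r r ≠ 0) (hs : gB (G4 δ) s s ≠ 0)
    (hrs : gB (G4 δ) r s = 0) {g : GV F 2} (hg : g ∈ M)
    (hc : (g : MV F 2) * site i (reflW δ r * reflW δ s) = site i (reflW δ r * reflW δ s) * g)
    (hf : (g : MV F 2) * (1 - site i (reflW δ r * reflW δ s)) =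
      1 - site i (reflW δ r * reflW δ s)) :
    ∃ A : M4 F, IsoW δ A ∧ A.det = 1 ∧
      A * (reflW δ r * reflW δ s) = reflW δ r * reflW δ s * A ∧
      A * (1 - reflW δ r * reflW δ s) = 1 - reflW δ r * reflW δ s ∧ (g : MV F 2) = site i A := by
  obtain ⟨r', s', hr', hs', hrs', hsum, -⟩ := exists_compl hM.two hM.nsq hr hs hrs
  have hp : pl δ r' s' = 1 - pl δ r s := eq_sub_of_add_eq' hsum
  have e : (1 : MV F 2) - site i (reflW δ r * reflW δ s) = (2 : F) • site i (pl δ r s) := by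
    rw [site_half i hrs, sub_sub_cancel]
  rw [e, mul_smul_comm] at hf
  have hc' := comm_of_half hM.two hrs hc
  obtain ⟨A, hA, hd, hAc, hAf, hAv⟩ := ker_site hM hb hU hr' hs' hrs' hg
    (by rw [hp, OrthWreathBig.site_sub, mul_sub, sub_mul, site_one, mul_one, one_mul, hc'])
    (by rw [hp, sub_sub_cancel]; exact smul_right_injective _ hM.two hf)
  rw [hp, sub_sub_cancel] at hAf
  rw [hp, mul_sub, sub_mul, mul_one, one_mul, sub_right_inj] at hAc
  refine ⟨A, hA, hd, ?_, ?_, hAv⟩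
  · rw [half_eq hrs, mul_sub, sub_mul, mul_one, one_mul, mul_smul_comm, smul_mul_assoc, hAc]
  · rw [half_eq hrs, sub_sub_cancel, mul_smul_comm, hAf]

/-- The members centralising a half turn and fixing its fixed space act at one site. -/
theorem kernel_le_site (hM : Over δ M)
    (hb : ∀ P ≤ M, IsPGroup p P → Nat.card P ≤ Nat.card F ^ 4 ∧ ∀ a ∈ P, ∀ b ∈ P, a * b = b * a)
    (hU : ∀ u ∈ M, IsSiteU δ (u : MV F 2) → CenLe M (u : MV F 2)) :
    ∀ x ∈ M, ∀ (i : Fin 2) (r s : Fin 4 → F), gB (G4 δ) r r ≠ 0 → gB (G4 δ) s s ≠ 0 →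
      gB (G4 δ) r s = 0 → (x : MV F 2) = site i (reflW δ r * reflW δ s) → ∀ g ∈ M,
      (g : MV F 2) * x = x * g → (g : MV F 2) * (1 + x) = 1 + x →
      ∃ A, (g : MV F 2) = site i A := by
  intro x _ i r s hr hs hrs ex g hg hc hf
  rw [ex] at hc hf
  obtain ⟨A, -, -, -, -, e⟩ := kernel_le hM hb hU hr hs hrs hg hc hf
  exact ⟨A, e⟩

/-- The centralisers of the half turns are monomial for two sites. -/
theorem cenLe_half_two (hM : Over δ M) (hq : 5 ≤ Nat.card F)
    (hb : ∀ P ≤ M, IsPGroup p P → Nat.card P ≤ Nat.card F ^ 4 ∧ ∀ a ∈ P, ∀ b ∈ P, a * b = b * a)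
    (hU : ∀ u ∈ M, IsSiteU δ (u : MV F 2) → CenLe M (u : MV F 2))
    (hstab : ∀ g ∈ M, ∀ (i : Fin 2) (w : Fin 4 → F), w ≠ 0 → gB (G4 δ) w w = 0 →
      FixesSlot δ i w (g : MV F 2) → g ∈ Wr F 2) :
    ∀ x ∈ M, IsHalf δ (x : MV F 2) → CenLe M (x : MV F 2) := by
  rintro x - ⟨i, r₀, s₀, hr₀, hs₀, hrs₀, ex⟩ g hg hgx
  rw [ex] at hgx
  have hc₀ := comm_of_half hM.two hrs₀ hgx
  obtain ⟨r, s, w, v, hr, hs, hrs, hor, hww, hvv, hwv, hP⟩ :=
    exists_hyperbolic hM.two hM.nsq hr₀ hs₀ hrs₀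
  have hc : (g : MV F 2) * site i (pl δ r s) = site i (pl δ r s) * g := by
    rcases hor with h | h <;> rw [h]
    · exact hc₀
    · rw [OrthWreathBig.site_sub, mul_sub, sub_mul, site_one, mul_one, one_mul, hc₀]
  have hvw : gB (G4 δ) v w = 1 := by rw [gB_symm, hwv]
  have hw0 : w ≠ 0 := fun e => by simp [e] at hwv
  obtain ⟨u, hu⟩ : ∃ u, u = cr (G4 δ) w v := ⟨_, rfl⟩
  obtain ⟨z, hz⟩ : ∃ z, z = cr (G4 δ) v w := ⟨_, rfl⟩
  rw [← hu, ← hz] at hP
  have uu : u * u = u := by rw [hu, cr_mul, hvw, one_smul]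
  have zz : z * z = z := by rw [hz, cr_mul, hwv, one_smul]
  have uz : u * z = 0 := by rw [hu, hz, cr_mul, hvv, zero_smul]
  have zu : z * u = 0 := by rw [hu, hz, cr_mul, hww, zero_smul]
  have uww : u * cr (G4 δ) w w = cr (G4 δ) w w := by rw [hu, cr_mul, hvw, one_smul]
  have wwvv : cr (G4 δ) w w * cr (G4 δ) v v = u := by rw [hu, cr_mul, hwv, one_smul]
  obtain ⟨j, hji⟩ := exists_ne i
  obtain ⟨S, hS⟩ : ∃ S : F → M4 F, S = fun c => 1 - (u + z) + c • u + c⁻¹ • z := ⟨_, rfl⟩
  have hqv : ∀ c : F, gB (G4 δ) (w - c • v) (w - c • v) = -(2 * c) := fun c => by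
    simp only [map_sub, map_smul, LinearMap.sub_apply, LinearMap.smul_apply, smul_eq_mul, hww, hvv,
      hwv, hvw]
    ring
  -- the reflection interchanging the two singular lines
  obtain ⟨R, hR⟩ : ∃ R, R = reflW δ (w - (1 : F) • v) := ⟨_, rfl⟩
  have hR0 : gB (G4 δ) (w - (1 : F) • v) (w - (1 : F) • v) ≠ 0 := by
    rw [hqv, mul_one, neg_ne_zero]; exact hM.two
  have hR' : ∀ c : F, c ≠ 0 → reflW δ (w - c • v) =
      1 + c⁻¹ • cr (G4 δ) w w - u - z + c • cr (G4 δ) v v := fun c hc => by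
    have h2 := hM.two
    rw [reflW, hqv, hu, hz]
    simp only [sub_eq_add_neg, cr_add_left, cr_add_right, ← neg_smul, cr_smul_left, cr_smul_right,
      smul_add, smul_smul]
    match_scalars <;> field_simp
  have Rz : R * z = cr (G4 δ) w w := by
    rw [hR, hR' 1 one_ne_zero, inv_one, one_smul, one_smul, add_mul, sub_mul, sub_mul, add_mul,
      one_mul, uz, zz, hz, cr_mul, cr_mul, hwv, hvv, one_smul, zero_smul]
    abel
  -- a rotation of the plane
  have key : ∀ c : F, c ≠ 0 → reflW δ (w - c⁻¹ • v) * R = S c := fun c hc => by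
    rw [hR, hR' _ (inv_ne_zero hc), hR' 1 one_ne_zero, hS, hu, hz, inv_inv]
    simp only [mul_add, mul_sub, add_mul, sub_mul, one_mul, mul_one, smul_mul_assoc, mul_smul_comm,
      smul_smul, cr_mul, hww, hvv, hwv, hvw, zero_smul, smul_zero, one_smul, inv_one]
    module
  obtain ⟨l, hl0, hl⟩ : ∃ l : F, l ≠ 0 ∧ l * l ≠ 1 := by
    classical
    letI := Fintype.ofFinite F
    by_contra hno
    push Not at hno
    have hle : (Finset.univ : Finset F) ⊆ {0, 1, -1} := fun a _ => by
      by_cases ha : a = 0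
      · simp [ha]
      · rcases mul_self_eq_one_iff.1 (hno a ha) with h | h <;> simp [h]
    have h3 := (Finset.card_le_card hle).trans Finset.card_le_three
    rw [Finset.card_univ, ← Nat.card_eq_fintype_card] at h3
    omega
  have hl1 : gB (G4 δ) (w - l⁻¹ • v) (w - l⁻¹ • v) ≠ 0 := by
    rw [hqv, neg_ne_zero]; exact mul_ne_zero hM.two (inv_ne_zero hl0)
  have hRiso : IsoW δ R := hR ▸ HalfBig.refl_iso hM.two hR0
  have hSiso : IsoW δ (S l) := by
    rw [← key l hl0]
    have h1 := HalfBig.refl_iso hM.two hl1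
    simp only [IsoW] at h1 hRiso ⊢
    rw [transpose_mul, mul_assoc, mul_assoc, ← mul_assoc (G4 δ), ← mul_assoc (reflW δ _)ᵀ,
      ← mul_assoc (reflW δ _)ᵀ, h1, ← mul_assoc, hRiso]
  have hSdet : (S l).det = 1 := by
    rw [← key l hl0, det_mul, det_reflW hl1, hR, det_reflW hR0]; norm_num
  obtain ⟨t', ht', -, htv⟩ := exists_pair hM hji.symm hSiso
    (show IsoW δ (1 : M4 F) by rw [IsoW, transpose_one, one_mul, mul_one]) (by rw [hSdet, det_one])
  rw [site_one, mul_one] at htv
  have S1 : ∀ c : F, S c * (u + z) = c • u + c⁻¹ • z ∧ (u + z) * S c = c • u + c⁻¹ • z := fun c => by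
    constructor <;>
    · simp only [hS, mul_add, add_mul, sub_mul, mul_sub, one_mul, mul_one, smul_mul_assoc,
        mul_smul_comm, uu, zz, uz, zu, smul_zero, add_zero, zero_add]
      abel
  have S2 : ∀ c : F, S c * (1 - (u + z)) = 1 - (u + z) := fun c => by
    rw [mul_sub, mul_one, (S1 c).1]; simp only [hS]; abel
  have Su : ∀ c : F, S c * u = c • u ∧ u * S c = c • u ∧ z * S c = c⁻¹ • z := fun c => by
    refine ⟨?_, ?_, ?_⟩ <;>
    · simp only [hS, mul_add, add_mul, sub_mul, mul_sub, one_mul, mul_one, smul_mul_assoc,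
        mul_smul_comm, uu, zz, uz, zu, smul_zero, add_zero, zero_add]
      abel
  -- its conjugate
  obtain ⟨y, hy⟩ : ∃ y, y = g * t' * g⁻¹ := ⟨_, rfl⟩
  have hgi : ∀ X, (g : MV F 2) * X = X * g → ((g⁻¹ : GV F 2) : MV F 2) * X = X * (g⁻¹ : GV F 2) :=
    fun X h => (Commute.units_inv_left h).eq
  have hc1 : (g : MV F 2) * site i (1 - pl δ r s) = site i (1 - pl δ r s) * (g : MV F 2) := by
    rw [OrthWreathBig.site_sub, mul_sub, sub_mul, site_one, mul_one, one_mul, hc]
  have hyc : (y : MV F 2) * site i (pl δ r s) = site i (pl δ r s) * y := by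
    rw [hy, Units.val_mul, Units.val_mul, mul_assoc, hgi _ hc, ← mul_assoc, mul_assoc (g : MV F 2),
      htv, site_mul, hP, (S1 l).1, ← (S1 l).2, ← site_mul, ← hP, ← mul_assoc (g : MV F 2), hc]
    simp only [mul_assoc]
  have hyf : (y : MV F 2) * site i (1 - pl δ r s) = site i (1 - pl δ r s) := by
    rw [hy, Units.val_mul, Units.val_mul, mul_assoc, hgi _ hc1, ← mul_assoc, mul_assoc (g : MV F 2),
      htv, site_mul, hP, S2, ← hP, hc1, mul_assoc, Units.mul_inv, mul_one]
  obtain ⟨A, hA, -, hAc, hAf, hAv⟩ :=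
    ker_site hM hb hU hr hs hrs (hy ▸ mul_mem (mul_mem hg ht') (inv_mem hg)) hyc hyf
  have hsg : (g : MV F 2) * site i (S l) = site i A * g := by
    rw [← htv, ← hAv, ← Units.val_mul, ← Units.val_mul, hy, inv_mul_cancel_right]
  -- the conjugate is a rotation too
  obtain ⟨m, hm0, hAS⟩ : ∃ m : F, m ≠ 0 ∧ A = S m := by
    have hPw : pl δ r s *ᵥ w = w := by
      rw [hP, hu, hz, add_mulVec, cr_mulVec, cr_mulVec, hvw, hww, zero_smul, one_smul, add_zero]
    have hPv : pl δ r s *ᵥ v = v := by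
      rw [hP, hu, hz, add_mulVec, cr_mulVec, cr_mulVec, hvv, hwv, zero_smul, one_smul, zero_add]
    have co : ∀ q, pl δ r s *ᵥ q = q →
        A *ᵥ q = gB (G4 δ) v (A *ᵥ q) • w + gB (G4 δ) w (A *ᵥ q) • v := fun q hq' => by
      conv_lhs => rw [← hq', mulVec_mulVec, hAc, ← mulVec_mulVec, hP, hu, hz, add_mulVec, cr_mulVec,
        cr_mulVec]
    obtain ⟨a, b, hab⟩ : ∃ a b, A *ᵥ w = a • w + b • v := ⟨_, _, co w hPw⟩
    obtain ⟨c, d, hcd⟩ : ∃ c d, A *ᵥ v = c • w + d • v := ⟨_, _, co v hPv⟩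
    have q1 := hA.gB_eq w w
    have q2 := hA.gB_eq v v
    have q3 := hA.gB_eq w v
    simp only [hab, hcd, map_add, map_smul, LinearMap.add_apply, LinearMap.smul_apply, smul_eq_mul,
      hww, hvv, hwv, hvw] at q1 q2 q3
    have hAu : A * u = a • u + b • cr (G4 δ) v v := by
      simp only [hu, cr, mul_vecMulVec, hab, add_vecMulVec, smul_vecMulVec]
    have hAz : A * z = c • cr (G4 δ) w w + d • z := by
      simp only [hz, cr, mul_vecMulVec, hcd, add_vecMulVec, smul_vecMulVec]
    have hAdec : A = A * u + A * z + (1 - (u + z)) := by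
      rw [← mul_add, ← hP]
      calc A = A * pl δ r s + A * (1 - pl δ r s) := by rw [← mul_add, add_sub_cancel, mul_one]
        _ = _ := by rw [hAf]
    by_cases ha : a = 0
    · exfalso
      subst ha
      have hbc : b * c = 1 := by linear_combination q3
      have hd : d = 0 := by
        have hcne : c ≠ 0 := fun e => by simp [e] at hbc
        have : 2 * (c * d) = 0 := by linear_combination q2
        exact ((mul_eq_zero.1 ((mul_eq_zero.1 this).resolve_left hM.two)).resolve_left hcne)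
      subst hd
      have hA2 : A * A = 1 := by
        rw [zero_smul, zero_add] at hAu
        rw [zero_smul, add_zero] at hAz
        have e1 : A * A * u = u := by
          rw [mul_assoc, hAu, mul_smul_comm, show cr (G4 δ) v v = z * cr (G4 δ) v v by
            rw [hz, cr_mul, hwv, one_smul], ← mul_assoc, hAz, smul_mul_assoc, smul_smul, hbc,
            one_smul, wwvv]
        have e2 : A * A * z = z := by
          rw [mul_assoc, hAz, mul_smul_comm, ← uww, ← mul_assoc, hAu, smul_mul_assoc, smul_smul,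
            mul_comm c, hbc, one_smul, cr_mul, hvw, one_smul, hz]
        calc A * A = A * A * u + A * A * z + A * A * (1 - pl δ r s) := by
              rw [← mul_add, ← mul_add, ← hP, add_sub_cancel, mul_one]
          _ = 1 := by rw [e1, e2, mul_assoc, hAf, hAf, hP]; abel
      have hy2 : y * y = 1 := Units.ext (by
        rw [Units.val_mul, hAv, site_mul, hA2, site_one, Units.val_one])
      have ht2 : t' * t' = 1 := by
        rw [hy, show g * t' * g⁻¹ * (g * t' * g⁻¹) = g * (t' * t') * g⁻¹ by group,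
          conj_eq_one_iff] at hy2
        exact hy2
      have hS2 : S l * S l = 1 := site_injective i (by
        rw [← site_mul, ← htv, ← Units.val_mul, ht2, Units.val_one, site_one])
      have hl2 := congrArg (fun X => X * u) hS2
      rw [mul_assoc, (Su l).1, mul_smul_comm, (Su l).1, smul_smul, one_mul] at hl2
      have hu0 : u ≠ 0 := fun e => hw0 (by
        have := congrArg (fun X : M4 F => X *ᵥ w) e
        simpa [hu, cr_mulVec, hvw] using this)
      exact hl (smul_left_injective F hu0 (hl2.trans (one_smul F u).symm))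
    · have hb0 : b = 0 := by
        have : 2 * (a * b) = 0 := by linear_combination q1
        exact ((mul_eq_zero.1 ((mul_eq_zero.1 this).resolve_left hM.two)).resolve_left ha)
      subst hb0
      have had : a * d = 1 := by linear_combination q3
      have hd : d = a⁻¹ := eq_inv_of_mul_eq_one_right had
      have hdne : d ≠ 0 := fun e => by simp [e] at had
      have hc0 : c = 0 := by
        have : 2 * (d * c) = 0 := by linear_combination q2
        exact ((mul_eq_zero.1 ((mul_eq_zero.1 this).resolve_left hM.two)).resolve_left hdne)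
      refine ⟨a, ha, ?_⟩
      rw [hAdec, hAu, hAz, hc0, hd, hS]
      simp only [zero_smul, add_zero, zero_add]
      abel
  subst hAS
  -- the eigen slots of the rotation are permuted
  have gu : (g : MV F 2) * site i u =
      site i u * g * site i u + site i z * g * site i u := by
    have h0 : site i (1 - pl δ r s) * (g : MV F 2) * site i u = 0 := by
      rw [← hc1, mul_assoc, site_mul, hP, sub_mul, add_mul, uu, zu, one_mul, add_zero, sub_self,
        site_zero, mul_zero]
    rw [OrthWreathBig.site_sub, hP, site_one, sub_mul, sub_mul, one_mul, sub_eq_zero, site_add,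
      add_mul, add_mul] at h0
    exact h0
  have e1 : l • (site i u * g * site i u) = m • (site i u * g * site i u) := by
    have := congrArg (fun X => site i u * X * site i u) hsg
    simp only [← mul_assoc, site_mul, (Su m).2.1, site_smul, smul_mul_assoc] at this
    simpa only [mul_assoc, site_mul, (Su l).1, site_smul, mul_smul_comm] using this
  have e2 : l • (site i z * g * site i u) = m⁻¹ • (site i z * g * site i u) := by
    have := congrArg (fun X => site i z * X * site i u) hsg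
    simp only [← mul_assoc, site_mul, (Su m).2.2, site_smul, smul_mul_assoc] at this
    simpa only [mul_assoc, site_mul, (Su l).1, site_smul, mul_smul_comm] using this
  have hww' : site i (cr (G4 δ) w w) = site i u * (site i (cr (G4 δ) w w) : MV F 2) := by
    rw [site_mul, uww]
  by_cases hlm : l = m
  · -- the slot is fixed
    have h0 : site i z * g * site i u = 0 := by
      rw [← sub_eq_zero, ← sub_smul, smul_eq_zero] at e2
      refine e2.resolve_left fun e => hl ?_
      rw [sub_eq_zero, ← hlm] at e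
      rw [show l * l = l * l⁻¹ from congrArg (l * ·) e, mul_inv_cancel₀ hl0]
    rw [h0, add_zero] at gu
    refine hstab g hg i w hw0 hww ⟨site i (cr (G4 δ) v v) * g * site i (cr (G4 δ) w w), ?_⟩
    rw [← mul_assoc, ← mul_assoc, site_mul, wwvv]
    conv_lhs => rw [hww', ← mul_assoc, gu, mul_assoc, ← hww']
  · -- the two slots are interchanged
    have h0 : site i u * g * site i u = 0 := by
      rw [← sub_eq_zero, ← sub_smul, smul_eq_zero] at e1
      exact e1.resolve_left (sub_ne_zero.2 hlm)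
    rw [h0, zero_add] at gu
    obtain ⟨h, hhM, hhW, hhv⟩ := exists_pair hM hji.symm hRiso (HalfBig.refl_iso hM.two hr)
      (by rw [hR, det_reflW hR0, det_reflW hr])
    have := hstab (h * g) (mul_mem hhM hg) i w hw0 hww
      ⟨site j (reflW δ r) * g * site i u * site i (cr (G4 δ) w w), by
        conv_lhs => rw [Units.val_mul, hhv, hww', mul_assoc, ← mul_assoc (g : MV F 2), gu]
        simp only [← mul_assoc]
        rw [mul_assoc (site i R), ← site_comm hji.symm z, ← mul_assoc (site i R), site_mul, Rz]⟩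
    exact (Subgroup.mul_mem_cancel_left _ hhW).1 this

end Group

end Cfsg.Agent.MaxSub.OrthFour
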