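import Mathlib
import Cfsg.Agent.MaxSub.OrthFour.Omega
import Cfsg.Agent.GeoClasses.FormDecomp
import Cfsg.Agent.MaxSub.TensorPowSp.Normal

/-!
Conjugates of a site reflection in the monomial group of a tensor power with at least three sites
are site reflections: the signature of an involution of the monomial group determines its shape.
-/

set_option autoImplicit false
set_option linter.unusedSectionVars false
set_option linter.style.haveILetI false
set_option linter.unusedSimpArgs false
set_option linter.unnecessarySeqFocus false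

namespace Cfsg.Agent.MaxSub.OrthFour.Sig

open Matrix Module Cfsg.Agent.NotMax Cfsg.Agent.GeoClasses
open scoped MatrixGroups Matrix

variable {F : Type*} [Field F] {k t : ℕ}

/-- Twice the dimension of the fixed space less the whole dimension. -/
noncomputable def sigM {ι : Type} [Fintype ι] [DecidableEq ι] (M : Matrix ι ι F) : ℤ :=
  2 * (finrank F (LinearMap.ker (Matrix.mulVecLin (M - 1))) : ℤ) - Fintype.card ι

/-- Similar matrices have the same signature. -/
lemma sigM_eq_of_mul_eq {ι : Type} [Fintype ι] [DecidableEq ι] {M M' : Matrix ι ι F} (C : GL ι F)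
    (hm : M * (C : Matrix ι ι F) = (C : Matrix ι ι F) * M') : sigM M = sigM M' := by
  have key : (LinearMap.ker (mulVecLin (M' - 1))).map
      (LinearMap.GeneralLinearGroup.generalLinearEquiv F _ (Matrix.GeneralLinearGroup.toLin C) :
        (ι → F) →ₗ[F] ι → F) = LinearMap.ker (mulVecLin (M - 1)) := by
    ext v
    simp only [Submodule.mem_map, LinearMap.mem_ker, mulVecLin_apply, sub_mulVec, one_mulVec,
      sub_eq_zero]
    constructor
    · rintro ⟨w, hw, rfl⟩
      show _ *ᵥ ((C : Matrix ι ι F) *ᵥ w) = (C : Matrix ι ι F) *ᵥ w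
      rw [mulVec_mulVec, hm, ← mulVec_mulVec, hw]
    · intro hv
      refine ⟨((C⁻¹ : GL ι F) : Matrix ι ι F) *ᵥ v, ?_, ?_⟩
      · have : M' = ((C⁻¹ : GL ι F) : Matrix ι ι F) * (M * C) := by
          rw [hm, Units.inv_mul_cancel_left]
        rw [this, mulVec_mulVec, mul_assoc, mul_assoc, Units.mul_inv, mul_one, ← mulVec_mulVec, hv]
      · show (C : Matrix ι ι F) *ᵥ _ = v
        rw [mulVec_mulVec, Units.mul_inv, one_mulVec]
  rw [sigM, sigM, ← key, LinearEquiv.finrank_map_eq]

lemma units_cast (u : ℤˣ) : ((u : ℤ) : F) = 1 ∨ ((u : ℤ) : F) = -1 := by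
  rcases Int.units_eq_one_or u with rfl | rfl <;> simp

/-- The fixed space of a monomial involution. -/
lemma finrank_monomial (h2 : (2 : F) ≠ 0) {κ : Type} [Fintype κ] [DecidableEq κ] (σ : κ → κ)
    (hσ : Function.Involutive σ) (s : κ → ℤˣ) (hs : ∀ x, s (σ x) = s x) :
    2 * (finrank F (LinearMap.ker (mulVecLin
        (Matrix.of (fun x y => if y = σ x then ((s x : ℤ) : F) else 0) - 1))) : ℤ) =
      Fintype.card κ + ∑ x ∈ Finset.univ.filter (fun x => σ x = x), (s x : ℤ) := by
  classical
  let e := Fintype.equivFin κ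
  let M : Matrix κ κ F := Matrix.of (fun x y => if y = σ x then ((s x : ℤ) : F) else 0)
  let S : Finset κ := Finset.univ.filter fun x => e x < e (σ x) ∨ (σ x = x ∧ s x = 1)
  have hM : ∀ (v : κ → F) x, (M *ᵥ v) x = ((s x : ℤ) : F) * v (σ x) := fun v x => by
    simp [M, mulVec, dotProduct]
  set K := LinearMap.ker (mulVecLin (M - 1)) with hK
  have hmem : ∀ v, v ∈ K ↔ ∀ x, ((s x : ℤ) : F) * v (σ x) = v x := fun v => by
    simp [hK, LinearMap.mem_ker, sub_eq_zero, funext_iff, hM]
  have hss : ∀ x, ((s x : ℤ) : F) * ((s x : ℤ) : F) = 1 := fun x => by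
    rcases units_cast (F := F) (s x) with h | h <;> simp [h]
  let φ : K →ₗ[F] S → F :=
    { toFun := fun v x => (v : κ → F) x
      map_add' := fun _ _ => rfl
      map_smul' := fun _ _ => rfl }
  have hinj : Function.Injective φ := by
    rw [← LinearMap.ker_eq_bot, LinearMap.ker_eq_bot']
    intro v hv
    have h0 : ∀ x ∈ S, (v : κ → F) x = 0 := fun x hx => congrFun hv ⟨x, hx⟩
    refine Subtype.ext (funext fun x => ?_)
    show (v : κ → F) x = 0
    have hx := (hmem v.1).1 v.2 x
    by_cases hfix : σ x = x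
    · rcases Int.units_eq_one_or (s x) with h | h
      · exact h0 x (by simp [S, hfix, h])
      · rw [hfix, h] at hx
        simp only [Units.val_neg, Units.val_one, Int.cast_neg, Int.cast_one, neg_mul, one_mul] at hx
        exact (mul_eq_zero.1 (by linear_combination -hx : (2 : F) * (v : κ → F) x = 0)).resolve_left h2
    · rcases lt_or_gt_of_ne (fun h : e x = e (σ x) => hfix (e.injective h).symm) with h | h
      · exact h0 x (by simp [S, h])
      · rw [← hx, h0 (σ x) (by simp [S, hσ x, h]), mul_zero]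
  have hsurj : Function.Surjective φ := by
    intro f
    let v : κ → F := fun x => if hx : x ∈ S then f ⟨x, hx⟩ else
      if hy : σ x ∈ S then ((s x : ℤ) : F) * f ⟨σ x, hy⟩ else 0
    have hv : v ∈ K := (hmem v).2 fun x => by
      by_cases hfix : σ x = x
      · rw [hfix]
        by_cases hx : x ∈ S
        · have : s x = 1 := by
            simpa [S, hfix] using hx
          simp [this]
        · have : v x = 0 := by simp [v, hx, hfix]
          simp [this]
      · have hne : e x ≠ e (σ x) := fun h => hfix (e.injective h).symm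
        have hx' : x ∈ S ↔ e x < e (σ x) := by simp [S, hfix]
        have hy' : σ x ∈ S ↔ e (σ x) < e x := by simp [S, hσ x, Ne.symm hfix]
        rcases lt_or_gt_of_ne hne with h | h
        · have hx := hx'.2 h
          have hy : σ x ∉ S := fun hy => lt_asymm h (hy'.1 hy)
          have e1 : v x = f ⟨x, hx⟩ := dif_pos hx
          have e2 : v (σ x) = ((s x : ℤ) : F) * f ⟨x, hx⟩ := by
            simp only [v, dif_neg hy, hσ x, dif_pos hx, hs x]
          rw [e1, e2, ← mul_assoc, hss, one_mul]
        · have hy := hy'.2 h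
          have hx : x ∉ S := fun hx => lt_asymm h (hx'.1 hx)
          simp only [v, dif_pos hy, dif_neg hx]
    exact ⟨⟨v, hv⟩, funext fun x => dif_pos x.2⟩
  have hdim : finrank F K = S.card := by
    rw [(LinearEquiv.ofBijective φ ⟨hinj, hsurj⟩).finrank_eq, finrank_fintype_fun_eq_card,
      Fintype.card_coe]
  show 2 * (finrank F K : ℤ) = _
  rw [hdim]
  have hswap : (Finset.univ.filter fun x => e x < e (σ x)).card =
      (Finset.univ.filter fun x => e (σ x) < e x).card :=
    Finset.card_nbij' σ σ (fun x hx => by simpa [hσ x] using hx) (fun x hx => by simpa [hσ x] using hx)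
      (fun x _ => hσ x) (fun x _ => hσ x)
  have hpt : ∀ x, (2 * if e x < e (σ x) ∨ (σ x = x ∧ s x = 1) then (1 : ℤ) else 0) =
      1 + (if σ x = x then (s x : ℤ) else 0) +
        ((if e x < e (σ x) then (1 : ℤ) else 0) - (if e (σ x) < e x then 1 else 0)) := by
    intro x
    by_cases hfix : σ x = x
    · rcases Int.units_eq_one_or (s x) with h | h <;> simp [hfix, h]
    · rcases lt_or_gt_of_ne (fun h : e x = e (σ x) => hfix (e.injective h).symm) with h | h
      · simp [hfix, h, lt_asymm h]
      · simp [hfix, h, lt_asymm h]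
  have := Finset.sum_congr (s₁ := Finset.univ) rfl fun x (_ : x ∈ Finset.univ) => hpt x
  rw [← Finset.mul_sum, Finset.sum_add_distrib, Finset.sum_add_distrib, Finset.sum_sub_distrib,
    Finset.sum_boole, Finset.sum_boole, Finset.sum_boole, hswap, sub_self, add_zero,
    ← Finset.sum_filter] at this
  simpa [S] using this

/-- The sum over the fixed indices of a factor permutation. -/
lemma sum_fixed (π : Equiv.Perm (Fin t)) (hπ : ∀ i, π (π i) = i) (e : Fin t → Fin k → ℤ) :
    ∑ x ∈ (Finset.univ.filter fun x : Fin t → Fin k => x ∘ π = x), ∏ i, e i (x i) =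
      ∏ i ∈ Finset.univ.filter (fun i => i ≤ π i),
        ∑ a, if π i = i then e i a else e i a * e (π i) a := by
  classical
  set R := Finset.univ.filter fun i : Fin t => i ≤ π i with hR
  have hR' : ∀ i, i ∉ R → π i ∈ R := fun i hi => by
    simp [hR] at hi ⊢; rw [hπ]; exact hi.le
  rw [← Finset.prod_coe_sort R, Fintype.prod_sum]
  refine Finset.sum_bij' (i := fun x _ (j : R) => x j)
    (j := fun y _ => fun i => if h : i ∈ R then y ⟨i, h⟩ else y ⟨π i, hR' i h⟩) ?_ ?_ ?_ ?_ ?_
  · intros; exact Finset.mem_univ _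
  · intro y _
    simp only [Finset.mem_filter, Finset.mem_univ, true_and, funext_iff, Function.comp_apply]
    intro i
    by_cases hfix : π i = i
    · simp only [hfix]
    · by_cases hi : i ∈ R
      · have hπi : π i ∉ R := by
          simp [hR] at hi ⊢; rw [hπ]; exact lt_of_le_of_ne hi (Ne.symm hfix)
        rw [dif_neg hπi, dif_pos hi]
        simp only [hπ]
      · rw [dif_neg hi, dif_pos (hR' i hi)]
  · intro x hx
    funext i
    simp only [Finset.mem_filter, Finset.mem_univ, true_and] at hx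
    split_ifs with h
    · rfl
    · exact congrFun hx i
  · intro y _
    funext j
    simp [j.2]
  · intro x hx
    simp only [Finset.mem_filter, Finset.mem_univ, true_and] at hx
    rw [Finset.prod_coe_sort R (fun i => if π i = i then e i (x i) else e i (x i) * e (π i) (x i)),
      ← Finset.prod_filter_mul_prod_filter_not Finset.univ (fun i => i ≤ π i)]
    have : ∀ i, (if π i = i then e i (x i) else e i (x i) * e (π i) (x i)) =
        e i (x i) * if π i = i then 1 else e (π i) (x i) := fun i => by split_ifs <;> simp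
    simp only [this, Finset.prod_mul_distrib]
    congr 1
    rw [Finset.prod_ite, Finset.prod_const_one, one_mul]
    refine Finset.prod_nbij' π π ?_ ?_ (fun i _ => hπ i) (fun i _ => hπ i) ?_
    · intro i hi
      simp [hR] at hi ⊢
      rw [hπ]; exact ⟨hi.le, hi.ne⟩
    · intro i hi
      simp [hR] at hi ⊢
      rw [hπ]; exact lt_of_le_of_ne hi.1 (Ne.symm hi.2)
    · intro i _
      rw [hπ]
      exact congrArg _ (congrFun hx i).symm

/-- A diagonal matrix of signs. -/
def sgn (F : Type*) [Field F] (ε : Fin k → ℤˣ) : Matrix (Fin k) (Fin k) F :=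
  diagonal fun a => ((ε a : ℤ) : F)

/-- The signature of a diagonal matrix of signs. -/
lemma sigM_sgn (h2 : (2 : F) ≠ 0) (ε : Fin k → ℤˣ) : sigM (sgn F ε) = ∑ a, (ε a : ℤ) := by
  classical
  have h := finrank_monomial h2 (id : Fin k → Fin k) (fun _ => rfl) ε (fun _ => rfl)
  have he : (Matrix.of fun x y : Fin k => if y = id x then ((ε x : ℤ) : F) else 0) = sgn F ε := by
    ext x y; simp [sgn, diagonal_apply, eq_comm]
  rw [he] at h
  rw [sigM, h, add_sub_cancel_left]
  exact Finset.sum_congr (by simp) fun _ _ => rfl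

/-- An involution of a factor is diagonalisable. -/
lemma exists_diag (h2 : (2 : F) ≠ 0) (A : Matrix (Fin k) (Fin k) F) (hA : A * A = 1) :
    ∃ (D : GL (Fin k) F) (ε : Fin k → ℤˣ),
      A * (D : Matrix (Fin k) (Fin k) F) = (D : Matrix (Fin k) (Fin k) F) * sgn F ε := by
  classical
  set a := A with ha
  have haa : ∀ v, a *ᵥ (a *ᵥ v) = v := fun v => by rw [mulVec_mulVec, hA, one_mulVec]
  set p := LinearMap.ker (mulVecLin (a - 1))
  set q := LinearMap.ker (mulVecLin (a + 1))
  have hp : ∀ v, v ∈ p ↔ a *ᵥ v = v := fun v => by simp [p, sub_eq_zero]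
  have hq : ∀ v, v ∈ q ↔ a *ᵥ v = -v := fun v => by simp [q, add_eq_zero_iff_eq_neg]
  have hcompl : IsCompl p q := by
    refine ⟨disjoint_iff.2 (eq_bot_iff.2 fun v hv => ?_), codisjoint_iff.2 (eq_top_iff.2 fun v _ => ?_)⟩
    · have h1 := (hp v).1 hv.1
      rw [(hq v).1 hv.2] at h1
      refine funext fun i => (mul_eq_zero.1 ?_).resolve_left h2
      have := congrFun h1 i
      simp only [Pi.neg_apply] at this
      linear_combination -this
    · refine Submodule.mem_sup.2 ⟨(2 : F)⁻¹ • (v + a *ᵥ v), (hp _).2 ?_,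
        (2 : F)⁻¹ • (v - a *ᵥ v), (hq _).2 ?_, ?_⟩
      · rw [mulVec_smul, mulVec_add, haa, add_comm]
      · rw [mulVec_smul, mulVec_sub, haa, ← smul_neg, neg_sub]
      · rw [← smul_add, add_add_sub_cancel, ← two_smul F v, smul_smul, inv_mul_cancel₀ h2, one_smul]
  let b0 := ((finBasis F p).prod (finBasis F q)).map (Submodule.prodEquivOfIsCompl p q hcompl)
  have hcard : Fintype.card (Fin (finrank F p) ⊕ Fin (finrank F q)) = k := by
    rw [← finrank_eq_card_basis b0, finrank_fin_fun]
  let e := Fintype.equivFinOfCardEq hcard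
  let b := b0.reindex e
  let ε : Fin k → ℤˣ := fun i => Sum.elim (fun _ => 1) (fun _ => -1) (e.symm i)
  have hb : ∀ i, a *ᵥ b i = ((ε i : ℤ) : F) • b i := by
    intro i
    simp only [b, ε, Basis.reindex_apply]
    rcases e.symm i with l | l
    · simp only [b0, Basis.map_apply, Sum.elim_inl, Units.val_one, Int.cast_one, one_smul,
        Basis.prod_apply_inl_fst, Submodule.coe_prodEquivOfIsCompl', Basis.prod_apply_inl_snd,
        Submodule.coe_zero, add_zero]
      exact (hp _).1 (finBasis F p l).2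
    · simp only [b0, Basis.map_apply, Sum.elim_inr, Units.val_neg, Units.val_one, Int.cast_neg,
        Int.cast_one, neg_smul, one_smul, Basis.prod_apply_inr_fst, Submodule.coe_prodEquivOfIsCompl',
        Basis.prod_apply_inr_snd, Submodule.coe_zero, zero_add]
      exact (hq _).1 (finBasis F q l).2
  let D : Matrix (Fin k) (Fin k) F := (Pi.basisFun F (Fin k)).toMatrix b
  have hD : IsUnit D := by
    exact IsUnit.of_mul_eq_one _ ((Pi.basisFun F (Fin k)).toMatrix_mul_toMatrix_flip b)
  refine ⟨hD.unit, ε, ?_⟩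
  show a * D = D * sgn F ε
  ext i j
  rw [sgn, mul_diagonal]
  have := congrFun (hb j) i
  simp only [Pi.smul_apply, smul_eq_mul] at this
  simp only [D, Basis.toMatrix_apply, Pi.basisFun_repr, mul_comm (b j i)]
  exact this

/-- An involution of full signature is a scalar. -/
lemma scalar_of_full (h2 : (2 : F) ≠ 0) {B : Matrix (Fin k) (Fin k) F} (hB : B * B = 1)
    (h : (sigM B).natAbs = k) : B = 1 ∨ B = -1 := by
  obtain ⟨D, ε, hD⟩ := exists_diag h2 B hB
  rw [sigM_eq_of_mul_eq D hD, sigM_sgn h2] at h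
  have hall : (∀ a, ε a = 1) ∨ ∀ a, ε a = -1 := by
    rcases le_total 0 (∑ a, (ε a : ℤ)) with h0 | h0
    · left
      intro a
      by_contra ha
      have : ∑ b, (ε b : ℤ) < ∑ b : Fin k, (1 : ℤ) :=
        Finset.sum_lt_sum (fun b _ => by rcases Int.units_eq_one_or (ε b) with e | e <;> simp [e])
          ⟨a, Finset.mem_univ a, by simp [(Int.units_eq_one_or (ε a)).resolve_left ha]⟩
      simp at this
      omega
    · right
      intro a
      by_contra ha
      have : ∑ b : Fin k, (-1 : ℤ) < ∑ b, (ε b : ℤ) :=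
        Finset.sum_lt_sum (fun b _ => by rcases Int.units_eq_one_or (ε b) with e | e <;> simp [e])
          ⟨a, Finset.mem_univ a, by simp [(Int.units_eq_one_or (ε a)).resolve_right ha]⟩
      simp at this
      omega
  rcases hall with e | e
  · refine Or.inl (D.isUnit.mul_right_cancel ?_)
    rw [hD, sgn, funext e]; simp
  · refine Or.inr (D.isUnit.mul_right_cancel ?_)
    rw [hD, sgn, funext e]
    simp [← diagonal_neg]

lemma natAbs_sum_four (ε : Fin 4 → ℤˣ) :
    (∑ a, (ε a : ℤ)).natAbs = 4 ∨ (∑ a, (ε a : ℤ)).natAbs = 2 ∨ (∑ a, (ε a : ℤ)).natAbs = 0 := by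
  rcases Int.units_eq_one_or (ε 0) with h0 | h0 <;> rcases Int.units_eq_one_or (ε 1) with h1 | h1 <;>
    rcases Int.units_eq_one_or (ε 2) with h2' | h2' <;> rcases Int.units_eq_one_or (ε 3) with h3 | h3 <;>
    simp [Fin.sum_univ_four, h0, h1, h2', h3]

/-- The signature of a monomial involution. -/
theorem sigM_monomial (h2 : (2 : F) ≠ 0) {π : Equiv.Perm (Fin t)} (hπ : ∀ i, π (π i) = i)
    {A : Fin t → GL (Fin k) F} (hfix : ∀ i, π i = i → A i * A i = 1)
    (hpair : ∀ i, π i ≠ i → ∃ u : ℤˣ, ((A i * A (π i) : GL (Fin k) F) : Matrix (Fin k) (Fin k) F) =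
      ((u : ℤ) : F) • 1) :
    ∃ f : Fin t → ℤ, (∀ i, π i = i → f i = sigM (A i : Matrix (Fin k) (Fin k) F)) ∧
      (∀ i, π i ≠ i → (f i).natAbs = if i < π i then k else 1) ∧
      sigM (pureMat (fun i => (A i : Matrix (Fin k) (Fin k) F)) * factorPerm k π) = ∏ i, f i := by
  classical
  have hsym : ∀ i, π.symm i = π i := fun i => by rw [Equiv.symm_apply_eq, hπ]
  choose c hc using hpair
  choose Dd εd hdiag using fun i : {i // π i = i} =>
    exists_diag h2 (A i : Matrix (Fin k) (Fin k) F)
      (by rw [← Units.val_mul, hfix i i.2, Units.val_one])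
  let D : Fin t → GL (Fin k) F := fun i =>
    if h : π i = i then Dd ⟨i, h⟩ else if i < π i then 1 else (A (π i))⁻¹
  let ε : Fin t → Fin k → ℤˣ := fun i =>
    if h : π i = i then εd ⟨i, h⟩ else if i < π i then fun _ => 1 else
      fun _ => c (π i) (fun e => h (π.injective e))
  let u : Fin t → ℤˣ := fun i =>
    if h : π i = i then 1 else if i < π i then 1 else c (π i) (fun e => h (π.injective e))
  have hconst : ∀ i, π i ≠ i → ∀ a, ε i a = u i := fun i hi a => by
    simp only [ε, u, dif_neg hi]; split_ifs <;> rfl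
  have hkey : ∀ i, ((A i * D (π i) : GL (Fin k) F) : Matrix (Fin k) (Fin k) F) =
      (D i : Matrix (Fin k) (Fin k) F) * sgn F (ε i) := by
    intro i
    by_cases hi : π i = i
    · simp only [hi, D, ε, dif_pos]
      exact hdiag ⟨i, hi⟩
    have hi' : π (π i) ≠ π i := fun h => hi (π.injective h)
    rcases lt_or_gt_of_ne (Ne.symm hi) with h | h
    · simp only [D, ε, sgn, dif_neg hi, dif_neg hi', if_pos h, hπ, if_neg (lt_asymm h),
        mul_inv_cancel, Units.val_one, Int.cast_one, diagonal_one, mul_one]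
    · simp only [D, ε, sgn, dif_neg hi, dif_neg hi', if_neg (lt_asymm h),
        if_pos (by rw [hπ]; exact h : π i < π (π i)), mul_one, ← smul_one_eq_diagonal]
      have := hc (π i) hi'
      simp only [hπ] at this
      rw [← this, Units.val_mul, ← mul_assoc, Units.inv_mul, one_mul]
  let s : (Fin t → Fin k) → ℤˣ := fun x => ∏ i, ε i (x i)
  have hs : ∀ x : Fin t → Fin k, s (x ∘ π) = s x := fun x => Finset.prod_congr rfl fun i _ => by
    by_cases hi : π i = i
    · simp [hi]
    · rw [hconst i hi, hconst i hi]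
  let M' : Matrix (Fin t → Fin k) (Fin t → Fin k) F :=
    Matrix.of fun x y => if y = x ∘ π then ((s x : ℤ) : F) else 0
  have hcM : pureMat (fun i => (A i : Matrix (Fin k) (Fin k) F)) * factorPerm k π *
      (glPure D : GL (Fin t → Fin k) F).val = (glPure D : GL (Fin t → Fin k) F).val * M' := by
    show _ * pureMat (fun i => (D i : Matrix (Fin k) (Fin k) F)) =
      pureMat (fun i => (D i : Matrix (Fin k) (Fin k) F)) * M'
    have h1 : (factorPerm k π : Matrix (Fin t → Fin k) (Fin t → Fin k) F) *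
        pureMat (fun i => (D i : Matrix (Fin k) (Fin k) F)) =
          pureMat (fun i => (D (π i) : Matrix (Fin k) (Fin k) F)) * factorPerm k π := by
      rw [pureMat_mul_factorPerm]
      congr 2
      funext i
      rw [hπ]
    rw [mul_assoc, h1, ← mul_assoc, pureMat_mul]
    simp only [← Units.val_mul, hkey]
    rw [← pureMat_mul, mul_assoc]
    congr 1
    have hd : pureMat (fun i => sgn F (ε i)) =
        diagonal (fun x : Fin t → Fin k => ((s x : ℤ) : F)) := by
      ext x y
      by_cases hxy : x = y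
      · subst hxy
        simp [pureMat, s, sgn, Units.coe_prod]
      · obtain ⟨i, hi⟩ := Function.ne_iff.1 hxy
        rw [diagonal_apply_ne _ hxy]
        exact Finset.prod_eq_zero (Finset.mem_univ i) (diagonal_apply_ne _ hi)
    rw [hd]
    ext x y
    rw [diagonal_mul, factorPerm, mul_ite, mul_one, mul_zero]
    rfl
  have hσ : Function.Involutive fun x : Fin t → Fin k => x ∘ π :=
    fun x => funext fun i => by simp [hπ]
  have hmono := finrank_monomial h2 _ hσ s hs
  refine ⟨fun i => if i ≤ π i then ∑ a, (if π i = i then (ε i a : ℤ) else (ε i a : ℤ) * ε (π i) a)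
    else 1, fun i hi => ?_, fun i hi => ?_, ?_⟩
  · simp only [hi, le_refl, if_true]
    have := hdiag ⟨i, hi⟩
    rw [sigM_eq_of_mul_eq _ this, sigM_sgn h2]
    simp [ε, hi]
  · have hi' : π (π i) ≠ π i := fun h => hi (π.injective h)
    rcases lt_or_gt_of_ne (Ne.symm hi) with h | h
    · simp [h.le, h, hi, hconst i hi, hconst (π i) hi', Int.natAbs_mul, Int.units_natAbs]
    · simp [not_le.2 h, lt_asymm h]
  · rw [sigM_eq_of_mul_eq (glPure D) hcM, sigM, hmono, add_sub_cancel_left]
    simp only [s, Units.coe_prod]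
    rw [sum_fixed π hπ fun i a => (ε i a : ℤ), Finset.prod_filter]

/-- A product of weights at most four reaching half the maximum. -/
lemma weights (w : Fin t → ℕ) (h4 : ∀ i, w i ≤ 4) (h3 : ∀ i, w i ≠ 3) (hw : 2 * ∏ i, w i = 4 ^ t) :
    ∃ j, w j = 2 ∧ ∀ i, i ≠ j → w i = 4 := by
  classical
  obtain ⟨j, hj⟩ : ∃ j, w j ≠ 4 := by
    by_contra h
    push Not at h
    simp only [h, Finset.prod_const, Finset.card_univ, Fintype.card_fin] at hw
    have : 0 < 4 ^ t := by positivity
    omega
  have hj2 : w j ≤ 2 := by have := h4 j; have := h3 j; omega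
  have hrest : ∏ i ∈ Finset.univ.erase j, w i ≤ 4 ^ (t - 1) :=
    (Finset.prod_le_prod' fun i _ => h4 i).trans (by simp)
  have ht : 4 ^ t = 4 * 4 ^ (t - 1) := by
    rw [← pow_succ']; congr 1; have := j.isLt; omega
  rw [← Finset.mul_prod_erase Finset.univ w (Finset.mem_univ j)] at hw
  have hpos : 0 < 4 ^ (t - 1) := by positivity
  have hj' : w j = 2 := by
    by_contra hne
    have : w j * ∏ i ∈ Finset.univ.erase j, w i ≤ 1 * 4 ^ (t - 1) :=
      Nat.mul_le_mul (by omega) hrest
    omega
  refine ⟨j, hj', fun i hi => ?_⟩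
  by_contra hne
  have hlt : ∏ l ∈ Finset.univ.erase j, w l < 4 ^ (t - 1) := by
    rcases Nat.eq_zero_or_pos (w i) with h0 | h0
    · rw [Finset.prod_eq_zero (Finset.mem_erase.2 ⟨hi, Finset.mem_univ i⟩) h0]; exact hpos
    · rw [← Finset.mul_prod_erase _ w (Finset.mem_erase.2 ⟨hi, Finset.mem_univ i⟩)]
      have h1 : ∏ l ∈ (Finset.univ.erase j).erase i, w l ≤ 4 ^ (t - 2) :=
        (Finset.prod_le_prod' fun l _ => h4 l).trans (by
          rw [Finset.prod_const, Finset.card_erase_of_mem (Finset.mem_erase.2 ⟨hi, Finset.mem_univ i⟩),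
            Finset.card_erase_of_mem (Finset.mem_univ j), Finset.card_univ, Fintype.card_fin,
            Nat.sub_sub])
      have h2' : 4 ^ (t - 1) = 4 * 4 ^ (t - 2) := by
        rw [← pow_succ']; congr 1
        have : 2 ≤ Fintype.card (Fin t) := Fintype.one_lt_card_iff.2 ⟨i, j, hi⟩
        rw [Fintype.card_fin] at this; omega
      have h3' := h4 i
      have : w i * ∏ l ∈ (Finset.univ.erase j).erase i, w l ≤ 3 * 4 ^ (t - 2) :=
        Nat.mul_le_mul (by omega) h1
      have : 0 < 4 ^ (t - 2) := by positivity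
      omega
  rw [hj'] at hw
  omega

/-- The members of the monomial group. -/
lemma exists_std {g : GL (Fin t → Fin k) F} (hg : g ∈ Cfsg.Geo.tensorWreathStandard k t F) :
    ∃ (π : Equiv.Perm (Fin t)) (A : Fin t → GL (Fin k) F), g = glPure A * glFactorPerm k π := by
  have hmul : ∀ (A B : Fin t → GL (Fin k) F) (π ρ : Equiv.Perm (Fin t)),
      glPure A * glFactorPerm k π * (glPure B * glFactorPerm k ρ) =
        glPure (fun i => A i * B (π.symm i)) * glFactorPerm k (π * ρ) := by
    intro A B π ρ
    refine Units.ext ?_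
    show pureMat _ * factorPerm k π * (pureMat _ * factorPerm k ρ) = pureMat _ * factorPerm k (π * ρ)
    have : (factorPerm k π : Matrix (Fin t → Fin k) (Fin t → Fin k) F) *
        pureMat (fun i => (B i : Matrix (Fin k) (Fin k) F)) =
          pureMat (fun i => (B (π.symm i) : Matrix (Fin k) (Fin k) F)) * factorPerm k π := by
      rw [pureMat_mul_factorPerm]; simp
    rw [mul_assoc, ← mul_assoc (factorPerm k π), this, mul_assoc _ (factorPerm k π), factorPerm_mul,
      ← mul_assoc, pureMat_mul]
    simp only [Units.val_mul]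
  have hperm1 : (glFactorPerm k (1 : Equiv.Perm (Fin t)) : GL (Fin t → Fin k) F) = 1 :=
    Units.ext (factorPerm_one k t)
  have hpure1 : glPure (1 : Fin t → GL (Fin k) F) = 1 := Units.ext (pureMat_one k t)
  induction hg using Subgroup.closure_induction with
  | mem x hx =>
    rcases hx with ⟨As, h⟩ | ⟨σ, h⟩
    · exact ⟨1, As, by rw [hperm1, mul_one]; exact Units.ext (by ext x y; exact h x y)⟩
    · exact ⟨σ, 1, by rw [hpure1, one_mul]; exact Units.ext (by ext x y; exact h x y)⟩
  | one => exact ⟨1, 1, by rw [hpure1, hperm1, one_mul]⟩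
  | mul x y _ _ hx hy =>
    obtain ⟨π, A, rfl⟩ := hx
    obtain ⟨ρ, B, rfl⟩ := hy
    exact ⟨π * ρ, _, hmul A B π ρ⟩
  | inv x _ hx =>
    obtain ⟨π, A, rfl⟩ := hx
    refine ⟨π⁻¹, fun i => (A (π i))⁻¹, inv_eq_of_mul_eq_one_right ?_⟩
    rw [hmul, mul_inv_cancel, hperm1, mul_one,
      show (fun i => A i * (A (π (π.symm i)))⁻¹) = 1 from funext fun i => by simp, hpure1]

lemma pureMat_map' {K : Type*} [Field K] (σ : F →+* K) (Ys : Fin t → Matrix (Fin k) (Fin k) F) :
    (pureMat Ys).map σ = pureMat fun i => (Ys i).map σ := by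
  ext x y
  simp [pureMat, map_prod]

lemma factorPerm_map' {K : Type*} [Field K] (σ : F →+* K) (π : Equiv.Perm (Fin t)) :
    (factorPerm k π : Matrix (Fin t → Fin k) (Fin t → Fin k) F).map σ = factorPerm k π := by
  ext x y
  simp [factorPerm, apply_ite σ]

lemma pureMat_scalar_entry (c : Fin t → F) :
    pureMat (fun i => c i • (1 : Matrix (Fin k) (Fin k) F)) = (∏ i, c i) • 1 := by
  rw [pureMat_smul, pureMat_one]

lemma site_eq_pure (i : Fin t) (X : Matrix (Fin k) (Fin k) F) :
    site i X = pureMat (Function.update 1 i X) := rfl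

/-- The factors of an involution. -/
lemma invol_factors [NeZero k] (hk : 2 ≤ k) {π : Equiv.Perm (Fin t)} {A : Fin t → GL (Fin k) F}
    (h : (pureMat (fun i => (A i : Matrix (Fin k) (Fin k) F)) * factorPerm k π) *
      (pureMat (fun i => (A i : Matrix (Fin k) (Fin k) F)) * factorPerm k π) = 1) :
    (∀ i, π (π i) = i) ∧ ∃ c : Fin t → F,
      (∀ i, (A i : Matrix (Fin k) (Fin k) F) * (A (π i) : Matrix (Fin k) (Fin k) F) = c i • 1) ∧
      ∏ i, c i = 1 ∧ ∀ i, c (π i) = c i := by
  classical
  have h1 : (factorPerm k π : Matrix (Fin t → Fin k) (Fin t → Fin k) F) *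
      pureMat (fun i => (A i : Matrix (Fin k) (Fin k) F)) =
        pureMat (fun i => (A (π.symm i) : Matrix (Fin k) (Fin k) F)) * factorPerm k π := by
    rw [pureMat_mul_factorPerm]; simp
  rw [mul_assoc, ← mul_assoc (factorPerm k π), h1, ← mul_assoc, ← mul_assoc, pureMat_mul,
    mul_assoc, factorPerm_mul] at h
  set B := fun i => (A i : Matrix (Fin k) (Fin k) F) * (A (π.symm i) : Matrix (Fin k) (Fin k) F)
    with hB
  have h' : pureMat B = factorPerm k ((π * π)⁻¹) := by
    have := congrArg (fun X => X * (factorPerm k ((π * π)⁻¹) :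
      Matrix (Fin t → Fin k) (Fin t → Fin k) F)) h
    simpa [mul_assoc, factorPerm_mul, factorPerm_one] using this
  have hπ : π * π = 1 := by
    by_contra hne
    set ρ := (π * π)⁻¹ with hρ
    obtain ⟨i, hi⟩ : ∃ i, ρ i ≠ i := by
      by_contra hall
      push Not at hall
      exact hne (inv_eq_one.1 (Equiv.ext hall))
    -- a column with a single entry off the diagonal pattern
    have hentry : ∀ x y : Fin t → Fin k, ∏ l, B l (x l) (y l) = if y = x ∘ ρ then 1 else 0 :=
      fun x y => congrFun (congrFun h' x) y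
    let z : Fin k := ⟨0, by omega⟩
    let o : Fin k := ⟨1, by omega⟩
    have hzo : z ≠ o := by simp [z, o, Fin.ext_iff]
    have h00 := hentry (fun _ => z) (fun _ => z)
    have h11 := hentry (fun _ => o) (fun _ => o)
    rw [if_pos (by rfl)] at h00 h11
    have h0 : ∀ l, B l z z ≠ 0 := fun l e =>
      one_ne_zero (h00.symm.trans (Finset.prod_eq_zero (Finset.mem_univ l) e))
    have h1' : ∀ l, B l o o ≠ 0 := fun l e =>
      one_ne_zero (h11.symm.trans (Finset.prod_eq_zero (Finset.mem_univ l) e))
    have hmix := hentry (Function.update (fun _ => z) i o) (Function.update (fun _ => z) i o)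
    rw [if_neg] at hmix
    · obtain ⟨l, -, hl⟩ := Finset.prod_eq_zero_iff.1 hmix
      rcases eq_or_ne l i with rfl | hli
      · rw [Function.update_self] at hl; exact h1' l hl
      · rw [Function.update_of_ne hli] at hl; exact h0 l hl
    · intro e
      have := congrFun e i
      rw [Function.update_self, Function.comp_apply, Function.update_of_ne hi] at this
      exact hzo this.symm
  have hinv : ∀ i, π (π i) = i := fun i => by
    rw [← Equiv.Perm.mul_apply, hπ]; rfl
  have hsym : ∀ i, π.symm i = π i := fun i => by rw [Equiv.symm_apply_eq, hinv]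
  rw [hπ, inv_one, factorPerm_one] at h'
  haveI : Nonempty (Fin k) := ⟨⟨0, by omega⟩⟩
  choose c _ hc using fun i => pureMat_eq_smul_pureMat (A := B) (B := fun _ => 1) (s := (1 : F))
    (by rw [h', pureMat_one, one_smul]) one_ne_zero (fun _ => one_ne_zero) i
  refine ⟨hinv, c, fun i => by rw [← hsym]; exact hc i, ?_, fun i => ?_⟩
  · have hp : pureMat (fun i => c i • (1 : Matrix (Fin k) (Fin k) F)) = 1 := by
      rw [← h']; congr 1; exact funext fun i => (hc i).symm
    rw [pureMat_scalar_entry] at hp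
    have := congrFun (congrFun hp fun _ => ⟨0, by omega⟩) fun _ => ⟨0, by omega⟩
    simpa using this
  · have e1 : (A i : Matrix (Fin k) (Fin k) F) * A (π i) = c i • 1 := by rw [← hsym]; exact hc i
    have e2 : (A (π i) : Matrix (Fin k) (Fin k) F) * A i = c (π i) • 1 := by
      have := hc (π i)
      simp only [hB] at this
      rwa [Equiv.symm_apply_apply] at this
    have h3 : ((A i : Matrix (Fin k) (Fin k) F) * A (π i)) * A i =
        (A i : Matrix (Fin k) (Fin k) F) * ((A (π i) : Matrix (Fin k) (Fin k) F) * A i) := mul_assoc _ _ _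
    rw [e1, e2, smul_mul_assoc, one_mul, mul_smul_comm, mul_one] at h3
    exact smul_left_injective F (Units.ne_zero (A i)) h3.symm

/-- The signature of a site map. -/
lemma sigM_site (hL : (2 : F) ≠ 0) (j : Fin t) (S : Matrix (Fin 4) (Fin 4) F) (hS : S * S = 1) :
    sigM (site j S) = sigM S * 4 ^ (t - 1) := by
  let U : Fin t → GL (Fin 4) F := Function.update 1 j ⟨S, S, hS, hS⟩
  obtain ⟨f', hf'1, -, hf'⟩ := sigM_monomial hL (π := (1 : Equiv.Perm (Fin t))) (fun _ => rfl)
    (A := U) (fun l _ => by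
      rcases eq_or_ne l j with rfl | hl
      · exact Units.ext (by simp [U, hS])
      · simp [U, Function.update_of_ne hl]) (fun l hl => absurd rfl hl)
  have hUv : (fun l => (U l : Matrix (Fin 4) (Fin 4) F)) = Function.update (1 : Fin t → Matrix (Fin 4) (Fin 4) F) j S := by
    funext l
    rcases eq_or_ne l j with rfl | hl
    · simp [U]
    · simp [U, Function.update_of_ne hl]
  rw [factorPerm_one, mul_one, hUv] at hf'
  rw [site, hf', ← Finset.mul_prod_erase Finset.univ f' (Finset.mem_univ j), hf'1 j rfl,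
    congrFun hUv j, Function.update_self]
  congr 1
  rw [Finset.prod_congr rfl (g := fun _ => (4 : ℤ)) fun l hl => by
    rw [hf'1 l rfl, congrFun hUv l, Function.update_of_ne (Finset.ne_of_mem_erase hl), Pi.one_apply,
      show (1 : Matrix (Fin 4) (Fin 4) F) = sgn F (fun _ => 1) by simp [sgn],
      sigM_sgn hL]
    simp]
  simp [Finset.prod_const]

/-- The signature of a reflection. -/
lemma sigM_refl (hL : (2 : F) ≠ 0) (S : Matrix (Fin 4) (Fin 4) F)
    (hS : S * S = 1) (hdet : S.det = -1) (htr : S.trace = 2) : sigM S = 2 := by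
  obtain ⟨D, ε, hD⟩ := exists_diag hL S hS
  have hS' : S = (D : Matrix (Fin 4) (Fin 4) F) * sgn F ε *
      ((D⁻¹ : GL (Fin 4) F) : Matrix (Fin 4) (Fin 4) F) := by
    rw [← hD, mul_assoc, Units.mul_inv, mul_one]
  have hd' : (sgn F ε).det = -1 := by
    rw [hS', det_mul, det_mul, mul_right_comm, ← det_mul, Units.mul_inv, det_one, one_mul] at hdet
    exact hdet
  have ht' : (sgn F ε).trace = 2 := by
    rw [hS', Matrix.trace_mul_comm, ← mul_assoc, Units.inv_mul, one_mul] at htr
    exact htr
  rw [sigM_eq_of_mul_eq D hD, sigM_sgn hL, Fin.sum_univ_four]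
  rw [sgn, det_diagonal, Fin.prod_univ_four] at hd'
  rw [sgn, trace_diagonal, Fin.sum_univ_four] at ht'
  have hne : (1 : F) ≠ -1 := fun h => hL (by linear_combination h)
  have h4 : (4 : F) ≠ 0 := by
    rw [show (4 : F) = 2 * 2 by norm_num]; exact mul_ne_zero hL hL
  rcases Int.units_eq_one_or (ε 0) with h0 | h0 <;> rcases Int.units_eq_one_or (ε 1) with h1 | h1 <;>
    rcases Int.units_eq_one_or (ε 2) with h2' | h2' <;> rcases Int.units_eq_one_or (ε 3) with h3 | h3 <;>
    simp [h0, h1, h2', h3] at hd' ht' ⊢ <;>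
    first
    | exact hne hd'
    | exact hne hd'.symm
    | exact h4 (by linear_combination ht')
    | exact h4 (by linear_combination -ht')

end Cfsg.Agent.MaxSub.OrthFour.Sig

namespace Cfsg.Agent.MaxSub.OrthFour

open Matrix Module Cfsg.Agent.NotMax Cfsg.Agent.GeoClasses
open Cfsg.Agent.MaxSub.TensorPowSp (gV site_injective)
open Cfsg.Agent.MaxSub.OrthWreathBig (gB cr)
open scoped MatrixGroups Matrix

variable {F : Type*} [Field F] {t : ℕ} {δ : F}

lemma Sig.reflW_invol_apply {r : Fin 4 → F} (hr : gB (G4 δ) r r ≠ 0) (x : Fin 4 → F) :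
    reflW δ r *ᵥ (reflW δ r *ᵥ x) = x := by
  rw [reflW_mulVec r x, mulVec_sub, mulVec_smul, reflW_mulVec r x, reflW_mulVec r r]
  match_scalars <;> field_simp <;> ring

lemma Sig.reflW_invol {r : Fin 4 → F} (hr : gB (G4 δ) r r ≠ 0) : reflW δ r * reflW δ r = 1 :=
  Matrix.ext_iff_mulVec.2 fun x => by rw [← mulVec_mulVec, Sig.reflW_invol_apply hr, one_mulVec]

lemma Sig.reflW_iso {r : Fin 4 → F} (hr : gB (G4 δ) r r ≠ 0) : IsoW δ (reflW δ r) := by
  refine Matrix.ext fun a b => ?_
  have h : ∀ x y, gB (G4 δ) (reflW δ r *ᵥ x) (reflW δ r *ᵥ y) = gB (G4 δ) x y := fun x y => by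
    rw [reflW_mulVec, reflW_mulVec]
    simp only [map_sub, map_smul, LinearMap.sub_apply, LinearMap.smul_apply, smul_eq_mul,
      gB_symm δ x r]
    field_simp
    ring
  have := h (Pi.single a 1) (Pi.single b 1)
  simp only [OrthWreathBig.gB_apply, TensorPowSp.fG] at this
  rw [← dotProduct_mulVec, ← dotProduct_mulVec, mulVec_mulVec, ← vecMul_transpose,
    ← dotProduct_mulVec, mulVec_mulVec, ← mul_assoc] at this
  simpa [mulVec_single_one, single_dotProduct] using this

/-- An isometric involution of one site with signature two is a reflection. -/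
lemma Sig.eq_reflW_of_sig (h2 : (2 : F) ≠ 0) (hd : ¬ IsSquare δ) {B : M4 F} (hB : B * B = 1)
    (hiso : IsoW δ B) (hsig : Sig.sigM B = 2) : ∃ r, gB (G4 δ) r r ≠ 0 ∧ B = reflW δ r := by
  obtain ⟨D, ε, hD⟩ := Sig.exists_diag h2 B hB
  rw [Sig.sigM_eq_of_mul_eq D hD, Sig.sigM_sgn h2, Fin.sum_univ_four] at hsig
  obtain ⟨a₀, ha₀, hoth⟩ : ∃ a₀, ε a₀ = -1 ∧ ∀ a, a ≠ a₀ → ε a = 1 := by
    rcases Int.units_eq_one_or (ε 0) with h0 | h0 <;> rcases Int.units_eq_one_or (ε 1) with h1 | h1 <;>
      rcases Int.units_eq_one_or (ε 2) with h2' | h2' <;> rcases Int.units_eq_one_or (ε 3) with h3 | h3 <;>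
      simp [h0, h1, h2', h3] at hsig
    · exact ⟨3, h3, fun a ha => by fin_cases a <;> first | assumption | exact absurd rfl ha⟩
    · exact ⟨2, h2', fun a ha => by fin_cases a <;> first | assumption | exact absurd rfl ha⟩
    · exact ⟨1, h1, fun a ha => by fin_cases a <;> first | assumption | exact absurd rfl ha⟩
    · exact ⟨0, h0, fun a ha => by fin_cases a <;> first | assumption | exact absurd rfl ha⟩
  set v : Fin 4 → Fin 4 → F := fun a i => (D : M4 F) i a with hv
  have hBv : ∀ a, B *ᵥ v a = ((ε a : ℤ) : F) • v a := fun a => by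
    funext i
    have := congrFun (congrFun hD i) a
    rw [Sig.sgn, mul_diagonal] at this
    rw [Pi.smul_apply, smul_eq_mul, mul_comm]
    exact this
  set r := v a₀ with hr
  have hperp : ∀ a, a ≠ a₀ → gB (G4 δ) r (v a) = 0 := fun a ha => by
    have := hiso.gB_eq r (v a)
    rw [hr, hBv, hBv, ha₀, hoth a ha] at this
    simp at this
    exact (mul_eq_zero.1 (by linear_combination -this : (2 : F) * gB (G4 δ) (v a₀) (v a) = 0)).resolve_left h2
  have hrr : gB (G4 δ) r r ≠ 0 := by
    intro h0
    have hall : ∀ w, gB (G4 δ) r w = 0 := by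
      intro w
      have hw : w = ∑ a, ((((D⁻¹ : GL (Fin 4) F) : M4 F) *ᵥ w) a) • v a := by
        funext i
        have : ((D : M4 F) *ᵥ (((D⁻¹ : GL (Fin 4) F) : M4 F) *ᵥ w)) i = w i := by
          rw [mulVec_mulVec, Units.mul_inv, one_mulVec]
        rw [← this]
        simp [mulVec, dotProduct, hv, mul_comm]
      rw [hw, map_sum]
      refine Finset.sum_eq_zero fun a _ => ?_
      rw [map_smul]
      rcases eq_or_ne a a₀ with rfl | ha
      · rw [h0, smul_zero]
      · rw [hperp a ha, smul_zero]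
    have hr0 : r = 0 := funext fun p => by
      have := hall (Pi.single p 1)
      rw [gB_sum, Finset.sum_eq_single p (fun q _ hq => by simp [hq]) (by simp), Pi.single_eq_same,
        mul_one] at this
      exact (mul_eq_zero.1 this).resolve_left (wt_ne_zero hd p)
    have hcol : (D : M4 F) *ᵥ Pi.single a₀ 1 = 0 := by
      rw [mulVec_single_one]; exact hr0
    have := congrArg (fun z => ((D⁻¹ : GL (Fin 4) F) : M4 F) *ᵥ z) hcol
    simp only [mulVec_mulVec, Units.inv_mul, one_mulVec, mulVec_zero] at this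
    exact (one_ne_zero : (1 : F) ≠ 0) (by simpa using congrFun this a₀)
  refine ⟨r, hrr, D.isUnit.mul_right_cancel (Matrix.ext fun i a => ?_)⟩
  have h1 : ((B * (D : M4 F)) i a) = (B *ᵥ v a) i := rfl
  have h3 : ((reflW δ r * (D : M4 F)) i a) = (reflW δ r *ᵥ v a) i := rfl
  rw [h1, h3, hBv, reflW_mulVec]
  rcases eq_or_ne a a₀ with rfl | ha
  · rw [ha₀, ← hr]
    simp
    field_simp
    ring
  · rw [hoth a ha, hperp a ha]
    simp

lemma Sig.isoW_of_site {j : Fin t} {B : M4 F} (h : IsoV δ (site j B)) : IsoW δ B := by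
  have h' : pureMat (fun l => Function.update (fun _ => G4 δ) j (Bᵀ * G4 δ * B) l) =
      (1 : F) • pureMat (fun _ : Fin t => G4 δ) := by
    rw [one_smul]
    refine Eq.trans ?_ h
    rw [site, pureMat_transpose, gV, pureMat_mul, pureMat_mul]
    congr 1
    funext l
    rcases eq_or_ne l j with rfl | hl
    · simp
    · simp [Function.update_of_ne hl]
  have hG : G4 δ ≠ 0 := fun e => by
    have := congrFun (congrFun e 1) 1
    simp [G4, wt] at this
  obtain ⟨c, -, hc⟩ := pureMat_eq_smul_pureMat h' one_ne_zero (fun _ => hG) j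
  simp only [Function.update_self] at hc
  suffices c = 1 by rw [IsoW, hc, this, one_smul]
  let x : Fin t → Fin 4 := fun _ => 1
  have := congrFun (congrFun h' x) x
  simp only [pureMat, one_smul] at this
  rw [← Finset.mul_prod_erase Finset.univ _ (Finset.mem_univ j),
    ← Finset.mul_prod_erase Finset.univ (fun i => G4 δ (x i) (x i)) (Finset.mem_univ j)] at this
  rw [Finset.prod_congr rfl (g := fun i => G4 δ (x i) (x i)) (fun i hi => by
    rw [Function.update_of_ne (Finset.ne_of_mem_erase hi)]), Function.update_self, hc] at this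
  simpa [G4, wt, x] using this

lemma Sig.isoV_conj {g a : GV F t} (hg : IsoV δ (g : MV F t)) (ha : IsoV δ (a : MV F t)) :
    IsoV δ ((g * a * g⁻¹ : GV F t) : MV F t) := by
  unfold IsoV at *
  have hgi : ((g⁻¹ : GV F t) : MV F t)ᵀ * gV (G4 δ) t * ((g⁻¹ : GV F t) : MV F t) = gV (G4 δ) t := by
    conv_lhs => rw [← hg]
    simp only [← mul_assoc, ← transpose_mul, Units.mul_inv, transpose_one, one_mul]
    rw [mul_assoc, Units.mul_inv, mul_one]
  rw [Units.val_mul, Units.val_mul, transpose_mul, transpose_mul]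
  calc ((g⁻¹ : GV F t) : MV F t)ᵀ * ((a : MV F t)ᵀ * (g : MV F t)ᵀ) * gV (G4 δ) t *
        ((g : MV F t) * (a : MV F t) * ((g⁻¹ : GV F t) : MV F t))
      = ((g⁻¹ : GV F t) : MV F t)ᵀ * ((a : MV F t)ᵀ * ((g : MV F t)ᵀ * gV (G4 δ) t * (g : MV F t)) *
          (a : MV F t)) * ((g⁻¹ : GV F t) : MV F t) := by noncomm_ring
    _ = gV (G4 δ) t := by rw [hg, ha, hgi]

/-- **Conjugates of a site reflection in the monomial group are site reflections.** -/
theorem refl_of_conj [Finite F] (h2 : (2 : F) ≠ 0) (hd : ¬ IsSquare δ) (ht : 3 ≤ t) {g a : GV F t}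
    (hg : IsoV δ (g : MV F t)) (ha : IsRefl δ (a : MV F t)) (hw : g * a * g⁻¹ ∈ Wr F t) :
    IsRefl δ ((g * a * g⁻¹ : GV F t) : MV F t) := by
  classical
  obtain ⟨i, r, hr, hav⟩ := ha
  set R := reflW δ r with hR
  have haiso : IsoV δ (a : MV F t) := by
    have := sim_site (Sig.reflW_iso (δ := δ) hr).sim i
    rw [one_smul, ← hR, ← hav] at this
    exact this
  have haa : (a : MV F t) * a = 1 := by rw [hav, site_mul, Sig.reflW_invol hr, site_one]
  set x := g * a * g⁻¹ with hx
  have hxiso := Sig.isoV_conj hg haiso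
  rw [← hx] at hxiso
  have hxx : (x : MV F t) * x = 1 := by
    rw [← Units.val_mul, show x * x = g * (a * a) * g⁻¹ by rw [hx]; group,
      show a * a = 1 from Units.ext haa, mul_one, mul_inv_cancel, Units.val_one]
  obtain ⟨π, A, hxA⟩ := Sig.exists_std hw
  set Am : Fin t → M4 F := fun l => (A l : M4 F) with hAm
  have hxv : (x : MV F t) = pureMat Am * factorPerm 4 π := by rw [hxA]; rfl
  rw [hxv] at hxx
  obtain ⟨hπ, c, hc, hcprod, hcπ⟩ := Sig.invol_factors (by norm_num) hxx
  have hc0 : ∀ l, c l ≠ 0 := fun l e => by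
    have := hc l
    rw [e, zero_smul] at this
    exact Units.ne_zero (A l * A (π l)) this
  -- extend the scalars to split the squares
  let K := AlgebraicClosure F
  let σ : F →+* K := algebraMap F K
  have h2K : (2 : K) ≠ 0 := by
    rw [show (2 : K) = σ 2 from (map_ofNat σ 2).symm]
    exact (map_ne_zero σ).2 h2
  choose rt hrt using fun z : K => IsAlgClosed.exists_eq_mul_self z
  set q : Fin t → K := fun l => rt (σ (c l)) with hq
  have hqq : ∀ l, q l * q l = σ (c l) := fun l => (hrt _).symm
  have hq0 : ∀ l, q l ≠ 0 := fun l e => hc0 l ((map_eq_zero σ).1 (by rw [← hqq, e, mul_zero]))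
  obtain ⟨i₀⟩ : Nonempty (Fin t) := ⟨⟨0, by omega⟩⟩
  -- the normalised factors
  have hqprod : ∏ l, q l = 1 ∨ ∏ l, q l = -1 := by
    rw [← mul_self_eq_one_iff, ← Finset.prod_mul_distrib]
    simp only [hqq, ← map_prod, hcprod, map_one]
  obtain ⟨e, he, hep⟩ : ∃ e : Fin t → ℤˣ, (∀ l, l ≠ i₀ → e l = 1) ∧
      (∏ l, ((e l : ℤ) : K) * q l) = 1 := by
    rcases hqprod with h | h
    · exact ⟨fun _ => 1, fun _ _ => rfl, by simp [h]⟩
    · refine ⟨Function.update 1 i₀ (-1), fun l hl => Function.update_of_ne hl _ _, ?_⟩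
      rw [Finset.prod_mul_distrib, h]
      rw [Finset.prod_eq_single i₀ (fun l _ hl => by simp [Function.update_of_ne hl]) (by simp)]
      simp
      all_goals norm_num
  have hee : ∀ l, ((e l : ℤ) : K) * ((e l : ℤ) : K) = 1 := fun l => by
    rcases Sig.units_cast (F := K) (e l) with h | h <;> rw [h] <;> ring
  set m : Fin t → K := fun l => ((e l : ℤ) : K) * (q l)⁻¹ with hm
  have hm0 : ∀ l, m l ≠ 0 := fun l => mul_ne_zero
    (fun h0 => by have := hee l; rw [h0, zero_mul] at this; exact zero_ne_one this) (inv_ne_zero (hq0 l))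
  let B : Fin t → GL (Fin 4) K := fun l =>
    { val := m l • (Am l).map σ
      inv := (m l)⁻¹ • (((A l)⁻¹ : GL (Fin 4) F) : M4 F).map σ
      val_inv := by
        rw [smul_mul_smul_comm, mul_inv_cancel₀ (hm0 l), one_smul, ← Matrix.map_mul]
        simp [hAm]
      inv_val := by
        rw [smul_mul_smul_comm, inv_mul_cancel₀ (hm0 l), one_smul, ← Matrix.map_mul]
        simp [hAm] }
  have hBpure : pureMat (fun l => (B l : Matrix (Fin 4) (Fin 4) K)) = (pureMat Am).map σ := by
    show pureMat (fun l => m l • (Am l).map σ) = _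
    rw [pureMat_smul, Sig.pureMat_map']
    have : ∏ l, m l = 1 := by
      have h1 : (∏ l, m l) * ∏ l, ((e l : ℤ) : K) * q l = 1 := by
        rw [← Finset.prod_mul_distrib]
        refine Finset.prod_eq_one fun l _ => ?_
        rw [hm]
        simp only
        rw [mul_mul_mul_comm, hee l, inv_mul_cancel₀ (hq0 l), one_mul]
      rwa [hep, mul_one] at h1
    rw [this, one_smul]
  have hBB : ∀ l, ∃ u : ℤˣ, ((B l * B (π l) : GL (Fin 4) K) : Matrix (Fin 4) (Fin 4) K) =
      ((u : ℤ) : K) • 1 ∧ (π l = l → u = 1) := by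
    intro l
    refine ⟨e l * e (π l), ?_, fun h => by rw [h, ← sq, Int.units_sq]⟩
    show (m l • (Am l).map σ) * (m (π l) • (Am (π l)).map σ) = _
    rw [smul_mul_smul_comm, ← Matrix.map_mul, hc l, Matrix.map_smul' σ (c l) _ (map_mul σ), Matrix.map_one σ (map_zero σ)
      (map_one σ), smul_smul]
    congr 1
    have : q (π l) = q l := by rw [hq]; simp only [hcπ]
    simp only [hm, this, Units.val_mul, Int.cast_mul, ← hqq l]
    have hi := inv_mul_cancel₀ (hq0 l)
    linear_combination (((e l : ℤ) : K) * ((e (π l) : ℤ) : K) * ((q l)⁻¹ * q l + 1)) * hi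
  choose u hu hu1 using hBB
  obtain ⟨f, hf1, hf2, hf⟩ := Sig.sigM_monomial h2K hπ
    (A := B) (fun l hl => Units.ext (by
      have := hu l
      rw [hu1 l hl, hl] at this
      simpa using this)) (fun l _ => ⟨u l, hu l⟩)
  have htrR : R.trace = 2 := by
    have hcr : (cr (G4 δ) r r).trace = gB (G4 δ) r r := by
      rw [cr, trace_vecMulVec, OrthWreathBig.gB_apply, TensorPowSp.fG, dotProduct_comm]
    rw [hR, reflW, trace_sub, trace_smul, trace_one, hcr, Fintype.card_fin, smul_eq_mul,
      div_mul_cancel₀ _ hr]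
    norm_num
  have hRR : R * R = 1 := Sig.reflW_invol hr
  have hdetR : R.det = -1 := det_reflW hr
  have hsa : Sig.sigM (a : MV F t) = 2 * 4 ^ (t - 1) := by
    rw [hav, Sig.sigM_site h2 i R hRR, Sig.sigM_refl h2 R hRR hdetR htrR]
  have hsaK : Sig.sigM ((a : MV F t).map σ) = 2 * 4 ^ (t - 1) := by
    have hmap : (a : MV F t).map σ = site i (R.map σ) := by
      rw [hav, site, Sig.pureMat_map', site]
      congr 1
      funext l
      rcases eq_or_ne l i with rfl | hl
      · simp
      · simp [Function.update_of_ne hl]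
    have hS : R.map σ * R.map σ = 1 := by
      rw [← Matrix.map_mul, hRR]; simp
    rw [hmap, Sig.sigM_site h2K i _ hS, Sig.sigM_refl h2K _ hS ?_ ?_]
    · have := RingHom.map_det σ R
      rw [RingHom.mapMatrix_apply, hdetR] at this
      rw [← this, map_neg, map_one]
    · have := AddMonoidHom.map_trace σ.toAddMonoidHom R
      rw [htrR] at this
      exact this.symm.trans (map_ofNat σ 2)
  -- the conjugation over both fields
  have hconj : (x : MV F t) * (g : MV F t) = (g : MV F t) * a := by
    rw [← Units.val_mul, ← Units.val_mul, hx]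
    congr 1
    group
  have hsx : Sig.sigM (x : MV F t) = 2 * 4 ^ (t - 1) := by
    rw [Sig.sigM_eq_of_mul_eq g hconj, hsa]
  have hsxK : Sig.sigM ((x : MV F t).map σ) = 2 * 4 ^ (t - 1) := by
    have hcK : (x : MV F t).map σ * ((Matrix.GeneralLinearGroup.map σ g : GL _ K) : Matrix _ _ K) =
        ((Matrix.GeneralLinearGroup.map σ g : GL _ K) : Matrix _ _ K) * (a : MV F t).map σ := by
      show (x : MV F t).map σ * (g : MV F t).map σ = (g : MV F t).map σ * _
      rw [← Matrix.map_mul, hconj, Matrix.map_mul]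
    rw [Sig.sigM_eq_of_mul_eq _ hcK, hsaK]
  rw [hxv, Matrix.map_mul, ← hBpure, Sig.factorPerm_map', hf] at hsxK
  -- the weights
  have hw4 : ∀ l, (f l).natAbs ≤ 4 ∧ (f l).natAbs ≠ 3 := by
    intro l
    by_cases hl : π l = l
    · rw [hf1 l hl]
      obtain ⟨D, ε, hD⟩ := Sig.exists_diag h2K (B l : Matrix (Fin 4) (Fin 4) K) (by
        have := hu l
        rw [hu1 l hl, hl] at this
        simpa using this)
      rw [Sig.sigM_eq_of_mul_eq D hD, Sig.sigM_sgn h2K]
      rcases Sig.natAbs_sum_four ε with h | h | h <;> omega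
    · rw [hf2 l hl]; split_ifs <;> omega
  obtain ⟨j, hj, hjo⟩ := Sig.weights (fun l => (f l).natAbs) (fun l => (hw4 l).1) (fun l => (hw4 l).2)
    (by
      have := congrArg Int.natAbs hsxK
      rw [← Int.natAbsHom_apply, map_prod, Int.natAbs_mul, Int.natAbs_pow] at this
      simp only [Int.natAbsHom_apply] at this
      rw [this]
      show 2 * (2 * 4 ^ (t - 1)) = 4 ^ t
      rw [← mul_assoc, show 2 * 2 = 4 from rfl, ← pow_succ']
      congr 1
      omega)
  -- no pairs
  have hfixall : ∀ l, π l = l := by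
    intro l
    by_contra hl
    have h1 := hf2 l hl
    have hl' : π (π l) ≠ π l := fun h => hl (π.injective h)
    have h2' := hf2 (π l) hl'
    rw [hπ] at h2'
    have w1 : (f l).natAbs = 2 ∨ (f l).natAbs = 4 := by
      rcases eq_or_ne l j with rfl | e
      · exact Or.inl hj
      · exact Or.inr (hjo l e)
    have w2 : (f (π l)).natAbs = 2 ∨ (f (π l)).natAbs = 4 := by
      rcases eq_or_ne (π l) j with e | e
      · exact Or.inl (e ▸ hj)
      · exact Or.inr (hjo _ e)
    rcases lt_or_gt_of_ne (Ne.symm hl) with h | h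
    · rw [if_neg (lt_asymm h)] at h2'; omega
    · rw [if_neg (lt_asymm h)] at h1; omega
  have hπ1 : π = 1 := Equiv.ext hfixall
  have hBsq : ∀ l, (B l : Matrix (Fin 4) (Fin 4) K) * B l = 1 := fun l => by
    have := hu l
    rw [hu1 l (hfixall l), hfixall l] at this
    simpa using this
  have hscal : ∀ l, l ≠ j → ∃ s : F, (Am l) = s • 1 := by
    intro l hl
    have hfull : (Sig.sigM (B l : Matrix (Fin 4) (Fin 4) K)).natAbs = 4 := by
      rw [← hf1 l (hfixall l)]; exact hjo l hl
    have key : ∀ z : K, (B l : Matrix (Fin 4) (Fin 4) K) = z • 1 → ∃ s : F, Am l = s • 1 := by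
      intro z hz
      have hz' : (Am l).map σ = ((m l)⁻¹ * z) • 1 := by
        rw [mul_smul, ← hz]
        show _ = (m l)⁻¹ • (m l • (Am l).map σ)
        rw [smul_smul, inv_mul_cancel₀ (hm0 l), one_smul]
      refine ⟨Am l 0 0, Matrix.ext fun p p' => σ.injective ?_⟩
      have e1 := congrFun (congrFun hz' p) p'
      have e0 := congrFun (congrFun hz' 0) 0
      simp only [Matrix.map_apply, Matrix.smul_apply, Matrix.one_apply, smul_eq_mul, if_true,
        mul_one] at e1 e0
      simp only [Matrix.smul_apply, Matrix.one_apply, smul_eq_mul, map_mul, e0, e1]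
      split_ifs <;> simp
    rcases Sig.scalar_of_full h2K (hBsq l) hfull with h | h
    · exact key 1 (by rw [h, one_smul])
    · exact key (-1) (by rw [h, neg_one_smul])
  choose s hs using hscal
  let s' : Fin t → F := fun l => if h : l = j then 1 else s l h
  set A' : M4 F := (∏ l, s' l) • Am j with hA'
  have hxsite : (x : MV F t) = site j A' := by
    rw [hxv, hπ1, factorPerm_one, mul_one]
    have : Am = fun l => s' l • Function.update (1 : Fin t → M4 F) j (Am j) l := by
      funext l
      rcases eq_or_ne l j with rfl | hl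
      · simp [s']
      · simp [s', hl, Function.update_of_ne hl, hs l hl]
    conv_lhs => rw [this, pureMat_smul]
    rw [← site, hA', site_smul]
  have hA'A' : A' * A' = 1 := by
    apply site_injective (F := F) j
    rw [← site_mul, site_one, ← hxsite]
    rw [hxv]; exact hxx
  have hsA' : Sig.sigM A' = 2 := by
    rw [hxsite, Sig.sigM_site h2 j A' hA'A'] at hsx
    exact mul_right_cancel₀ (pow_ne_zero _ (by norm_num : (4 : ℤ) ≠ 0)) hsx
  obtain ⟨r', hr', hA'r⟩ := Sig.eq_reflW_of_sig h2 hd hA'A' (Sig.isoW_of_site (hxsite ▸ hxiso)) hsA'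
  exact ⟨j, r', hr', by rw [hxsite, hA'r]⟩

end Cfsg.Agent.MaxSub.OrthFour
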