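import Cfsg.Agent.MaxSub.OrthFour.Omega

/-!
Involutions of the monomial subgroup of `Ω` on two sites: they are told apart by their traces.
-/

set_option autoImplicit false
set_option linter.unusedSectionVars false
set_option linter.unusedVariables false
set_option linter.unusedTactic false

namespace Cfsg.Agent.MaxSub.OrthFour

open Matrix Cfsg.Geo Cfsg.Agent.NotMax Cfsg.Agent.GeoClasses
open Cfsg.Agent.MaxSub.TensorPowSp (gV)
open Cfsg.Agent.MaxSub.OrthWreathBig (gB cr)
open scoped MatrixGroups Matrix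

namespace InvolTwo

variable {F : Type*} [Field F] {t : ℕ} {δ : F}

lemma perm_glPure (π : Equiv.Perm (Fin t)) (B : Fin t → GL (Fin 4) F) :
    glFactorPerm 4 π * glPure B = glPure (fun i => B (π.symm i)) * glFactorPerm 4 π := by
  refine Units.ext (Eq.symm ?_)
  show pureMat _ * factorPerm 4 π = factorPerm 4 π * pureMat _
  rw [pureMat_mul_factorPerm]
  simp

lemma form_mul (A B : Fin t → GL (Fin 4) F) (π ρ : Equiv.Perm (Fin t)) :
    glPure A * glFactorPerm 4 π * (glPure B * glFactorPerm 4 ρ) =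
      glPure (fun i => A i * B (π.symm i)) * glFactorPerm 4 (π * ρ) := by
  have e1 : (glFactorPerm 4 π * glFactorPerm 4 ρ : GV F t) = glFactorPerm 4 (π * ρ) :=
    Units.ext (factorPerm_mul _ _)
  have e2 : glPure A * glPure (fun i => B (π.symm i)) = glPure (fun i => A i * B (π.symm i)) :=
    Units.ext (pureMat_mul _ _)
  rw [mul_assoc, ← mul_assoc (glFactorPerm 4 π), perm_glPure, mul_assoc, e1, ← mul_assoc, e2]

lemma exists_form {g : GV F t} (hg : g ∈ Wr F t) :
    ∃ (π : Equiv.Perm (Fin t)) (A : Fin t → GL (Fin 4) F), g = glPure A * glFactorPerm 4 π := by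
  have h1 : (glFactorPerm 4 (1 : Equiv.Perm (Fin t)) : GV F t) = 1 := Units.ext (factorPerm_one 4 t)
  have h2 : glPure (1 : Fin t → GL (Fin 4) F) = 1 := Units.ext (pureMat_one 4 t)
  induction hg using Subgroup.closure_induction with
  | mem x hx =>
    rcases hx with ⟨As, h⟩ | ⟨σ, h⟩
    · exact ⟨1, As, by rw [h1, mul_one]; exact Units.ext (by ext x y; exact h x y)⟩
    · exact ⟨σ, 1, by rw [h2, one_mul]; exact Units.ext (by ext x y; exact h x y)⟩
  | one => exact ⟨1, 1, by rw [h2, h1, one_mul]⟩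
  | mul x y _ _ hx hy =>
    obtain ⟨π, A, rfl⟩ := hx
    obtain ⟨ρ, B, rfl⟩ := hy
    exact ⟨π * ρ, _, form_mul A B π ρ⟩
  | inv x _ hx =>
    obtain ⟨π, A, rfl⟩ := hx
    refine ⟨π⁻¹, fun i => (A (π i))⁻¹, inv_eq_of_mul_eq_one_right ?_⟩
    rw [form_mul, mul_inv_cancel, h1, mul_one,
      show (fun i => A i * (A (π (π.symm i)))⁻¹) = 1 from funext fun i => by simp, h2]

lemma pureMat_two (X : Fin 2 → M4 F) : pureMat X = site 0 (X 0) * site 1 (X 1) := by
  rw [site, site, pureMat_mul]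
  congr 1
  funext i
  fin_cases i <;> simp

lemma site_mul_site (A B C D : M4 F) :
    (site 0 A * site 1 B : MV F 2) * (site 0 C * site 1 D) = site 0 (A * C) * site 1 (B * D) := by
  rw [mul_assoc, ← mul_assoc (site 1 B), ← site_comm (by decide : (0 : Fin 2) ≠ 1) C B, mul_assoc,
    site_mul, ← mul_assoc, site_mul]

lemma factors {A B C D : M4 F} (hC : C ≠ 0) (hD : D ≠ 0)
    (h : (site 0 A * site 1 B : MV F 2) = site 0 C * site 1 D) :
    ∃ k : F, k ≠ 0 ∧ A = k • C ∧ B = k⁻¹ • D := by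
  have e : pureMat (![A, B] : Fin 2 → M4 F) = pureMat ![C, D] := by
    rw [pureMat_two, pureMat_two]; simpa using h
  have hne : ∀ i, (![C, D] : Fin 2 → M4 F) i ≠ 0 := fun i => by fin_cases i <;> simp [hC, hD]
  have e' : pureMat (![A, B] : Fin 2 → M4 F) = (1 : F) • pureMat ![C, D] := by rw [one_smul, e]
  obtain ⟨k, hk, hA⟩ := pureMat_eq_smul_pureMat e' one_ne_zero hne 0
  obtain ⟨l, -, hB⟩ := pureMat_eq_smul_pureMat e' one_ne_zero hne 1
  simp only [Matrix.cons_val_zero, Matrix.cons_val_one] at hA hB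
  refine ⟨k, hk, hA, ?_⟩
  obtain ⟨a, b, hab⟩ : ∃ a b, C a b ≠ 0 := by
    by_contra h'; push Not at h'; exact hC (Matrix.ext h')
  obtain ⟨c, d, hcd⟩ : ∃ c d, D c d ≠ 0 := by
    by_contra h'; push Not at h'; exact hD (Matrix.ext h')
  have := congrFun (congrFun e ![a, c]) ![b, d]
  simp only [pureMat, Fin.prod_univ_two, Matrix.cons_val_zero, Matrix.cons_val_one, hA, hB,
    Matrix.smul_apply, smul_eq_mul] at this
  have hl : k * l = 1 := mul_right_cancel₀ (mul_ne_zero hab hcd) (by linear_combination this)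
  rw [hB, eq_inv_of_mul_eq_one_right hl]

lemma trace_two (A B : M4 F) : (site 0 A * site 1 B : MV F 2).trace = A.trace * B.trace := by
  have e := pureMat_two ![A, B]
  simp only [Matrix.cons_val_zero, Matrix.cons_val_one] at e
  rw [← e]
  simp only [Matrix.trace, Matrix.diag, pureMat]
  rw [← Fintype.prod_sum (fun (i : Fin 2) (j : Fin 4) => (![A, B] i) j j), Fin.prod_univ_two]
  simp

/-! ### One site -/

lemma refl_self {r : Fin 4 → F} (hr : gB (G4 δ) r r ≠ 0) : reflW δ r *ᵥ r = -r := by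
  rw [reflW_mulVec]
  match_scalars
  field_simp
  ring

lemma refl_perp {r x : Fin 4 → F} (h : gB (G4 δ) r x = 0) : reflW δ r *ᵥ x = x := by
  rw [reflW_mulVec, h]; simp

lemma refl_sq {r : Fin 4 → F} (hr : gB (G4 δ) r r ≠ 0) : reflW δ r * reflW δ r = 1 :=
  Matrix.ext_iff_mulVec.2 fun x => by
    rw [← mulVec_mulVec, one_mulVec, reflW_mulVec r x, mulVec_sub, mulVec_smul, refl_self hr,
      reflW_mulVec]
    module

lemma refl_iso {r : Fin 4 → F} (hr : gB (G4 δ) r r ≠ 0) : IsoW δ (reflW δ r) := by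
  have hgb : ∀ u v, gB (G4 δ) (reflW δ r *ᵥ u) (reflW δ r *ᵥ v) = gB (G4 δ) u v := fun u v => by
    simp only [reflW_mulVec, map_sub, map_smul, LinearMap.sub_apply, LinearMap.smul_apply,
      smul_eq_mul, gB_symm δ u r]
    field_simp
    ring
  refine Matrix.ext fun p q => ?_
  have h := hgb (Pi.single p 1) (Pi.single q 1)
  simp only [OrthWreathBig.gB_apply, TensorPowSp.fG] at h
  rw [← dotProduct_mulVec, ← dotProduct_mulVec, mulVec_mulVec, ← vecMul_transpose,
    ← dotProduct_mulVec, mulVec_mulVec, ← mul_assoc] at h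
  simpa [mulVec_single_one, single_dotProduct] using h

lemma trace_cr (a b : Fin 4 → F) : (cr (G4 δ) a b).trace = gB (G4 δ) b a := by
  rw [cr, trace_vecMulVec, OrthWreathBig.gB_apply, TensorPowSp.fG, dotProduct_comm]

lemma trace_refl (h2 : (2 : F) ≠ 0) {r : Fin 4 → F} (hr : gB (G4 δ) r r ≠ 0) :
    (reflW δ r).trace = 2 := by
  rw [reflW, trace_sub, trace_one, trace_smul, trace_cr, smul_eq_mul, div_mul_cancel₀ _ hr,
    Fintype.card_fin]
  norm_num

lemma trace_half (h2 : (2 : F) ≠ 0) {r s : Fin 4 → F} (hr : gB (G4 δ) r r ≠ 0)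
    (hs : gB (G4 δ) s s ≠ 0) (hrs : gB (G4 δ) r s = 0) : (reflW δ r * reflW δ s).trace = 0 := by
  have e : reflW δ r * reflW δ s = reflW δ r + reflW δ s - 1 := by
    simp only [reflW, sub_mul, mul_sub, one_mul, mul_one, smul_mul_smul_comm, OrthWreathBig.cr_mul,
      hrs, zero_smul, smul_zero]
    abel
  rw [e, trace_sub, trace_add, trace_refl h2 hr, trace_refl h2 hs, trace_one, Fintype.card_fin]
  norm_num

lemma iso_neg {A : M4 F} (hA : IsoW δ A) : IsoW δ (-A) := by
  unfold IsoW at *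
  rw [transpose_neg, Matrix.neg_mul, neg_mul_neg, hA]

/-- An anisotropic eigenvector of an orthogonal involution. -/
lemma exists_neg_vec (h2 : (2 : F) ≠ 0) (hd : ¬ IsSquare δ) {A : M4 F} (hA : IsoW δ A)
    (hAA : A * A = 1) (hne : A ≠ 1) : ∃ r, A *ᵥ r = -r ∧ gB (G4 δ) r r ≠ 0 := by
  by_contra hc
  push Not at hc
  refine hne (Matrix.ext_iff_mulVec.2 fun u => ?_)
  have hw : ∀ x, A *ᵥ (x - A *ᵥ x) = -(x - A *ᵥ x) := fun x => by
    rw [mulVec_sub, mulVec_mulVec, hAA, one_mulVec, neg_sub]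
  have hzero : ∀ v, gB (G4 δ) (u - A *ᵥ u) v = 0 := by
    intro v
    have ha := hc _ (hw u)
    have hb := hc _ (hw v)
    have hab := hc ((u - A *ᵥ u) + (v - A *ᵥ v)) (by rw [mulVec_add, hw, hw]; abel)
    simp only [map_add, LinearMap.add_apply, ha, hb, gB_symm δ (v - A *ᵥ v) (u - A *ᵥ u)] at hab
    have h0 : gB (G4 δ) (u - A *ᵥ u) (v - A *ᵥ v) = 0 :=
      (mul_eq_zero.1 (by linear_combination hab : (2 : F) * _ = 0)).resolve_left h2
    have h1 := hA.gB_eq (u - A *ᵥ u) v
    rw [hw, map_neg, LinearMap.neg_apply] at h1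
    rw [map_sub] at h0
    exact (mul_eq_zero.1 (by linear_combination h0 - h1 : (2 : F) * gB (G4 δ) (u - A *ᵥ u) v = 0)
      ).resolve_left h2
  have := bNondeg_Q4 h2 hd (u - A *ᵥ u) (fun v => by rw [Q4_polar, hzero, mul_zero])
  rw [one_mulVec]
  exact (sub_eq_zero.1 this).symm

lemma frame_ext {f : Fin 4 → Fin 4 → F} (hf : IsFrame δ f) {A B : M4 F}
    (h : ∀ l, A *ᵥ f l = B *ᵥ f l) : A = B := by
  have hli : LinearIndependent F f := by
    rw [Fintype.linearIndependent_iff]
    intro c hc l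
    have := congrArg (gB (G4 δ) (f l)) hc
    rw [map_sum, map_zero, Finset.sum_eq_single l (fun m _ hm => by
      rw [map_smul, hf.2 l m hm.symm, smul_zero]) (by simp), map_smul, smul_eq_mul] at this
    exact (mul_eq_zero.1 this).resolve_right (hf.1 l)
  have hsp := hli.span_eq_top_of_card_eq_finrank (by simp)
  refine (Matrix.toLin' (R := F)).injective (LinearMap.ext_on hsp ?_)
  rintro _ ⟨l, rfl⟩
  simpa using h l

/-- The orthogonal involutions of one site. -/
lemma invol_site (h2 : (2 : F) ≠ 0) (hd : ¬ IsSquare δ) {A : M4 F} (hA : IsoW δ A)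
    (hAA : A * A = 1) :
    A = 1 ∨ A = -1 ∨ (∃ r, gB (G4 δ) r r ≠ 0 ∧ A = reflW δ r) ∨
      (∃ r, gB (G4 δ) r r ≠ 0 ∧ A = -reflW δ r) ∨
      (∃ r s, gB (G4 δ) r r ≠ 0 ∧ gB (G4 δ) s s ≠ 0 ∧ gB (G4 δ) r s = 0 ∧
        A = reflW δ r * reflW δ s) := by
  have hne2 : ∀ x : F, -x = x → x = 0 := fun x hx =>
    (mul_eq_zero.1 (by linear_combination -hx : (2 : F) * x = 0)).resolve_left h2
  have step : ∀ A : M4 F, IsoW δ A → A * A = 1 → A ≠ 1 →
      (∃ r, gB (G4 δ) r r ≠ 0 ∧ A = reflW δ r) ∨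
      ∃ r r', gB (G4 δ) r r ≠ 0 ∧ gB (G4 δ) r' r' ≠ 0 ∧ gB (G4 δ) r r' = 0 ∧
        A *ᵥ r = -r ∧ A *ᵥ r' = -r' := by
    intro A hA hAA hne
    obtain ⟨r, hr, hrr⟩ := exists_neg_vec h2 hd hA hAA hne
    set R := reflW δ r with hR
    have hAR : A * R = R * A := Matrix.ext_iff_mulVec.2 fun x => by
      have hg : gB (G4 δ) r (A *ᵥ x) = -gB (G4 δ) r x := by
        have := hA.gB_eq r x
        rw [hr, map_neg, LinearMap.neg_apply] at this
        linear_combination -this
      rw [← mulVec_mulVec, ← mulVec_mulVec, hR, reflW_mulVec, reflW_mulVec, mulVec_sub, mulVec_smul,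
        hr, hg]
      module
    by_cases h1 : A * R = 1
    · refine Or.inl ⟨r, hrr, ?_⟩
      rw [← mul_one A, ← refl_sq hrr, ← mul_assoc, ← hR, h1, one_mul]
    have hiso : IsoW δ (A * R) := by
      have hRi : IsoW δ R := refl_iso hrr
      unfold IsoW at *
      rw [transpose_mul, show Rᵀ * Aᵀ * G4 δ * (A * R) = Rᵀ * (Aᵀ * G4 δ * A) * R by
        simp only [mul_assoc], hA, hRi]
    have hsq : A * R * (A * R) = 1 := by
      rw [mul_assoc, ← mul_assoc R, ← hAR, mul_assoc A R R, hR, refl_sq hrr, mul_one, hAA]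
    obtain ⟨r', hr', hrr'⟩ := exists_neg_vec h2 hd hiso hsq h1
    have hfix : (A * R) *ᵥ r = r := by
      rw [← mulVec_mulVec, hR, refl_self hrr, mulVec_neg, hr, neg_neg]
    have hperp : gB (G4 δ) r r' = 0 := by
      have := hiso.gB_eq r r'
      rw [hfix, hr', map_neg] at this
      exact hne2 _ this
    refine Or.inr ⟨r, r', hrr, hrr', hperp, hr, ?_⟩
    rw [← mulVec_mulVec, hR, refl_perp hperp] at hr'
    exact hr'
  by_cases h1 : A = 1
  · exact Or.inl h1
  by_cases hm : A = -1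
  · exact Or.inr (Or.inl hm)
  refine Or.inr (Or.inr ?_)
  rcases step A hA hAA h1 with h | ⟨r, r', hr, hr', hp, har, har'⟩
  · exact Or.inl h
  rcases step (-A) (iso_neg hA) (by rw [neg_mul_neg, hAA]) (fun e => hm (by rw [← e, neg_neg])) with
    ⟨s, hs, e⟩ | ⟨s, s', hs, hs', hp', has, has'⟩
  · exact Or.inr (Or.inl ⟨s, hs, by rw [← e, neg_neg]⟩)
  refine Or.inr (Or.inr ⟨r, r', hr, hr', hp, ?_⟩)
  rw [neg_mulVec, neg_inj] at has has'
  have hx : ∀ x y, A *ᵥ x = -x → A *ᵥ y = y → gB (G4 δ) x y = 0 := fun x y ex ey => by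
    have := hA.gB_eq x y
    rw [ex, ey, map_neg, LinearMap.neg_apply] at this
    exact hne2 _ this
  have a1 := hx r s har has
  have a2 := hx r s' har has'
  have a3 := hx r' s har' has
  have a4 := hx r' s' har' has'
  refine frame_ext (δ := δ) (f := ![r, r', s, s']) ⟨?_, ?_⟩ ?_
  · intro l; fin_cases l <;> simp [hr, hr', hs, hs']
  · intro l m hlm
    fin_cases l <;> fin_cases m <;>
      first
      | exact absurd rfl hlm
      | (simp [hp, hp', a1, a2, a3, a4]; done)
      | (simp [gB_symm δ r' r, gB_symm δ s r, gB_symm δ s' r, gB_symm δ s r', gB_symm δ s' r',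
          gB_symm δ s' s, hp, hp', a1, a2, a3, a4]; done)
  · intro l
    rw [← mulVec_mulVec]
    fin_cases l
    · simp only [Fin.mk_zero, Matrix.cons_val_zero]
      rw [refl_perp (r := r') (by rw [gB_symm, hp]), refl_self hr, har]
    · simp only [Fin.mk_one, Matrix.cons_val_one, Matrix.cons_val_zero]
      rw [refl_self hr', mulVec_neg, refl_perp hp, har']
    · show A *ᵥ s = reflW δ r *ᵥ (reflW δ r' *ᵥ s)
      rw [refl_perp a3, refl_perp a1, has]
    · show A *ᵥ s' = reflW δ r *ᵥ (reflW δ r' *ᵥ s')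
      rw [refl_perp a4, refl_perp a2, has']

/-- The trace of a similitude whose square is a scalar is zero unless it is a scaled isometry. -/
lemma trace_sim_sq (h2 : (2 : F) ≠ 0) (hd : ¬ IsSquare δ) {A : M4 F} {ν c : F} (hA : SimW δ A ν)
    (hc : A * A = c • 1) : A.trace = 0 ∨ ∃ s : F, s ≠ 0 ∧ c = s * s ∧ IsoW δ (s⁻¹ • A) := by
  have hdet : IsUnit A.det := isUnit_iff_ne_zero.2 (hA.det_ne hd)
  have hc0 : c ≠ 0 := by
    rintro rfl
    rw [zero_smul] at hc
    have := congrArg Matrix.det hc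
    rw [det_mul, det_zero] at this
    exact (mul_self_ne_zero.2 hdet.ne_zero) this
  have e : c • (Aᵀ * G4 δ) = ν • (G4 δ * A) := by
    rw [← smul_mul_assoc ν, ← hA.2, mul_assoc (Aᵀ * G4 δ), hc, Matrix.mul_smul, mul_one]
  by_cases hν : c = ν
  · subst hν
    by_cases hs : IsSquare c
    · obtain ⟨s, rfl⟩ := hs
      obtain ⟨hs0, -⟩ := mul_ne_zero_iff.1 hc0
      refine Or.inr ⟨s, hs0, rfl, ?_⟩
      unfold IsoW
      rw [transpose_smul, smul_mul_assoc, smul_mul_smul_comm, hA.2, smul_smul,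
        show s⁻¹ * s⁻¹ * (s * s) = 1 by field_simp, one_smul]
    · refine Or.inl ?_
      let K := AlgebraicClosure F
      let f : F →+* K := algebraMap F K
      obtain ⟨s, hs'⟩ := IsAlgClosed.exists_eq_mul_self (f c)
      have hs0 : s ≠ 0 := by
        rintro rfl
        rw [mul_zero] at hs'
        exact hc0 (f.injective (hs'.trans (map_zero f).symm))
      have h2K : (2 : K) ≠ 0 := fun h => h2 (f.injective (by rw [map_ofNat, map_zero, h]))
      set M : M4 K := s⁻¹ • A.map f with hM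
      have hmap : A.map f * A.map f = f c • (1 : M4 K) := by
        rw [← Matrix.map_mul, hc]
        ext i j
        by_cases h : i = j <;> simp [h]
      have hMM : M * M = 1 := by
        rw [hM, smul_mul_smul_comm, hmap, smul_smul, hs', mul_mul_mul_comm, inv_mul_cancel₀ hs0,
          one_mul, one_smul]
      set P : M4 K := (2 : K)⁻¹ • (1 + M) with hP
      have hPP : P * P = P := by
        rw [hP, smul_mul_smul_comm, add_mul, one_mul, mul_add, mul_one, hMM]
        have e2 := mul_inv_cancel₀ h2K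
        match_scalars <;> first
          | linear_combination (2 : K)⁻¹ * e2
          | linear_combination (2 : K)⁻¹ * s⁻¹ * e2
      have hproj : LinearMap.IsProj (LinearMap.range (Matrix.toLin' P)) (Matrix.toLin' P) :=
        ⟨fun x => LinearMap.mem_range_self _ x, fun x ⟨y, hy⟩ => by
          rw [← hy, Matrix.toLin'_apply, Matrix.toLin'_apply, mulVec_mulVec, hPP]⟩
      have htr := hproj.trace
      rw [LinearMap.trace_eq_matrix_trace K (Pi.basisFun K (Fin 4)),
        LinearMap.toMatrix_eq_toMatrix', LinearMap.toMatrix'_toLin', hP, trace_smul, trace_add,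
        trace_one, hM, trace_smul, Fintype.card_fin, smul_eq_mul, smul_eq_mul] at htr
      set n := Module.finrank K (LinearMap.range (Matrix.toLin' P)) with hn
      have htA : (A.map f).trace = f A.trace := (map_sum f _ _).symm
      rw [htA] at htr
      have hA' : f A.trace = s * (2 * n - 4) := by
        push_cast at htr
        linear_combination (2 * s) * htr - (4 * s + s * s⁻¹ * f A.trace) * mul_inv_cancel₀ h2K
          - f A.trace * mul_inv_cancel₀ hs0
      by_cases hn2 : (2 * n - 4 : F) = 0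
      · have : f (2 * n - 4) = 0 := by rw [hn2, map_zero]
        simp only [map_sub, map_mul, map_ofNat, map_natCast] at this
        refine f.injective ?_
        rw [hA', map_zero, this, mul_zero]
      · exfalso
        refine hs ⟨A.trace / (2 * n - 4), f.injective ?_⟩
        have hn2' : (2 * n - 4 : K) ≠ 0 := by
          rw [← map_natCast f, ← map_ofNat f 2, ← map_ofNat f 4, ← map_mul, ← map_sub]
          exact fun h => hn2 (f.injective (h.trans (map_zero f).symm))
        rw [map_mul, map_div₀, map_sub, map_mul, map_ofNat, map_ofNat, map_natCast, hs']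
        rw [hA', mul_div_cancel_right₀ _ hn2']
  · refine Or.inl ?_
    have hG := G4_det hd
    have e2 : c • ((G4 δ)⁻¹ * Aᵀ * G4 δ) = ν • A := by
      rw [mul_assoc, ← Matrix.mul_smul, e, Matrix.mul_smul, ← mul_assoc, nonsing_inv_mul _ hG,
        one_mul]
    have := congrArg Matrix.trace e2
    rw [trace_smul, trace_smul, trace_mul_cycle, mul_nonsing_inv _ hG, one_mul, trace_transpose,
      smul_eq_mul, smul_eq_mul] at this
    exact (mul_eq_zero.1 (by linear_combination this : (c - ν) * A.trace = 0)).resolve_left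
      (sub_ne_zero.2 hν)

lemma refl_not_scalar (h2 : (2 : F) ≠ 0) {r : Fin 4 → F} (hr : gB (G4 δ) r r ≠ 0) (k : F) :
    reflW δ r ≠ k • (1 : M4 F) := by
  intro e
  have hd' := congrArg Matrix.det e
  have hv : (k + 1) • r = 0 := by
    have := refl_self hr
    rw [e, smul_mulVec, one_mulVec] at this
    rw [add_smul, one_smul, this, neg_add_cancel]
  have hr0 : r ≠ 0 := fun h => hr (by simp [h])
  have hk : k = -1 := by linear_combination (smul_eq_zero.1 hv).resolve_right hr0
  rw [det_reflW hr, det_smul, det_one, mul_one, Fintype.card_fin, hk] at hd'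
  norm_num at hd'
  exact h2 (by linear_combination -hd')

lemma pairRefl_sites {y : MV F 2} (hy : IsPairRefl δ y) :
    ∃ r s, gB (G4 δ) r r ≠ 0 ∧ gB (G4 δ) s s ≠ 0 ∧ y = site 0 (reflW δ r) * site 1 (reflW δ s) := by
  obtain ⟨i, j, r, s, hij, hr, hs, rfl⟩ := hy
  fin_cases i <;> fin_cases j
  · exact absurd rfl hij
  · exact ⟨r, s, hr, hs, rfl⟩
  · exact ⟨s, r, hs, hr, site_comm hij _ _⟩
  · exact absurd rfl hij

/-- The involutions of the monomial subgroup of `Ω` fix both sites. -/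
lemma split [Finite F] (h2 : (2 : F) ≠ 0) (hd : ¬ IsSquare δ) {w : GV F 2}
    (hw : w ∈ Wr F 2 ⊓ Om δ 2) (hww : w * w = 1) :
    ∃ (A B : M4 F) (ν c : F), (w : MV F 2) = site 0 A * site 1 B ∧ SimW δ A ν ∧ SimW δ B ν⁻¹ ∧
      A * A = c • 1 ∧ B * B = c⁻¹ • 1 := by
  obtain ⟨π, cs, rfl⟩ := exists_form hw.1
  have hne : ∀ X : GL (Fin 4) F, (X : M4 F) ≠ 0 := fun X => X.isUnit.ne_zero
  have hG0 : G4 δ ≠ 0 := fun h => (G4_det hd).ne_zero (by rw [h, det_zero])
  set a := (cs 0 : M4 F)
  set b := (cs 1 : M4 F)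
  have hval : ((glPure cs * glFactorPerm 4 π : GV F 2) : MV F 2) =
      site 0 a * site 1 b * factorPerm 4 π := by
    rw [Units.val_mul]
    show pureMat (fun i => (cs i : M4 F)) * factorPerm 4 π = _
    rw [pureMat_two]
  have hiso := Om_isoV h2 hw.2
  have hgV : gV (G4 δ) 2 = site 0 (G4 δ) * site 1 (G4 δ) := pureMat_two fun _ => G4 δ
  have hperm : (factorPerm 4 π : MV F 2)ᵀ * gV (G4 δ) 2 * factorPerm 4 π = gV (G4 δ) 2 := by
    rw [gV, factorPerm_transpose_mul, mul_assoc, pureMat_mul_factorPerm, ← mul_assoc, factorPerm_mul,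
      inv_mul_cancel, factorPerm_one, one_mul]
  have hab : (site 0 (aᵀ * G4 δ * a) * site 1 (bᵀ * G4 δ * b) : MV F 2) =
      site 0 (G4 δ) * site 1 (G4 δ) := by
    have h1 : (factorPerm 4 π : MV F 2) * (factorPerm 4 π)ᵀ = 1 := by
      rw [factorPerm_transpose_mul, factorPerm_mul, mul_inv_cancel, factorPerm_one]
    unfold IsoV at hiso
    rw [hval, transpose_mul] at hiso
    have h3 := hiso.trans hperm.symm
    have hP : IsUnit (factorPerm 4 π : MV F 2) := (glFactorPerm (F := F) 4 π).isUnit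
    have hPT : IsUnit (factorPerm 4 π : MV F 2)ᵀ :=
      (Matrix.isUnit_iff_isUnit_det _).2 (by rw [det_transpose]; exact (Matrix.isUnit_iff_isUnit_det _).1 hP)
    simp only [← mul_assoc] at h3
    have h4 := hP.mul_right_cancel h3
    simp only [mul_assoc] at h4
    have h5 := hPT.mul_left_cancel h4
    rw [← mul_assoc, hgV, transpose_mul] at h5
    rw [show (site 0 a : MV F 2)ᵀ = site 0 aᵀ from by
        simp only [site, pureMat_transpose]; congr 1; funext l; fin_cases l <;> simp,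
      show (site 1 b : MV F 2)ᵀ = site 1 bᵀ from by
        simp only [site, pureMat_transpose]; congr 1; funext l; fin_cases l <;> simp,
      ← site_comm (by decide : (0 : Fin 2) ≠ 1) aᵀ bᵀ, site_mul_site, site_mul_site] at h5
    exact h5
  obtain ⟨ν, hν, hA, hB⟩ := factors hG0 hG0 hab
  by_cases hπ : π = 1
  · subst hπ
    rw [factorPerm_one, mul_one] at hval
    have hsq : (site 0 (a * a) * site 1 (b * b) : MV F 2) = site 0 1 * site 1 1 := by
      have := congrArg Units.val hww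
      rw [Units.val_mul, hval, site_mul_site, Units.val_one] at this
      rw [this, site_one, site_one, one_mul]
    obtain ⟨c, -, hca, hcb⟩ := factors one_ne_zero one_ne_zero hsq
    exact ⟨a, b, ν, c, hval, ⟨hν, hA⟩, ⟨inv_ne_zero hν, hB⟩, hca, hcb⟩
  · exfalso
    have hsw : π = Equiv.swap 0 1 := by
      have h : ∀ σ : Equiv.Perm (Fin 2), σ = 1 ∨ σ = Equiv.swap 0 1 := by decide +kernel
      exact (h π).resolve_left hπ
    subst hsw
    have hsq : (site 0 (a * b) * site 1 (b * a) : MV F 2) = site 0 1 * site 1 1 := by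
      have := congrArg Units.val hww
      rw [Units.val_mul, hval, Units.val_one] at this
      rw [mul_assoc (site 0 a * site 1 b), ← mul_assoc (factorPerm 4 (Equiv.swap 0 1))] at this
      rw [show (factorPerm 4 (Equiv.swap 0 1) : MV F 2) * (site 0 a * site 1 b) =
          site 0 b * site 1 a * factorPerm 4 (Equiv.swap 0 1) from by
        rw [show (site 0 b * site 1 a : MV F 2) = pureMat ![b, a] by simp [pureMat_two],
          pureMat_mul_factorPerm]
        congr 1
        rw [pureMat_two]; simp, mul_assoc (site 0 b * site 1 a), factorPerm_mul,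
        Equiv.swap_mul_self, factorPerm_one, mul_one, site_mul_site] at this
      rw [this, site_one, site_one, one_mul]
    obtain ⟨c, hc0, hca, hcb⟩ := factors one_ne_zero one_ne_zero hsq
    have hbc : b * a = c • 1 := by
      have h1 : ((cs 0)⁻¹ : GL (Fin 4) F).val * (a * b) * a = b * a := by
        rw [← mul_assoc, Units.inv_mul, one_mul]
      rw [← h1, hca, Matrix.mul_smul, mul_one, smul_mul_assoc, Units.inv_mul]
    have hcc : c = 1 ∨ c = -1 := by
      rw [hbc] at hcb
      have := congrFun (congrFun hcb 0) 0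
      simp at this
      refine mul_self_eq_one_iff.1 ?_
      calc c * c = c * c⁻¹ := by rw [← this]
        _ = 1 := mul_inv_cancel₀ hc0
    have hb : b = c • ((cs 0)⁻¹ : GL (Fin 4) F).val := by
      rw [← one_mul b, ← Units.inv_mul (cs 0), mul_assoc, hca, Matrix.mul_smul, mul_one]
    refine swap_conj_not_mem_Om h2 hd (A := cs 0) ⟨hν, hA⟩ hcc ?_ hw.2
    rw [hval, hb, site_smul, mul_smul_comm, smul_mul_assoc]
    congr 1
    rw [mul_assoc, mul_assoc]
    congr 1
    rw [show (site 1 ((cs 0)⁻¹ : GL (Fin 4) F).val : MV F 2) =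
        pureMat ![1, ((cs 0)⁻¹ : GL (Fin 4) F).val] by simp [pureMat_two, site_one],
      pureMat_mul_factorPerm]
    congr 1

/-- An involution made of two isometries. -/
lemma cases_iso [Finite F] (h2 : (2 : F) ≠ 0) (hd : ¬ IsSquare δ) {w : GV F 2} (hw : w ∈ Om δ 2)
    {A B : M4 F} (hA : IsoW δ A) (hB : IsoW δ B) (hAA : A * A = 1) (hBB : B * B = 1)
    (hwv : (w : MV F 2) = site 0 A * site 1 B) :
    (w : MV F 2) = 1 ∨ (w : MV F 2) = -1 ∨ IsPairRefl δ (w : MV F 2) ∨
      ((w : MV F 2).trace = -4 ∧ IsPairRefl δ (-(w : MV F 2))) ∨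
      ((w : MV F 2).trace = 0 ∧ (IsHalf δ (w : MV F 2) ∨ IsBad δ (w : MV F 2))) := by
  have hdet := (pair_mem_Om_iff h2 hd hA hB hwv).1 hw
  have hne : (-1 : F) ≠ 1 := fun e => h2 (by linear_combination -e)
  have hn4 : (-1 : M4 F).det = 1 := by rw [det_neg, det_one, Fintype.card_fin]; norm_num
  have hnr : ∀ r, gB (G4 δ) r r ≠ 0 → (-reflW δ r).det = -1 := fun r hr => by
    rw [det_neg, det_reflW hr, Fintype.card_fin]; norm_num
  have hhd : ∀ r s, gB (G4 δ) r r ≠ 0 → gB (G4 δ) s s ≠ 0 → (reflW δ r * reflW δ s).det = 1 :=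
    fun r s hr hs => by rw [det_mul, det_reflW hr, det_reflW hs]; simp
  have hn : ∀ (i : Fin 2) (X : M4 F), site i (-X) = -site i X := fun i X => by
    rw [← neg_one_smul F X, site_smul, neg_one_smul]
  have hnh : ∀ r s, gB (G4 δ) r r ≠ 0 → gB (G4 δ) s s ≠ 0 → gB (G4 δ) r s = 0 →
      ∃ r' s', gB (G4 δ) r' r' ≠ 0 ∧ gB (G4 δ) s' s' ≠ 0 ∧ gB (G4 δ) r' s' = 0 ∧
        -(reflW δ r * reflW δ s) = reflW δ r' * reflW δ s' := by
    intro r s hr hs hp
    have hi : IsoW δ (reflW δ r * reflW δ s) := by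
      have := refl_iso hr; have := refl_iso hs
      unfold IsoW at *
      rw [transpose_mul, show (reflW δ s)ᵀ * (reflW δ r)ᵀ * G4 δ * (reflW δ r * reflW δ s) =
        (reflW δ s)ᵀ * ((reflW δ r)ᵀ * G4 δ * reflW δ r) * reflW δ s by simp only [mul_assoc]]
      simp_all
    have hcomm : reflW δ r * reflW δ s = reflW δ s * reflW δ r := by
      simp only [reflW, sub_mul, mul_sub, one_mul, mul_one, smul_mul_smul_comm, OrthWreathBig.cr_mul,
        hp, (gB_symm δ s r).trans hp, zero_smul, smul_zero]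
      abel
    have hsq : -(reflW δ r * reflW δ s) * -(reflW δ r * reflW δ s) = 1 := by
      rw [neg_mul_neg]
      nth_rewrite 2 [hcomm]
      rw [mul_assoc, ← mul_assoc (reflW δ s), refl_sq hs, one_mul, refl_sq hr]
    have htr := trace_half h2 hr hs hp
    have h4 : (4 : F) ≠ 0 := fun h => mul_ne_zero h2 h2 (by linear_combination h)
    rcases invol_site h2 hd (iso_neg hi) hsq with e | e | ⟨r', hr', e⟩ | ⟨r', hr', e⟩ | h
    · have := congrArg Matrix.trace e; rw [trace_neg, htr, trace_one, Fintype.card_fin] at this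
      exact absurd (by simpa using this.symm) h4
    · have := congrArg Matrix.trace e; rw [trace_neg, htr, trace_neg, trace_one, Fintype.card_fin] at this
      exact absurd (by simpa using this.symm) h4
    · have := congrArg Matrix.trace e; rw [trace_neg, htr, trace_refl h2 hr'] at this
      exact absurd (by simpa using this.symm) h2
    · have := congrArg Matrix.trace e; rw [trace_neg, htr, trace_neg, trace_refl h2 hr'] at this
      exact absurd (by simpa using this.symm) h2
    · exact h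
  rcases invol_site h2 hd hA hAA with rfl | rfl | ⟨r, hr, rfl⟩ | ⟨r, hr, rfl⟩ | ⟨r, r₂, hr, hr₂, hrp, rfl⟩ <;>
    rcases invol_site h2 hd hB hBB with rfl | rfl | ⟨s, hs, rfl⟩ | ⟨s, hs, rfl⟩ | ⟨s, s₂, hs, hs₂, hsp, rfl⟩ <;>
    (try (exfalso; simp (disch := assumption) only [det_one, hn4, det_reflW, hnr, hhd] at hdet
          first
          | exact hne hdet
          | exact hne hdet.symm))
  all_goals try simp only [hn, site_one, neg_mul, mul_neg, neg_neg, one_mul, mul_one] at hwv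
  · exact Or.inl hwv
  · exact Or.inr (Or.inl hwv)
  · refine Or.inr (Or.inr (Or.inr (Or.inr ⟨?_, Or.inl ⟨1, s, s₂, hs, hs₂, hsp, hwv⟩⟩)))
    rw [hwv, ← one_mul (site 1 _), ← site_one (0 : Fin 2), trace_two, trace_half h2 hs hs₂ hsp,
      mul_zero]
  · exact Or.inr (Or.inl hwv)
  · exact Or.inl hwv
  · obtain ⟨s', s₂', hs', hs₂', hsp', e⟩ := hnh s s₂ hs hs₂ hsp
    refine Or.inr (Or.inr (Or.inr (Or.inr ⟨?_, Or.inl ⟨1, s', s₂', hs', hs₂', hsp', ?_⟩⟩)))
    · rw [hwv, trace_neg, ← one_mul (site 1 _), ← site_one (0 : Fin 2), trace_two,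
        trace_half h2 hs hs₂ hsp, mul_zero, neg_zero]
    · rw [hwv, ← hn, e]
  · exact Or.inr (Or.inr (Or.inl ⟨0, 1, r, s, by decide, hr, hs, hwv⟩))
  · refine Or.inr (Or.inr (Or.inr (Or.inl ⟨?_, 0, 1, r, s, by decide, hr, hs, ?_⟩)))
    · rw [hwv, trace_neg, trace_two, trace_refl h2 hr, trace_refl h2 hs]; norm_num
    · rw [hwv, neg_neg]
  · refine Or.inr (Or.inr (Or.inr (Or.inl ⟨?_, 0, 1, r, s, by decide, hr, hs, ?_⟩)))
    · rw [hwv, trace_neg, trace_two, trace_refl h2 hr, trace_refl h2 hs]; norm_num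
    · rw [hwv, neg_neg]
  · exact Or.inr (Or.inr (Or.inl ⟨0, 1, r, s, by decide, hr, hs, hwv⟩))
  · refine Or.inr (Or.inr (Or.inr (Or.inr ⟨?_, Or.inl ⟨0, r, r₂, hr, hr₂, hrp, hwv⟩⟩)))
    rw [hwv, ← mul_one (site 0 _), ← site_one (1 : Fin 2), trace_two, trace_half h2 hr hr₂ hrp,
      zero_mul]
  · obtain ⟨r', r₂', hr', hr₂', hrp', e⟩ := hnh r r₂ hr hr₂ hrp
    refine Or.inr (Or.inr (Or.inr (Or.inr ⟨?_, Or.inl ⟨0, r', r₂', hr', hr₂', hrp', ?_⟩⟩)))
    · rw [hwv, trace_neg, ← mul_one (site 0 _), ← site_one (1 : Fin 2), trace_two,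
        trace_half h2 hr hr₂ hrp, zero_mul, neg_zero]
    · rw [hwv, ← hn, e]
  · refine Or.inr (Or.inr (Or.inr (Or.inr ⟨?_, Or.inr ⟨r, r₂, s, s₂, hr, hr₂, hrp, hs, hs₂, hsp, hwv⟩⟩)))
    rw [hwv, trace_two, trace_half h2 hr hr₂ hrp, zero_mul]

end InvolTwo

open InvolTwo

variable {F : Type*} [Field F] [Finite F] {δ : F}

/-- Conjugates of a product of two reflections in the monomial subgroup are of the same shape. -/
theorem pairRefl_of_conj (h2 : (2 : F) ≠ 0) (hd : ¬ IsSquare δ) {g y : GV F 2}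
    (hg : IsoV δ (g : MV F 2)) (hy : IsPairRefl δ (y : MV F 2))
    (hw : g * y * g⁻¹ ∈ Wr F 2 ⊓ Om δ 2) :
    IsPairRefl δ ((g * y * g⁻¹ : GV F 2) : MV F 2) := by
  set w := g * y * g⁻¹ with hwdef
  obtain ⟨r, s, hr, hs, hyv⟩ := pairRefl_sites hy
  have hyy : y * y = 1 := Units.ext (by
    rw [Units.val_mul, hyv, site_mul_site, refl_sq hr, refl_sq hs, site_one, site_one, one_mul,
      Units.val_one])
  have hww : w * w = 1 := by
    rw [hwdef, show g * y * g⁻¹ * (g * y * g⁻¹) = g * (y * y) * g⁻¹ by group, hyy, mul_one,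
      mul_inv_cancel]
  have htr : (w : MV F 2).trace = 4 := by
    rw [hwdef, Units.val_mul, Units.val_mul, Matrix.trace_units_conj, hyv, trace_two,
      trace_refl h2 hr, trace_refl h2 hs]
    norm_num
  have hns : ∀ k : F, (w : MV F 2) ≠ k • 1 := by
    intro k e
    have e' : (y : MV F 2) = k • 1 := by
      rw [show y = g⁻¹ * w * g by rw [hwdef]; group, Units.val_mul, Units.val_mul, e,
        Matrix.mul_smul, mul_one, smul_mul_assoc, Units.inv_mul]
    rw [hyv, show (k • 1 : MV F 2) = site 0 (k • (1 : M4 F)) * site 1 1 by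
      rw [site_smul, site_one, site_one, mul_one]] at e'
    have hs0 : reflW δ s ≠ 0 := fun h => refl_not_scalar h2 hs 0 (by rw [h, zero_smul])
    obtain ⟨l, -, -, h⟩ := factors (fun h => refl_not_scalar h2 hs 0 (by
      rcases eq_or_ne k 0 with rfl | hk
      · exfalso
        have := e'
        rw [zero_smul, site_zero, zero_mul] at this
        exact y.isUnit.ne_zero (hyv.trans this)
      · simp [hk] at h)) one_ne_zero e'
    exact refl_not_scalar h2 hs _ h
  have h4 : (4 : F) ≠ 0 := fun h => mul_ne_zero h2 h2 (by linear_combination h)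
  obtain ⟨A, B, ν, c, hwv, hA, hB, hAA, hBB⟩ := split h2 hd hw hww
  have hAB : A.trace * B.trace = 4 := by rw [← trace_two, ← hwv, htr]
  rcases trace_sim_sq h2 hd hA hAA with h | ⟨u, hu, hcu, hiA⟩
  · exact absurd (by rw [← hAB, h, zero_mul]) h4
  have hiB : IsoW δ (u • B) := by
    have hA' := hA.2
    unfold IsoW at hiA
    rw [transpose_smul, smul_mul_assoc, smul_mul_smul_comm, hA', smul_smul] at hiA
    have hν : u⁻¹ * u⁻¹ * ν = 1 := by
      have := congrFun (congrFun hiA 1) 1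
      simpa [G4, wt] using this
    unfold IsoW
    rw [transpose_smul, smul_mul_assoc, smul_mul_smul_comm, hB.2, smul_smul]
    have : u * u * ν⁻¹ = 1 := by rw [← _root_.inv_inj, inv_one, ← hν]; field_simp
    rw [this, one_smul]
  have hwv' : (w : MV F 2) = site 0 (u⁻¹ • A) * site 1 (u • B) := by
    rw [hwv, site_smul, site_smul, smul_mul_smul_comm, inv_mul_cancel₀ hu, one_smul]
  have hA2 : u⁻¹ • A * u⁻¹ • A = 1 := by
    rw [smul_mul_smul_comm, hAA, hcu, smul_smul, show u⁻¹ * u⁻¹ * (u * u) = 1 by field_simp, one_smul]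
  have hB2 : u • B * u • B = 1 := by
    rw [smul_mul_smul_comm, hBB, hcu, smul_smul, show u * u * (u * u)⁻¹ = 1 by field_simp, one_smul]
  rcases cases_iso h2 hd hw.2 hiA hiB hA2 hB2 hwv' with h | h | h | ⟨h, -⟩ | ⟨h, -⟩
  · exact absurd (by rw [h, one_smul]) (hns 1)
  · exact absurd (by rw [h, neg_one_smul]) (hns (-1))
  · exact h
  · exact absurd (by linear_combination htr.symm.trans h : (2 : F) * 4 = 0) (mul_ne_zero h2 h4)
  · exact absurd (htr.symm.trans h) h4

/-- The involutions of the monomial subgroup commuting with a product of two reflections. -/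
theorem invol_cases (h2 : (2 : F) ≠ 0) (hd : ¬ IsSquare δ) {w y : GV F 2}
    (hw : w ∈ Wr F 2 ⊓ Om δ 2) (hww : w * w = 1) (hy : IsPairRefl δ (y : MV F 2))
    (hwy : w * y = y * w) :
    (w : MV F 2) = 1 ∨ (w : MV F 2) = -1 ∨ IsPairRefl δ (w : MV F 2) ∨
      IsPairRefl δ (-(w : MV F 2)) ∨ IsHalf δ (w : MV F 2) ∨ IsBad δ (w : MV F 2) := by
  obtain ⟨r, s, hr, hs, hyv⟩ := pairRefl_sites hy
  obtain ⟨A, B, ν, c, hwv, hA, hB, hAA, hBB⟩ := split h2 hd hw hww
  have hcomm : (site 0 (A * reflW δ r) * site 1 (B * reflW δ s) : MV F 2) =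
      site 0 (reflW δ r * A) * site 1 (reflW δ s * B) := by
    have := congrArg Units.val hwy
    rwa [Units.val_mul, Units.val_mul, hwv, hyv, site_mul_site, site_mul_site] at this
  have hR : IsUnit (reflW δ r) := (Matrix.isUnit_iff_isUnit_det _).2 (by simp [det_reflW hr])
  have hA1 : IsUnit A := (Matrix.isUnit_iff_isUnit_det _).2 (isUnit_iff_ne_zero.2 (hA.det_ne hd))
  have hB1 : IsUnit B := (Matrix.isUnit_iff_isUnit_det _).2 (isUnit_iff_ne_zero.2 (hB.det_ne hd))
  have hS : IsUnit (reflW δ s) := (Matrix.isUnit_iff_isUnit_det _).2 (by simp [det_reflW hs])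
  obtain ⟨k, -, hk, -⟩ := factors (hR.mul hA1).ne_zero (hS.mul hB1).ne_zero hcomm
  have hk1 : k = 1 := by
    obtain ⟨U, rfl⟩ := hA1
    have := congrArg (fun X => Matrix.trace (X * ((U⁻¹ : GL (Fin 4) F) : M4 F))) hk
    simp only [Matrix.trace_units_conj, smul_mul_assoc, Units.mul_inv_cancel_right, trace_smul,
      trace_refl h2 hr, smul_eq_mul] at this
    exact (mul_eq_right₀ h2).1 this.symm
  subst hk1
  rw [one_smul] at hk
  obtain ⟨l, hl⟩ : ∃ l : F, A *ᵥ r = l • r := by
    have h1 : reflW δ r *ᵥ (A *ᵥ r) = -(A *ᵥ r) := by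
      rw [mulVec_mulVec, ← hk, ← mulVec_mulVec, refl_self hr, mulVec_neg]
    rw [reflW_mulVec] at h1
    refine ⟨(gB (G4 δ) r r)⁻¹ * gB (G4 δ) r (A *ᵥ r), ?_⟩
    have : (2 : F) • (A *ᵥ r) = (2 : F) • ((gB (G4 δ) r r)⁻¹ * gB (G4 δ) r (A *ᵥ r)) • r := by
      rw [smul_smul]
      linear_combination (norm := module) h1
    exact smul_right_injective _ h2 this
  have hr0 : r ≠ 0 := fun h => hr (by simp [h])
  have hcl : c = l * l := by
    have := congrArg (· *ᵥ r) hAA
    simp only [← mulVec_mulVec, hl, mulVec_smul, smul_smul, smul_mulVec, one_mulVec] at this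
    exact (smul_left_injective F hr0 this).symm
  have hνl : ν = l * l := by
    have h1 : gB (G4 δ) (A *ᵥ r) (A *ᵥ r) = ν * gB (G4 δ) r r := by
      simp only [OrthWreathBig.gB_apply, TensorPowSp.fG]
      rw [← dotProduct_mulVec, ← dotProduct_mulVec, mulVec_mulVec, ← vecMul_transpose,
        ← dotProduct_mulVec, mulVec_mulVec, ← mul_assoc, hA.2, smul_mulVec, dotProduct_smul,
        smul_eq_mul]
    rw [hl] at h1
    simp only [map_smul, LinearMap.smul_apply, smul_eq_mul] at h1
    exact (mul_right_cancel₀ hr (by linear_combination h1)).symm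
  have hl0 : l ≠ 0 := by rintro rfl; exact hA.1 (by rw [hνl, mul_zero])
  have hiA : IsoW δ (l⁻¹ • A) := by
    unfold IsoW
    rw [transpose_smul, smul_mul_assoc, smul_mul_smul_comm, hA.2, smul_smul, hνl,
      show l⁻¹ * l⁻¹ * (l * l) = 1 by field_simp, one_smul]
  have hiB : IsoW δ (l • B) := by
    unfold IsoW
    rw [transpose_smul, smul_mul_assoc, smul_mul_smul_comm, hB.2, smul_smul, hνl,
      show l * l * (l * l)⁻¹ = 1 by field_simp, one_smul]
  have hwv' : (w : MV F 2) = site 0 (l⁻¹ • A) * site 1 (l • B) := by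
    rw [hwv, site_smul, site_smul, smul_mul_smul_comm, inv_mul_cancel₀ hl0, one_smul]
  have hA2 : l⁻¹ • A * l⁻¹ • A = 1 := by
    rw [smul_mul_smul_comm, hAA, hcl, smul_smul, show l⁻¹ * l⁻¹ * (l * l) = 1 by field_simp, one_smul]
  have hB2 : l • B * l • B = 1 := by
    rw [smul_mul_smul_comm, hBB, hcl, smul_smul, show l * l * (l * l)⁻¹ = 1 by field_simp, one_smul]
  rcases cases_iso h2 hd hw.2 hiA hiB hA2 hB2 hwv' with h | h | h | ⟨-, h⟩ | ⟨-, h | h⟩
  · exact Or.inl h
  · exact Or.inr (Or.inl h)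
  · exact Or.inr (Or.inr (Or.inl h))
  · exact Or.inr (Or.inr (Or.inr (Or.inl h)))
  · exact Or.inr (Or.inr (Or.inr (Or.inr (Or.inl h))))
  · exact Or.inr (Or.inr (Or.inr (Or.inr (Or.inr h))))

end Cfsg.Agent.MaxSub.OrthFour
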