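import Cfsg.Agent.MaxSub.OrthFour.Omega
import Cfsg.Agent.MaxSub.OrthFour.HalfBig
import Cfsg.Agent.MaxSub.OrthFour.Dihedral

/-!
Two sites: when the centralisers of the named involutions are monomial, so is the group.

The facts of the neighbouring files are taken as explicit hypotheses:
* `hpr`, `hhalf`, `hbad`: the centralisers of pair reflections, half turns and bad involutions;
* `hcases`: the involutions of the monomial group which commute with a pair reflection;
* `hconjU`: a form isometry conjugating all site root elements into the monomial group is monomial.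
-/

set_option autoImplicit false
set_option linter.unusedSectionVars false

namespace Cfsg.Agent.MaxSub.OrthFour

open Matrix Cfsg.Geo Cfsg.Agent.NotMax Cfsg.Agent.GeoClasses
open Cfsg.Agent.MaxSub.TensorPowSp (gV fG)
open Cfsg.Agent.MaxSub.OrthWreathBig (gB cr sieM cr_mul)
open scoped MatrixGroups Matrix

variable {F : Type*} [Field F] {t : ℕ} {δ : F}

namespace MainTwoAux

lemma siteUnit_val (i : Fin t) (A : M4 F) (hA : A.det ≠ 0) :
    (siteUnit i A hA : MV F t) = site i A := rfl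

lemma siteUnit_mem_Wr (i : Fin t) (A : M4 F) (hA : A.det ≠ 0) : siteUnit i A hA ∈ Wr F t := by
  refine Subgroup.subset_closure (Or.inl
    ⟨Function.update 1 i (Matrix.GeneralLinearGroup.mkOfDetNeZero A hA), fun x y => ?_⟩)
  show site i A x y = _
  rw [site, pureMat]
  refine Finset.prod_congr rfl fun l _ => ?_
  by_cases hl : l = i
  · subst hl
    rw [Function.update_self, Function.update_self]
    rfl
  · rw [Function.update_of_ne hl, Function.update_of_ne hl]
    rfl

lemma IsoW.mul' {A B : M4 F} (hA : IsoW δ A) (hB : IsoW δ B) : IsoW δ (A * B) := by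
  show (A * B)ᵀ * G4 δ * (A * B) = G4 δ
  rw [transpose_mul, show Bᵀ * Aᵀ * G4 δ * (A * B) = Bᵀ * (Aᵀ * G4 δ * A) * B by
    simp only [mul_assoc], hA]
  exact hB

lemma isoW_one : IsoW δ (1 : M4 F) := by
  show (1 : M4 F)ᵀ * G4 δ * 1 = G4 δ
  simp

lemma isoW_neg_one : IsoW δ (-1 : M4 F) := by
  show (-1 : M4 F)ᵀ * G4 δ * (-1) = G4 δ
  simp

lemma site_neg_one (i : Fin t) : site i (-1 : M4 F) = (-1 : MV F t) := by
  rw [show (-1 : M4 F) = (-1 : F) • (1 : M4 F) by simp, site_smul, site_one]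
  simp

/-- A site element of determinant one together with the identity at the other site is in `Ω`. -/
lemma site_mem_Om_two [Finite F] (h2 : (2 : F) ≠ 0) (hd : ¬ IsSquare δ) {i : Fin 2} {A : M4 F}
    (hA : IsoW δ A) (hdet : A.det = 1) {g : GV F 2} (hg : (g : MV F 2) = site i A) :
    g ∈ Om δ 2 := by
  fin_cases i
  · exact (pair_mem_Om_iff h2 hd hA isoW_one (by rw [hg, site_one, mul_one]; rfl)).2
      (by rw [hdet, det_one])
  · exact (pair_mem_Om_iff h2 hd isoW_one hA (by rw [hg, site_one, one_mul]; rfl)).2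
      (by rw [hdet, det_one])

lemma det_refl_mul {r s : Fin 4 → F} (hr : gB (G4 δ) r r ≠ 0) (hs : gB (G4 δ) s s ≠ 0) :
    (reflW δ r * reflW δ s).det = 1 := by
  rw [det_mul, det_reflW hr, det_reflW hs]
  ring

/-- Half turns square to one. -/
lemma half_mul_self (h2 : (2 : F) ≠ 0) {g : MV F t} (hg : IsHalf δ g) : g * g = 1 := by
  obtain ⟨i, r, s, hr, hs, hrs, rfl⟩ := hg
  have h1 := HalfBig.refl_ortho hrs
  have h3 := HalfBig.refl_ortho (show gB (G4 δ) s r = 0 by rw [gB_symm, hrs])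
  have hc : reflW δ r * reflW δ s = reflW δ s * reflW δ r := by
    linear_combination (norm := noncomm_ring) h1 - h3
  rw [site_mul, show reflW δ r * reflW δ s * (reflW δ r * reflW δ s) = 1 by
    nth_rw 2 [hc]
    rw [mul_assoc, ← mul_assoc (reflW δ s), HalfBig.refl_sq h2 hs, one_mul, HalfBig.refl_sq h2 hr],
    site_one]

/-- Half turns belong to every group over the monomial part of `Ω`. -/
lemma half_mem [Finite F] {M : Subgroup (GV F 2)} (h : Over δ M) {g : GV F 2}
    (hg : IsHalf δ (g : MV F 2)) : g ∈ M := by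
  obtain ⟨i, r, s, hr, hs, -, e⟩ := hg
  have hdet : (reflW δ r * reflW δ s).det = 1 := det_refl_mul hr hs
  have hu : g = siteUnit i _ (show (reflW δ r * reflW δ s).det ≠ 0 by rw [hdet]; exact one_ne_zero) :=
    Units.ext e
  refine h.mem (hu ▸ siteUnit_mem_Wr _ _ _) (site_mem_Om_two h.two h.nsq
    (IsoW.mul' (HalfBig.refl_iso h.two hr) (HalfBig.refl_iso h.two hs)) hdet e)

/-- An anisotropic vector orthogonal to a singular and an anisotropic vector. -/
lemma exists_perp (h2 : (2 : F) ≠ 0) (hd : ¬ IsSquare δ) {w x : Fin 4 → F} (hw0 : w ≠ 0)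
    (hwx : gB (G4 δ) w x = 0) (hx : gB (G4 δ) x x ≠ 0) :
    ∃ c, gB (G4 δ) c c ≠ 0 ∧ gB (G4 δ) x c = 0 ∧ gB (G4 δ) w c = 0 := by
  by_contra hc
  have hxw : gB (G4 δ) x w = 0 := by rw [gB_symm, hwx]
  have nd : ∀ y : Fin 4 → F, (∀ u, gB (G4 δ) y u = 0) → y = 0 := by
    intro y hy
    funext l
    have h := hy (Pi.single l 1)
    rw [gB_sum, Finset.sum_eq_single l (fun q _ hq => by simp [hq]) (by simp), Pi.single_eq_same,
      mul_one] at h
    exact (mul_eq_zero.1 h).resolve_left (wt_ne_zero hd l)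
  obtain ⟨u, hu⟩ : ∃ u, gB (G4 δ) w u ≠ 0 := by
    by_contra h
    exact hw0 (nd w fun u => by_contra fun hu => h ⟨u, hu⟩)
  obtain ⟨z, hxz, hwz⟩ : ∃ z, gB (G4 δ) x z = 0 ∧ gB (G4 δ) w z = 1 := by
    refine ⟨(gB (G4 δ) w u)⁻¹ • (u - (gB (G4 δ) x u / gB (G4 δ) x x) • x), ?_, ?_⟩
    · simp only [map_smul, map_sub, smul_eq_mul]
      rw [div_mul_cancel₀ _ hx, sub_self, mul_zero]
    · simp only [map_smul, map_sub, smul_eq_mul, hwx, mul_zero, sub_zero]
      exact inv_mul_cancel₀ hu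
  have hiso : ∀ e, gB (G4 δ) x e = 0 → gB (G4 δ) w e = 0 → gB (G4 δ) e e = 0 :=
    fun e h1 h3 => by_contra fun hne => hc ⟨e, hne, h1, h3⟩
  let L : (Fin 4 → F) →ₗ[F] (F × F) × F :=
    ((gB (G4 δ) x).prod (gB (G4 δ) w)).prod (gB (G4 δ) z)
  have hker : LinearMap.ker L ≠ ⊥ := by
    refine LinearMap.ker_ne_bot_of_finrank_lt ?_
    simp [Module.finrank_prod]
  obtain ⟨y, hy, hy0⟩ := Submodule.exists_mem_ne_zero_of_ne_bot hker
  have hy1 : gB (G4 δ) x y = 0 := congrArg (fun p => p.1.1) (LinearMap.mem_ker.1 hy)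
  have hy2 : gB (G4 δ) w y = 0 := congrArg (fun p => p.1.2) (LinearMap.mem_ker.1 hy)
  have hy3 : gB (G4 δ) z y = 0 := congrArg Prod.snd (LinearMap.mem_ker.1 hy)
  refine hy0 (nd y fun v => ?_)
  obtain ⟨p, hp⟩ : ∃ p, p = v - (gB (G4 δ) x v / gB (G4 δ) x x) • x - gB (G4 δ) w v • z := ⟨_, rfl⟩
  have hpx : gB (G4 δ) x p = 0 := by
    simp only [hp, map_sub, map_smul, smul_eq_mul, hxz, mul_zero, sub_zero]
    rw [div_mul_cancel₀ _ hx, sub_self]
  have hpw : gB (G4 δ) w p = 0 := by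
    simp only [hp, map_sub, map_smul, smul_eq_mul, hwx, hwz, mul_zero, sub_zero, mul_one, sub_self]
  have hyp : gB (G4 δ) y p = 0 := by
    have h1 : gB (G4 δ) (y + p) (y + p) = 0 :=
      hiso _ (by rw [map_add, hy1, hpx, add_zero]) (by rw [map_add, hy2, hpw, add_zero])
    simp only [map_add, LinearMap.add_apply, hiso y hy1 hy2, hiso p hpx hpw] at h1
    rw [gB_symm δ p y] at h1
    have : 2 * gB (G4 δ) y p = 0 := by linear_combination h1
    exact (mul_eq_zero.1 this).resolve_left h2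
  simpa [hp, gB_symm δ y x, gB_symm δ y z, hy1, hy3] using hyp

end MainTwoAux

open MainTwoAux in
/-- For two sites, monomial centralisers of the named involutions force a monomial group. -/
theorem monomial_two [Finite F] {M : Subgroup (GV F 2)} (h : Over δ M)
    (hpr : ∀ y ∈ M, IsPairRefl δ (y : MV F 2) → CenLe M (y : MV F 2))
    (hhalf : ∀ y ∈ M, IsHalf δ (y : MV F 2) → CenLe M (y : MV F 2))
    (hbad : ∀ y ∈ M, IsBad δ (y : MV F 2) → CenLe M (y : MV F 2))
    (hcases : ∀ w y : GV F 2, w ∈ Wr F 2 ⊓ Om δ 2 → w * w = 1 → IsPairRefl δ (y : MV F 2) →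
      w * y = y * w → ((w : MV F 2) = 1 ∨ (w : MV F 2) = -1 ∨ IsPairRefl δ (w : MV F 2) ∨
        IsPairRefl δ (-(w : MV F 2)) ∨ IsHalf δ (w : MV F 2) ∨ IsBad δ (w : MV F 2)))
    (hconjU : ∀ g : GV F 2, IsoV δ (g : MV F 2) →
      (∀ u : GV F 2, IsSiteU δ (u : MV F 2) → g * u * g⁻¹ ∈ Wr F 2) → g ∈ Wr F 2) :
    M ≤ Wr F 2 := by
  have h2 := h.two
  have hd := h.nsq
  have h4 : (4 : F) ≠ 0 := by
    rw [show (4 : F) = 2 * 2 by norm_num]; exact mul_ne_zero h2 h2
  have h8 : (8 : F) ≠ 0 := by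
    rw [show (8 : F) = 4 * 2 by norm_num]; exact mul_ne_zero h4 h2
  -- a pair reflection in the group
  obtain ⟨r, hr⟩ : ∃ r : Fin 4 → F, gB (G4 δ) r r ≠ 0 :=
    ⟨Pi.single 1 1, by rw [gB_diag]; simp⟩
  have hRdet : (reflW δ r).det ≠ 0 := by
    rw [det_reflW hr]; exact neg_ne_zero.2 one_ne_zero
  have hR := HalfBig.refl_iso h2 hr
  obtain ⟨y, hyv, hyW⟩ : ∃ y : GV F 2,
      (y : MV F 2) = site 0 (reflW δ r) * site 1 (reflW δ r) ∧ y ∈ Wr F 2 :=
    ⟨siteUnit 0 _ hRdet * siteUnit 1 _ hRdet, by rw [Units.val_mul]; rfl,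
      mul_mem (siteUnit_mem_Wr _ _ _) (siteUnit_mem_Wr _ _ _)⟩
  have hyM : y ∈ M := h.mem hyW ((pair_mem_Om_iff h2 hd hR hR hyv).2 rfl)
  have hyP : IsPairRefl δ (y : MV F 2) := ⟨0, 1, r, r, by decide, hr, hr, hyv⟩
  have hyy : y * y = 1 := by
    apply Units.ext
    rw [Units.val_mul, Units.val_one, hyv, site_mul_site_two, pureMat_mul,
      ← pureMat_one 4 2]
    congr 1
    funext l
    fin_cases l <;> simp [HalfBig.refl_sq h2 hr]
  -- minus one is in the group
  have hn1 : (-1 : M4 F).det ≠ 0 := by simp [Matrix.det_neg]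
  obtain ⟨n, hnv, hnM⟩ : ∃ n : GV F 2, (n : MV F 2) = -1 ∧ n ∈ M := by
    refine ⟨siteUnit 0 _ hn1, by rw [siteUnit_val, site_neg_one], ?_⟩
    refine h.mem (siteUnit_mem_Wr _ _ _) (site_mem_Om_two h2 hd isoW_neg_one ?_ rfl)
    simp [Matrix.det_neg]
    norm_num
  intro g hg
  -- conjugates of half turns are monomial
  have good : ∀ x : GV F 2, IsHalf δ (x : MV F 2) → g * x * g⁻¹ ∈ Wr F 2 := by
    intro x hx
    have hxM := half_mem h hx
    obtain ⟨b, hb⟩ : ∃ b, b = g * x * g⁻¹ := ⟨_, rfl⟩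
    rw [← hb]
    have hbM : b ∈ M := hb ▸ M.mul_mem (M.mul_mem hg hxM) (M.inv_mem hg)
    have hbb : b * b = 1 := by
      have hxx : x * x = 1 := Units.ext (by rw [Units.val_mul, Units.val_one]; exact half_mul_self h2 hx)
      rw [hb, show g * x * g⁻¹ * (g * x * g⁻¹) = g * (x * x) * g⁻¹ by group, hxx]
      group
    have htb : (b : MV F 2).trace = 0 := by rw [hb, trace_conj, IsHalf.trace hx]
    have hty : (y : MV F 2).trace = 4 := IsPairRefl.trace hyP
    obtain ⟨w, hwcl, hw1, hww, hwy, hwb, hor⟩ := exists_top hyy hbb fun c _ e => by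
      have := congrArg (fun u : GV F 2 => (u : MV F 2).trace) e
      simp only [trace_conj, htb, hty] at this
      exact h4 this
    have hle : Subgroup.closure ({y, b} : Set (GV F 2)) ≤ M :=
      (Subgroup.closure_le M).2 (by
        rintro u (rfl | rfl)
        · exact hyM
        · exact hbM)
    have hwM : w ∈ M := hle hwcl
    have hwW : w ∈ Wr F 2 := hpr y hyM hyP w hwM (by rw [← Units.val_mul, hwy, Units.val_mul])
    have hbw : (b : MV F 2) * (w : MV F 2) = (w : MV F 2) * b := by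
      rw [← Units.val_mul, ← hwb, Units.val_mul]
    rcases hcases w y ⟨hwW, h.le hwM⟩ hww hyP hwy with e | e | e | e | e | e
    · exact absurd (Units.ext e) hw1
    · exfalso
      have htw : ((w * y : GV F 2) : MV F 2).trace = -4 := by
        rw [Units.val_mul, e, neg_mul, one_mul, Matrix.trace_neg, hty]
      rcases hor with ⟨c, -, -, hc, -⟩ | ⟨c, -, d, -, hc, -⟩ <;>
        · rw [← hc, trace_conj] at htw
          first
            | exact h8 (by linear_combination hty.symm.trans htw)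
            | exact h4 (by linear_combination htb.symm.trans htw)
    · exact hpr w hwM e b hbM hbw
    · have hv : ((w * n : GV F 2) : MV F 2) = -(w : MV F 2) := by
        rw [Units.val_mul, hnv, mul_neg, mul_one]
      refine hpr (w * n) (M.mul_mem hwM hnM) (hv.symm ▸ e) b hbM ?_
      rw [hv, mul_neg, neg_mul, hbw]
    · exact hhalf w hwM e b hbM hbw
    · exact hbad w hwM e b hbM hbw
  -- root elements of one site are products of two half turns
  refine hconjU g (h.isoV hg) fun u hu => ?_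
  obtain ⟨i, w, x, hw0, hw, hwx, hx, e⟩ := hu
  obtain ⟨hy', hsie⟩ := HalfBig.sieM_eq_refl_mul h2 hw hwx hx
  obtain ⟨c, hcc, hxc, hwc⟩ := exists_perp h2 hd hw0 hwx hx
  set y' := x + (gB (G4 δ) x x / 2) • w with hy'def
  have hcy : gB (G4 δ) c y' = 0 := by
    rw [hy'def, map_add, map_smul, gB_symm δ c x, gB_symm δ c w, hxc, hwc, smul_zero, add_zero]
  have d1 : (reflW δ x * reflW δ c).det ≠ 0 := by rw [det_refl_mul hx hcc]; exact one_ne_zero
  have d2 : (reflW δ c * reflW δ y').det ≠ 0 := by rw [det_refl_mul hcc hy']; exact one_ne_zero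
  have hu' : u = siteUnit i _ d1 * siteUnit i _ d2 := by
    apply Units.ext
    rw [Units.val_mul, siteUnit_val, siteUnit_val, site_mul, e, hsie, mul_assoc (reflW δ x),
      ← mul_assoc (reflW δ c), HalfBig.refl_sq h2 hcc, one_mul]
  rw [hu', show g * (siteUnit i _ d1 * siteUnit i _ d2) * g⁻¹ =
    g * siteUnit i _ d1 * g⁻¹ * (g * siteUnit i _ d2 * g⁻¹) by group]
  exact mul_mem (good _ ⟨i, x, c, hx, hcc, hxc, rfl⟩) (good _ ⟨i, c, y', hcc, hy', hcy, rfl⟩)

end Cfsg.Agent.MaxSub.OrthFour
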