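import Cfsg.Agent.MaxSub.OrthFour.Defs
import Cfsg.Agent.MaxSub.OrthFour.Omega

/-!
Members acting at two sites: either all of them are monomial or the group contains a long root element
of pure shape.
-/

set_option autoImplicit false
set_option linter.unusedSectionVars false
set_option linter.unusedSimpArgs false
set_option linter.style.haveILetI false

namespace Cfsg.Agent.MaxSub.OrthFour

open Matrix QuadraticMap Cfsg.Geo Cfsg.Agent.NotMax Cfsg.Agent.GeoClasses Cfsg.Agent.Classical
open Cfsg.Agent.MaxSub.TensorPowSp (gV fG)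
open Cfsg.Agent.MaxSub.OrthWreathBig (gB cr sieM nn cr_mul cr_add_left cr_add_right cr_smul_left
  cr_smul_right nn_smul_right nn_swap)
open scoped MatrixGroups Matrix

variable {F : Type*} [Field F] {t : ℕ}

namespace PairLift

/-! ### Two sites inside many -/

section Lift

variable {i j : Fin t} (hij : i ≠ j)

/-- The index with given values at the two sites. -/
def setTwo (i j : Fin t) (a : Fin t → Fin 4) (c : Fin 2 → Fin 4) : Fin t → Fin 4 :=
  Function.update (Function.update a i (c 0)) j (c 1)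

include hij in
lemma setTwo_get (a : Fin t → Fin 4) (c : Fin 2 → Fin 4) :
    setTwo i j a c i = c 0 ∧ setTwo i j a c j = c 1 ∧
      ![setTwo i j a c i, setTwo i j a c j] = c := by
  have h0 : setTwo i j a c i = c 0 := by simp [setTwo, hij]
  have h1 : setTwo i j a c j = c 1 := by simp [setTwo]
  refine ⟨h0, h1, ?_⟩
  funext l
  fin_cases l <;> simp [h0, h1]

lemma setTwo_other (a : Fin t → Fin 4) (c : Fin 2 → Fin 4) {l : Fin t} (hi : l ≠ i) (hj : l ≠ j) :
    setTwo i j a c l = a l := by simp [setTwo, hi, hj]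

lemma liftPair_add (X Y : MV F 2) : liftPair i j (X + Y) = liftPair i j X + liftPair i j Y := by
  ext a b; simp only [liftPair, Matrix.add_apply]; split_ifs <;> simp

include hij in
lemma liftPair_mul (X Y : MV F 2) : liftPair i j (X * Y) = liftPair i j X * liftPair i j Y := by
  classical
  ext a b
  rw [Matrix.mul_apply]
  by_cases hab : ∀ l, l ≠ i → l ≠ j → a l = b l
  · rw [show liftPair i j (X * Y) a b = (X * Y) ![a i, a j] ![b i, b j] from if_pos hab,
      Matrix.mul_apply]
    refine Finset.sum_of_injOn (setTwo i j a) (fun c _ c' _ e => ?_) (fun c _ => Finset.mem_univ _)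
      (fun d _ hd => ?_) (fun c _ => ?_)
    · rw [← (setTwo_get hij a c).2.2, e, (setTwo_get hij a c').2.2]
    · rw [show liftPair i j X a d = 0 from if_neg fun h => hd ?_, zero_mul]
      refine ⟨![d i, d j], Finset.mem_univ _, funext fun l => ?_⟩
      by_cases hi : l = i
      · subst hi; exact (setTwo_get hij a _).1
      · by_cases hj : l = j
        · subst hj; exact (setTwo_get hij a _).2.1
        · rw [setTwo_other a _ hi hj]; exact h l hi hj
    · have h1 : ∀ l, l ≠ i → l ≠ j → a l = setTwo i j a c l := fun l hi hj =>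
        (setTwo_other a c hi hj).symm
      have h2 : ∀ l, l ≠ i → l ≠ j → setTwo i j a c l = b l := fun l hi hj => by
        rw [setTwo_other a c hi hj]; exact hab l hi hj
      simp only [liftPair]
      rw [if_pos h1, if_pos h2, (setTwo_get hij a c).2.2]
  · rw [show liftPair i j (X * Y) a b = 0 from if_neg hab]
    refine (Finset.sum_eq_zero fun c _ => ?_).symm
    by_cases h1 : ∀ l, l ≠ i → l ≠ j → a l = c l
    · rw [show liftPair i j Y c b = 0 from if_neg fun h2 => hab fun l hi hj =>
        (h1 l hi hj).trans (h2 l hi hj), mul_zero]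
    · rw [show liftPair i j X a c = 0 from if_neg h1, zero_mul]

lemma liftPair_transpose (X : MV F 2) : (liftPair i j X)ᵀ = liftPair i j Xᵀ := by
  ext a b
  have e : (∀ l, l ≠ i → l ≠ j → b l = a l) ↔ ∀ l, l ≠ i → l ≠ j → a l = b l :=
    ⟨fun h l hi hj => (h l hi hj).symm, fun h l hi hj => (h l hi hj).symm⟩
  simp only [liftPair, Matrix.transpose_apply]
  by_cases h : ∀ l, l ≠ i → l ≠ j → a l = b l
  · rw [if_pos h, if_pos (e.2 h)]
  · rw [if_neg h, if_neg fun h' => h (e.1 h')]

include hij in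
lemma liftPair_injective : Function.Injective (liftPair (F := F) i j) := by
  intro X Y e
  ext c d
  have := congrFun (congrFun e (setTwo i j (fun _ => 0) c)) (setTwo i j (fun _ => 0) d)
  simp only [liftPair] at this
  rwa [if_pos, if_pos, (setTwo_get hij _ c).2.2, (setTwo_get hij _ d).2.2] at this <;>
    (intro l hi hj; rw [setTwo_other _ _ hi hj, setTwo_other _ _ hi hj])

include hij in
/-- A pure tensor of two sites. -/
lemma liftPair_pure (Ys : Fin 2 → M4 F) :
    liftPair i j (pureMat Ys) =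
      pureMat (fun l => if l = i then Ys 0 else if l = j then Ys 1 else 1) := by
  classical
  ext a b
  by_cases h : ∀ l, l ≠ i → l ≠ j → a l = b l
  · rw [show liftPair i j (pureMat Ys) a b = pureMat Ys ![a i, a j] ![b i, b j] from if_pos h,
      pureMat, pureMat, Fin.prod_univ_two,
      Fintype.prod_eq_mul (a := i) (b := j) hij fun l hl => by
        rw [if_neg hl.1, if_neg hl.2, h l hl.1 hl.2, Matrix.one_apply_eq]]
    simp [hij.symm]
  · rw [show liftPair i j (pureMat Ys) a b = 0 from if_neg h]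
    push Not at h
    obtain ⟨l, hi, hj, hl⟩ := h
    refine (Finset.prod_eq_zero (Finset.mem_univ l) ?_).symm
    simp only
    rw [if_neg hi, if_neg hj, Matrix.one_apply_ne hl]

include hij in
lemma liftPair_one : liftPair i j (1 : MV F 2) = 1 := by
  rw [← pureMat_one 4 2, liftPair_pure hij, ← pureMat_one 4 t]
  congr 1
  funext l
  split_ifs <;> rfl

/-- The lift of two sites as a monoid homomorphism. -/
def liftHom : MV F 2 →* MV F t where
  toFun := liftPair i j
  map_one' := liftPair_one hij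
  map_mul' := liftPair_mul hij

/-- The lift of two sites of invertible matrices. -/
def liftGL : GV F 2 →* GV F t := Units.map (liftHom hij)

lemma coe_liftGL (g : GV F 2) : (liftGL hij g : MV F t) = liftPair i j (g : MV F 2) := rfl

include hij in
lemma liftGL_mem_Wr {g : GV F 2} (hg : g ∈ Wr F 2) : liftGL hij g ∈ Wr F t := by
  classical
  refine (show Wr F 2 ≤ (Wr F t).comap (liftGL hij) from (Subgroup.closure_le _).2 ?_) hg
  rintro u (⟨gs, hgs⟩ | ⟨σ, hσ⟩)
  · have hu : (u : MV F 2) = pureMat fun l => (gs l : M4 F) := Matrix.ext hgs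
    have e : liftGL hij u = glPure fun l => if l = i then gs 0 else if l = j then gs 1 else 1 := by
      refine Units.ext ?_
      rw [coe_liftGL, hu, liftPair_pure hij]
      show pureMat _ = pureMat _
      congr 1
      funext l
      dsimp only
      split_ifs <;> rfl
    show liftGL hij u ∈ Wr F t
    rw [e]
    exact Subgroup.subset_closure (Or.inl ⟨_, fun _ _ => rfl⟩)
  · obtain ⟨π, hπi, hπj, hπo⟩ : ∃ π : Equiv.Perm (Fin t), π i = (if σ 0 = 0 then i else j) ∧
        π j = (if σ 1 = 0 then i else j) ∧ ∀ l, l ≠ i → l ≠ j → π l = l := by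
      have h01 : σ 0 ≠ σ 1 := fun e => zero_ne_one (σ.injective e)
      by_cases h : σ 0 = 0
      · refine ⟨1, by simp [h], ?_, fun _ _ _ => rfl⟩
        rw [if_neg fun e => h01 (h.trans e.symm)]; rfl
      · refine ⟨Equiv.swap i j, by simp [h], ?_, fun l hi hj => Equiv.swap_apply_of_ne_of_ne hi hj⟩
        have h1 : σ 1 = 0 := by omega
        rw [if_pos h1, Equiv.swap_apply_right]
    have e : liftGL hij u = glFactorPerm 4 π := by
      refine Units.ext (Matrix.ext fun a b => ?_)
      rw [coe_liftGL]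
      show liftPair i j (u : MV F 2) a b = factorPerm 4 π a b
      have key : ∀ c : Fin 2, ![a i, a j] c = a (if c = 0 then i else j) := fun c => by
        fin_cases c <;> simp
      by_cases hb : b = a ∘ π
      · subst hb
        rw [factorPerm, if_pos rfl, liftPair, if_pos fun l hi hj => by simp [hπo l hi hj], hσ, if_pos]
        funext c
        simp only [Function.comp_apply, key]
        fin_cases c
        · simp [hπi]
        · simp [hπj]
      · rw [factorPerm, if_neg hb, liftPair]
        split_ifs with h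
        · rw [hσ, if_neg]
          intro e
          refine hb (funext fun l => ?_)
          by_cases hi : l = i
          · subst hi
            have := congrFun e 0
            simp only [Function.comp_apply, key] at this
            simpa [hπi] using this
          · by_cases hj : l = j
            · subst hj
              have := congrFun e 1
              simp only [Function.comp_apply, key] at this
              simpa [hπj] using this
            · simp [hπo l hi hj, h l hi hj]
        · rfl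
    show liftGL hij u ∈ Wr F t
    rw [e]
    exact Subgroup.subset_closure (Or.inr ⟨π, fun _ _ => rfl⟩)

end Lift

/-! ### Isometries -/

/-- The full isometry group of the tensor power as a group of matrices. -/
noncomputable def Iso (δ : F) (t : ℕ) : Subgroup (GV F t) := (oqToGL (Qd δ t)).range

lemma mem_Iso {δ : F} (h2 : (2 : F) ≠ 0) {g : GV F t} : g ∈ Iso δ t ↔ IsoV δ (g : MV F t) := by
  have L := link (t := t) δ h2
  constructor
  · rintro ⟨k, rfl⟩
    refine Matrix.ext fun a b => ?_
    have := OQ_polar k (Pi.single a 1) (Pi.single b 1)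
    rw [← oqToGL_mulVec, ← oqToGL_mulVec, L.polar_eq, L.polar_eq] at this
    have h' := mul_left_cancel₀ h2 this
    rw [Matrix.mulVec_mulVec, ← Matrix.vecMul_transpose, ← Matrix.dotProduct_mulVec,
      Matrix.mulVec_mulVec, ← mul_assoc] at h'
    simpa [Matrix.mulVec_single_one, single_dotProduct] using h'
  · intro hg
    let e : (Vec F t) ≃ₗ[F] (Vec F t) :=
      { Matrix.mulVecLin (g : MV F t) with
        invFun := fun v => ((g⁻¹ : GV F t) : MV F t) *ᵥ v
        left_inv := fun v => by simp [Matrix.mulVec_mulVec]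
        right_inv := fun v => by simp [Matrix.mulVec_mulVec] }
    have he : ∀ v, e v = (g : MV F t) *ᵥ v := fun v => rfl
    have hQ : ∀ v, Qd δ t (e v) = Qd δ t v := fun v => by
      rw [L.apply_self h2, L.apply_self h2, L.polar_eq, L.polar_eq, he, Matrix.mulVec_mulVec,
        ← Matrix.vecMul_transpose, ← Matrix.dotProduct_mulVec, Matrix.mulVec_mulVec, ← mul_assoc, hg]
    refine ⟨⟨e, hQ⟩, Units.ext (Matrix.ext_of_mulVec_single fun a => ?_)⟩
    rw [oqToGL_mulVec]
    exact he _

lemma Om_eq [Finite F] (δ : F) (t : ℕ) : Om δ t = ⁅Iso δ t, Iso δ t⁆ := by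
  rw [Om, commutator_def, Subgroup.map_commutator, Iso, MonoidHom.range_eq_map]

lemma Om_le_Iso [Finite F] (δ : F) (t : ℕ) : Om δ t ≤ Iso δ t := by
  rintro _ ⟨k, -, rfl⟩; exact ⟨k, rfl⟩

/-- Isometries normalise `Ω`. -/
lemma conj_mem_Om [Finite F] {δ : F} {g u : GV F t} (hg : g ∈ Iso δ t) (hu : u ∈ Om δ t) :
    g * u * g⁻¹ ∈ Om δ t := by
  obtain ⟨k, rfl⟩ := hg
  obtain ⟨c, hc, rfl⟩ := hu
  exact ⟨k * c * k⁻¹, (inferInstance : (commutator (OQ (Qd δ t))).Normal).conj_mem c hc k, by simp⟩

/-- The weights away from two sites. -/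
def restW (δ : F) (i j : Fin t) (a : Fin t → Fin 4) : F :=
  ∏ l ∈ Finset.univ.filter (fun l => l ≠ i ∧ l ≠ j), wt δ (a l)

section LiftIso

variable {i j : Fin t} (hij : i ≠ j)
include hij

lemma gV_lift (δ : F) : gV (G4 δ) t = liftPair i j (gV (G4 δ) 2) * Matrix.diagonal (restW δ i j) := by
  classical
  rw [gV_diag, gV_diag]
  ext a b
  rw [Matrix.mul_diagonal]
  by_cases h : a = b
  · subst h
    rw [Matrix.diagonal_apply_eq,
      show liftPair i j (Matrix.diagonal fun c : Fin 2 → Fin 4 => ∏ l, wt δ (c l)) a a =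
        ∏ l, wt δ (![a i, a j] l) by
        rw [liftPair, if_pos fun _ _ _ => rfl, Matrix.diagonal_apply_eq]]
    rw [Fin.prod_univ_two, restW,
      ← Finset.prod_filter_mul_prod_filter_not Finset.univ (fun l => l ≠ i ∧ l ≠ j)
        (fun l => wt δ (a l)), mul_comm]
    congr 1
    rw [show Finset.univ.filter (fun l => ¬(l ≠ i ∧ l ≠ j)) = {i, j} by
      ext l; simp; tauto, Finset.prod_pair hij]
    rfl
  · rw [Matrix.diagonal_apply_ne _ h]
    suffices e : liftPair i j (Matrix.diagonal fun c : Fin 2 → Fin 4 => ∏ l, wt δ (c l)) a b = 0 by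
      rw [e, zero_mul]
    rw [liftPair]
    split_ifs with h'
    · refine Matrix.diagonal_apply_ne _ fun e => h (funext fun l => ?_)
      by_cases hi : l = i
      · subst hi; simpa using congrFun e 0
      · by_cases hj : l = j
        · subst hj; simpa using congrFun e 1
        · exact h' l hi hj
    · rfl

omit hij in
lemma restW_comm (δ : F) (X : MV F 2) :
    Matrix.diagonal (restW δ i j) * liftPair i j X =
      liftPair i j X * Matrix.diagonal (restW δ i j) := by
  ext a b
  rw [Matrix.diagonal_mul, Matrix.mul_diagonal, mul_comm]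
  by_cases h : ∀ l, l ≠ i → l ≠ j → a l = b l
  · congr 1
    exact Finset.prod_congr rfl fun l hl => by
      rw [h l (Finset.mem_filter.1 hl).2.1 (Finset.mem_filter.1 hl).2.2]
  · rw [show liftPair i j X a b = 0 from if_neg h, zero_mul, zero_mul]

lemma isoV_lift_iff {δ : F} (hδ : ¬ IsSquare δ) (X : MV F 2) :
    IsoV δ (liftPair i j X) ↔ IsoV δ X := by
  have e : (liftPair i j X)ᵀ * gV (G4 δ) t * liftPair i j X =
      liftPair i j (Xᵀ * gV (G4 δ) 2 * X) * Matrix.diagonal (restW δ i j) := by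
    rw [gV_lift hij, liftPair_transpose, mul_assoc, mul_assoc _ (Matrix.diagonal _),
      restW_comm, ← mul_assoc (liftPair i j (gV (G4 δ) 2)), ← mul_assoc,
      ← liftPair_mul hij, ← liftPair_mul hij, ← mul_assoc]
  rw [IsoV, e]
  constructor
  · intro h
    rw [gV_lift hij] at h
    refine liftPair_injective hij ?_
    have hd : IsUnit (Matrix.diagonal (restW δ i j)) := by
      rw [Matrix.isUnit_diagonal, Pi.isUnit_iff]
      exact fun a => isUnit_iff_ne_zero.2 (Finset.prod_ne_zero_iff.2 fun l _ => wt_ne_zero hδ _)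
    exact hd.mul_right_cancel h
  · intro h
    rw [show Xᵀ * gV (G4 δ) 2 * X = gV (G4 δ) 2 from h, ← gV_lift hij]

lemma liftGL_mem_Iso {δ : F} (h2 : (2 : F) ≠ 0) (hδ : ¬ IsSquare δ) {g : GV F 2}
    (hg : g ∈ Iso δ 2) : liftGL hij g ∈ Iso δ t := by
  rw [mem_Iso h2] at hg ⊢
  rw [coe_liftGL]
  exact (isoV_lift_iff hij hδ _).2 hg

lemma liftGL_mem_Om [Finite F] {δ : F} (h2 : (2 : F) ≠ 0) (hδ : ¬ IsSquare δ) {g : GV F 2}
    (hg : g ∈ Om δ 2) : liftGL hij g ∈ Om δ t := by
  rw [Om_eq] at hg ⊢
  have : (⁅Iso δ 2, Iso δ 2⁆).map (liftGL hij) ≤ ⁅Iso δ t, Iso δ t⁆ := by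
    rw [Subgroup.map_commutator]
    refine Subgroup.commutator_mono ?_ ?_ <;>
      (rintro _ ⟨k, hk, rfl⟩; exact liftGL_mem_Iso hij h2 hδ hk)
  exact this ⟨g, hg, rfl⟩

end LiftIso

/-! ### The chain of root elements -/

/-- The group has the member `1 + A`. -/
def Has (M : Subgroup (GV F t)) (A : MV F t) : Prop := ∃ g ∈ M, (g : MV F t) = 1 + A

lemma Has.inv {M : Subgroup (GV F t)} {A : MV F t} (h : Has M A) (hA : A * A = 0) :
    Has M (-A) := by
  obtain ⟨g, hg, e⟩ := h
  refine ⟨g⁻¹, M.inv_mem hg, Units.inv_eq_of_mul_eq_one_right ?_⟩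
  rw [e]
  noncomm_ring [hA]

lemma Has.commutator {M : Subgroup (GV F t)} {A B : MV F t} (hA : Has M A) (hB : Has M B)
    (hAA : A * A = 0) (hBB : B * B = 0) (hABA : A * B * A = 0) (hBAB : B * A * B = 0) :
    Has M (A * B - B * A) := by
  obtain ⟨a, ha, ea⟩ := hA
  obtain ⟨b, hb, eb⟩ := hB
  obtain ⟨a', ha', ea'⟩ := (Has.inv ⟨a, ha, ea⟩ hAA : Has M (-A))
  obtain ⟨b', hb', eb'⟩ := (Has.inv ⟨b, hb, eb⟩ hBB : Has M (-B))
  refine ⟨a * b * (a' * b'), M.mul_mem (M.mul_mem ha hb) (M.mul_mem ha' hb'), ?_⟩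
  rw [Units.val_mul, Units.val_mul, Units.val_mul, ea, eb, ea', eb']
  calc (1 + A) * (1 + B) * ((1 + -A) * (1 + -B))
      = 1 + (A * B - B * A) + (-(A * A) - B * B + A * A * B + B * A * B - A * B * A
          - A * (B * B) + A * B * A * B) := by noncomm_ring
    _ = 1 + (A * B - B * A) := by
        rw [hAA, hBB, hABA, hBAB]; simp

section Pat

variable (δ : F) (i : Fin t) (w : Fin 4 → F)

/-- Copies of the rank one map of `w` at the sites in `S` and a matrix at the site `i`. -/
def pat (S : Finset (Fin t)) (X : M4 F) : MV F t :=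
  pureMat fun l => if l = i then X else if l ∈ S then cr (G4 δ) w w else 1

lemma pat_eq_site (S : Finset (Fin t)) (X : M4 F) :
    pat δ i w S X = site i X * pat δ i w S 1 := by
  rw [pat, pat, site, pureMat_mul]
  congr 1
  funext l
  by_cases hl : l = i
  · subst hl; simp
  · simp [hl]

lemma pat_sub (S : Finset (Fin t)) (X Y : M4 F) :
    pat δ i w S (X - Y) = pat δ i w S X - pat δ i w S Y := by
  rw [pat_eq_site, pat_eq_site _ _ _ _ X, pat_eq_site _ _ _ _ Y, ← sub_mul]
  congr 1
  rw [eq_sub_iff_add_eq, ← site_add, sub_add_cancel]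

lemma pat_zero (S : Finset (Fin t)) : pat δ i w S 0 = 0 := by
  rw [pat_eq_site, site_zero, zero_mul]

lemma site_mul_pat (S : Finset (Fin t)) (U X U' : M4 F) :
    site i U * pat δ i w S X * site i U' = pat δ i w S (U * X * U') := by
  simp only [pat, site, pureMat_mul]
  congr 1
  funext l
  by_cases hl : l = i
  · subst hl; simp
  · simp [hl]

variable {δ i w}

lemma pat_mul (S T : Finset (Fin t)) (hST : Disjoint S T) (X Y : M4 F) :
    pat δ i w S X * pat δ i w T Y = pat δ i w (S ∪ T) (X * Y) := by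
  simp only [pat, pureMat_mul]
  congr 1
  funext l
  by_cases hl : l = i
  · simp [hl]
  · simp only [if_neg hl, Finset.mem_union]
    by_cases hS : l ∈ S
    · simp [hS, Finset.disjoint_left.1 hST hS]
    · by_cases hT : l ∈ T <;> simp [hS, hT]

/-- Two patterns with a common site multiply to zero. -/
lemma pat_mul_zero (hK : cr (G4 δ) w w * cr (G4 δ) w w = 0) {S T : Finset (Fin t)} {s : Fin t}
    (hs : s ≠ i) (hS : s ∈ S) (hT : s ∈ T) (X Y : M4 F) :
    pat δ i w S X * pat δ i w T Y = 0 := by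
  simp only [pat, pureMat_mul]
  ext a b
  refine Finset.prod_eq_zero (Finset.mem_univ s) ?_
  simp [hs, hS, hT, hK]

end Pat

/-- The standard frame of a site. -/
structure Frame (δ : F) (w v x : Fin 4 → F) : Prop where
  ww : gB (G4 δ) w w = 0
  vv : gB (G4 δ) v v = 0
  wv : gB (G4 δ) w v = 1
  wx : gB (G4 δ) w x = 0
  vx : gB (G4 δ) v x = 0
  xx : gB (G4 δ) x x = δ

lemma exists_frame [Finite F] (δ : F) (h2 : (2 : F) ≠ 0) : ∃ w v x, Frame δ w v x := by
  haveI : NeZero (ringChar F) := ⟨CharP.char_ne_zero_of_finite F (ringChar F)⟩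
  obtain ⟨a, b, hab⟩ := CharP.sq_add_sq F (ringChar F) (-1)
  push_cast at hab
  refine ⟨![0, a, b, 1], ![0, -(a : F) / 2, -(b : F) / 2, 1 / 2], ![1, 0, 0, 0], ?_⟩
  constructor <;> simp only [gB_diag, Matrix.cons_val_zero, Matrix.cons_val_one, Matrix.cons_val] <;>
    first
      | ring1
      | linear_combination hab
      | (field_simp; linear_combination hab)
      | (field_simp; linear_combination -hab)

lemma Frame.comm_nn {δ : F} {w v x : Fin 4 → F} (h : Frame δ w v x) :
    nn (G4 δ) x w * nn (G4 δ) x v - nn (G4 δ) x v * nn (G4 δ) x w =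
      (-δ) • nn (G4 δ) w v := by
  simp only [nn, sub_mul, mul_sub, cr_mul, gB_symm δ x w, gB_symm δ x v, gB_symm δ v w, h.wv, h.wx,
    h.vx, h.xx, h.ww, h.vv, zero_smul, one_smul, sub_zero, zero_sub]
  module

lemma Frame.move {δ : F} {w v x : Fin 4 → F} (h : Frame δ w v x) (h2 : (2 : F) ≠ 0) (c : F) :
    (1 + sieM (G4 δ) w (-c • x)) * nn (G4 δ) w v * (1 + sieM (G4 δ) w (c • x)) - nn (G4 δ) w v =
      c • nn (G4 δ) x w := by
  simp only [nn, sieM, map_smul, LinearMap.smul_apply, smul_eq_mul, add_mul, mul_add, sub_mul,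
    mul_sub, one_mul, mul_one, smul_mul_assoc, mul_smul_comm, cr_mul, cr_smul_left, cr_smul_right,
    gB_symm δ x w, gB_symm δ x v, gB_symm δ v w, h.wv, h.wx, h.vx, h.xx, h.ww, h.vv, zero_smul,
    one_smul, smul_zero, smul_smul, sub_zero, zero_sub, zero_mul, mul_zero, add_zero, zero_add]
  match_scalars <;> field_simp <;> ring

lemma cr_transpose_G4 (δ : F) (a b : Fin 4 → F) :
    (cr (G4 δ) a b)ᵀ * G4 δ = G4 δ * cr (G4 δ) b a := by
  rw [cr, cr, transpose_vecMulVec, vecMulVec_mul, mul_vecMulVec, ← vecMul_transpose, G4_transpose]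

lemma nn_transpose_G4 (δ : F) (a b : Fin 4 → F) :
    (nn (G4 δ) a b)ᵀ * G4 δ = -(G4 δ * nn (G4 δ) a b) := by
  rw [nn, transpose_sub, sub_mul, cr_transpose_G4, cr_transpose_G4, mul_sub, neg_sub]

lemma sieM_pair {δ : F} {w y : Fin 4 → F} (h2 : (2 : F) ≠ 0) (hw : gB (G4 δ) w w = 0)
    (hy : gB (G4 δ) w y = 0) : (1 + sieM (G4 δ) w y) * (1 + sieM (G4 δ) w (-y)) = 1 := by
  simp only [sieM, map_neg, LinearMap.neg_apply, add_mul, mul_add, sub_mul, mul_sub, one_mul, mul_one,
    smul_mul_assoc, mul_smul_comm, cr_mul, gB_symm δ y w, hy, hw, zero_smul, smul_zero,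
    ← neg_one_smul F y, cr_smul_left, cr_smul_right, map_smul, LinearMap.smul_apply, smul_eq_mul,
    smul_smul]
  match_scalars <;> field_simp <;> ring

/-- The pure root element of two sites lies in `Ω`. -/
lemma base_mem [Finite F] {δ : F} (h2 : (2 : F) ≠ 0)
    (hsq : ∀ g : GV F 2, IsoV δ (g : MV F 2) → g * g ∈ Om δ 2)
    {w : Fin 4 → F} (hw : gB (G4 δ) w w = 0) {X : M4 F} (hX : Xᵀ * G4 δ = -(G4 δ * X)) :
    ∃ g ∈ Om δ 2, (g : MV F 2) = 1 + pureMat ![X, cr (G4 δ) w w] := by
  set D := pureMat ![X, cr (G4 δ) w w] with hD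
  set A := (2 : F)⁻¹ • D with hA
  have hKK : cr (G4 δ) w w * cr (G4 δ) w w = 0 := by rw [cr_mul, hw, zero_smul]
  have hDD : D * D = 0 := by
    ext a b
    rw [hD, pureMat_mul]
    exact Finset.prod_eq_zero (Finset.mem_univ (1 : Fin 2)) (by simp [hKK])
  have hAA : A * A = 0 := by rw [hA, smul_mul_smul_comm, hDD, smul_zero]
  have hDT : Dᵀ * gV (G4 δ) 2 = -(gV (G4 δ) 2 * D) := by
    rw [hD, gV, pureMat_transpose, pureMat_mul, pureMat_mul]
    ext a b
    simp only [Matrix.neg_apply, pureMat, Fin.prod_univ_two, Matrix.cons_val_zero, Matrix.cons_val_one,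
      hX, cr_transpose_G4, neg_mul]
  let u : GV F 2 := ⟨1 + A, 1 - A, by noncomm_ring [hAA], by noncomm_ring [hAA]⟩
  have hiso : IsoV δ (u : MV F 2) := by
    show (1 + A)ᵀ * gV (G4 δ) 2 * (1 + A) = gV (G4 δ) 2
    have e : Aᵀ * gV (G4 δ) 2 = -(gV (G4 δ) 2 * A) := by
      rw [hA, transpose_smul, smul_mul_assoc, hDT, smul_neg, mul_smul_comm]
    rw [transpose_add, transpose_one, add_mul, one_mul, e]
    calc (gV (G4 δ) 2 + -(gV (G4 δ) 2 * A)) * (1 + A)
        = gV (G4 δ) 2 - gV (G4 δ) 2 * (A * A) := by noncomm_ring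
      _ = gV (G4 δ) 2 := by rw [hAA, mul_zero, sub_zero]
  refine ⟨u * u, hsq u hiso, ?_⟩
  show (1 + A) * (1 + A) = 1 + D
  calc (1 + A) * (1 + A) = 1 + (A + A) + A * A := by noncomm_ring
    _ = 1 + D := by
      rw [hAA, add_zero, hA, ← add_smul, ← two_mul, mul_inv_cancel₀ h2, one_smul]

/-- A pair with all of `Ω` leads to a long root element of pure shape. -/
theorem pureRoot_of_pairs [Finite F] {δ : F} {M : Subgroup (GV F t)} (hO : Over δ M) (ht : 2 ≤ t)
    (hsq : ∀ g : GV F 2, IsoV δ (g : MV F 2) → g * g ∈ Om δ 2)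
    (hsiteU : ∀ g : GV F t, IsSiteU δ (g : MV F t) → g ∈ Om δ t)
    (i : Fin t) (hpair : ∀ j (hij : i ≠ j), ∀ g ∈ Om δ 2, liftGL hij g ∈ M) :
    PureRoot δ M := by
  classical
  have h2 := hO.two
  have hδ0 : δ ≠ 0 := fun e => hO.nsq (e ▸ IsSquare.zero)
  obtain ⟨w, v, x, hf⟩ := exists_frame δ h2
  have hK : cr (G4 δ) w w * cr (G4 δ) w w = 0 := by rw [cr_mul, hf.ww, zero_smul]
  set N := nn (G4 δ) x w with hN
  set N' := nn (G4 δ) x v with hN'
  have hbase : ∀ j, j ≠ i → ∀ X : M4 F, Xᵀ * G4 δ = -(G4 δ * X) → Has M (pat δ i w {j} X) := by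
    intro j hj X hX
    obtain ⟨g, hg, eg⟩ := base_mem h2 hsq hf.ww hX
    refine ⟨liftGL (Ne.symm hj) g, hpair j (Ne.symm hj) g hg, ?_⟩
    rw [coe_liftGL, eg, liftPair_add, liftPair_one (Ne.symm hj), liftPair_pure (Ne.symm hj)]
    congr 1
    show pureMat _ = pureMat _
    congr 1
    funext l
    by_cases hl : l = i
    · simp [hl]
    · by_cases hlj : l = j
      · simp [hlj, hj]
      · simp [hl, hlj]
  have hskew : ∀ c : F, (c • N)ᵀ * G4 δ = -(G4 δ * (c • N)) := fun c => by
    rw [transpose_smul, smul_mul_assoc, hN, nn_transpose_G4, smul_neg, mul_smul_comm]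
  have key : ∀ S : Finset (Fin t), S.Nonempty → i ∉ S → ∀ c : F, Has M (pat δ i w S (c • N)) := by
    intro S hS
    induction hS using Finset.Nonempty.cons_induction with
    | singleton j =>
      intro hij c
      exact hbase j (fun e => hij (by simp [e])) _ (hskew c)
    | cons j S hjS hne IH =>
      intro hiS c
      rw [Finset.mem_cons, not_or] at hiS
      have hj : j ≠ i := Ne.symm hiS.1
      obtain ⟨s, hs⟩ := hne
      have hsi : s ≠ i := fun e => hiS.2 (e ▸ hs)
      have hun : S ∪ {j} = Finset.cons j S hjS := by ext l; simp [or_comm]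
      have hdis : Disjoint S {j} := Finset.disjoint_singleton_right.2 hjS
      have hA := IH hiS.2 (-(δ⁻¹))
      have hB := hbase j hj N' (by rw [hN', nn_transpose_G4])
      have hAA : pat δ i w S (-δ⁻¹ • N) * pat δ i w S (-δ⁻¹ • N) = 0 := pat_mul_zero hK hsi hs hs _ _
      have hBB : pat δ i w {j} N' * pat δ i w {j} N' = 0 :=
        pat_mul_zero hK hj (Finset.mem_singleton_self j) (Finset.mem_singleton_self j) _ _
      have hAB : pat δ i w S (-δ⁻¹ • N) * pat δ i w {j} N' =
          pat δ i w (Finset.cons j S hjS) (-δ⁻¹ • N * N') := by rw [pat_mul _ _ hdis, hun]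
      have hBA : pat δ i w {j} N' * pat δ i w S (-δ⁻¹ • N) =
          pat δ i w (Finset.cons j S hjS) (N' * (-δ⁻¹ • N)) := by
        rw [pat_mul _ _ hdis.symm, Finset.union_comm, hun]
      have hC := hA.commutator hB hAA hBB
        (by rw [hAB]; exact pat_mul_zero hK hsi (Finset.mem_cons_of_mem hs) hs _ _)
        (by rw [hBA]; exact pat_mul_zero hK hj (Finset.mem_cons_self j S) (Finset.mem_singleton_self j) _ _)
      rw [hAB, hBA, ← pat_sub,
        show -δ⁻¹ • N * N' - N' * (-δ⁻¹ • N) = nn (G4 δ) w v by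
          rw [smul_mul_assoc, mul_smul_comm, ← smul_sub, hN, hN', hf.comm_nn, smul_smul,
            neg_mul_neg, inv_mul_cancel₀ hδ0, one_smul]] at hC
      rcases eq_or_ne c 0 with rfl | hc
      · exact ⟨1, M.one_mem, by rw [zero_smul, pat_zero, add_zero, Units.val_one]⟩
      -- move by a root element of the site
      have hwy : gB (G4 δ) w (-c • x) = 0 := by rw [map_smul, hf.wx, smul_zero]
      have hwy' : gB (G4 δ) w (c • x) = 0 := by rw [map_smul, hf.wx, smul_zero]
      have e1 := sieM_pair h2 hf.ww hwy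
      have e2 := sieM_pair h2 hf.ww hwy'
      rw [← neg_smul, neg_neg] at e1
      rw [← neg_smul] at e2
      let U : GL (Fin 4) F := ⟨1 + sieM (G4 δ) w (-c • x), 1 + sieM (G4 δ) w (c • x), e1, e2⟩
      let u : GV F t := glPure (Function.update (fun _ => 1) i U)
      have hu : (u : MV F t) = site i (1 + sieM (G4 δ) w (-c • x)) := by
        show pureMat _ = pureMat _
        congr 1
        funext l
        by_cases hl : l = i
        · subst hl; simp [U]
        · simp [hl]
      have hu' : ((u⁻¹ : GV F t) : MV F t) = site i (1 + sieM (G4 δ) w (c • x)) := by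
        show pureMat _ = pureMat _
        congr 1
        funext l
        by_cases hl : l = i
        · subst hl; simp [U]
        · simp [hl]
      have hw0 : w ≠ 0 := fun e => by
        have := hf.wv
        simp [e] at this
      have hxx : gB (G4 δ) (-c • x) (-c • x) ≠ 0 := by
        simp [map_smul, LinearMap.smul_apply, hf.xx, hc, hδ0]
      have huM : u ∈ M := hO.mem (Subgroup.subset_closure (Or.inl ⟨_, fun _ _ => rfl⟩))
        (hsiteU u ⟨i, w, _, hw0, hf.ww, hwy, hxx, hu⟩)
      obtain ⟨g, hgM, eg⟩ := hC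
      have hsC : ∀ Y Z, pat δ i w (Finset.cons j S hjS) Y * pat δ i w (Finset.cons j S hjS) Z = 0 :=
        pat_mul_zero hK hj (Finset.mem_cons_self j S) (Finset.mem_cons_self j S)
      obtain ⟨g', hg'M, eg'⟩ := (Has.inv ⟨g, hgM, eg⟩ (hsC _ _) :
        Has M (-pat δ i w (Finset.cons j S hjS) (nn (G4 δ) w v)))
      refine ⟨u * g * u⁻¹ * g', M.mul_mem (M.mul_mem (M.mul_mem huM hgM) (M.inv_mem huM)) hg'M, ?_⟩
      have hinv : site i (1 + sieM (G4 δ) w (-c • x)) * site i (1 + sieM (G4 δ) w (c • x)) =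
          (1 : MV F t) := by rw [site_mul, e1, site_one]
      rw [Units.val_mul, Units.val_mul, Units.val_mul, eg, eg', hu, hu', hN, ← hf.move h2 c, pat_sub,
        ← site_mul_pat, mul_add (site i _) 1, mul_one, add_mul (site i _) (_ * _), hinv]
      set C := pat δ i w (Finset.cons j S hjS) (nn (G4 δ) w v) with hCdef
      set C' := site i (1 + sieM (G4 δ) w (-c • x)) * C * site i (1 + sieM (G4 δ) w (c • x)) with hC'
      have hC'C : C' * C = 0 := by rw [hC', hCdef, site_mul_pat]; exact hsC _ _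
      calc (1 + C') * (1 + -C) = 1 + (C' - C) - C' * C := by noncomm_ring
        _ = 1 + (C' - C) := by rw [hC'C, sub_zero]
  -- the root element
  haveI : Nontrivial (Fin t) := Fin.nontrivial_iff_two_le.2 ht
  obtain ⟨j, hj⟩ := exists_ne i
  obtain ⟨g, hg, eg⟩ := key (Finset.univ.erase i) ⟨j, by simp [hj]⟩ (by simp) 1
  refine ⟨g, hg, i, w, x, fun e => ?_, hf.ww, hf.wx, by rw [hf.xx]; exact hδ0, ?_⟩
  · have := hf.wv
    simp [e] at this
  · rw [eg, one_smul, hN]
    congr 1
    have e : pat δ i w (Finset.univ.erase i) (nn (G4 δ) x w) =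
        pureMat (Function.update (fun l : Fin t => cr (G4 δ) w w) i (nn (G4 δ) x w)) := by
      rw [pat]
      congr 1
      funext l
      by_cases hl : l = i
      · subst hl; simp
      · simp [hl]
    rw [e, OrthWreathBig.pureMat_cr_nn, Function.update_eq_self, skV]

end PairLift

open PairLift

/-- **Members acting at two sites.** -/
theorem pairs_or_root_of [Finite F] {δ : F} {M : Subgroup (GV F t)} (ht : 3 ≤ t) (hO : Over δ M)
    (hD : Dicho F δ 2)
    (hsq : ∀ g : GV F 2, IsoV δ (g : MV F 2) → g * g ∈ Om δ 2)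
    (hsiteU2 : ∀ g : GV F 2, IsSiteU δ (g : MV F 2) → g ∈ Om δ 2)
    (hsiteU : ∀ g : GV F t, IsSiteU δ (g : MV F t) → g ∈ Om δ t)
    (hperm : ∀ π : Equiv.Perm (Fin t), (glFactorPerm 4 π : GV F t) ∈ Om δ t)
    (hrec : ∀ g : GV F 2, IsoV δ (g : MV F 2) →
      (∀ u : GV F 2, IsSiteU δ (u : MV F 2) → g * u * g⁻¹ ∈ Wr F 2) → g ∈ Wr F 2) :
    PairsLe M ∨ PureRoot δ M := by
  classical
  have h2 := hO.two
  have hov : ∀ i j (hij : i ≠ j), Over δ (M.comap (liftGL hij) ⊓ Om δ 2) := fun i j hij =>
    { two := h2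
      nsq := hO.nsq
      ge := fun g hg =>
        ⟨hO.mem (liftGL_mem_Wr hij hg.1) (liftGL_mem_Om hij h2 hO.nsq hg.2), hg.2⟩
      le := inf_le_right }
  by_cases hall : ∀ i j (hij : i ≠ j), M.comap (liftGL hij) ⊓ Om δ 2 ≤ Wr F 2
  · refine Or.inl fun i j hij g hg hX => ?_
    obtain ⟨X, eX⟩ := hX
    have hiso : IsoV δ X := by
      have := hO.isoV hg
      rw [eX] at this
      exact (isoV_lift_iff hij hO.nsq X).1 this
    have hdet : IsUnit X.det := by
      have hG : IsUnit (gV (G4 δ) 2).det := by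
        rw [gV_diag, Matrix.det_diagonal, isUnit_iff_ne_zero]
        exact Finset.prod_ne_zero_iff.2 fun a _ =>
          Finset.prod_ne_zero_iff.2 fun l _ => wt_ne_zero hO.nsq _
      have e := congrArg Matrix.det hiso
      rw [Matrix.det_mul, Matrix.det_mul, Matrix.det_transpose] at e
      rw [isUnit_iff_ne_zero] at hG ⊢
      intro h0
      rw [h0, mul_zero] at e
      exact hG e.symm
    let Xu : GV F 2 := Matrix.nonsingInvUnit X hdet
    have hXu : (Xu : MV F 2) = X := rfl
    have eg : liftGL hij Xu = g := Units.ext (by rw [coe_liftGL, hXu, eX])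
    rw [← eg] at hg ⊢
    refine liftGL_mem_Wr hij (hrec Xu (by rw [hXu]; exact hiso) fun u hu => hall i j hij ⟨?_, ?_⟩)
    · show liftGL hij (Xu * u * Xu⁻¹) ∈ M
      have huW : u ∈ Wr F 2 := by
        obtain ⟨l, w, x, -, -, -, -, e⟩ := hu
        have hdu : IsUnit (u : MV F 2).det := (Matrix.isUnit_iff_isUnit_det _).1 u.isUnit
        have hd : (1 + sieM (G4 δ) w x).det ≠ 0 := by
          intro h0
          obtain ⟨z, hz, hz0⟩ := Matrix.exists_mulVec_eq_zero_iff.2 h0
          have hne : pureVec (fun _ : Fin 2 => z) ≠ 0 := by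
            obtain ⟨a, ha⟩ := Function.ne_iff.1 hz
            refine Function.ne_iff.2 ⟨fun _ => a, ?_⟩
            simpa [pureVec] using ha
          refine hdu.ne_zero (Matrix.exists_mulVec_eq_zero_iff.1 ⟨_, hne, ?_⟩)
          rw [e, site_mulVec, hz0]
          ext a
          exact Finset.prod_eq_zero (Finset.mem_univ l) (by simp)
        refine Subgroup.subset_closure (Or.inl ⟨Function.update (fun _ => 1) l
          (Matrix.nonsingInvUnit _ (isUnit_iff_ne_zero.2 hd)), fun a b => ?_⟩)
        rw [e, site, pureMat]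
        refine Finset.prod_congr rfl fun m _ => ?_
        by_cases hm : m = l
        · subst hm; simp [Matrix.nonsingInvUnit]
        · simp [hm]
      rw [map_mul, map_mul, map_inv]
      exact M.mul_mem (M.mul_mem hg
        (hO.mem (liftGL_mem_Wr hij huW) (liftGL_mem_Om hij h2 hO.nsq (hsiteU2 u hu)))) (M.inv_mem hg)
    · exact conj_mem_Om ((mem_Iso h2).2 (by rw [hXu]; exact hiso)) (hsiteU2 u hu)
  · push Not at hall
    obtain ⟨i₀, j₀, hij₀, hnle⟩ := hall
    have hfull := (hD _ (hov i₀ j₀ hij₀)).resolve_left hnle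
    refine Or.inr (pureRoot_of_pairs hO (by omega) hsq hsiteU i₀ fun j hij g hg => ?_)
    have hg0 : liftGL hij₀ g ∈ M := by
      have : g ∈ M.comap (liftGL hij₀) ⊓ Om δ 2 := by rw [hfull]; exact hg
      exact this.1
    have hπM : ∀ π : Equiv.Perm (Fin t), (glFactorPerm 4 π : GV F t) ∈ M := fun π =>
      hO.mem (Subgroup.subset_closure (Or.inr ⟨π, fun _ _ => rfl⟩)) (hperm π)
    set π := Equiv.swap j₀ j with hπ
    have e : (glFactorPerm 4 π : GV F t) * liftGL hij₀ g * (glFactorPerm 4 π)⁻¹ = liftGL hij g := by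
      rw [mul_inv_eq_iff_eq_mul]
      refine Units.ext (Matrix.ext fun a b => ?_)
      show ((factorPerm 4 π : MV F t) * liftPair i₀ j₀ (g : MV F 2)) a b =
        ((liftPair i₀ j (g : MV F 2) : MV F t) * (factorPerm 4 π : MV F t)) a b
      simp only [Matrix.mul_apply, factorPerm, ite_mul, mul_ite, one_mul, mul_one, zero_mul, mul_zero]
      rw [Finset.sum_eq_single (a ∘ π) (fun c _ hc => by simp [hc]) (by simp), if_pos rfl,
        Finset.sum_eq_single (b ∘ π) (fun c _ hc => by
          rw [if_neg]; rintro rfl; exact hc (funext fun l => by simp [hπ])) (by simp),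
        if_pos (funext fun l => by simp [hπ])]
      have hi : π i₀ = i₀ := Equiv.swap_apply_of_ne_of_ne hij₀ hij
      have hj : π j = j₀ := Equiv.swap_apply_right _ _
      have hj₀ : π j₀ = j := Equiv.swap_apply_left _ _
      have hππ : ∀ l, π (π l) = l := fun l => Equiv.swap_apply_self _ _ _
      simp only [liftPair, Function.comp_apply, hi, hj, hj₀]
      refine if_congr ⟨fun h l hl1 hl2 => ?_, fun h l hl1 hl2 => ?_⟩ rfl rfl
      · have := h (π l) (fun e => hl1 (by rw [← hππ l, e, hi])) (fun e => hl2 (by rw [← hππ l, e, hj₀]))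
        rwa [hππ] at this
      · have := h (π l) (fun e => hl1 (by rw [← hππ l, e, hi])) (fun e => hl2 (by rw [← hππ l, e, hj]))
        rw [hππ] at this
        exact this
    rw [← e]
    exact M.mul_mem (M.mul_mem (hπM π) hg0) (M.inv_mem (hπM π))

/-- Members acting at two sites, given that the site root elements detect monomial elements. -/
theorem pairs_or_root [Finite F] {δ : F} {M : Subgroup (GV F t)} (ht : 3 ≤ t) (hO : Over δ M)
    (hD : Dicho F δ 2)
    (hrec : ∀ g : GV F 2, IsoV δ (g : MV F 2) →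
      (∀ u : GV F 2, IsSiteU δ (u : MV F 2) → g * u * g⁻¹ ∈ Wr F 2) → g ∈ Wr F 2) :
    PairsLe M ∨ PureRoot δ M :=
  pairs_or_root_of ht hO hD (fun _ hg => mul_self_mem_Om hO.two hO.nsq hg)
    (fun _ hg => siteU_mem_Om hO.two hO.nsq hg) (fun _ hg => siteU_mem_Om hO.two hO.nsq hg)
    (fun π => perm_mem_Om hO.two hO.nsq ht π) hrec

end Cfsg.Agent.MaxSub.OrthFour
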