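import Cfsg.Agent.MaxSub.OrthFour.Omega
import Cfsg.Agent.MaxSub.OrthFour.EGen

/-!
Two sites of an orthogonal space of dimension four and minus type: the centraliser of a product of
two site reflections is monomial once the centralisers of root elements and of half turns are.
-/

set_option autoImplicit false
set_option linter.unusedSectionVars false
set_option linter.unusedSimpArgs false
set_option linter.style.haveILetI false
set_option linter.unusedTactic false
set_option linter.unreachableTactic false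

namespace Cfsg.Agent.MaxSub.OrthFour.PRTwo

open Matrix Cfsg.Geo Cfsg.Agent.NotMax Cfsg.Agent.GeoClasses
open Cfsg.Agent.MaxSub.TensorPowSp (gV)
open Cfsg.Agent.MaxSub.OrthWreathBig (gB cr sieM cr_mul cr_mulVec)
open Cfsg.Agent.MaxSub.OrthTensor (sie sie_apply)
open scoped MatrixGroups Matrix

variable {F : Type*} [Field F] {δ : F} {i j : Fin 2}

/-! ### Vectors of two sites -/

lemma fin2_cases (hij : i ≠ j) (l : Fin 2) : l = i ∨ l = j := by omega

lemma fin2_succ (hij : i ≠ j) : i + 1 = j := by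
  revert hij; revert i j; decide

/-- The tensor of a vector at the site `i` and a vector at the other site. -/
def pv (i : Fin 2) (a b : Fin 4 → F) : Vec F 2 := fun z => a (z i) * b (z (i + 1))

lemma pv_eq (i : Fin 2) (a b : Fin 4 → F) :
    pv i a b = pureVec (Function.update (fun _ => b) i a) := by
  funext z
  fin_cases i <;> simp [pv, pureVec, Fin.prod_univ_two, mul_comm]

lemma pureVec_eq_pv (i : Fin 2) (f : Fin 2 → Fin 4 → F) : pureVec f = pv i (f i) (f (i + 1)) := by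
  funext z
  fin_cases i <;> simp [pv, pureVec, Fin.prod_univ_two, mul_comm]

lemma pv_swap (hij : i ≠ j) (a b : Fin 4 → F) : pv i a b = pv j b a := by
  funext z
  simp only [pv, fin2_succ hij, fin2_succ hij.symm, mul_comm]

lemma pv_add_left (i : Fin 2) (a a' b : Fin 4 → F) : pv i (a + a') b = pv i a b + pv i a' b := by
  funext z; simp [pv, add_mul]

lemma pv_add_right (i : Fin 2) (a b b' : Fin 4 → F) : pv i a (b + b') = pv i a b + pv i a b' := by
  funext z; simp [pv, mul_add]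

lemma pv_smul_left (i : Fin 2) (s : F) (a b : Fin 4 → F) : pv i (s • a) b = s • pv i a b := by
  funext z; simp [pv, mul_assoc]

lemma pv_smul_right (i : Fin 2) (s : F) (a b : Fin 4 → F) : pv i a (s • b) = s • pv i a b := by
  funext z; simp [pv, mul_left_comm]

lemma pv_neg_left (i : Fin 2) (a b : Fin 4 → F) : pv i (-a) b = -pv i a b := by
  funext z; simp [pv]

lemma pv_neg_right (i : Fin 2) (a b : Fin 4 → F) : pv i a (-b) = -pv i a b := by
  funext z; simp [pv]

@[simp] lemma pv_zero_left (i : Fin 2) (b : Fin 4 → F) : pv i 0 b = 0 := by funext z; simp [pv]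

@[simp] lemma pv_zero_right (i : Fin 2) (a : Fin 4 → F) : pv i a 0 = 0 := by funext z; simp [pv]

lemma site_pv (i : Fin 2) (A : M4 F) (a b : Fin 4 → F) :
    site i A *ᵥ pv i a b = pv i (A *ᵥ a) b := by
  rw [pv_eq, pv_eq, site_mulVec, Function.update_self, Function.update_idem]

lemma site_pv' (hij : i ≠ j) (A : M4 F) (a b : Fin 4 → F) :
    site j A *ᵥ pv i a b = pv i a (A *ᵥ b) := by
  rw [pv_swap hij, site_pv, ← pv_swap hij]

lemma pair_pv (hij : i ≠ j) (A B : M4 F) (a b : Fin 4 → F) :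
    (site i A * site j B) *ᵥ pv i a b = pv i (A *ᵥ a) (B *ᵥ b) := by
  rw [← mulVec_mulVec, site_pv' hij, site_pv]

lemma single_pv (i : Fin 2) (z : Fin 2 → Fin 4) :
    (Pi.single z (1 : F) : Vec F 2) = pv i (Pi.single (z i) 1) (Pi.single (z (i + 1)) 1) := by
  rw [single_eq_pureVec, pureVec_eq_pv i]

lemma pv_ext (i : Fin 2) {A B : MV F 2} (h : ∀ a b, A *ᵥ pv i a b = B *ᵥ pv i a b) : A = B := by
  refine Matrix.ext fun x z => ?_
  have := congrFun (h (Pi.single (z i) 1) (Pi.single (z (i + 1)) 1)) x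
  rwa [← single_pv, mulVec_single_one, mulVec_single_one] at this

/-- The bilinear form of two sites. -/
noncomputable def bV (δ : F) : Vec F 2 →ₗ[F] Vec F 2 →ₗ[F] F :=
  Matrix.toLinearMap₂' F (gV (G4 δ) 2)

lemma bV_apply (x z : Vec F 2) : bV δ x z = x ⬝ᵥ gV (G4 δ) 2 *ᵥ z :=
  Matrix.toLinearMap₂'_apply' _ _ _

lemma bV_symm (x z : Vec F 2) : bV δ x z = bV δ z x := by
  simp only [bV_apply, gV_diag, dotProduct, mulVec_diagonal]
  exact Finset.sum_congr rfl fun a _ => by ring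

lemma gB_eq_dot (a b : Fin 4 → F) : gB (G4 δ) a b = a ⬝ᵥ G4 δ *ᵥ b := by
  rw [OrthWreathBig.gB_apply, TensorPowSp.fG, ← dotProduct_mulVec]

lemma bV_pv (i : Fin 2) (a b a' b' : Fin 4 → F) :
    bV δ (pv i a b) (pv i a' b') = gB (G4 δ) a a' * gB (G4 δ) b b' := by
  rw [bV_apply, pv_eq, pv_eq, gV, pureMat_mulVec, TensorPowSp.dotProduct_pureVec, Fin.prod_univ_two,
    gB_eq_dot, gB_eq_dot]
  fin_cases i <;> simp [mul_comm]

lemma bV_pv' (hij : i ≠ j) (a b a' b' : Fin 4 → F) :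
    bV δ (pv i a b) (pv j a' b') = gB (G4 δ) a b' * gB (G4 δ) b a' := by
  rw [pv_swap hij.symm, bV_pv]

lemma bV_ext (hd : ¬ IsSquare δ) (i : Fin 2) {x x' : Vec F 2}
    (h : ∀ a b, bV δ x (pv i a b) = bV δ x' (pv i a b)) : x = x' := by
  funext z
  have := h (Pi.single (z i) 1) (Pi.single (z (i + 1)) 1)
  simp only [← single_pv, bV_apply, gV_diag, dotProduct, mulVec_diagonal] at this
  rw [Finset.sum_eq_single z (fun b _ hb => by simp [hb]) (by simp),
    Finset.sum_eq_single z (fun b _ hb => by simp [hb]) (by simp), Pi.single_eq_same, mul_one] at this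
  exact mul_right_cancel₀ (Finset.prod_ne_zero_iff.2 fun l _ => wt_ne_zero hd _) this

lemma bV_iso {A : MV F 2} (hA : IsoV δ A) (x z : Vec F 2) :
    bV δ (A *ᵥ x) (A *ᵥ z) = bV δ x z := by
  rw [bV_apply, bV_apply, mulVec_mulVec, ← vecMul_transpose, ← dotProduct_mulVec, mulVec_mulVec,
    ← mul_assoc, hA]

/-- A pure vector has vanishing minors. -/
lemma minor {X : Vec F 2} (hX : ∃ a b, X = pv i a b) (p q p' q' : Fin 4 → F) :
    bV δ X (pv i p q) * bV δ X (pv i p' q') = bV δ X (pv i p q') * bV δ X (pv i p' q) := by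
  obtain ⟨a, b, rfl⟩ := hX
  simp only [bV_pv]
  ring

/-! ### Vectors of one site -/

lemma gB_nd (hd : ¬ IsSquare δ) {μ : Fin 4 → F} (h : ∀ p, gB (G4 δ) μ p = 0) : μ = 0 := by
  by_contra hμ
  obtain ⟨z, hz⟩ := exists_gB_ne_zero hd hμ
  rw [h] at hz
  exact zero_ne_one hz

lemma perp_part {r : Fin 4 → F} (hr : gB (G4 δ) r r ≠ 0) (a : Fin 4 → F) :
    ∃ (s : F) (μ : Fin 4 → F), gB (G4 δ) r μ = 0 ∧ a = s • r + μ :=
  ⟨gB (G4 δ) r a / gB (G4 δ) r r, a - (gB (G4 δ) r a / gB (G4 δ) r r) • r, by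
    rw [map_sub, map_smul, smul_eq_mul, div_mul_cancel₀ _ hr, sub_self], by abel⟩

/-- A vector pairing to one with a given vector perpendicular to `r`, itself perpendicular. -/
lemma perp_dual (hd : ¬ IsSquare δ) {r μ : Fin 4 → F} (hr : gB (G4 δ) r r ≠ 0)
    (hμ : gB (G4 δ) r μ = 0) (hμ0 : μ ≠ 0) :
    ∃ p, gB (G4 δ) r p = 0 ∧ gB (G4 δ) μ p = 1 := by
  obtain ⟨z, hz⟩ := exists_gB_ne_zero hd hμ0
  obtain ⟨s, p, hp, rfl⟩ := perp_part hr z
  refine ⟨p, hp, ?_⟩
  rwa [map_add, map_smul, gB_symm δ μ r, hμ, smul_zero, zero_add] at hz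

lemma exists_perp (h2 : (2 : F) ≠ 0) (hd : ¬ IsSquare δ) {n : ℕ} (v : Fin n → Fin 4 → F)
    (hn : n < 4) (hv : ∀ a, gB (G4 δ) (v a) (v a) ≠ 0)
    (ho : ∀ a b, a ≠ b → gB (G4 δ) (v a) (v b) = 0) :
    ∃ d, gB (G4 δ) d d ≠ 0 ∧ ∀ a, gB (G4 δ) (v a) d = 0 := by
  let L : (Fin 4 → F) →ₗ[F] (Fin n → F) := LinearMap.pi fun a => gB (G4 δ) (v a)
  have hker : LinearMap.ker L ≠ ⊥ := LinearMap.ker_ne_bot_of_finrank_lt (by simpa using hn)
  obtain ⟨d, hd', hd0⟩ := Submodule.exists_mem_ne_zero_of_ne_bot hker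
  by_contra hall
  push Not at hall
  have hzero : ∀ e ∈ LinearMap.ker L, gB (G4 δ) e e = 0 := by
    intro e he
    by_contra hne
    obtain ⟨a, ha⟩ := hall e hne
    exact ha (congrFun (LinearMap.mem_ker.1 he) a)
  refine hd0 (gB_nd hd fun x => ?_)
  let x' := x - ∑ a, (gB (G4 δ) (v a) x / gB (G4 δ) (v a) (v a)) • v a
  have hx' : x' ∈ LinearMap.ker L := by
    rw [LinearMap.mem_ker]
    funext b
    show gB (G4 δ) (v b) x' = 0
    rw [map_sub, map_sum, Finset.sum_eq_single b (fun a _ hab => by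
      rw [map_smul, ho b a hab.symm, smul_zero]) (by simp), map_smul, smul_eq_mul,
      div_mul_cancel₀ _ (hv b), sub_self]
  have hdv : ∀ a, gB (G4 δ) d (v a) = 0 := fun a => by
    rw [gB_symm]; exact congrFun (LinearMap.mem_ker.1 hd') a
  have hdx : gB (G4 δ) d x = gB (G4 δ) d x' := by
    simp only [x', map_sub, map_sum, map_smul, hdv, smul_zero, Finset.sum_const_zero, sub_zero]
  have h1 := hzero _ (add_mem hd' hx')
  simp only [map_add, LinearMap.add_apply, hzero d hd', hzero x' hx', gB_symm δ x' d, zero_add,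
    add_zero, ← two_mul] at h1
  rw [hdx]
  exact (mul_eq_zero.1 h1).resolve_left h2

/-- Vectors perpendicular to three members of a frame lie on the line of a fourth one. -/
lemma perp_three (h2 : (2 : F) ≠ 0) (hd : ¬ IsSquare δ) {a b c d : Fin 4 → F}
    (haa : gB (G4 δ) a a ≠ 0) (hbb : gB (G4 δ) b b ≠ 0) (hcc : gB (G4 δ) c c ≠ 0)
    (hdd : gB (G4 δ) d d ≠ 0) (hab : gB (G4 δ) a b = 0) (hac : gB (G4 δ) a c = 0)
    (hbc : gB (G4 δ) b c = 0) (had : gB (G4 δ) a d = 0) (hbd : gB (G4 δ) b d = 0)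
    (hcd : gB (G4 δ) c d = 0) {x : Fin 4 → F} (ha : gB (G4 δ) a x = 0) (hb : gB (G4 δ) b x = 0)
    (hc : gB (G4 δ) c x = 0) : x = (gB (G4 δ) d x / gB (G4 δ) d d) • d := by
  let f : Fin 4 → Fin 4 → F := ![a, b, c, d]
  let P : M4 F := Matrix.of f
  have hP : P * G4 δ * Pᵀ = Matrix.diagonal fun k => gB (G4 δ) (f k) (f k) := by
    ext k l
    have e : (P * G4 δ * Pᵀ) k l = gB (G4 δ) (f k) (f l) := by
      rw [OrthWreathBig.gB_apply, TensorPowSp.fG]
      simp [P, Matrix.mul_apply, Matrix.vecMul, dotProduct, Finset.sum_mul]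
    rw [e]
    fin_cases k <;> fin_cases l <;>
      simp [f, hab, hac, hbc, had, hbd, hcd, gB_symm δ b a, gB_symm δ c a, gB_symm δ c b,
        gB_symm δ d a, gB_symm δ d b, gB_symm δ d c]
  have hdet : IsUnit (P * G4 δ).det := by
    have := congrArg Matrix.det hP
    rw [det_mul, det_transpose, det_diagonal, Fin.prod_univ_four] at this
    refine isUnit_iff_ne_zero.2 fun h0 => ?_
    rw [h0, zero_mul] at this
    simp [f, haa, hbb, hcc, hdd] at this
  have key : ∀ u : Fin 4 → F, (P * G4 δ) *ᵥ u = fun k => gB (G4 δ) (f k) u := fun u => by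
    funext k
    rw [← mulVec_mulVec, gB_eq_dot]
    rfl
  refine Matrix.mulVec_injective_of_isUnit ((Matrix.isUnit_iff_isUnit_det _).2 hdet) ?_
  rw [key, key]
  funext k
  rw [map_smul, smul_eq_mul]
  fin_cases k <;> simp [f, ha, hb, hc, had, hbd, hcd, hdd]

lemma isoW_of_gB {A : M4 F} (h : ∀ u v, gB (G4 δ) (A *ᵥ u) (A *ᵥ v) = gB (G4 δ) u v) :
    IsoW δ A := by
  refine Matrix.ext fun p q => ?_
  have h := h (Pi.single p 1) (Pi.single q 1)
  simp only [gB_eq_dot] at h
  rw [mulVec_mulVec, ← vecMul_transpose, ← dotProduct_mulVec, mulVec_mulVec, ← mul_assoc] at h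
  simpa [mulVec_single_one, single_dotProduct] using h

lemma isoW_one : IsoW δ (1 : M4 F) := by simp [IsoW]

lemma isoW_mul {A B : M4 F} (hA : IsoW δ A) (hB : IsoW δ B) : IsoW δ (A * B) :=
  isoW_of_gB fun u v => by rw [← mulVec_mulVec, ← mulVec_mulVec, hA.gB_eq, hB.gB_eq]

lemma reflW_fix {r x : Fin 4 → F} (h : gB (G4 δ) r x = 0) : reflW δ r *ᵥ x = x := by
  simp [reflW_mulVec, h]

lemma reflW_self {r : Fin 4 → F} (hr : gB (G4 δ) r r ≠ 0) : reflW δ r *ᵥ r = -r := by
  rw [reflW_mulVec]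
  field_simp
  module

lemma reflW_iso {r : Fin 4 → F} (hr : gB (G4 δ) r r ≠ 0) : IsoW δ (reflW δ r) :=
  isoW_of_gB fun u v => by
    simp only [reflW_mulVec, map_sub, map_smul, LinearMap.sub_apply, LinearMap.smul_apply,
      smul_eq_mul, gB_symm δ u r]
    field_simp
    ring

lemma reflW_sq {r : Fin 4 → F} (hr : gB (G4 δ) r r ≠ 0) : reflW δ r * reflW δ r = 1 := by
  simp only [reflW, sub_mul, mul_sub, one_mul, mul_one, smul_mul_assoc, mul_smul_comm, cr_mul]
  match_scalars <;> field_simp <;> ring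

lemma reflW_comm {r s : Fin 4 → F} (h : gB (G4 δ) r s = 0) :
    reflW δ r * reflW δ s = reflW δ s * reflW δ r := by
  simp only [reflW, sub_mul, mul_sub, one_mul, mul_one, smul_mul_assoc, mul_smul_comm, cr_mul, h,
    gB_symm δ s r, zero_smul, smul_zero]
  abel

lemma sieM_mulVec' (w x μ : Fin 4 → F) : (1 + sieM (G4 δ) w x) *ᵥ μ =
    μ + (gB (G4 δ) w μ • x - gB (G4 δ) x μ • w
      - (gB (G4 δ) x x / 2 * gB (G4 δ) w μ) • w) := by
  simp only [add_mulVec, one_mulVec, sieM, sub_mulVec, smul_mulVec, cr_mulVec, smul_smul]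

/-- A root element of one site is a product of two reflections. -/
lemma sieM_refl (h2 : (2 : F) ≠ 0) {w x : Fin 4 → F} (hww : gB (G4 δ) w w = 0)
    (hwx : gB (G4 δ) w x = 0) (hx : gB (G4 δ) x x ≠ 0) :
    gB (G4 δ) (x - (gB (G4 δ) x x / 2) • w) (x - (gB (G4 δ) x x / 2) • w) ≠ 0 ∧
      1 + sieM (G4 δ) w x = reflW δ (x - (gB (G4 δ) x x / 2) • w) * reflW δ x := by
  set x' := x - (gB (G4 δ) x x / 2) • w with hx'
  have hxw : gB (G4 δ) x w = 0 := by rw [gB_symm, hwx]
  have hQ : gB (G4 δ) x' x' = gB (G4 δ) x x := by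
    simp [hx', hww, hwx, hxw]
  refine ⟨by rwa [hQ], Matrix.ext_iff_mulVec.2 fun μ => ?_⟩
  rw [sieM_mulVec', ← mulVec_mulVec, reflW_mulVec, reflW_mulVec, hQ]
  simp only [hx', map_sub, map_smul, LinearMap.sub_apply, LinearMap.smul_apply, smul_eq_mul, hwx]
  match_scalars <;> field_simp <;> ring

lemma sieM_isoW (h2 : (2 : F) ≠ 0) {w x : Fin 4 → F} (hww : gB (G4 δ) w w = 0)
    (hwx : gB (G4 δ) w x = 0) (hx : gB (G4 δ) x x ≠ 0) :
    IsoW δ (1 + sieM (G4 δ) w x) ∧ (1 + sieM (G4 δ) w x).det = 1 := by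
  obtain ⟨h1, h3⟩ := sieM_refl h2 hww hwx hx
  rw [h3, det_mul, det_reflW h1, det_reflW hx]
  exact ⟨isoW_mul (reflW_iso h1) (reflW_iso hx), by ring⟩

lemma sieM_comm_reflW {r w x : Fin 4 → F} (hrw : gB (G4 δ) r w = 0) (hrx : gB (G4 δ) r x = 0) :
    Commute (1 + sieM (G4 δ) w x) (reflW δ r) := by
  refine (Commute.one_left _).add_left ((Commute.one_right _).sub_right ?_)
  refine Commute.smul_right ?_ _
  simp only [Commute, SemiconjBy, sieM, sub_mul, mul_sub, smul_mul_assoc, mul_smul_comm, cr_mul, hrw,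
    hrx, gB_symm δ w r, gB_symm δ x r, zero_smul, smul_zero]

lemma trace_cr (a b : Fin 4 → F) : (cr (G4 δ) a b).trace = gB (G4 δ) b a := by
  rw [cr, trace_vecMulVec, dotProduct_comm, OrthWreathBig.gB_apply, TensorPowSp.fG]

lemma trace_reflW {r : Fin 4 → F} (hr : gB (G4 δ) r r ≠ 0) : (reflW δ r).trace = 2 := by
  rw [reflW, trace_sub, trace_one, trace_smul, trace_cr, smul_eq_mul, div_mul_cancel₀ _ hr]
  norm_num

lemma trace_refl_two {a b : Fin 4 → F} (ha : gB (G4 δ) a a ≠ 0) (hb : gB (G4 δ) b b ≠ 0)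
    (hab : gB (G4 δ) a b = 0) : (reflW δ a * reflW δ b).trace = 0 := by
  simp only [reflW, sub_mul, mul_sub, one_mul, mul_one, smul_mul_assoc, mul_smul_comm, cr_mul, hab,
    zero_smul, smul_zero, trace_sub, trace_one, trace_smul, trace_cr, trace_zero, smul_eq_mul,
    div_mul_cancel₀ _ ha, div_mul_cancel₀ _ hb]
  norm_num

lemma trace_refl_three {r a b : Fin 4 → F} (hr : gB (G4 δ) r r ≠ 0) (ha : gB (G4 δ) a a ≠ 0)
    (hb : gB (G4 δ) b b ≠ 0) (hra : gB (G4 δ) r a = 0) (hrb : gB (G4 δ) r b = 0)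
    (hab : gB (G4 δ) a b = 0) : (reflW δ r * (reflW δ a * reflW δ b)).trace = -2 := by
  simp only [reflW, sub_mul, mul_sub, one_mul, mul_one, smul_mul_assoc, mul_smul_comm, cr_mul, hab,
    hra, hrb, zero_smul, smul_zero, trace_sub, trace_one, trace_smul, trace_cr, trace_zero,
    smul_eq_mul, div_mul_cancel₀ _ ha, div_mul_cancel₀ _ hb, div_mul_cancel₀ _ hr]
  norm_num

lemma trace_pair (hij : i ≠ j) (A B : M4 F) :
    (site i A * site j B).trace = A.trace * B.trace := by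
  rw [site, site, pureMat_mul, Matrix.trace]
  simp only [diag_apply, pureMat]
  rw [← Fintype.prod_sum fun l (c : Fin 4) =>
    (Function.update (1 : Fin 2 → M4 F) i A l * Function.update (1 : Fin 2 → M4 F) j B l) c c]
  have e : (Finset.univ : Finset (Fin 2)) = {i, j} := by
    ext l; simpa using fin2_cases hij l
  rw [e, Finset.prod_pair hij]
  simp [hij, hij.symm, Matrix.trace]

/-- An element of the monomial subgroup of `Ω` with given isometries at the two sites. -/
lemma exists_pair [Finite F] (h2 : (2 : F) ≠ 0) (hd : ¬ IsSquare δ) (hij : i ≠ j) {A B : M4 F}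
    (hA : IsoW δ A) (hB : IsoW δ B) (hdet : A.det = B.det) :
    ∃ g : GV F 2, g ∈ Wr F 2 ⊓ Om δ 2 ∧ (g : MV F 2) = site i A * site j B := by
  let a : GL (Fin 4) F := Matrix.GeneralLinearGroup.mkOfDetNeZero A (hA.sim.det_ne hd)
  let b : GL (Fin 4) F := Matrix.GeneralLinearGroup.mkOfDetNeZero B (hB.sim.det_ne hd)
  let cs : Fin 2 → GL (Fin 4) F := Function.update (fun _ => b) i a
  have hval : ∀ k l : Fin 2, k ≠ l → ((glPure cs : GV F 2) : MV F 2) =
      site k (cs k : M4 F) * site l (cs l : M4 F) := by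
    intro k l hkl
    show pureMat (fun m => (cs m : M4 F)) = _
    rw [site, site, pureMat_mul]
    congr 1
    funext m
    rcases fin2_cases hkl m with rfl | rfl <;> simp [hkl, hkl.symm]
  refine ⟨glPure cs, ⟨Subgroup.subset_closure (Or.inl ⟨cs, fun x y => rfl⟩), ?_⟩, ?_⟩
  · have hiso : ∀ l, IsoW δ (cs l : M4 F) := fun l => by
      rcases fin2_cases hij l with rfl | rfl <;> simp [cs, a, b, hij.symm, hA, hB]
    refine (pair_mem_Om_iff h2 hd (hiso 0) (hiso 1) (hval 0 1 (by decide))).2 ?_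
    have hl : ∀ l, (cs l : M4 F).det = B.det := fun l => by
      rcases fin2_cases hij l with rfl | rfl <;> simp [cs, a, b, hij.symm, hdet]
    rw [hl, hl]
  · rw [hval i j hij]
    simp [cs, a, b, hij.symm]

/-- Monomial elements send pure vectors to pure vectors. -/
lemma pure_of_mem_Wr {g : GV F 2} (hg : g ∈ Wr F 2) (i : Fin 2) (a b : Fin 4 → F) :
    ∃ a' b', (g : MV F 2) *ᵥ pv i a b = pv i a' b' := by
  suffices h : ∀ f, ∃ f', (g : MV F 2) *ᵥ pureVec f = pureVec f' by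
    obtain ⟨f', hf⟩ := h (Function.update (fun _ => b) i a)
    exact ⟨f' i, f' (i + 1), by rw [pv_eq, hf, pureVec_eq_pv i]⟩
  have hperm : ∀ (σ : Equiv.Perm (Fin 2)) (f : Fin 2 → Fin 4 → F),
      (factorPerm 4 σ : MV F 2) *ᵥ pureVec f = pureVec fun l => f (σ.symm l) := by
    intro σ f
    funext x
    simp only [mulVec, dotProduct, factorPerm, ite_mul, one_mul, zero_mul, Finset.sum_ite_eq',
      Finset.mem_univ, if_true, pureVec, Function.comp_apply]
    exact Fintype.prod_equiv σ _ _ fun l => by simp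
  suffices h : (∀ f, ∃ f', (g : MV F 2) *ᵥ pureVec f = pureVec f') ∧
      (∀ f, ∃ f', ((g⁻¹ : GV F 2) : MV F 2) *ᵥ pureVec f = pureVec f') from h.1
  induction hg using Subgroup.closure_induction with
  | mem x hx =>
    rcases hx with ⟨cs, h⟩ | ⟨σ, h⟩
    · have e : x = glPure cs := Units.ext (Matrix.ext h)
      subst e
      exact ⟨fun f => ⟨_, pureMat_mulVec (fun l => (cs l : M4 F)) f⟩,
        fun f => ⟨_, pureMat_mulVec (fun l => (((cs l)⁻¹ : GL (Fin 4) F) : M4 F)) f⟩⟩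
    · have e : x = glFactorPerm 4 σ := Units.ext (Matrix.ext h)
      subst e
      exact ⟨fun f => ⟨_, hperm σ f⟩, fun f => ⟨_, hperm σ⁻¹ f⟩⟩
  | one => exact ⟨fun f => ⟨f, by simp⟩, fun f => ⟨f, by simp⟩⟩
  | mul x y _ _ hx hy =>
    refine ⟨fun f => ?_, fun f => ?_⟩
    · obtain ⟨f', h'⟩ := hy.1 f
      obtain ⟨f'', h''⟩ := hx.1 f'
      exact ⟨f'', by rw [Units.val_mul, ← mulVec_mulVec, h', h'']⟩
    · obtain ⟨f', h'⟩ := hx.2 f
      obtain ⟨f'', h''⟩ := hy.2 f'
      exact ⟨f'', by rw [_root_.mul_inv_rev, Units.val_mul, ← mulVec_mulVec, h', h'']⟩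
  | inv x _ hx => exact ⟨hx.2, by rw [inv_inv]; exact hx.1⟩

/-! ### The centraliser of a product of two reflections -/

/-- A product of two reflections in the group. -/
structure Pr [Finite F] (δ : F) (M : Subgroup (GV F 2)) (y : GV F 2) (i j : Fin 2)
    (r r' : Fin 4 → F) : Prop where
  ov : Over δ M
  mem : y ∈ M
  ne : i ≠ j
  hr : gB (G4 δ) r r ≠ 0
  hr' : gB (G4 δ) r' r' ≠ 0
  val : (y : MV F 2) = site i (reflW δ r) * site j (reflW δ r')

/-- The centraliser in the group. -/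
abbrev cen (M : Subgroup (GV F 2)) (y : GV F 2) : Subgroup (GV F 2) :=
  M ⊓ Subgroup.centralizer {y}

lemma mem_cen {M : Subgroup (GV F 2)} {y g : GV F 2} :
    g ∈ cen M y ↔ g ∈ M ∧ (g : MV F 2) * y = y * g := by
  simp only [cen, Subgroup.mem_inf, Subgroup.mem_centralizer_singleton_iff]
  exact and_congr_right fun _ => ⟨fun h => congrArg Units.val h.symm |>.symm, fun h => Units.ext h⟩

/-- The action of an Eichler transformation on the eigenspace. -/
def Acts (δ : F) (y h : GV F 2) (o z : Vec F 2) : Prop :=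
  ∀ x, (y : MV F 2) *ᵥ x = -x → (h : MV F 2) *ᵥ x = x + sie (bV δ) o z x

lemma sie_comp (h2 : (2 : F) ≠ 0) {o z z' : Vec F 2} (ho : bV δ o o = 0) (hz : bV δ o z = 0)
    (hz' : bV δ o z' = 0) (x : Vec F 2) :
    (x + sie (bV δ) o z' x) + sie (bV δ) o z (x + sie (bV δ) o z' x) =
      x + sie (bV δ) o (z + z') x := by
  simp only [sie_apply, map_add, map_sub, map_smul, LinearMap.add_apply, smul_eq_mul, ho, hz, hz',
    bV_symm z o, bV_symm z' o, bV_symm z' z]
  match_scalars <;> field_simp <;> ring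

lemma sie_line (h2 : (2 : F) ≠ 0) {o z : Vec F 2} (ho : bV δ o o = 0) (hz : bV δ o z = 0) (c : F)
    (x : Vec F 2) : sie (bV δ) o (z + c • o) x = sie (bV δ) o z x := by
  simp only [sie_apply, map_add, map_smul, LinearMap.add_apply, LinearMap.smul_apply, smul_eq_mul,
    ho, hz, bV_symm z o]
  module

lemma sie_smul (l : F) (o z x : Vec F 2) : sie (bV δ) (l • o) z x = sie (bV δ) o (l • z) x := by
  simp only [sie_apply, map_smul, LinearMap.smul_apply, smul_eq_mul]
  module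

lemma sie_map {A : MV F 2} (hA : IsoV δ A) (o z x : Vec F 2) :
    A *ᵥ sie (bV δ) o z x = sie (bV δ) (A *ᵥ o) (A *ᵥ z) (A *ᵥ x) := by
  simp only [sie_apply, mulVec_sub, mulVec_smul, bV_iso hA]

section Fix

variable [Finite F] {M : Subgroup (GV F 2)} {y : GV F 2} {r r' : Fin 4 → F}
  (P : Pr δ M y i j r r')
include P

lemma Pr.symm : Pr δ M y j i r' r :=
  ⟨P.ov, P.mem, P.ne.symm, P.hr', P.hr, by rw [P.val, site_comm P.ne]⟩

lemma Pr.iso {g : GV F 2} (hg : g ∈ cen M y) : IsoV δ (g : MV F 2) := P.ov.isoV (mem_cen.1 hg).1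

lemma Pr.pair_mem {A B : M4 F} (hA : IsoW δ A) (hB : IsoW δ B) (hdet : A.det = B.det)
    (hcA : Commute A (reflW δ r)) (hcB : Commute B (reflW δ r')) :
    ∃ g ∈ cen M y, (g : MV F 2) = site i A * site j B := by
  obtain ⟨g, hg, hv⟩ := exists_pair P.ov.two P.ov.nsq P.ne hA hB hdet
  refine ⟨g, mem_cen.2 ⟨P.ov.mem hg.1 hg.2, ?_⟩, hv⟩
  rw [hv, P.val]
  calc site i A * site j B * (site i (reflW δ r) * site j (reflW δ r'))
      = site i A * (site j B * site i (reflW δ r)) * site j (reflW δ r') := by simp only [mul_assoc]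
    _ = site i A * (site i (reflW δ r) * site j B) * site j (reflW δ r') := by rw [site_comm P.ne]
    _ = site i (A * reflW δ r) * site j (B * reflW δ r') := by
        simp only [← site_mul, mul_assoc]
    _ = site i (reflW δ r * A) * site j (reflW δ r' * B) := by rw [hcA.eq, hcB.eq]
    _ = site i (reflW δ r) * (site i A * site j (reflW δ r')) * site j B := by
        simp only [← site_mul, mul_assoc]
    _ = site i (reflW δ r) * (site j (reflW δ r') * site i A) * site j B := by rw [site_comm P.ne]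
    _ = _ := by simp only [mul_assoc]

lemma Pr.y_sq : (y : MV F 2) * y = 1 := by
  rw [P.val]
  calc site i (reflW δ r) * site j (reflW δ r') * (site i (reflW δ r) * site j (reflW δ r'))
      = site i (reflW δ r) * (site j (reflW δ r') * site i (reflW δ r)) * site j (reflW δ r') := by
        simp only [mul_assoc]
    _ = site i (reflW δ r) * (site i (reflW δ r) * site j (reflW δ r')) * site j (reflW δ r') := by
        rw [site_comm P.ne]
    _ = site i (reflW δ r * reflW δ r) * site j (reflW δ r' * reflW δ r') := by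
        simp only [← site_mul, mul_assoc]
    _ = 1 := by rw [reflW_sq P.hr, reflW_sq P.hr', site_one, site_one, one_mul]

lemma Pr.y_pv (s t : F) {μ ν : Fin 4 → F} (hμ : gB (G4 δ) r μ = 0) (hν : gB (G4 δ) r' ν = 0) :
    (y : MV F 2) *ᵥ pv i (s • r + μ) (t • r' + ν) =
      (s * t) • pv i r r' - s • pv i r ν - t • pv i μ r' + pv i μ ν := by
  rw [P.val, pair_pv P.ne, mulVec_add, mulVec_add, mulVec_smul, mulVec_smul, reflW_self P.hr,
    reflW_self P.hr', reflW_fix hμ, reflW_fix hν]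
  simp only [pv_add_left, pv_add_right, pv_smul_left, pv_smul_right, pv_neg_left, pv_neg_right]
  module

lemma Pr.six {μ ν : Fin 4 → F} (hμ : gB (G4 δ) r μ = 0) (hν : gB (G4 δ) r' ν = 0) :
    (y : MV F 2) *ᵥ (pv i μ r' + pv i r ν) = -(pv i μ r' + pv i r ν) := by
  rw [P.val, mulVec_add, pair_pv P.ne, pair_pv P.ne, reflW_self P.hr, reflW_self P.hr',
    reflW_fix hμ, reflW_fix hν, pv_neg_left, pv_neg_right, neg_add]

lemma Pr.six_left {μ : Fin 4 → F} (hμ : gB (G4 δ) r μ = 0) :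
    (y : MV F 2) *ᵥ pv i μ r' = -pv i μ r' := by
  simpa using P.six hμ (map_zero (gB (G4 δ) r'))

lemma Pr.six_right {ν : Fin 4 → F} (hν : gB (G4 δ) r' ν = 0) :
    (y : MV F 2) *ᵥ pv i r ν = -pv i r ν := by
  simpa using P.six (map_zero (gB (G4 δ) r)) hν

lemma Pr.cases_six {x : Vec F 2} (hx : (y : MV F 2) *ᵥ x = -x) :
    ∃ μ ν, gB (G4 δ) r μ = 0 ∧ gB (G4 δ) r' ν = 0 ∧ x = pv i μ r' + pv i r ν := by
  let S : Submodule F (Vec F 2) :=
    { carrier := {u | ∃ μ ν, gB (G4 δ) r μ = 0 ∧ gB (G4 δ) r' ν = 0 ∧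
        u = pv i μ r' + pv i r ν}
      zero_mem' := ⟨0, 0, by simp, by simp, by simp⟩
      add_mem' := by
        rintro _ _ ⟨μ, ν, hμ, hν, rfl⟩ ⟨μ', ν', hμ', hν', rfl⟩
        exact ⟨μ + μ', ν + ν', by simp [hμ, hμ'], by simp [hν, hν'],
          by rw [pv_add_left, pv_add_right]; abel⟩
      smul_mem' := by
        rintro c _ ⟨μ, ν, hμ, hν, rfl⟩
        exact ⟨c • μ, c • ν, by simp [hμ], by simp [hν],
          by rw [pv_smul_left, pv_smul_right, smul_add]⟩ }
  have hbase : ∀ z, Pi.single z (1 : F) - (y : MV F 2) *ᵥ Pi.single z 1 ∈ S := by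
    intro z
    rw [single_pv i z]
    obtain ⟨s, μ, hμ, ha⟩ := perp_part P.hr (Pi.single (z i) (1 : F))
    obtain ⟨t, ν, hν, hb⟩ := perp_part P.hr' (Pi.single (z (i + 1)) (1 : F))
    rw [ha, hb, P.y_pv s t hμ hν]
    refine ⟨((2 : F) * t) • μ, ((2 : F) * s) • ν, by simp [hμ], by simp [hν], ?_⟩
    simp only [pv_add_left, pv_add_right, pv_smul_left, pv_smul_right]
    module
  have hS : x - (y : MV F 2) *ᵥ x ∈ S := by
    conv => arg 2; rw [pi_eq_sum_univ x]
    simp only [mulVec_sum, mulVec_smul, ← Finset.sum_sub_distrib, ← smul_sub]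
    refine S.sum_mem fun z _ => S.smul_mem _ ?_
    rw [show (fun u => if z = u then (1 : F) else 0) = Pi.single z 1 by
      funext u; simp [Pi.single_apply, eq_comm]]
    exact hbase z
  rw [hx, sub_neg_eq_add, ← two_smul F x] at hS
  have := S.smul_mem (2 : F)⁻¹ hS
  rw [smul_smul, inv_mul_cancel₀ P.ov.two, one_smul] at this
  exact this

lemma Pr.pres {g : GV F 2} (hg : g ∈ cen M y) {x : Vec F 2} (hx : (y : MV F 2) *ᵥ x = -x) :
    (y : MV F 2) *ᵥ ((g : MV F 2) *ᵥ x) = -((g : MV F 2) *ᵥ x) := by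
  rw [mulVec_mulVec, ← (mem_cen.1 hg).2, ← mulVec_mulVec, hx, mulVec_neg]

/-- Monomial elements of the centraliser fixing the small eigenspace. -/
lemma Pr.wr_triv {k : GV F 2} (hk : k ∈ cen M y) (hW : k ∈ Wr F 2)
    (hfix : ∀ x, (y : MV F 2) *ᵥ x = -x → (k : MV F 2) *ᵥ x = x) :
    (k : MV F 2) = 1 ∨ (k : MV F 2) = -(y : MV F 2) := by
  have h2 := P.ov.two
  have hd := P.ov.nsq
  have hiso := P.iso hk
  have hsix : ∀ x d, (y : MV F 2) *ᵥ d = -d →
      bV δ ((k : MV F 2) *ᵥ x) d = bV δ x d := fun x d hdd => by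
    conv_lhs => arg 2; rw [← hfix d hdd]
    exact bV_iso hiso x d
  set c := gB (G4 δ) r r * gB (G4 δ) r' r' with hc
  have hc0 : c ≠ 0 := mul_ne_zero P.hr P.hr'
  set f0 := bV δ ((k : MV F 2) *ᵥ pv i r r') (pv i r r') with hf0
  have key : ∀ μ ν p q, gB (G4 δ) r μ = 0 → gB (G4 δ) r' ν = 0 → gB (G4 δ) r p = 0 →
      gB (G4 δ) r' q = 0 →
      f0 * bV δ ((k : MV F 2) *ᵥ pv i r r') (pv i p q) = 0 ∧
      f0 * bV δ ((k : MV F 2) *ᵥ pv i μ ν) (pv i p q) +
        bV δ ((k : MV F 2) *ᵥ pv i μ ν) (pv i r r') *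
          bV δ ((k : MV F 2) *ᵥ pv i r r') (pv i p q) =
        c * (gB (G4 δ) μ p * gB (G4 δ) ν q) ∧
      bV δ ((k : MV F 2) *ᵥ pv i μ ν) (pv i r r') *
        bV δ ((k : MV F 2) *ᵥ pv i μ ν) (pv i p q) = 0 := by
    intro μ ν p q hμ hν hp hq
    have hrr : (y : MV F 2) *ᵥ pv i r q = -pv i r q := P.six_right hq
    have hpr : (y : MV F 2) *ᵥ pv i p r' = -pv i p r' := P.six_left hp
    have hs : ∀ s : F,
        (f0 + s * bV δ ((k : MV F 2) *ᵥ pv i μ ν) (pv i r r')) *
          (bV δ ((k : MV F 2) *ᵥ pv i r r') (pv i p q) +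
            s * bV δ ((k : MV F 2) *ᵥ pv i μ ν) (pv i p q)) =
          s * (c * (gB (G4 δ) μ p * gB (G4 δ) ν q)) := by
      intro s
      obtain ⟨a, b, hab⟩ := pure_of_mem_Wr hW i (r + s • μ) (r' + ν)
      have hm := minor (δ := δ) ⟨a, b, hab⟩ r r' p q
      have hx : (k : MV F 2) *ᵥ pv i (r + s • μ) (r' + ν) = (k : MV F 2) *ᵥ pv i r r' +
          s • pv i μ r' + pv i r ν + s • ((k : MV F 2) *ᵥ pv i μ ν) := by
        simp only [pv_add_left, pv_add_right, pv_smul_left, mulVec_add, mulVec_smul,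
          hfix _ (P.six_left hμ), hfix _ (P.six_right hν)]
        module
      rw [hsix _ _ hrr, hsix _ _ hpr, hx] at hm
      simp only [map_add, map_smul, LinearMap.add_apply, LinearMap.smul_apply, smul_eq_mul, bV_pv,
        hμ, hν, hp, hq, gB_symm δ μ r, gB_symm δ ν r', gB_symm δ p r, gB_symm δ q r', ← hf0,
        mul_zero, zero_mul, add_zero, zero_add] at hm
      rw [hm, hc]
      ring
    have h00 := hs 0
    have h11 := hs 1
    have hm1 := hs (-1)
    simp only [zero_mul, add_zero] at h00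
    refine ⟨h00, mul_left_cancel₀ h2 ?_, mul_left_cancel₀ h2 ?_⟩
    · linear_combination h11 - hm1
    · linear_combination h11 + hm1 - 2 * h00
  have hf : f0 ≠ 0 := by
    intro h0
    obtain ⟨a, ha, ha'⟩ := exists_perp h2 hd ![r] (by norm_num) (by simp [P.hr])
      (fun a b hab => absurd (Subsingleton.elim a b) hab)
    obtain ⟨b, hb, hb'⟩ := exists_perp h2 hd ![r, a] (by norm_num)
      (by intro l; fin_cases l <;> simp [P.hr, ha])
      (by intro l m hlm; fin_cases l <;> fin_cases m <;>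
            simp_all [gB_symm δ a r, ha' 0, show gB (G4 δ) r a = 0 from ha' 0])
    obtain ⟨n, hn, hn'⟩ := exists_perp h2 hd ![r'] (by norm_num) (by simp [P.hr'])
      (fun a b hab => absurd (Subsingleton.elim a b) hab)
    have hra : gB (G4 δ) r a = 0 := ha' 0
    have hrb : gB (G4 δ) r b = 0 := hb' 0
    have hab : gB (G4 δ) a b = 0 := hb' 1
    have hrn : gB (G4 δ) r' n = 0 := hn' 0
    have e1 := (key a n a n hra hrn hra hrn).2.1
    have e2 := (key a n b n hra hrn hrb hrn).2.1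
    have e3 := (key b n b n hrb hrn hrb hrn).2.1
    rw [h0, zero_mul, zero_add] at e1 e2 e3
    rw [hab, zero_mul, mul_zero] at e2
    have : bV δ ((k : MV F 2) *ᵥ pv i r r') (pv i b n) = 0 :=
      (mul_eq_zero.1 e2).resolve_left fun hz => by
        rw [hz, zero_mul] at e1
        exact mul_ne_zero hc0 (mul_ne_zero ha hn) e1.symm
    rw [this, mul_zero] at e3
    exact mul_ne_zero hc0 (mul_ne_zero hb hn) e3.symm
  have g0 : ∀ p q, gB (G4 δ) r p = 0 → gB (G4 δ) r' q = 0 →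
      bV δ ((k : MV F 2) *ᵥ pv i r r') (pv i p q) = 0 := fun p q hp hq =>
    (mul_eq_zero.1 (key p q p q hp hq hp hq).1).resolve_left hf
  have g1 : ∀ μ ν p q, gB (G4 δ) r μ = 0 → gB (G4 δ) r' ν = 0 → gB (G4 δ) r p = 0 →
      gB (G4 δ) r' q = 0 → bV δ ((k : MV F 2) *ᵥ pv i μ ν) (pv i p q) =
        c / f0 * (gB (G4 δ) μ p * gB (G4 δ) ν q) := by
    intro μ ν p q hμ hν hp hq
    have := (key μ ν p q hμ hν hp hq).2.1
    rw [g0 p q hp hq, mul_zero, add_zero] at this
    field_simp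
    linear_combination this
  have f1 : ∀ μ ν, gB (G4 δ) r μ = 0 → gB (G4 δ) r' ν = 0 →
      bV δ ((k : MV F 2) *ᵥ pv i μ ν) (pv i r r') = 0 := by
    intro μ ν hμ hν
    rcases eq_or_ne μ 0 with rfl | hμ0
    · simp
    rcases eq_or_ne ν 0 with rfl | hν0
    · simp
    obtain ⟨p, hp, hp1⟩ := perp_dual hd P.hr hμ hμ0
    obtain ⟨q, hq, hq1⟩ := perp_dual hd P.hr' hν hν0
    refine (mul_eq_zero.1 (key μ ν p q hμ hν hp hq).2.2).resolve_right ?_
    rw [g1 μ ν p q hμ hν hp hq, hp1, hq1]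
    simp [hf, hc0]
  have e0 : (k : MV F 2) *ᵥ pv i r r' = (f0 / c) • pv i r r' := by
    refine bV_ext hd i fun a b => ?_
    obtain ⟨s, μ, hμ, rfl⟩ := perp_part P.hr a
    obtain ⟨t, ν, hν, rfl⟩ := perp_part P.hr' b
    simp only [pv_add_left, pv_add_right, pv_smul_left, pv_smul_right, map_add, map_smul,
      LinearMap.smul_apply, smul_eq_mul, hsix _ _ (P.six_left hμ), hsix _ _ (P.six_right hν),
      g0 _ _ hμ hν, bV_pv, hμ, hν, ← hf0, mul_zero, zero_mul, add_zero]
    rw [hc]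
    have := P.hr
    have := P.hr'
    field_simp
  have e1 : ∀ μ ν, gB (G4 δ) r μ = 0 → gB (G4 δ) r' ν = 0 →
      (k : MV F 2) *ᵥ pv i μ ν = (c / f0) • pv i μ ν := by
    intro μ ν hμ hν
    refine bV_ext hd i fun a b => ?_
    obtain ⟨s, p, hp, rfl⟩ := perp_part P.hr a
    obtain ⟨t, q, hq, rfl⟩ := perp_part P.hr' b
    simp only [pv_add_left, pv_add_right, pv_smul_left, pv_smul_right, map_add, map_smul,
      LinearMap.smul_apply, smul_eq_mul, hsix _ _ (P.six_left hp), hsix _ _ (P.six_right hq),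
      g1 _ _ _ _ hμ hν hp hq, f1 _ _ hμ hν, bV_pv, hμ, hν, gB_symm δ μ r, gB_symm δ ν r',
      mul_zero, zero_mul, add_zero, zero_add]
  have hsq : (f0 / c) * (f0 / c) = 1 := by
    have h := bV_iso hiso (pv i r r') (pv i r r')
    rw [e0] at h
    simp only [map_smul, LinearMap.smul_apply, smul_eq_mul, bV_pv, ← hc] at h
    refine mul_right_cancel₀ hc0 ?_
    linear_combination h
  have hinv : c / f0 = f0 / c := by
    rw [← inv_div]
    exact inv_eq_of_mul_eq_one_right hsq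
  rcases mul_self_eq_one_iff.1 hsq with he | he
  · refine Or.inl (pv_ext i fun a b => ?_)
    obtain ⟨s, μ, hμ, rfl⟩ := perp_part P.hr a
    obtain ⟨t, ν, hν, rfl⟩ := perp_part P.hr' b
    simp only [pv_add_left, pv_add_right, pv_smul_left, pv_smul_right, mulVec_add, mulVec_smul,
      hfix _ (P.six_left hμ), hfix _ (P.six_right hν), e0, e1 _ _ hμ hν, hinv, he, one_smul,
      one_mulVec]
  · refine Or.inr (pv_ext i fun a b => ?_)
    obtain ⟨s, μ, hμ, rfl⟩ := perp_part P.hr a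
    obtain ⟨t, ν, hν, rfl⟩ := perp_part P.hr' b
    rw [neg_mulVec, P.y_pv s t hμ hν]
    simp only [pv_add_left, pv_add_right, pv_smul_left, pv_smul_right, mulVec_add, mulVec_smul,
      hfix _ (P.six_left hμ), hfix _ (P.six_right hν), e0, e1 _ _ hμ hν, hinv, he]
    module

/-- The kernel of the action on the small eigenspace has order two. -/
lemma Pr.ker_six (hhalf : ∀ x ∈ M, IsHalf δ (x : MV F 2) → CenLe M (x : MV F 2)) {k : GV F 2}
    (hk : k ∈ cen M y) (hfix : ∀ x, (y : MV F 2) *ᵥ x = -x → (k : MV F 2) *ᵥ x = x) :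
    (k : MV F 2) = 1 ∨ (k : MV F 2) = -(y : MV F 2) := by
  have h2 := P.ov.two
  have hd := P.ov.nsq
  obtain ⟨f₁, h11, h10⟩ := exists_perp h2 hd ![r] (by norm_num) (by simp [P.hr])
    (fun a b hab => absurd (Subsingleton.elim a b) hab)
  have hr1 : gB (G4 δ) r f₁ = 0 := h10 0
  obtain ⟨f₂, h22, h20⟩ := exists_perp h2 hd ![r, f₁] (by norm_num)
    (by intro l; fin_cases l <;> simp [P.hr, h11])
    (by intro l m hlm; fin_cases l <;> fin_cases m <;> simp_all [gB_symm δ f₁ r])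
  have hr2 : gB (G4 δ) r f₂ = 0 := h20 0
  have h12 : gB (G4 δ) f₁ f₂ = 0 := h20 1
  obtain ⟨f₃, h33, h30⟩ := exists_perp h2 hd ![r, f₁, f₂] (by norm_num)
    (by intro l; fin_cases l <;> simp [P.hr, h11, h22])
    (by intro l m hlm; fin_cases l <;> fin_cases m <;>
          simp_all [gB_symm δ f₁ r, gB_symm δ f₂ r, gB_symm δ f₂ f₁])
  have hr3 : gB (G4 δ) r f₃ = 0 := h30 0
  have h13 : gB (G4 δ) f₁ f₃ = 0 := h30 1
  have h23 : gB (G4 δ) f₂ f₃ = 0 := h30 2
  let C := cen M y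
  let K : Subgroup C :=
    { carrier := {g | ∀ x, (y : MV F 2) *ᵥ x = -x → ((g : GV F 2) : MV F 2) *ᵥ x = x}
      one_mem' := fun x _ => by simp
      mul_mem' := fun {a b} ha hb x hx => by
        rw [Subgroup.coe_mul, Units.val_mul, ← mulVec_mulVec, hb x hx, ha x hx]
      inv_mem' := fun {a} ha x hx => by
        conv_lhs => rw [← ha x hx, mulVec_mulVec, Subgroup.coe_inv, Units.inv_mul, one_mulVec] }
  haveI hK : K.Normal := ⟨fun a ha g x hx => by
    have hx' : (y : MV F 2) *ᵥ ((((g : GV F 2))⁻¹ : GV F 2) *ᵥ x) =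
        -((((g : GV F 2))⁻¹ : GV F 2) *ᵥ x) := P.pres (inv_mem g.2) hx
    simp only [Subgroup.coe_mul, Subgroup.coe_inv, Units.val_mul, ← mulVec_mulVec]
    rw [ha _ hx', mulVec_mulVec, Units.mul_inv, one_mulVec]⟩
  let Z : Subgroup K :=
    { carrier := {g | (((g : C) : GV F 2) : MV F 2) = 1 ∨ (((g : C) : GV F 2) : MV F 2) = -(y : MV F 2)}
      one_mem' := Or.inl (by simp)
      mul_mem' := fun {a b} ha hb => by
        show ((((a * b : K) : C) : GV F 2) : MV F 2) = _ ∨ _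
        simp only [Subgroup.coe_mul, Units.val_mul]
        rcases ha with ha | ha <;> rcases hb with hb | hb <;> simp [ha, hb, P.y_sq]
      inv_mem' := fun {a} ha => by
        show ((((a⁻¹ : K) : C) : GV F 2) : MV F 2) = _ ∨ _
        simp only [Subgroup.coe_inv]
        rcases ha with ha | ha
        · exact Or.inl (Units.inv_eq_of_mul_eq_one_right (by rw [ha, one_mul]))
        · exact Or.inr (Units.inv_eq_of_mul_eq_one_right
            (by rw [ha, neg_mul_neg, P.y_sq])) }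
  have hcentral : ∀ (g : C) (z : K), z ∈ Z → g * (z : C) * g⁻¹ = z := by
    intro g z hz
    rw [mul_inv_eq_iff_eq_mul]
    refine Subtype.ext (Units.ext ?_)
    simp only [Subgroup.coe_mul, Units.val_mul]
    rcases hz with hz | hz <;> simp [hz, (mem_cen.1 g.2).2]
  haveI hZ : Z.Normal := ⟨fun a ha g => by
    have : g * a * g⁻¹ = a := Subtype.ext (hcentral (g : C) a ha)
    rwa [this]⟩
  have hφex : ∀ e : C, ∃ φ : K ⧸ Z →* K ⧸ Z, ∀ z : K,
      φ (QuotientGroup.mk z) = QuotientGroup.mk (MulAut.conjNormal e z) := by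
    intro e
    refine ⟨QuotientGroup.map Z Z (MulAut.conjNormal e : MulAut K).toMonoidHom ?_, fun z => rfl⟩
    intro z hz
    show MulAut.conjNormal e z ∈ Z
    have : MulAut.conjNormal e z = z := Subtype.ext (by
      rw [MulAut.conjNormal_apply]; exact hcentral e z hz)
    rwa [this]
  have mk_half : ∀ a b : Fin 4 → F, gB (G4 δ) a a ≠ 0 → gB (G4 δ) b b ≠ 0 →
      gB (G4 δ) r a = 0 → gB (G4 δ) r b = 0 → gB (G4 δ) a b = 0 →
      ∃ e : C, ((e : GV F 2) : MV F 2) = site i (reflW δ a * reflW δ b) ∧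
        IsHalf δ ((e : GV F 2) : MV F 2) ∧ (e * e = 1) ∧
        ((-(y : MV F 2)) * ((e : GV F 2) : MV F 2)).trace = 4 ∧
        ((e : GV F 2) : MV F 2).trace = 0 := by
    intro a b ha hb hra hrb hab
    obtain ⟨g, hg, hv⟩ := P.pair_mem (A := reflW δ a * reflW δ b) (B := 1)
      (isoW_mul (reflW_iso ha) (reflW_iso hb)) isoW_one
      (by rw [det_mul, det_reflW ha, det_reflW hb, det_one]; ring)
      ((show Commute (reflW δ a) (reflW δ r) from (reflW_comm hra).symm).mul_left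
        (show Commute (reflW δ b) (reflW δ r) from (reflW_comm hrb).symm))
      (Commute.one_left _)
    have hv' : (g : MV F 2) = site i (reflW δ a * reflW δ b) := by rw [hv, site_one, mul_one]
    refine ⟨⟨g, hg⟩, hv', ⟨i, a, b, ha, hb, hab, hv'⟩, Subtype.ext (Units.ext ?_), ?_, ?_⟩
    · show (g : MV F 2) * g = 1
      rw [hv', site_mul, ← site_one i]
      congr 1
      rw [show reflW δ a * reflW δ b * (reflW δ a * reflW δ b) =
        reflW δ a * (reflW δ b * reflW δ a) * reflW δ b by simp only [mul_assoc],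
        ← reflW_comm hab]
      simp only [← mul_assoc, reflW_sq ha, one_mul, reflW_sq hb]
    · show ((-(y : MV F 2)) * (g : MV F 2)).trace = 4
      rw [neg_mul, trace_neg, P.val, hv', mul_assoc, site_comm P.ne.symm, ← mul_assoc, site_mul,
        trace_pair P.ne, trace_refl_three P.hr ha hb hra hrb hab, trace_reflW P.hr']
      norm_num
    · show (g : MV F 2).trace = 0
      rw [hv, trace_pair P.ne, trace_refl_two ha hb hab, zero_mul]
  obtain ⟨ea, va, ha, sa, ta, ta'⟩ := mk_half f₂ f₃ h22 h33 hr2 hr3 h23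
  obtain ⟨eb, vb, hb, sb, tb, tb'⟩ :=
    mk_half f₃ f₁ h33 h11 hr3 hr1 (by rw [gB_symm]; exact h13)
  obtain ⟨ec, vc, hc, sc, tc, tc'⟩ := mk_half f₁ f₂ h11 h22 hr1 hr2 h12
  have habc : ea * eb = ec := Subtype.ext (Units.ext (by
    rw [Subgroup.coe_mul, Units.val_mul, va, vb, vc, site_mul]
    congr 1
    rw [reflW_comm h12, show reflW δ f₂ * reflW δ f₃ * (reflW δ f₃ * reflW δ f₁) =
      reflW δ f₂ * (reflW δ f₃ * reflW δ f₃) * reflW δ f₁ by simp only [mul_assoc], reflW_sq h33,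
      mul_one]))
  have h4 : (4 : F) ≠ 0 := by
    rw [show (4 : F) = 2 * 2 by norm_num]; exact mul_ne_zero h2 h2
  have hfree : ∀ e : C, IsHalf δ ((e : GV F 2) : MV F 2) →
      ((-(y : MV F 2)) * ((e : GV F 2) : MV F 2)).trace = 4 →
      ((e : GV F 2) : MV F 2).trace = 0 → ∀ z : K,
      (QuotientGroup.mk (MulAut.conjNormal e z) : K ⧸ Z) = QuotientGroup.mk z →
      (QuotientGroup.mk z : K ⧸ Z) = 1 := by
    intro e he ht4 ht0 z hz
    rw [QuotientGroup.eq_one_iff]
    set d : K := z⁻¹ * MulAut.conjNormal e z with hd'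
    have hdZ : d ∈ Z := QuotientGroup.eq.1 hz.symm
    have e1 : (e : GV F 2) * ((z : C) : GV F 2) =
        ((z : C) : GV F 2) * ((d : C) : GV F 2) * (e : GV F 2) := by
      simp only [hd', Subgroup.coe_mul, Subgroup.coe_inv, MulAut.conjNormal_apply]
      group
    rcases hdZ with hd1 | hd1
    · have hcom : ((z : C) : GV F 2) * (e : GV F 2) = (e : GV F 2) * ((z : C) : GV F 2) := by
        have hd2 : ((d : C) : GV F 2) = 1 := Units.ext hd1
        rw [e1, hd2, mul_one]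
      have hW : ((z : C) : GV F 2) ∈ Wr F 2 :=
        hhalf _ (mem_cen.1 e.2).1 he _ (mem_cen.1 (z : C).2).1
          (by rw [← Units.val_mul, hcom, Units.val_mul])
      exact P.wr_triv (z : C).2 hW z.2
    · exfalso
      have hconj : ((((z : C) : GV F 2)⁻¹ : GV F 2) : MV F 2) * ((e : GV F 2) : MV F 2) *
          (((z : C) : GV F 2) : MV F 2) = -(y : MV F 2) * ((e : GV F 2) : MV F 2) := by
        rw [mul_assoc, ← Units.val_mul, e1, Units.val_mul, Units.val_mul, ← hd1]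
        simp only [← mul_assoc, Units.inv_mul, one_mul]
      have := congrArg Matrix.trace hconj
      rw [trace_units_conj', ht0, ht4] at this
      exact h4 this.symm
  obtain ⟨φa, pa⟩ := hφex ea
  obtain ⟨φb, pb⟩ := hφex eb
  obtain ⟨φc, pc⟩ := hφex ec
  have hinvert : ∀ (e : C) (φ : K ⧸ Z →* K ⧸ Z),
      (∀ z : K, φ (QuotientGroup.mk z) = QuotientGroup.mk (MulAut.conjNormal e z)) →
      IsHalf δ ((e : GV F 2) : MV F 2) →
      ((-(y : MV F 2)) * ((e : GV F 2) : MV F 2)).trace = 4 →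
      ((e : GV F 2) : MV F 2).trace = 0 → e * e = 1 → ∀ x, φ x = x⁻¹ := by
    intro e φ hp he h4' h0' hee
    have hfp : MonoidHom.FixedPointFree φ := fun x hx => by
      induction x using QuotientGroup.induction_on with
      | H z => rw [hp] at hx; exact hfree e he h4' h0' z hx
    have hinvol : Function.Involutive φ := fun x => by
      induction x using QuotientGroup.induction_on with
      | H z => rw [hp, hp, ← MulAut.mul_apply, ← map_mul, hee, map_one, MulAut.one_apply]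
    exact fun x => congrFun (hfp.coe_eq_inv_of_involutive hinvol) x
  have iA := hinvert ea φa pa ha ta ta' sa
  have iB := hinvert eb φb pb hb tb tb' sb
  have iC := hinvert ec φc pc hc tc tc' sc
  have hall : ∀ z : K, (QuotientGroup.mk z : K ⧸ Z) = 1 := by
    intro z
    have h1 : φc (QuotientGroup.mk z) = φa (φb (QuotientGroup.mk z)) := by
      rw [pb, pa, pc, ← habc, map_mul, MulAut.mul_apply]
    rw [iA, iB, iC, inv_inv] at h1
    exact hfree ea ha ta ta' z (by rw [← pa, iA, h1])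
  exact (QuotientGroup.eq_one_iff _).1 (hall ⟨⟨k, hk⟩, hfix⟩)

/-- Elements of the centraliser commuting on the small eigenspace. -/
lemma Pr.comm_of (hhalf : ∀ x ∈ M, IsHalf δ (x : MV F 2) → CenLe M (x : MV F 2)) {a b : GV F 2}
    (ha : a ∈ cen M y) (hb : b ∈ cen M y)
    (h : ∀ x, (y : MV F 2) *ᵥ x = -x →
      (a : MV F 2) *ᵥ ((b : MV F 2) *ᵥ x) = (b : MV F 2) *ᵥ ((a : MV F 2) *ᵥ x)) :
    Commute (a * a) b := by
  have hk : a * b * a⁻¹ * b⁻¹ ∈ cen M y :=
    mul_mem (mul_mem (mul_mem ha hb) (inv_mem ha)) (inv_mem hb)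
  rcases P.ker_six hhalf hk (fun x hx => by
    have h1 := P.pres (inv_mem ha) (P.pres (inv_mem hb) hx)
    simp only [Units.val_mul, ← mulVec_mulVec]
    rw [h _ h1]
    simp [mulVec_mulVec, mul_assoc]) with e | e
  · have e' : a * b * a⁻¹ * b⁻¹ = 1 := Units.ext e
    have : Commute a b := by
      rw [mul_inv_eq_one, mul_inv_eq_iff_eq_mul] at e'
      exact e'
    exact this.mul_left this
  · have e' : a * b * a⁻¹ * b⁻¹ = -y := Units.ext e
    have h1 : a * b = -y * b * a := by rw [← e']; group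
    have hay : a * y = y * a := Units.ext (mem_cen.1 ha).2
    have hyy : y * y = 1 := Units.ext P.y_sq
    calc a * a * b = a * (a * b) := mul_assoc _ _ _
      _ = a * (-y * b * a) := by rw [h1]
      _ = -(a * y) * b * a := by simp only [mul_neg, neg_mul, mul_assoc]
      _ = -y * (a * b) * a := by rw [hay]; simp only [neg_mul, mul_assoc]
      _ = -y * (-y * b * a) * a := by rw [h1]
      _ = (y * y) * b * (a * a) := by simp only [neg_mul, mul_neg, neg_neg, mul_assoc]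
      _ = b * (a * a) := by rw [hyy, one_mul]

lemma Pr.acts_conj {h v : GV F 2} (hh : h ∈ cen M y) {o z : Vec F 2} (hv : Acts δ y v o z) :
    Acts δ y (h * v * h⁻¹) ((h : MV F 2) *ᵥ o) ((h : MV F 2) *ᵥ z) := by
  intro x hx
  rw [Units.val_mul, Units.val_mul, ← mulVec_mulVec, ← mulVec_mulVec,
    hv _ (P.pres (inv_mem hh) hx), mulVec_add, sie_map (P.iso hh), mulVec_mulVec,
    Units.mul_inv, one_mulVec]

lemma Pr.acts_comm (hhalf : ∀ x ∈ M, IsHalf δ (x : MV F 2) → CenLe M (x : MV F 2)) {a b : GV F 2}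
    (ha : a ∈ cen M y) (hb : b ∈ cen M y) {o z z' : Vec F 2} (ho : bV δ o o = 0)
    (hz : bV δ o z = 0) (hz' : bV δ o z' = 0) (hA : Acts δ y a o z) (hB : Acts δ y b o z') :
    Commute (a * a) b :=
  P.comm_of hhalf ha hb fun x hx => by
    rw [hA _ (P.pres hb hx), hB _ (P.pres ha hx), hA x hx, hB x hx,
      sie_comp P.ov.two ho hz hz', sie_comp P.ov.two ho hz' hz, add_comm z z']

/-- Commuting with an element fixing the axis of an Eichler transformation. -/
lemma Pr.fix_comm (hhalf : ∀ x ∈ M, IsHalf δ (x : MV F 2) → CenLe M (x : MV F 2)) {v h : GV F 2}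
    (hv : v ∈ cen M y) (hh : h ∈ cen M y) {o z : Vec F 2} (hA : Acts δ y v o z)
    (hB : ∀ x, sie (bV δ) ((h : MV F 2) *ᵥ o) ((h : MV F 2) *ᵥ z) x = sie (bV δ) o z x) :
    Commute (v * v) h :=
  P.comm_of hhalf hv hh fun x hx => by
    have h1 := P.acts_conj hh hA _ (P.pres hh hx)
    have hc : ((h⁻¹ : GV F 2) : MV F 2) *ᵥ ((h : MV F 2) *ᵥ x) = x := by
      rw [mulVec_mulVec, Units.inv_mul, one_mulVec]
    rw [hB, ← hA _ (P.pres hh hx)] at h1
    simp only [Units.val_mul, ← mulVec_mulVec, hc] at h1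
    exact h1.symm

/-- A root element of the first site in the centraliser. -/
lemma Pr.exists_u {w x : Fin 4 → F} (hw0 : w ≠ 0) (hww : gB (G4 δ) w w = 0)
    (hwx : gB (G4 δ) w x = 0) (hx : gB (G4 δ) x x ≠ 0) (hrw : gB (G4 δ) r w = 0)
    (hrx : gB (G4 δ) r x = 0) :
    ∃ u ∈ cen M y, (u : MV F 2) = site i (1 + sieM (G4 δ) w x) ∧ IsSiteU δ (u : MV F 2) := by
  obtain ⟨h1, h3⟩ := sieM_isoW P.ov.two hww hwx hx
  obtain ⟨g, hg, hv⟩ := P.pair_mem (B := 1) h1 isoW_one (by rw [h3, det_one])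
    (sieM_comm_reflW hrw hrx) (Commute.one_left _)
  rw [site_one, mul_one] at hv
  exact ⟨g, hg, hv, i, w, x, hw0, hww, hwx, hx, hv⟩

lemma Pr.acts_u {w x : Fin 4 → F} {u : GV F 2} (hu : (u : MV F 2) = site i (1 + sieM (G4 δ) w x))
    (hrw : gB (G4 δ) r w = 0) (hrx : gB (G4 δ) r x = 0) :
    Acts δ y u (pv i w r') ((gB (G4 δ) r' r')⁻¹ • pv i x r') := by
  intro d hd
  obtain ⟨μ, ν, hμ, hν, rfl⟩ := P.cases_six hd
  rw [hu, mulVec_add, site_pv, site_pv, sieM_mulVec', sieM_mulVec', sie_apply]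
  simp only [map_add, map_smul, LinearMap.smul_apply, smul_eq_mul, bV_pv, gB_symm δ w r,
    gB_symm δ x r, hrw, hrx, hν, sub_eq_add_neg, pv_add_left, pv_smul_left, pv_neg_left, zero_smul,
    mul_zero, zero_mul, add_zero, neg_zero, pv_zero_left]
  have := P.hr'
  have := P.ov.two
  match_scalars <;> field_simp <;> ring

/-- Monomial elements inducing an Eichler transformation at a pure vector. -/
lemma Pr.wr_acts {w x : Fin 4 → F} (hw0 : w ≠ 0) (hww : gB (G4 δ) w w = 0)
    (hwx : gB (G4 δ) w x = 0) (hx : gB (G4 δ) x x ≠ 0) (hrw : gB (G4 δ) r w = 0)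
    (hrx : gB (G4 δ) r x = 0) {h : GV F 2} (hW : h ∈ Wr F 2) {z : Vec F 2}
    (hz6 : (y : MV F 2) *ᵥ z = -z) (hoz : bV δ (pv i w r') z = 0)
    (hA : Acts δ y h (pv i w r') z) :
    ∃ a b : F, z = a • pv i x r' + b • pv i w r' := by
  have h2 := P.ov.two
  have hd := P.ov.nsq
  obtain ⟨μ, ν, hμ, hν, rfl⟩ := P.cases_six hz6
  have hwμ : gB (G4 δ) w μ = 0 := by
    simp only [map_add, bV_pv, gB_symm δ w r, hrw, zero_mul, add_zero] at hoz
    exact (mul_eq_zero.1 hoz).resolve_right P.hr'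
  have hν0 : ν = 0 := by
    by_contra hne
    obtain ⟨β, hβ, hνβ⟩ := perp_dual hd P.hr' hν hne
    obtain ⟨p, hp, hwp⟩ := perp_dual hd P.hr hrw hw0
    have himg := hA _ (P.six_right hβ)
    obtain ⟨a, b, hab⟩ := pure_of_mem_Wr hW i r β
    have hm := minor (δ := δ) ⟨a, b, hab⟩ r ν p r'
    rw [himg, sie_apply] at hm
    simp only [map_add, map_sub, map_smul, LinearMap.add_apply, LinearMap.sub_apply,
      LinearMap.smul_apply, smul_eq_mul, bV_pv, gB_symm δ w r, hrw, hp, gB_symm δ μ r, hμ, hν,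
      hwp, hνβ, gB_symm δ β ν, gB_symm δ β r', hβ, gB_symm δ ν r', mul_zero, zero_mul, add_zero,
      zero_add, sub_zero, mul_one, one_mul, zero_sub] at hm
    refine mul_ne_zero (mul_ne_zero P.hr P.hr) P.hr' ?_
    linear_combination -hm
  subst hν0
  set κ := gB (G4 δ) x μ / gB (G4 δ) x x with hκ
  set μ' := μ - κ • x with hμ'
  have hμr : gB (G4 δ) r μ' = 0 := by simp [hμ', hμ, hrx]
  have hμw : gB (G4 δ) w μ' = 0 := by simp [hμ', hwμ, hwx]
  have hμx : gB (G4 δ) x μ' = 0 := by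
    rw [hμ', hκ, map_sub, map_smul, smul_eq_mul, div_mul_cancel₀ _ hx, sub_self]
  have hspan : μ' ∈ Submodule.span F {w} := by
    by_contra hn
    have hxr : gB (G4 δ) x r = 0 := by rw [gB_symm]; exact hrx
    have hμr' : gB (G4 δ) μ' r = 0 := by rw [gB_symm]; exact hμr
    have hμx' : gB (G4 δ) μ' x = 0 := by rw [gB_symm]; exact hμx
    have hμμ : gB (G4 δ) μ' μ' ≠ 0 := gB_self_ne_zero hd hw0 hww hμw hn
    obtain ⟨d, hdd, hd0⟩ := exists_perp h2 hd ![r, x, μ'] (by norm_num)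
      (by intro l; fin_cases l <;> simp [P.hr, hx, hμμ])
      (by intro l m hlm; fin_cases l <;> fin_cases m <;>
            first
              | exact absurd rfl hlm
              | simp [hrx, hμr, hμx, hxr, hμr', hμx'])
    have e := perp_three h2 hd P.hr hx hμμ hdd hrx hμr hμx (hd0 0) (hd0 1) (hd0 2) hrw
      (by rw [gB_symm]; exact hwx) (by rw [gB_symm]; exact hμw)
    rw [e] at hww
    simp only [map_smul, LinearMap.smul_apply, smul_eq_mul, mul_eq_zero, hdd, or_false, or_self]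
      at hww
    rw [hww, zero_smul] at e
    exact hw0 e
  obtain ⟨l, hl⟩ := Submodule.mem_span_singleton.1 hspan
  refine ⟨κ, l, ?_⟩
  rw [pv_zero_right, add_zero, show μ = κ • x + l • w by rw [hl, hμ']; abel, pv_add_left,
    pv_smul_left, pv_smul_left]

/-- The data of a conjugate of a root element. -/
structure Conj (δ : F) (M : Subgroup (GV F 2)) (y v : GV F 2) (o z : Vec F 2) : Prop where
  memC : v ∈ cen M y
  acts : Acts δ y v o z
  oo : bV δ o o = 0
  oz : bV δ o z = 0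
  zz : bV δ z z ≠ 0
  plane : ∀ h ∈ cen M y, ∀ l : F, l ≠ 0 → (h : MV F 2) *ᵥ o = l • o →
    ∃ a b : F, (h : MV F 2) *ᵥ z = a • z + b • o

variable (hU : ∀ u ∈ M, IsSiteU δ (u : MV F 2) → CenLe M (u : MV F 2))
  (hhalf : ∀ x ∈ M, IsHalf δ (x : MV F 2) → CenLe M (x : MV F 2))

include hU hhalf in
/-- The case of an axis with a singular component. -/
lemma Pr.case_sing {v : GV F 2} {o z : Vec F 2} (D : Conj δ M y v o z) {α β : Fin 4 → F}
    (hα0 : α ≠ 0) (hrα : gB (G4 δ) r α = 0) (hαα : gB (G4 δ) α α = 0)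
    (ho : o = pv i α r' + pv i r β) : v * v ∈ Wr F 2 := by
  have h2 := P.ov.two
  have hd := P.ov.nsq
  obtain ⟨p, hp, hαp⟩ := perp_dual hd P.hr hrα hα0
  set e := p + ((1 - gB (G4 δ) p p) / 2) • α with he
  have hee : gB (G4 δ) e e = 1 := by
    simp only [he, map_add, map_smul, LinearMap.add_apply, LinearMap.smul_apply, smul_eq_mul, hαα,
      hαp, gB_symm δ p α]
    field_simp
    ring
  have hαe : gB (G4 δ) α e = 1 := by simp [he, hαp, hαα]
  have hre : gB (G4 δ) r e = 0 := by simp [he, hp, hrα]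
  have hff : gB (G4 δ) (e - α) (e - α) = -1 := by
    simp only [map_sub, LinearMap.sub_apply, hee, hαα, gB_symm δ e α, hαe]
    ring
  have her : gB (G4 δ) e r = 0 := by rw [gB_symm]; exact hre
  have hαr : gB (G4 δ) α r = 0 := by rw [gB_symm]; exact hrα
  have heα : gB (G4 δ) e α = 1 := by rw [gB_symm]; exact hαe
  obtain ⟨x, hxx, hx0⟩ := exists_perp h2 hd ![r, e, e - α] (by norm_num)
    (by intro l; fin_cases l <;> simp [P.hr, hee, hff, -map_sub])
    (by intro l m hlm; fin_cases l <;> fin_cases m <;>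
          first
            | exact absurd rfl hlm
            | simp [hre, her, hrα, hαr, hee, hαe, heα])
  have hrx : gB (G4 δ) r x = 0 := hx0 0
  have hαx : gB (G4 δ) α x = 0 := by
    have h1 : gB (G4 δ) e x = 0 := hx0 1
    have h3 : gB (G4 δ) (e - α) x = 0 := hx0 2
    rw [map_sub, LinearMap.sub_apply, h1, zero_sub, neg_eq_zero] at h3
    exact h3
  obtain ⟨u, hu, huv, -⟩ := P.exists_u hα0 hαα hαx hxx hrα hrx
  have hs : IsSiteU δ ((u * u : GV F 2) : MV F 2) := by
    refine ⟨i, α, x + x, hα0, hαα, by rw [map_add, hαx, add_zero], ?_, ?_⟩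
    · simp only [map_add, LinearMap.add_apply]
      rw [show gB (G4 δ) x x + gB (G4 δ) x x + (gB (G4 δ) x x + gB (G4 δ) x x) =
        2 * 2 * gB (G4 δ) x x by ring]
      exact mul_ne_zero (mul_ne_zero h2 h2) hxx
    · rw [Units.val_mul, huv, site_mul, one_add_sieM_mul h2 hαα hαx hαx]
  have huo : (u : MV F 2) *ᵥ o = o := by
    rw [huv, ho, mulVec_add, site_pv, site_pv, sieM_mulVec', sieM_mulVec', hαα,
      gB_symm δ α r, hrα, gB_symm δ x r, hrx, gB_symm δ x α, hαx]
    simp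
  obtain ⟨a, b, hab⟩ := D.plane u hu 1 one_ne_zero (by rw [huo, one_smul])
  have ha : a * a = 1 := by
    have h := bV_iso (P.iso hu) z z
    rw [hab] at h
    simp only [map_add, map_smul, LinearMap.add_apply, LinearMap.smul_apply, smul_eq_mul, D.oo,
      D.oz, bV_symm z o, mul_zero, add_zero] at h
    refine mul_right_cancel₀ D.zz ?_
    linear_combination h
  refine hU _ (mul_mem (mem_cen.1 hu).1 (mem_cen.1 hu).1) hs _
    (mul_mem (mem_cen.1 D.memC).1 (mem_cen.1 D.memC).1) ?_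
  refine congrArg Units.val (P.fix_comm hhalf D.memC (mul_mem hu hu) D.acts fun x => ?_).eq
  have e2 : ((u * u : GV F 2) : MV F 2) *ᵥ z = z + (a * b + b) • o := by
    rw [Units.val_mul, ← mulVec_mulVec, hab, mulVec_add, mulVec_smul, mulVec_smul, hab, huo]
    match_scalars
    · linear_combination ha
    · ring
  rw [e2, Units.val_mul, ← mulVec_mulVec, huo, huo, sie_line h2 D.oo D.oz]

include hhalf in
/-- The case of an anisotropic axis with the second vector at the first site. -/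
lemma Pr.case_aniso {v : GV F 2} {o z : Vec F 2} (D : Conj δ M y v o z) {α β μ : Fin 4 → F}
    {s : F} (hr'β : gB (G4 δ) r' β = 0) (hββ : gB (G4 δ) β β ≠ 0)
    (ho : o = pv i α r' + pv i r β) (hz : z = s • o + pv i μ r') : v * v ∈ Wr F 2 := by
  obtain ⟨g, hg, hv⟩ := P.pair_mem (A := 1) (B := reflW δ r' * reflW δ β) isoW_one
    (isoW_mul (reflW_iso P.hr') (reflW_iso hββ))
    (by rw [det_mul, det_reflW P.hr', det_reflW hββ, det_one]; ring)
    (Commute.one_left _)
    ((Commute.refl (reflW δ r')).mul_left (reflW_comm hr'β).symm)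
  have hv' : (g : MV F 2) = site j (reflW δ r' * reflW δ β) := by rw [hv, site_one, one_mul]
  have hJr : ∀ a, (g : MV F 2) *ᵥ pv i a r' = -pv i a r' := fun a => by
    rw [hv', site_pv' P.ne, ← mulVec_mulVec,
      reflW_fix (show gB (G4 δ) β r' = 0 by rw [gB_symm]; exact hr'β),
      reflW_self P.hr', pv_neg_right]
  have hJo : (g : MV F 2) *ᵥ o = -o := by
    rw [ho, mulVec_add, hJr, hv', site_pv' P.ne, ← mulVec_mulVec, reflW_self hββ, mulVec_neg,
      reflW_fix hr'β, pv_neg_right, neg_add]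
  refine hhalf _ (mem_cen.1 hg).1 ⟨j, r', β, P.hr', hββ, hr'β, hv'⟩ _
    (mul_mem (mem_cen.1 D.memC).1 (mem_cen.1 D.memC).1) ?_
  refine congrArg Units.val (P.fix_comm hhalf D.memC hg D.acts fun x => ?_).eq
  have hJz : (g : MV F 2) *ᵥ z = -z := by
    rw [hz, mulVec_add, mulVec_smul, hJo, hJr]
    module
  rw [hJo, hJz, ← neg_one_smul F o, sie_smul, neg_one_smul, neg_neg]

include hhalf in
/-- The second vector lies at one of the sites. -/
lemma Pr.case_split {v : GV F 2} {o z : Vec F 2} (D : Conj δ M y v o z) {α β μ ν : Fin 4 → F}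
    {s : F} (hrα : gB (G4 δ) r α = 0) (hαα : gB (G4 δ) α α ≠ 0)
    (hr'β : gB (G4 δ) r' β = 0) (hrμ : gB (G4 δ) r μ = 0) (hαμ : gB (G4 δ) α μ = 0)
    (hr'ν : gB (G4 δ) r' ν = 0) (ho : o = pv i α r' + pv i r β)
    (hz : z = s • o + (pv i μ r' + pv i r ν)) : μ = 0 ∨ ν = 0 := by
  have h2 := P.ov.two
  have hd := P.ov.nsq
  obtain ⟨m, hmm, hm0⟩ := exists_perp h2 hd ![r, α] (by norm_num)
    (by intro l; fin_cases l <;> simp [P.hr, hαα])
    (by intro l k hlk; fin_cases l <;> fin_cases k <;> simp_all [gB_symm δ α r])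
  have hrm : gB (G4 δ) r m = 0 := hm0 0
  have hαm : gB (G4 δ) α m = 0 := hm0 1
  obtain ⟨n, hnn, hn0⟩ := exists_perp h2 hd ![r, α, m] (by norm_num)
    (by intro l; fin_cases l <;> simp [P.hr, hαα, hmm])
    (by intro l k hlk; fin_cases l <;> fin_cases k <;>
          simp_all [gB_symm δ α r, gB_symm δ m r, gB_symm δ m α])
  have hrn : gB (G4 δ) r n = 0 := hn0 0
  have hαn : gB (G4 δ) α n = 0 := hn0 1
  have hmn : gB (G4 δ) m n = 0 := hn0 2
  obtain ⟨g, hg, hv⟩ := P.pair_mem (A := reflW δ m * reflW δ n) (B := 1)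
    (isoW_mul (reflW_iso hmm) (reflW_iso hnn)) isoW_one
    (by rw [det_mul, det_reflW hmm, det_reflW hnn, det_one]; ring)
    ((show Commute (reflW δ m) (reflW δ r) from (reflW_comm hrm).symm).mul_left
      (show Commute (reflW δ n) (reflW δ r) from (reflW_comm hrn).symm))
    (Commute.one_left _)
  rw [site_one, mul_one] at hv
  have hμ' : μ - (gB (G4 δ) m μ / gB (G4 δ) m m) • m = (gB (G4 δ) n μ / gB (G4 δ) n n) • n := by
    have e := perp_three h2 hd P.hr hαα hmm hnn hrα hrm hαm hrn hαn hmn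
      (x := μ - (gB (G4 δ) m μ / gB (G4 δ) m m) • m) (by simp [hrμ, hrm]) (by simp [hαμ, hαm])
      (by rw [map_sub, map_smul, smul_eq_mul, div_mul_cancel₀ _ hmm, sub_self])
    rw [e, map_sub, map_smul, gB_symm δ n m, hmn, smul_zero, sub_zero]
  have hflip : ∀ u, gB (G4 δ) r u = 0 → gB (G4 δ) α u = 0 → u = μ →
      (reflW δ m * reflW δ n) *ᵥ u = -u := by
    rintro u - - rfl
    rw [sub_eq_iff_eq_add'.1 hμ', ← mulVec_mulVec]
    simp only [mulVec_add, mulVec_smul, mulVec_neg, reflW_self hmm, reflW_self hnn,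
      reflW_fix (show gB (G4 δ) n m = 0 by rw [gB_symm]; exact hmn), reflW_fix hmn]
    module
  have hfix : ∀ u, gB (G4 δ) m u = 0 → gB (G4 δ) n u = 0 →
      (reflW δ m * reflW δ n) *ᵥ u = u := fun u h1 h3 => by
    rw [← mulVec_mulVec, reflW_fix h3, reflW_fix h1]
  have hgo : (g : MV F 2) *ᵥ o = o := by
    rw [hv, ho, mulVec_add, site_pv, site_pv, hfix α (by rw [gB_symm]; exact hαm)
      (by rw [gB_symm]; exact hαn), hfix r (by rw [gB_symm]; exact hrm)
      (by rw [gB_symm]; exact hrn)]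
  have hgz : (g : MV F 2) *ᵥ z = s • o + (-pv i μ r' + pv i r ν) := by
    rw [hz, mulVec_add, mulVec_smul, hgo, hv, mulVec_add, site_pv, site_pv,
      hflip μ hrμ hαμ rfl, hfix r (by rw [gB_symm]; exact hrm) (by rw [gB_symm]; exact hrn),
      pv_neg_left]
  obtain ⟨a, b, hab⟩ := D.plane g hg 1 one_ne_zero (by rw [hgo, one_smul])
  rw [hgz, hz] at hab
  rcases eq_or_ne μ 0 with hμ0 | hμ0
  · exact Or.inl hμ0
  refine Or.inr (gB_nd hd fun q => ?_)
  obtain ⟨p, hp, hμp⟩ := perp_dual hd P.hr hrμ hμ0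
  have hoα := congrArg (fun X => bV δ X (pv i α r')) hab
  have hoμ := congrArg (fun X => bV δ X (pv i p r')) hab
  obtain ⟨t, q', hq', rfl⟩ := perp_part P.hr' q
  have hoν := congrArg (fun X => bV δ X (pv i r q')) hab
  simp only [ho, map_add, map_smul, map_neg, LinearMap.add_apply, LinearMap.smul_apply,
    LinearMap.neg_apply, smul_eq_mul, bV_pv, hrα, hrμ, hr'ν, hr'β, hp, hq', gB_symm δ α r,
    gB_symm δ μ r, gB_symm δ β r', gB_symm δ ν r', gB_symm δ μ α, hαμ, hμp, mul_zero, zero_mul,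
    add_zero, zero_add, neg_zero] at hoα hoμ hoν
  have hQα : gB (G4 δ) α α * gB (G4 δ) r' r' ≠ 0 := mul_ne_zero hαα P.hr'
  have hb : b = s - a * s := by
    refine mul_right_cancel₀ hQα ?_
    linear_combination -hoα
  have ha : a = -1 := by
    subst hb
    refine mul_right_cancel₀ P.hr' ?_
    linear_combination -hoμ
  subst hb ha
  rw [map_add, map_smul, gB_symm δ ν r', hr'ν, smul_zero, zero_add]
  refine mul_left_cancel₀ (mul_ne_zero h2 P.hr) ?_
  linear_combination hoν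

include hU hhalf in
/-- A conjugate of a root element in the centraliser has a monomial square. -/
lemma Pr.conj_mem {v : GV F 2} {o z : Vec F 2} (D : Conj δ M y v o z)
    (ho6 : (y : MV F 2) *ᵥ o = -o) (hz6 : (y : MV F 2) *ᵥ z = -z) (ho0 : o ≠ 0) :
    v * v ∈ Wr F 2 := by
  obtain ⟨α, β, hrα, hr'β, ho⟩ := P.cases_six ho6
  have ho' : o = pv j β r + pv j r' α := by
    rw [ho, pv_swap P.ne, pv_swap P.ne r β, add_comm]
  have hoo : gB (G4 δ) α α * gB (G4 δ) r' r' + gB (G4 δ) r r * gB (G4 δ) β β = 0 := by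
    have := D.oo
    rw [ho] at this
    simpa [bV_pv, gB_symm δ α r, gB_symm δ β r', hrα, hr'β] using this
  by_cases hαα : gB (G4 δ) α α = 0
  · have hββ : gB (G4 δ) β β = 0 := by
      rw [hαα, zero_mul, zero_add] at hoo
      exact (mul_eq_zero.1 hoo).resolve_left P.hr
    by_cases hα0 : α = 0
    · refine P.symm.case_sing hU hhalf D (fun hβ0 => ho0 ?_) hr'β hββ ho'
      rw [ho, hα0, hβ0, pv_zero_left, pv_zero_right, add_zero]
    · exact P.case_sing hU hhalf D hα0 hrα hαα ho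
  · have hββ : gB (G4 δ) β β ≠ 0 := fun h0 => by
      rw [h0, mul_zero, add_zero] at hoo
      exact hαα ((mul_eq_zero.1 hoo).resolve_right P.hr')
    obtain ⟨μ₁, ν₁, hμ₁, hν₁, hz⟩ := P.cases_six hz6
    obtain ⟨s, μ, hαμ, rfl⟩ := perp_part hαα μ₁
    obtain ⟨t, ν, hβν, rfl⟩ := perp_part hββ ν₁
    have hrμ : gB (G4 δ) r μ = 0 := by simpa [hrα] using hμ₁
    have hr'ν : gB (G4 δ) r' ν = 0 := by simpa [hr'β] using hν₁
    have hst : s = t := by
      have := D.oz
      rw [ho, hz] at this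
      simp only [map_add, map_smul, LinearMap.add_apply, bV_pv, pv_add_left, pv_add_right,
        pv_smul_left, pv_smul_right, smul_eq_mul, hrα, hr'β, hrμ, hr'ν, hαμ, hβν, gB_symm δ α r,
        gB_symm δ β r', mul_zero, zero_mul, add_zero, zero_add] at this
      refine mul_left_cancel₀ (mul_ne_zero hαα P.hr') ?_
      linear_combination this - t * hoo
    subst hst
    have hz' : z = s • o + (pv i μ r' + pv i r ν) := by
      rw [hz, ho]
      simp only [pv_add_left, pv_add_right, pv_smul_left, pv_smul_right]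
      module
    rcases P.case_split hhalf D hrα hαα hr'β hrμ hαμ hr'ν ho hz' with rfl | rfl
    · refine P.symm.case_aniso hhalf D (μ := ν) (s := s) hrα hαα ho' ?_
      rw [hz', pv_zero_left, zero_add, pv_swap P.ne]
    · refine P.case_aniso hhalf D (μ := μ) (s := s) hr'β hββ ho ?_
      rw [hz', pv_zero_right, add_zero]

include hU hhalf in
/-- The centraliser of the product of two reflections is monomial. -/
lemma Pr.cen_le
    (hclass : ∀ g ∈ M, ∀ u : GV F 2, IsSiteU δ (u : MV F 2) → g * u * g⁻¹ ∈ Wr F 2 → g ∈ Wr F 2)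
    {g : GV F 2} (hg : g ∈ cen M y) : g ∈ Wr F 2 := by
  classical
  haveI : Fintype F := Fintype.ofFinite F
  have h2 := P.ov.two
  have hd := P.ov.nsq
  obtain ⟨e₁, h11, h10⟩ := exists_perp h2 hd ![r] (by norm_num) (by simp [P.hr])
    (fun a b hab => absurd (Subsingleton.elim a b) hab)
  have hr1 : gB (G4 δ) r e₁ = 0 := h10 0
  obtain ⟨e₂, h22, h20⟩ := exists_perp h2 hd ![r, e₁] (by norm_num)
    (by intro l; fin_cases l <;> simp [P.hr, h11])
    (by intro l m hlm; fin_cases l <;> fin_cases m <;> simp_all [gB_symm δ e₁ r])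
  have hr2 : gB (G4 δ) r e₂ = 0 := h20 0
  have h12 : gB (G4 δ) e₁ e₂ = 0 := h20 1
  obtain ⟨e₃, h33, h30⟩ := exists_perp h2 hd ![r, e₁, e₂] (by norm_num)
    (by intro l; fin_cases l <;> simp [P.hr, h11, h22])
    (by intro l m hlm; fin_cases l <;> fin_cases m <;>
          simp_all [gB_symm δ e₁ r, gB_symm δ e₂ r, gB_symm δ e₂ e₁])
  have hr3 : gB (G4 δ) r e₃ = 0 := h30 0
  have h13 : gB (G4 δ) e₁ e₃ = 0 := h30 1
  have h23 : gB (G4 δ) e₂ e₃ = 0 := h30 2
  obtain ⟨a, b, hab⟩ : ∃ a b : F,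
      gB (G4 δ) e₁ e₁ * a * a + gB (G4 δ) e₂ e₂ * b * b + gB (G4 δ) e₃ e₃ = 0 := by
    have hchar : ringChar F ≠ 2 := by
      intro h
      haveI : CharP F 2 := h ▸ ringChar.charP F
      exact h2 (by exact_mod_cast CharP.cast_eq_zero F 2)
    obtain ⟨a, b, h⟩ := FiniteField.exists_root_sum_quadratic
      (f := Polynomial.C (gB (G4 δ) e₁ e₁) * Polynomial.X ^ 2)
      (g := Polynomial.C (gB (G4 δ) e₂ e₂) * Polynomial.X ^ 2 + Polynomial.C (gB (G4 δ) e₃ e₃))
      (Polynomial.degree_C_mul_X_pow 2 h11)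
      (by
        rw [Polynomial.degree_add_C (by rw [Polynomial.degree_C_mul_X_pow 2 h22]; norm_num),
          Polynomial.degree_C_mul_X_pow 2 h22]
        norm_num)
      (FiniteField.odd_card_of_char_ne_two hchar)
    refine ⟨a, b, ?_⟩
    simp at h
    linear_combination h
  set w := a • e₁ + b • e₂ + e₃ with hw
  set x := (-(b * gB (G4 δ) e₂ e₂)) • e₁ + (a * gB (G4 δ) e₁ e₁) • e₂ with hxd
  have hww : gB (G4 δ) w w = 0 := by
    simp only [hw, map_add, map_smul, LinearMap.add_apply, LinearMap.smul_apply, smul_eq_mul, h12,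
      h13, h23, gB_symm δ e₂ e₁, gB_symm δ e₃ e₁, gB_symm δ e₃ e₂]
    linear_combination hab
  have hw0 : w ≠ 0 := fun h0 => by
    have := congrArg (gB (G4 δ) e₃) h0
    simp [hw, gB_symm δ e₃ e₁, gB_symm δ e₃ e₂, h13, h23, h33] at this
  have hwx : gB (G4 δ) w x = 0 := by
    simp only [hw, hxd, map_add, map_smul, LinearMap.add_apply, LinearMap.smul_apply, smul_eq_mul,
      h12, gB_symm δ e₂ e₁, gB_symm δ e₃ e₁, gB_symm δ e₃ e₂, h13, h23]
    ring
  have hxx : gB (G4 δ) x x ≠ 0 := by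
    have : gB (G4 δ) x x = -(gB (G4 δ) e₁ e₁ * gB (G4 δ) e₂ e₂ * gB (G4 δ) e₃ e₃) := by
      simp only [hxd, map_add, map_smul, LinearMap.add_apply, LinearMap.smul_apply, smul_eq_mul,
        h12, gB_symm δ e₂ e₁]
      linear_combination gB (G4 δ) e₁ e₁ * gB (G4 δ) e₂ e₂ * hab
    rw [this]
    simp [h11, h22, h33]
  have hrw : gB (G4 δ) r w = 0 := by simp [hw, hr1, hr2, hr3]
  have hrx : gB (G4 δ) r x = 0 := by simp [hxd, hr1, hr2]
  obtain ⟨u, hu, huv, -⟩ := P.exists_u hw0 hww hwx hxx hrw hrx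
  have hu2 : IsSiteU δ ((u * u : GV F 2) : MV F 2) := by
    refine ⟨i, w, x + x, hw0, hww, by rw [map_add, hwx, add_zero], ?_, ?_⟩
    · simp only [map_add, LinearMap.add_apply]
      rw [show gB (G4 δ) x x + gB (G4 δ) x x + (gB (G4 δ) x x + gB (G4 δ) x x) =
        2 * 2 * gB (G4 δ) x x by ring]
      exact mul_ne_zero (mul_ne_zero h2 h2) hxx
    · rw [Units.val_mul, huv, site_mul, one_add_sieM_mul h2 hww hwx hwx]
  set o₀ := pv i w r' with ho₀
  set z₀ := (gB (G4 δ) r' r')⁻¹ • pv i x r' with hz₀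
  set o := (g : MV F 2) *ᵥ o₀ with ho
  set z := (g : MV F 2) *ᵥ z₀ with hz
  have hiso := P.iso hg
  have hoo : bV δ o o = 0 := by rw [ho, bV_iso hiso, ho₀, bV_pv, hww, zero_mul]
  have hoz : bV δ o z = 0 := by
    rw [ho, hz, bV_iso hiso, ho₀, hz₀, map_smul, bV_pv, hwx, zero_mul, smul_zero]
  have hzz : bV δ z z ≠ 0 := by
    rw [hz, bV_iso hiso, hz₀]
    simp [bV_pv, hxx, P.hr']
  have hz6 : (y : MV F 2) *ᵥ z = -z :=
    P.pres hg (by rw [hz₀, mulVec_smul, P.six_left hrx, smul_neg])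
  have hvC : g * u * g⁻¹ ∈ cen M y := mul_mem (mul_mem hg hu) (inv_mem hg)
  have hacts : Acts δ y (g * u * g⁻¹) o z := P.acts_conj hg (P.acts_u huv hrw hrx)
  have hsq : g * u * g⁻¹ * (g * u * g⁻¹) = g * (u * u) * g⁻¹ := by group
  have hback : ∀ X : Vec F 2,
      ((g⁻¹ : GV F 2) : MV F 2) *ᵥ ((g : MV F 2) *ᵥ X) = X := fun X => by
    rw [mulVec_mulVec, Units.inv_mul, one_mulVec]
  have hplane : ∀ h ∈ cen M y, ∀ l : F, l ≠ 0 → (h : MV F 2) *ᵥ o = l • o →
      ∃ a b : F, (h : MV F 2) *ᵥ z = a • z + b • o := by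
    intro h hh l hl hlo
    have hb : bV δ o (l • ((h : MV F 2) *ᵥ z)) = 0 := by
      have := bV_iso (P.iso hh) o z
      rw [hlo, map_smul, LinearMap.smul_apply, hoz] at this
      rw [map_smul]; exact this
    have hA : Acts δ y (h * (g * u * g⁻¹) * h⁻¹) o (l • ((h : MV F 2) *ᵥ z)) := fun d hd' => by
      rw [P.acts_conj hh hacts d hd', hlo, sie_smul]
    have hC' : h * (g * u * g⁻¹) * h⁻¹ ∈ cen M y :=
      mul_mem (mul_mem hh hvC) (inv_mem hh)
    have hc := P.acts_comm hhalf hvC hC' hoo hoz hb hacts hA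
    set k := g⁻¹ * (h * (g * u * g⁻¹) * h⁻¹) * g with hk
    have hkC : k ∈ cen M y := mul_mem (mul_mem (inv_mem hg) hC') hg
    have hk' : Acts δ y k o₀ (((g⁻¹ : GV F 2) : MV F 2) *ᵥ (l • ((h : MV F 2) *ᵥ z))) := by
      have := P.acts_conj (inv_mem hg) hA
      rw [inv_inv, ho, hback] at this
      exact this
    have hkW : k ∈ Wr F 2 := by
      refine hU _ (mul_mem (mem_cen.1 hu).1 (mem_cen.1 hu).1) hu2 k (mem_cen.1 hkC).1 ?_
      rw [← Units.val_mul k, ← Units.val_mul (u * u) k]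
      refine congrArg Units.val ?_
      rw [hsq] at hc
      have e : h * (g * u * g⁻¹) * h⁻¹ = g * k * g⁻¹ := by rw [hk]; group
      rw [e] at hc
      refine mul_left_cancel (a := g) (mul_right_cancel (b := g⁻¹) ?_)
      calc g * (k * (u * u)) * g⁻¹ = g * k * g⁻¹ * (g * (u * u) * g⁻¹) := by group
        _ = g * (u * u) * g⁻¹ * (g * k * g⁻¹) := hc.eq.symm
        _ = g * (u * u * k) * g⁻¹ := by group
    obtain ⟨a', b', hab'⟩ := P.wr_acts hw0 hww hwx hxx hrw hrx hkW
      (P.pres (inv_mem hg) (by rw [mulVec_smul, P.pres hh hz6, smul_neg]))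
      (by
        rw [← ho₀, ← hback o₀, bV_iso (P.iso (inv_mem hg)), ← ho]
        exact hb) hk'
    refine ⟨a' * gB (G4 δ) r' r' / l, b' / l, ?_⟩
    have h3 := congrArg (fun X => (g : MV F 2) *ᵥ X) hab'
    have hfwd : ∀ X : Vec F 2, (g : MV F 2) *ᵥ (((g⁻¹ : GV F 2) : MV F 2) *ᵥ X) = X := fun X => by
      rw [mulVec_mulVec, Units.mul_inv, one_mulVec]
    simp only [mulVec_add, mulVec_smul, hfwd] at h3
    have hx' : (g : MV F 2) *ᵥ pv i x r' = gB (G4 δ) r' r' • z := by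
      rw [hz, hz₀, mulVec_smul, smul_smul, mul_inv_cancel₀ P.hr', one_smul]
    rw [← ho₀, ← ho, hx', smul_smul] at h3
    refine smul_right_injective (Vec F 2) hl ?_
    show l • _ = l • _
    rw [h3, smul_add, smul_smul, smul_smul, mul_div_cancel₀ _ hl, mul_div_cancel₀ _ hl]
  have hvW := P.conj_mem hU hhalf ⟨hvC, hacts, hoo, hoz, hzz, hplane⟩
    (P.pres hg (P.six_left hrw)) hz6 (fun h0 => by
      have h1 : o₀ = 0 := by rw [← hback o₀, ← ho, h0, mulVec_zero]
      obtain ⟨p, -, hp⟩ := perp_dual hd P.hr hrw hw0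
      have := congrArg (fun X => bV δ X (pv i p r')) h1
      simp [ho₀, bV_pv, hp, P.hr'] at this)
  rw [hsq] at hvW
  exact hclass g (mem_cen.1 hg).1 _ hu2 hvW

end Fix

end Cfsg.Agent.MaxSub.OrthFour.PRTwo

namespace Cfsg.Agent.MaxSub.OrthFour

open Cfsg.Agent.NotMax
open scoped MatrixGroups

variable {F : Type*} [Field F] {δ : F}

/-- **The centralisers of products of two site reflections are monomial.** -/
theorem cenLe_pairRefl_two [Finite F] {M : Subgroup (GV F 2)} (hM : Over δ M)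
    (hU : ∀ u ∈ M, IsSiteU δ (u : MV F 2) → CenLe M (u : MV F 2))
    (hclass : ∀ g ∈ M, ∀ u : GV F 2, IsSiteU δ (u : MV F 2) → g * u * g⁻¹ ∈ Wr F 2 → g ∈ Wr F 2)
    (hhalf : ∀ x ∈ M, IsHalf δ (x : MV F 2) → CenLe M (x : MV F 2)) :
    ∀ y ∈ M, IsPairRefl δ (y : MV F 2) → CenLe M (y : MV F 2) := by
  rintro y hy ⟨i, j, r, s, hij, hr, hs, hval⟩ g hg hcomm
  exact (⟨hM, hy, hij, hr, hs, hval⟩ : PRTwo.Pr δ M y i j r s).cen_le hU hhalf hclass
    (PRTwo.mem_cen.2 ⟨hg, hcomm⟩)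

end Cfsg.Agent.MaxSub.OrthFour
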