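import Cfsg.Agent.MaxSub.OrthFour.Omega
import Cfsg.Agent.MaxSub.OrthFour.EGen

/-!
Partners: a conjugate of a site half turn outside the monomial group, for at least three sites,
pairs the sites off, commuting with products of root elements of two paired sites and with no
non-scalar isometry of a single site.
-/

set_option autoImplicit false
set_option linter.unusedSectionVars false

namespace Cfsg.Agent.MaxSub.OrthFour.PB

open Matrix Cfsg.Geo Cfsg.Agent.NotMax Cfsg.Agent.GeoClasses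
open Cfsg.Agent.MaxSub.TensorPowSp (gV fG site_injective)
open Cfsg.Agent.MaxSub.OrthWreathBig (gB cr sieM)
open scoped MatrixGroups Matrix

variable {F : Type*} [Field F] {t : ℕ} {δ : F}

/-! ### Isometries of one site -/

lemma isoW_of_gB {A : M4 F} (h : ∀ u v, gB (G4 δ) (A *ᵥ u) (A *ᵥ v) = gB (G4 δ) u v) :
    IsoW δ A := by
  refine Matrix.ext fun p q => ?_
  have h := h (Pi.single p 1) (Pi.single q 1)
  simp only [OrthWreathBig.gB_apply, TensorPowSp.fG] at h
  rw [← dotProduct_mulVec, ← dotProduct_mulVec, mulVec_mulVec, ← vecMul_transpose,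
    ← dotProduct_mulVec, mulVec_mulVec, ← mul_assoc] at h
  simpa [mulVec_single_one, single_dotProduct] using h

lemma isoW_one : IsoW δ (1 : M4 F) := by simp [IsoW]

lemma isoW_mul {A B : M4 F} (hA : IsoW δ A) (hB : IsoW δ B) : IsoW δ (A * B) :=
  isoW_of_gB fun u v => by rw [← mulVec_mulVec, ← mulVec_mulVec, hA.gB_eq, hB.gB_eq]

lemma isoW_pow {A : M4 F} (hA : IsoW δ A) : ∀ n, IsoW δ (A ^ n)
  | 0 => by rw [pow_zero]; exact isoW_one
  | n + 1 => by rw [pow_succ]; exact isoW_mul (isoW_pow hA n) hA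

lemma isoW_inv {A A' : M4 F} (hA : IsoW δ A) (h : A * A' = 1) : IsoW δ A' :=
  isoW_of_gB fun u v => by rw [← hA.gB_eq, mulVec_mulVec, mulVec_mulVec, h, one_mulVec, one_mulVec]

lemma isoW_neg {A : M4 F} (hA : IsoW δ A) : IsoW δ (-A) :=
  isoW_of_gB fun u v => by simp [neg_mulVec, hA.gB_eq]

lemma reflW_mul_self {r : Fin 4 → F} (hr : gB (G4 δ) r r ≠ 0) : reflW δ r * reflW δ r = 1 :=
  Matrix.ext_iff_mulVec.2 fun x => by
    rw [← mulVec_mulVec, reflW_mulVec, reflW_mulVec, one_mulVec]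
    simp only [map_sub, map_smul, smul_eq_mul]
    match_scalars <;> field_simp <;> ring

lemma isoW_reflW {r : Fin 4 → F} (hr : gB (G4 δ) r r ≠ 0) : IsoW δ (reflW δ r) :=
  isoW_of_gB fun u v => by
    simp only [reflW_mulVec, map_sub, map_smul, LinearMap.sub_apply, LinearMap.smul_apply,
      smul_eq_mul]
    rw [gB_symm δ u r]
    field_simp
    ring

lemma reflW_self {r : Fin 4 → F} (hr : gB (G4 δ) r r ≠ 0) : reflW δ r *ᵥ r = -r := by
  rw [reflW_mulVec]
  match_scalars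
  field_simp
  ring

lemma reflW_perp {r x : Fin 4 → F} (h : gB (G4 δ) r x = 0) : reflW δ r *ᵥ x = x := by
  rw [reflW_mulVec, h, mul_zero, mul_zero, zero_smul, sub_zero]

lemma conj_reflW {A A' : M4 F} (hA : IsoW δ A) (h : A * A' = 1) (r : Fin 4 → F) :
    A * reflW δ r * A' = reflW δ (A *ᵥ r) :=
  Matrix.ext_iff_mulVec.2 fun x => by
    rw [← mulVec_mulVec, ← mulVec_mulVec, reflW_mulVec, reflW_mulVec, mulVec_sub, mulVec_smul,
      mulVec_mulVec, h, one_mulVec, hA.gB_eq,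
      ← hA.gB_eq r (A' *ᵥ x), mulVec_mulVec, h, one_mulVec]

lemma trace_cr (a b : Fin 4 → F) : (cr (G4 δ) a b).trace = gB (G4 δ) b a := by
  rw [OrthWreathBig.cr, trace_vecMulVec, gB_diag]
  simp only [dotProduct, Fin.sum_univ_four, G4, wt, vecMul_diagonal, Matrix.cons_val_zero,
    Matrix.cons_val_one, Matrix.cons_val]
  ring

lemma trace_reflW {r : Fin 4 → F} (hr : gB (G4 δ) r r ≠ 0) : (reflW δ r).trace = 2 := by
  rw [reflW, trace_sub, trace_smul, trace_one, trace_cr, smul_eq_mul, div_mul_cancel₀ _ hr,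
    Fintype.card_fin]
  norm_num

lemma trace_half {r s : Fin 4 → F} (hr : gB (G4 δ) r r ≠ 0) (hs : gB (G4 δ) s s ≠ 0)
    (hrs : gB (G4 δ) r s = 0) : (reflW δ r * reflW δ s).trace = 0 := by
  simp only [reflW, sub_mul, mul_sub, one_mul, mul_one, smul_mul, Matrix.mul_smul,
    OrthWreathBig.cr_mul, hrs, zero_smul, smul_zero, sub_zero, trace_sub, trace_smul, trace_one,
    trace_cr, smul_eq_mul, div_mul_cancel₀ _ hr, div_mul_cancel₀ _ hs, Fintype.card_fin]
  norm_num

lemma half_mul_self {r s : Fin 4 → F} (hr : gB (G4 δ) r r ≠ 0) (hs : gB (G4 δ) s s ≠ 0)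
    (hrs : gB (G4 δ) r s = 0) :
    (reflW δ r * reflW δ s) * (reflW δ r * reflW δ s) = 1 := by
  have h : reflW δ r * reflW δ s * reflW δ r = reflW δ s := by
    rw [conj_reflW (isoW_reflW hr) (reflW_mul_self hr), reflW_perp hrs]
  rw [← mul_assoc, h, reflW_mul_self hs]

/-- Two matrices agreeing on an orthogonal basis are equal. -/
lemma eq_of_frame {f : Fin 4 → Fin 4 → F}
    (h1 : ∀ l, gB (G4 δ) (f l) (f l) ≠ 0) (h2 : ∀ l m, l ≠ m → gB (G4 δ) (f l) (f m) = 0)
    {A B : M4 F} (h : ∀ l, A *ᵥ f l = B *ᵥ f l) : A = B := by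
  have hli : LinearIndependent F f := Forms.linearIndependent_of_orthogonal (gB (G4 δ)) h2 h1
  have hli' : LinearIndependent F (Matrix.of f).row := hli
  have hu : IsUnit ((Matrix.of f)ᵀ) :=
    (Matrix.isUnit_transpose _).2 (Matrix.linearIndependent_rows_iff_isUnit.1 hli')
  refine hu.mul_right_cancel (Matrix.ext fun p q => ?_)
  simpa [Matrix.mul_apply, mulVec, dotProduct] using congrFun (h q) p

/-! ### Vectors of one site -/

/-- A non-zero subspace with non-degenerate form has an anisotropic vector. -/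
lemma exists_aniso_mem (h2 : (2 : F) ≠ 0) {S : Submodule F (Fin 4 → F)}
    (hS : Forms.NondegOn (gB (G4 δ)) S) (hne : S ≠ ⊥) : ∃ v ∈ S, gB (G4 δ) v v ≠ 0 := by
  by_contra hcon
  push Not at hcon
  obtain ⟨x, hx, hx0⟩ := Submodule.exists_mem_ne_zero_of_ne_bot hne
  refine hx0 (hS x hx fun y hy => ?_)
  have h := hcon (x + y) (S.add_mem hx hy)
  simp only [map_add, LinearMap.add_apply, hcon x hx, hcon y hy, gB_symm δ y x] at h
  exact (mul_eq_zero.1 (show (2 : F) * gB (G4 δ) x y = 0 by linear_combination h)).resolve_left h2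

lemma nondegOn_top (hd : ¬ IsSquare δ) :
    Forms.NondegOn (gB (G4 δ)) (⊤ : Submodule F (Fin 4 → F)) := fun x _ hx => by
  by_contra hx0
  obtain ⟨z, hz⟩ := exists_gB_ne_zero hd hx0
  rw [hx z trivial] at hz
  exact zero_ne_one hz

/-- The space perpendicular to two orthogonal anisotropic vectors takes every value. -/
lemma exists_value [Finite F] (h2 : (2 : F) ≠ 0) (hd : ¬ IsSquare δ) {a b : Fin 4 → F}
    (ha : gB (G4 δ) a a ≠ 0) (hb : gB (G4 δ) b b ≠ 0) (hab : gB (G4 δ) a b = 0) (ν : F) :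
    ∃ z, gB (G4 δ) a z = 0 ∧ gB (G4 δ) b z = 0 ∧ gB (G4 δ) z z = ν := by
  have hrefl : ∀ x y, gB (G4 δ) x y = 0 → gB (G4 δ) y x = 0 := fun x y h => by rwa [gB_symm]
  set S₁ := (⊤ : Submodule F (Fin 4 → F)) ⊓ LinearMap.ker (gB (G4 δ) a) with hS₁
  set S₂ := S₁ ⊓ LinearMap.ker (gB (G4 δ) b) with hS₂
  have hb1 : b ∈ S₁ := ⟨trivial, hab⟩
  have n2 : Forms.NondegOn (gB (G4 δ)) S₂ :=
    Forms.nondegOn_inf_ker _ (Forms.nondegOn_inf_ker _ (nondegOn_top hd) hrefl trivial ha) hrefl hb1 hb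
  have d1 := Forms.finrank_inf_ker_add_one (B := gB (G4 δ)) (S := ⊤) (u := a) trivial ha
  have d2 := Forms.finrank_inf_ker_add_one (B := gB (G4 δ)) hb1 hb
  rw [finrank_top, Module.finrank_fin_fun] at d1
  rw [← hS₁] at d1
  rw [← hS₂] at d2
  have ne2 : S₂ ≠ ⊥ := fun e => by rw [e, finrank_bot] at d2; omega
  obtain ⟨z₁, hz1, h1⟩ := exists_aniso_mem h2 n2 ne2
  have d3 := Forms.finrank_inf_ker_add_one (B := gB (G4 δ)) hz1 h1
  have ne3 : S₂ ⊓ LinearMap.ker (gB (G4 δ) z₁) ≠ ⊥ := fun e => by rw [e, finrank_bot] at d3; omega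
  obtain ⟨z₂, hz2, h2'⟩ := exists_aniso_mem h2 (Forms.nondegOn_inf_ker _ n2 hrefl hz1 h1) ne3
  obtain ⟨x, y, hxy⟩ := Forms.exists_mul_sq_add_mul_sq_eq h1 h2' ν
  have h12 : gB (G4 δ) z₁ z₂ = 0 := hz2.2
  have a1 : gB (G4 δ) a z₁ = 0 := hz1.1.2
  have a2 : gB (G4 δ) a z₂ = 0 := hz2.1.1.2
  have b1 : gB (G4 δ) b z₁ = 0 := hz1.2
  have b2 : gB (G4 δ) b z₂ = 0 := hz2.1.2
  refine ⟨x • z₁ + y • z₂, by simp [map_add, a1, a2], by simp [map_add, b1, b2], ?_⟩
  simp only [map_add, map_smul, LinearMap.add_apply, LinearMap.smul_apply, smul_eq_mul, h12,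
    gB_symm δ z₂ z₁]
  linear_combination hxy

/-- An isometry fixing all anisotropic lines is scalar. -/
lemma exists_moved (h2 : (2 : F) ≠ 0) (hd : ¬ IsSquare δ) {X : M4 F}
    (hX : ∀ c : F, X ≠ c • 1) :
    ∃ r, gB (G4 δ) r r ≠ 0 ∧ X *ᵥ r ∉ Submodule.span F {r} := by
  by_contra hcon
  push Not at hcon
  have ev : ∀ r, gB (G4 δ) r r ≠ 0 → ∃ c : F, X *ᵥ r = c • r := fun r hr => by
    obtain ⟨c, hc⟩ := Submodule.mem_span_singleton.1 (hcon r hr)
    exact ⟨c, hc.symm⟩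
  have h0 : δ ≠ 0 := fun e => hd (e ▸ IsSquare.zero)
  have hone : ∀ k : Fin 4, gB (G4 δ) (Pi.single k 1) (Pi.single k 1) ≠ 0 := fun k => by
    rw [gB_diag]; fin_cases k <;> simp [h0]
  choose c hc using fun k => ev _ (hone k)
  have key : ∀ v, gB (G4 δ) v v ≠ 0 → ∀ k l, v k = 1 → v l = 1 → c k = c l := by
    intro v hv k l hk hl
    obtain ⟨d, hd'⟩ := ev v hv
    have hv' : v = ∑ m, v m • Pi.single m (1 : F) := pi_eq_sum_univ' v
    have : ∀ m, c m * v m = d * v m := fun m => by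
      have e := congrFun hd' m
      rw [hv', mulVec_sum] at e
      simp only [mulVec_smul, hc] at e
      simpa [Finset.sum_apply, Pi.single_apply, mul_comm] using e
    have e1 := this k
    have e2 := this l
    rw [hk, mul_one, mul_one] at e1
    rw [hl, mul_one, mul_one] at e2
    rw [e1, e2]
  have e12 : c 1 = c 2 := key ![0, 1, 1, 0] (by rw [gB_diag]; simpa [one_add_one_eq_two] using h2)
    1 2 rfl rfl
  have e13 : c 1 = c 3 := key ![0, 1, 0, 1] (by rw [gB_diag]; simpa [one_add_one_eq_two] using h2)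
    1 3 rfl rfl
  have e01 : c 0 = c 1 := by
    by_cases hd1 : δ + 1 = 0
    · exact key ![1, 1, 1, 0] (by
        rw [gB_diag]
        intro e
        simp at e
        exact one_ne_zero (show (1 : F) = 0 by linear_combination e - hd1)) 0 1 rfl rfl
    · exact key ![1, 1, 0, 0] (by rw [gB_diag]; simpa using hd1) 0 1 rfl rfl
  refine hX (c 0) (Matrix.ext fun p q => ?_)
  have hq : c q = c 0 := by fin_cases q <;> simp_all
  have := congrFun (hc q) p
  rw [mulVec_single_one] at this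
  simpa [Matrix.one_apply, Pi.single_apply, hq] using this

/-- A set of isometries closed under products, inverses and conjugation by reflections which has
a non-scalar member has a half turn. -/
lemma exists_half [Finite F] (h2 : (2 : F) ≠ 0) (hd : ¬ IsSquare δ) {S : M4 F → Prop}
    (hiso : ∀ A, S A → IsoW δ A) (hmul : ∀ A B, S A → S B → S (A * B))
    (hinv : ∀ A B, S A → A * B = 1 → S B)
    (hconj : ∀ A r, gB (G4 δ) r r ≠ 0 → S A → S (reflW δ r * A * reflW δ r))
    {X : M4 F} (hX : S X) (hns : ∀ c : F, X ≠ c • 1) :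
    ∃ r s, gB (G4 δ) r r ≠ 0 ∧ gB (G4 δ) s s ≠ 0 ∧ gB (G4 δ) r s = 0 ∧
      S (reflW δ r * reflW δ s) := by
  obtain ⟨a, ha, hmov⟩ := exists_moved h2 hd hns
  have hdet : X.det ≠ 0 := (hiso X hX).sim.det_ne hd
  have hXX : X * X⁻¹ = 1 := mul_nonsing_inv X (isUnit_iff_ne_zero.2 hdet)
  set b := X *ᵥ a with hb
  have hbb : gB (G4 δ) b b = gB (G4 δ) a a := (hiso X hX).gB_eq a a
  have hba : S (reflW δ b * reflW δ a) := by
    rw [← conj_reflW (hiso X hX) hXX a,
      show X * reflW δ a * X⁻¹ * reflW δ a = X * (reflW δ a * X⁻¹ * reflW δ a) by noncomm_ring]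
    exact hmul _ _ hX (hconj _ a ha (hinv X _ hX hXX))
  set κ := gB (G4 δ) a a with hκ
  set β := gB (G4 δ) a b with hβ
  set b₀ := b - (β / κ) • a with hb₀
  have hab₀ : gB (G4 δ) a b₀ = 0 := by
    rw [hb₀, map_sub, map_smul, smul_eq_mul, ← hβ, ← hκ, div_mul_cancel₀ _ ha, sub_self]
  have hb₀ne : b₀ ≠ 0 := fun e => hmov (Submodule.mem_span_singleton.2 ⟨β / κ, (sub_eq_zero.1 e).symm⟩)
  have hμ : gB (G4 δ) b₀ b₀ = κ - β ^ 2 / κ := by
    simp only [hb₀, map_sub, map_smul, LinearMap.sub_apply, LinearMap.smul_apply, smul_eq_mul,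
      gB_symm δ b a, ← hβ, ← hκ, hbb]
    field_simp
    ring
  obtain ⟨c, hac, hbc, hcc⟩ :
      ∃ c, gB (G4 δ) a c = 0 ∧ gB (G4 δ) b₀ c = β ∧ gB (G4 δ) c c = κ := by
    by_cases h0 : gB (G4 δ) b₀ b₀ = 0
    · have hβ0 : β ≠ 0 := fun e => by
        rw [hμ, e] at h0
        simp at h0
        exact ha h0
      obtain ⟨z₀, hz₀⟩ := exists_gB_ne_zero hd hb₀ne
      set z := z₀ - (gB (G4 δ) a z₀ / κ) • a with hz
      have haz : gB (G4 δ) a z = 0 := by
        rw [hz, map_sub, map_smul, smul_eq_mul, ← hκ, div_mul_cancel₀ _ ha, sub_self]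
      have hbz : gB (G4 δ) b₀ z = 1 := by
        rw [hz, map_sub, map_smul, hz₀, gB_symm δ b₀ a, hab₀, smul_zero, sub_zero]
      refine ⟨β • z + ((κ - β * β * gB (G4 δ) z z) / (2 * β)) • b₀, ?_, ?_, ?_⟩
      · simp [map_add, haz, hab₀]
      · simp [map_add, hbz, h0]
      · simp only [map_add, map_smul, LinearMap.add_apply, LinearMap.smul_apply, smul_eq_mul, h0,
          gB_symm δ z b₀, hbz]
        field_simp
        ring
    · obtain ⟨z, h1, h3, h4⟩ := exists_value h2 hd ha h0 hab₀ (κ - β ^ 2 / gB (G4 δ) b₀ b₀)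
      refine ⟨(β / gB (G4 δ) b₀ b₀) • b₀ + z, ?_, ?_, ?_⟩
      · simp [map_add, hab₀, h1]
      · simp [map_add, h3, div_mul_cancel₀ _ h0]
      · simp only [map_add, map_smul, LinearMap.add_apply, LinearMap.smul_apply, smul_eq_mul, h3,
          gB_symm δ z b₀, h4]
        field_simp
        ring
  have hbc' : gB (G4 δ) b c = β := by
    rw [show b = b₀ + (β / κ) • a by rw [hb₀, sub_add_cancel], map_add, LinearMap.add_apply,
      map_smul, LinearMap.smul_apply, hac, hbc, smul_zero, add_zero]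
  have hc : gB (G4 δ) c c ≠ 0 := hcc ▸ ha
  have hdd : gB (G4 δ) (a - c) (a - c) = 2 * κ := by
    simp only [map_sub, LinearMap.sub_apply, gB_symm δ c a, hac, hcc, ← hκ]
    ring
  have hd0 : gB (G4 δ) (a - c) (a - c) ≠ 0 := hdd ▸ mul_ne_zero h2 ha
  have hda : reflW δ (a - c) *ᵥ a = c := by
    rw [reflW_mulVec, hdd, map_sub, LinearMap.sub_apply, gB_symm δ c a, hac, ← hκ, sub_zero,
      inv_mul_cancel₀ (mul_ne_zero h2 ha), one_smul, sub_sub_cancel]
  have hdb : reflW δ (a - c) *ᵥ b = b := reflW_perp (by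
    rw [map_sub, LinearMap.sub_apply, ← hβ, gB_symm δ c b, hbc', sub_self])
  have hbc2 : S (reflW δ b * reflW δ c) := by
    have h := hconj _ (a - c) hd0 hba
    rwa [show reflW δ (a - c) * (reflW δ b * reflW δ a) * reflW δ (a - c) =
        (reflW δ (a - c) * reflW δ b * reflW δ (a - c)) *
          (reflW δ (a - c) * reflW δ a * reflW δ (a - c)) by
      rw [show reflW δ (a - c) * reflW δ b * reflW δ (a - c) *
        (reflW δ (a - c) * reflW δ a * reflW δ (a - c)) = reflW δ (a - c) * reflW δ b *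
          (reflW δ (a - c) * reflW δ (a - c)) * reflW δ a * reflW δ (a - c) by noncomm_ring,
        reflW_mul_self hd0]
      noncomm_ring,
      conj_reflW (isoW_reflW hd0) (reflW_mul_self hd0),
      conj_reflW (isoW_reflW hd0) (reflW_mul_self hd0), hdb, hda] at h
  have hb0 : gB (G4 δ) b b ≠ 0 := hbb ▸ ha
  have hcb : S (reflW δ c * reflW δ b) := hinv _ _ hbc2 (by
    rw [show reflW δ b * reflW δ c * (reflW δ c * reflW δ b) =
      reflW δ b * (reflW δ c * reflW δ c) * reflW δ b by noncomm_ring, reflW_mul_self hc, mul_one,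
      reflW_mul_self hb0])
  refine ⟨c, a, hc, ha, by rw [gB_symm, hac], ?_⟩
  have h := hmul _ _ hcb hba
  rwa [show reflW δ c * reflW δ b * (reflW δ b * reflW δ a) =
    reflW δ c * (reflW δ b * reflW δ b) * reflW δ a by noncomm_ring, reflW_mul_self hb0, mul_one] at h

/-- An involution other than `1` negates an anisotropic vector. -/
lemma exists_neg_vec (h2 : (2 : F) ≠ 0) (hd : ¬ IsSquare δ) {X : M4 F} (hX : IsoW δ X)
    (hXX : X * X = 1) (h1 : X ≠ 1) : ∃ r, gB (G4 δ) r r ≠ 0 ∧ X *ᵥ r = -r := by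
  by_contra hcon
  push Not at hcon
  obtain ⟨v, hv⟩ : ∃ v, X *ᵥ v ≠ v := by
    by_contra h
    push Not at h
    exact h1 (Matrix.ext_iff_mulVec.2 fun v => by rw [h, one_mulVec])
  set u := X *ᵥ v - v with hu
  have hXu : X *ᵥ u = -u := by
    rw [hu, mulVec_sub, mulVec_mulVec, hXX, one_mulVec, neg_sub]
  have hiso : ∀ r, X *ᵥ r = -r → gB (G4 δ) r r = 0 := fun r hr => by
    by_contra h
    exact hcon r h hr
  obtain ⟨z, hz⟩ := exists_gB_ne_zero hd (sub_ne_zero.2 hv : u ≠ 0)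
  set m := z - X *ᵥ z with hm
  have hXm : X *ᵥ m = -m := by
    rw [hm, mulVec_sub, mulVec_mulVec, hXX, one_mulVec, neg_sub]
  have h := hiso (u + m) (by rw [mulVec_add, hXu, hXm, neg_add])
  simp only [map_add, LinearMap.add_apply, hiso u hXu, hiso m hXm, gB_symm δ m u] at h
  have hum : gB (G4 δ) u m = 2 := by
    have e := hX.gB_eq u z
    rw [hXu, map_neg, LinearMap.neg_apply, hz] at e
    rw [hm, map_sub, hz]
    linear_combination e
  rw [hum] at h
  exact mul_ne_zero h2 h2 (by linear_combination h)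

/-- The involutions of one site. -/
lemma invol_cases (h2 : (2 : F) ≠ 0) (hd : ¬ IsSquare δ) {X : M4 F} (hX : IsoW δ X)
    (hXX : X * X = 1) (h1 : X ≠ 1) (hm1 : X ≠ -1) :
    (∃ r, gB (G4 δ) r r ≠ 0 ∧ (X = reflW δ r ∨ X = -reflW δ r)) ∨
      ∃ r s, gB (G4 δ) r r ≠ 0 ∧ gB (G4 δ) s s ≠ 0 ∧ gB (G4 δ) r s = 0 ∧
        X = reflW δ r * reflW δ s := by
  have step : ∀ (Y : M4 F), IsoW δ Y → Y * Y = 1 → ∀ r, gB (G4 δ) r r ≠ 0 → Y *ᵥ r = -r →
      IsoW δ (reflW δ r * Y) ∧ (reflW δ r * Y) * (reflW δ r * Y) = 1 ∧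
      ∀ s, gB (G4 δ) s s ≠ 0 → (reflW δ r * Y) *ᵥ s = -s →
        gB (G4 δ) r s = 0 ∧ Y *ᵥ s = -s := by
    intro Y hY hYY r hr hYr
    have hc : Y * reflW δ r * Y = reflW δ r := by
      rw [conj_reflW hY hYY, hYr]
      exact Matrix.ext_iff_mulVec.2 fun x => by simp [reflW_mulVec]
    refine ⟨isoW_mul (isoW_reflW hr) hY, by
      rw [mul_assoc, ← mul_assoc Y, hc, reflW_mul_self hr], fun s _ hs => ?_⟩
    have hrs : gB (G4 δ) r s = 0 := by
      have hr' : (reflW δ r * Y) *ᵥ r = r := by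
        rw [← mulVec_mulVec, hYr, mulVec_neg, reflW_self hr, neg_neg]
      have e := (isoW_mul (isoW_reflW hr) hY).gB_eq r s
      rw [hr', hs, map_neg] at e
      exact (mul_eq_zero.1 (show (2 : F) * gB (G4 δ) r s = 0 by linear_combination -e)).resolve_left h2
    refine ⟨hrs, ?_⟩
    have e := congrArg (reflW δ r *ᵥ ·) hs
    simp only [mulVec_mulVec, mulVec_neg, reflW_perp hrs, ← mul_assoc, reflW_mul_self hr,
      one_mul] at e
    exact e
  obtain ⟨r, hr, hXr⟩ := exists_neg_vec h2 hd hX hXX h1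
  obtain ⟨i1, q1, n1⟩ := step X hX hXX r hr hXr
  by_cases e1 : reflW δ r * X = 1
  · refine Or.inl ⟨r, hr, Or.inl ?_⟩
    have := congrArg (reflW δ r * ·) e1
    simpa [← mul_assoc, reflW_mul_self hr] using this
  obtain ⟨s, hs, hs'⟩ := exists_neg_vec h2 hd i1 q1 e1
  obtain ⟨hrs, hXs⟩ := n1 s hs hs'
  obtain ⟨i2, q2, n2⟩ := step _ i1 q1 s hs hs'
  by_cases e2 : reflW δ s * (reflW δ r * X) = 1
  · refine Or.inr ⟨r, s, hr, hs, hrs, ?_⟩
    have := congrArg (fun Z => reflW δ r * (reflW δ s * Z)) e2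
    simp only [mul_one] at this
    rwa [← mul_assoc (reflW δ s), reflW_mul_self hs, one_mul, ← mul_assoc, reflW_mul_self hr,
      one_mul] at this
  obtain ⟨u, hu, hu'⟩ := exists_neg_vec h2 hd i2 q2 e2
  obtain ⟨hsu, hu''⟩ := n2 u hu hu'
  obtain ⟨hru, hXu⟩ := n1 u hu hu''
  have hne : -X ≠ 1 := fun e => hm1 (by rw [← e, neg_neg])
  obtain ⟨v, hv, hXv⟩ := exists_neg_vec h2 hd (isoW_neg hX) (by rw [neg_mul_neg, hXX]) hne
  rw [neg_mulVec, neg_inj] at hXv
  have perp : ∀ x, X *ᵥ x = -x → gB (G4 δ) x v = 0 := fun x hx => by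
    have e := hX.gB_eq x v
    rw [hx, hXv, map_neg, LinearMap.neg_apply] at e
    exact (mul_eq_zero.1 (show (2 : F) * gB (G4 δ) x v = 0 by linear_combination -e)).resolve_left h2
  refine Or.inl ⟨v, hv, Or.inr (eq_neg_iff_add_eq_zero.2 ?_)⟩
  rw [← eq_neg_iff_add_eq_zero]
  have hrv := perp r hXr
  have hsv := perp s hXs
  have huv := perp u hXu
  refine eq_of_frame (δ := δ) (f := ![r, s, u, v]) ?_ ?_ ?_
  · intro l; fin_cases l <;> simpa
  · intro l m hlm
    fin_cases l <;> fin_cases m <;>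
      first
      | exact absurd rfl hlm
      | simpa using hrs
      | simpa [gB_symm δ s r] using hrs
      | simpa using hru
      | simpa [gB_symm δ u r] using hru
      | simpa using hsu
      | simpa [gB_symm δ u s] using hsu
      | simpa using hrv
      | simpa [gB_symm δ v r] using hrv
      | simpa using hsv
      | simpa [gB_symm δ v s] using hsv
      | simpa using huv
      | simpa [gB_symm δ v u] using huv
  · intro l
    fin_cases l <;> simp [neg_mulVec, hXr, hXs, hXu, hXv, reflW_self hv,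
      reflW_perp (show gB (G4 δ) v r = 0 by rw [gB_symm, hrv]),
      reflW_perp (show gB (G4 δ) v s = 0 by rw [gB_symm, hsv]),
      reflW_perp (show gB (G4 δ) v u = 0 by rw [gB_symm, huv])]

/-! ### Root elements of one site -/

/-- The matrix is a root element of one site. -/
def UW (δ : F) (A : M4 F) : Prop :=
  ∃ w x, w ≠ 0 ∧ gB (G4 δ) w w = 0 ∧ gB (G4 δ) w x = 0 ∧ gB (G4 δ) x x ≠ 0 ∧
    A = 1 + sieM (G4 δ) w x

lemma u_mulVec (w x v : Fin 4 → F) : (1 + sieM (G4 δ) w x) *ᵥ v =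
    v + (gB (G4 δ) w v • x - gB (G4 δ) x v • w - (gB (G4 δ) x x / 2) • gB (G4 δ) w v • w) := by
  rw [add_mulVec, one_mulVec, sieM, sub_mulVec, sub_mulVec, smul_mulVec,
    OrthWreathBig.cr_mulVec, OrthWreathBig.cr_mulVec, OrthWreathBig.cr_mulVec]

lemma u_eq_refl_mul (h2 : (2 : F) ≠ 0) {w x : Fin 4 → F} (hw : gB (G4 δ) w w = 0)
    (hwx : gB (G4 δ) w x = 0) (hx : gB (G4 δ) x x ≠ 0) :
    gB (G4 δ) (x + (gB (G4 δ) x x / 2) • w) (x + (gB (G4 δ) x x / 2) • w) ≠ 0 ∧
      1 + sieM (G4 δ) w x = reflW δ x * reflW δ (x + (gB (G4 δ) x x / 2) • w) := by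
  have hxw : gB (G4 δ) x w = 0 := by rw [gB_symm, hwx]
  have hy : gB (G4 δ) (x + (gB (G4 δ) x x / 2) • w) (x + (gB (G4 δ) x x / 2) • w) =
      gB (G4 δ) x x := by
    simp [map_add, hw, hwx, hxw]
  refine ⟨by rw [hy]; exact hx, Matrix.ext_iff_mulVec.2 fun v => ?_⟩
  rw [u_mulVec, ← mulVec_mulVec, reflW_mulVec, reflW_mulVec, hy]
  simp only [map_add, map_sub, map_smul, LinearMap.add_apply, LinearMap.smul_apply, smul_eq_mul,
    hxw]
  match_scalars <;> field_simp <;> ring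

lemma isoW_u (h2 : (2 : F) ≠ 0) {A : M4 F} (hA : UW δ A) : IsoW δ A := by
  obtain ⟨w, x, -, hw, hwx, hx, rfl⟩ := hA
  obtain ⟨hy, e⟩ := u_eq_refl_mul h2 hw hwx hx
  exact (congrArg (IsoW δ) e).mpr (isoW_mul (isoW_reflW hx) (isoW_reflW hy))

lemma trace_u {A : M4 F} (hA : UW δ A) : A.trace = 4 := by
  obtain ⟨w, x, -, hw, hwx, -, rfl⟩ := hA
  simp [sieM, trace_add, trace_sub, trace_smul, trace_one, trace_cr, hw, hwx, gB_symm δ x w]

lemma u_not_scalar (hd : ¬ IsSquare δ) {w x : Fin 4 → F} (hw0 : w ≠ 0)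
    (hw : gB (G4 δ) w w = 0) (hwx : gB (G4 δ) w x = 0) (hx : gB (G4 δ) x x ≠ 0) (c : F) :
    1 + sieM (G4 δ) w x ≠ c • 1 := by
  intro e
  have h1 := congrArg (· *ᵥ w) e
  simp only [u_mulVec, hw, gB_symm δ x w, hwx, zero_smul, smul_zero, sub_zero, add_zero,
    smul_mulVec, one_mulVec] at h1
  have hc : c = 1 := by
    by_contra hc
    exact (sub_ne_zero.2 hc) ((smul_eq_zero.1 (show (c - 1) • w = 0 by
      rw [sub_smul, one_smul, ← h1, sub_self])).resolve_right hw0)
  rw [hc, one_smul, add_eq_left] at e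
  obtain ⟨l, rfl⟩ := Submodule.mem_span_singleton.1 ((sieM_eq_zero_iff hd hw0 hw).1 e)
  simp [hw] at hx

lemma sieM_zero (w : Fin 4 → F) : sieM (G4 δ) w 0 = 0 := by simp [sieM]

lemma u_pow (h2 : (2 : F) ≠ 0) {w x : Fin 4 → F} (hw : gB (G4 δ) w w = 0)
    (hwx : gB (G4 δ) w x = 0) : ∀ n : ℕ,
    (1 + sieM (G4 δ) w x) ^ n = 1 + sieM (G4 δ) w ((n : F) • x)
  | 0 => by simp [sieM_zero]
  | n + 1 => by
    rw [pow_succ, u_pow h2 hw hwx n, one_add_sieM_mul h2 hw (by simp [hwx]) hwx, Nat.cast_succ,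
      add_smul, one_smul]

lemma range_perp_ker {D : M4 F} (hD : IsoW δ D) {v z : Fin 4 → F} (hz : D *ᵥ z = z) :
    gB (G4 δ) (D *ᵥ v - v) z = 0 := by
  rw [map_sub, LinearMap.sub_apply, sub_eq_zero]
  conv_lhs => rw [← hz]
  exact hD.gB_eq v z

/-- A non-trivial unipotent isometry of one site is a root element. -/
lemma uw_of_unipotent (h2 : (2 : F) ≠ 0) (hd : ¬ IsSquare δ) {D : M4 F} (hD : IsoW δ D)
    (hne : D ≠ 1) {m : ℕ} (hm : (D - 1) ^ m = 0) : UW δ D := by
  classical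
  have ex : ∀ (N : M4 F) (v : Fin 4 → F), N *ᵥ v ≠ 0 → ∀ n, (N ^ n) *ᵥ v = 0 →
      ∃ k, (N ^ (k + 1)) *ᵥ v ≠ 0 ∧ N *ᵥ ((N ^ (k + 1)) *ᵥ v) = 0 := by
    intro N v hv n hn
    induction n with
    | zero =>
      rw [pow_zero, one_mulVec] at hn
      exact absurd (by rw [hn, mulVec_zero]) hv
    | succ n ih =>
      by_cases h : (N ^ n) *ᵥ v = 0
      · exact ih h
      · cases n with
        | zero => rw [pow_one] at hn; exact absurd hn hv
        | succ n => exact ⟨n, h, by rw [mulVec_mulVec, ← pow_succ']; exact hn⟩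
  obtain ⟨v₀, hv₀⟩ : ∃ v, (D - 1) *ᵥ v ≠ 0 := by
    by_contra h
    push Not at h
    exact hne (sub_eq_zero.1 (Matrix.ext_iff_mulVec.2 fun v => by rw [h, zero_mulVec]))
  obtain ⟨k, hw0, hDw⟩ := ex _ v₀ hv₀ m (by rw [hm, zero_mulVec])
  set w := ((D - 1) ^ (k + 1)) *ᵥ v₀ with hw
  have hDw' : D *ᵥ w = w := sub_eq_zero.1 (by rwa [sub_mulVec, one_mulVec] at hDw)
  have hww : gB (G4 δ) w w = 0 := by
    have e : w = D *ᵥ ((D - 1) ^ k *ᵥ v₀) - (D - 1) ^ k *ᵥ v₀ := by
      rw [hw, pow_succ', ← mulVec_mulVec, sub_mulVec, one_mulVec]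
    conv_lhs => arg 1; rw [e]
    exact range_perp_ker hD hDw'
  obtain ⟨z₀, hz₀⟩ := exists_gB_ne_zero hd hw0
  set z := z₀ - (gB (G4 δ) z₀ z₀ / 2) • w with hz
  have hwz : gB (G4 δ) w z = 1 := by rw [hz, map_sub, map_smul, hww, smul_zero, sub_zero, hz₀]
  have hzz : gB (G4 δ) z z = 0 := by
    simp only [hz, map_sub, map_smul, LinearMap.sub_apply, LinearMap.smul_apply, smul_eq_mul, hww,
      gB_symm δ z₀ w, hz₀]
    field_simp
    ring
  set y := D *ᵥ z - z with hy
  have hwy : gB (G4 δ) w y = 0 := by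
    rw [gB_symm, hy]; exact range_perp_ker hD hDw'
  set x := y - gB (G4 δ) y z • w with hx
  have hwx : gB (G4 δ) w x = 0 := by rw [hx, map_sub, map_smul, hwy, hww, smul_zero, sub_zero]
  have hwxn : gB (G4 δ) w (-x) = 0 := by rw [map_neg, hwx, neg_zero]
  have hxz : gB (G4 δ) x z = 0 := by
    simp only [hx, map_sub, map_smul, LinearMap.sub_apply, LinearMap.smul_apply, hwz, smul_eq_mul,
      mul_one, sub_self]
  have hDz : D *ᵥ z = z + x + gB (G4 δ) y z • w := by
    rw [hx, hy]; abel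
  have hq : gB (G4 δ) y z = -(gB (G4 δ) x x / 2) := by
    have e := hD.gB_eq z z
    rw [hDz] at e
    simp only [map_add, map_smul, LinearMap.add_apply, LinearMap.smul_apply, smul_eq_mul, hzz, hww,
      hwx, hwz, hxz, gB_symm δ z x, gB_symm δ z w, gB_symm δ x w] at e
    field_simp
    linear_combination e
  set B := 1 + sieM (G4 δ) w (-x) with hB
  have hBA : B * (1 + sieM (G4 δ) w x) = 1 := by
    rw [hB, one_add_sieM_mul h2 hww hwxn hwx, neg_add_cancel, sieM_zero, add_zero]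
  have hisoB : IsoW δ B := isoW_inv (A := 1 + sieM (G4 δ) w x) (by
    refine isoW_of_gB fun u v => ?_
    simp only [u_mulVec, map_add, map_sub, map_smul, LinearMap.add_apply, LinearMap.sub_apply,
      LinearMap.smul_apply, smul_eq_mul, hww, hwx, gB_symm δ x w, gB_symm δ u w, gB_symm δ u x]
    field_simp
    ring) (mul_eq_one_comm.1 hBA)
  set D' := B * D with hD'
  have hD'i : IsoW δ D' := isoW_mul hisoB hD
  have hD'w : D' *ᵥ w = w := by
    rw [hD', ← mulVec_mulVec, hDw', hB, u_mulVec, hww]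
    simp [gB_symm δ x w, hwx]
  have hD'z : D' *ᵥ z = z := by
    have e : (1 + sieM (G4 δ) w x) *ᵥ z = D *ᵥ z := by
      rw [hDz, u_mulVec, hwz, hxz, hq]
      module
    rw [hD', ← mulVec_mulVec, ← e, mulVec_mulVec, hBA, one_mulVec]
  have hcong : ∀ u, gB (G4 δ) w u = 0 → ∃ c : F, (D' - 1) *ᵥ u = (D - 1) *ᵥ u + c • w := by
    intro u hu
    have hDu : gB (G4 δ) w (D *ᵥ u) = 0 := by rw [← hDw', hD.gB_eq, hu]
    refine ⟨-gB (G4 δ) (-x) (D *ᵥ u), ?_⟩
    rw [sub_mulVec, sub_mulVec, one_mulVec, hD', ← mulVec_mulVec, hB, u_mulVec, hDu]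
    module
  have hiter : ∀ n u, gB (G4 δ) w u = 0 → gB (G4 δ) w ((D - 1) ^ n *ᵥ u) = 0 ∧
      ∃ c : F, (D' - 1) ^ n *ᵥ u = (D - 1) ^ n *ᵥ u + c • w := by
    intro n u hu
    induction n with
    | zero => exact ⟨by rwa [pow_zero, one_mulVec], 0, by simp⟩
    | succ n ih =>
      obtain ⟨hp, c, hc⟩ := ih
      obtain ⟨c', hc'⟩ := hcong _ hp
      refine ⟨?_, c', ?_⟩
      · rw [pow_succ', ← mulVec_mulVec, sub_mulVec, one_mulVec, map_sub]
        conv_lhs => arg 1; rw [← hDw']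
        rw [hD.gB_eq, sub_self]
      · rw [pow_succ', pow_succ', ← mulVec_mulVec, hc, mulVec_add, mulVec_smul, hc',
          sub_mulVec D' 1 w, hD'w, one_mulVec, sub_self, smul_zero, add_zero, mulVec_mulVec]
  have hnil : ∀ v, (D' - 1) ^ (m + 1) *ᵥ v = 0 := by
    intro v
    set u := v - gB (G4 δ) w v • z with hu
    have hwu : gB (G4 δ) w u = 0 := by
      rw [hu, map_sub, map_smul, hwz, smul_eq_mul, mul_one, sub_self]
    have hz1 : (D' - 1) *ᵥ z = 0 := by rw [sub_mulVec, hD'z, one_mulVec, sub_self]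
    have hw1 : (D' - 1) *ᵥ w = 0 := by rw [sub_mulVec, hD'w, one_mulVec, sub_self]
    obtain ⟨-, c, hc⟩ := hiter m u hwu
    rw [show v = u + gB (G4 δ) w v • z by rw [hu, sub_add_cancel], mulVec_add, mulVec_smul,
      pow_succ, ← mulVec_mulVec z _ (D' - 1), hz1, mulVec_zero, smul_zero, add_zero,
      (Commute.self_pow (D' - 1) m).symm.eq, ← mulVec_mulVec, hc, hm, zero_mulVec, zero_add,
      mulVec_smul, hw1, smul_zero]
  have hD'1 : D' = 1 := by
    by_contra h
    obtain ⟨v, hv⟩ : ∃ v, (D' - 1) *ᵥ v ≠ 0 := by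
      by_contra hh
      push Not at hh
      exact h (sub_eq_zero.1 (Matrix.ext_iff_mulVec.2 fun v => by rw [hh, zero_mulVec]))
    obtain ⟨k', hu0, hDu⟩ := ex _ v hv (m + 1) (hnil v)
    set u := (D' - 1) ^ (k' + 1) *ᵥ v with hu
    have hu' : D' *ᵥ u = u := sub_eq_zero.1 (by rwa [sub_mulVec, one_mulVec] at hDu)
    have e : u = D' *ᵥ ((D' - 1) ^ k' *ᵥ v) - (D' - 1) ^ k' *ᵥ v := by
      rw [hu, pow_succ', ← mulVec_mulVec, sub_mulVec, one_mulVec]
    have huu : gB (G4 δ) u u = 0 := by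
      conv_lhs => arg 1; rw [e]
      exact range_perp_ker hD'i hu'
    have huw : gB (G4 δ) u w = 0 := by rw [e]; exact range_perp_ker hD'i hD'w
    have huz : gB (G4 δ) u z = 0 := by rw [e]; exact range_perp_ker hD'i hD'z
    by_cases hs : u ∈ Submodule.span F {w}
    · obtain ⟨l, hl⟩ := Submodule.mem_span_singleton.1 hs
      rw [← hl, map_smul, LinearMap.smul_apply, hwz, smul_eq_mul, mul_one] at huz
      exact hu0 (by rw [← hl, huz, zero_smul])
    · exact gB_self_ne_zero hd hw0 hww (by rw [gB_symm, huw]) hs huu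
  have hDA : D = 1 + sieM (G4 δ) w x := by
    calc D = (1 + sieM (G4 δ) w x) * D' := by
          rw [hD', ← mul_assoc, mul_eq_one_comm.1 hBA, one_mul]
      _ = _ := by rw [hD'1, mul_one]
  refine ⟨w, x, hw0, hww, hwx, gB_self_ne_zero hd hw0 hww hwx fun hs => hne ?_, hDA⟩
  rw [hDA, (sieM_eq_zero_iff hd hw0 hww).2 hs, add_zero]

/-- Commuting root elements of one site have the same line. -/
lemma same_line (h2 : (2 : F) ≠ 0) (hd : ¬ IsSquare δ) {w x w' x' : Fin 4 → F} (hw0 : w ≠ 0)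
    (hw : gB (G4 δ) w w = 0) (hwx : gB (G4 δ) w x = 0) (hx : gB (G4 δ) x x ≠ 0) (hw0' : w' ≠ 0)
    (hw' : gB (G4 δ) w' w' = 0) (hwx' : gB (G4 δ) w' x' = 0) (hx' : gB (G4 δ) x' x' ≠ 0)
    (hc : (1 + sieM (G4 δ) w x) * (1 + sieM (G4 δ) w' x') =
      (1 + sieM (G4 δ) w' x') * (1 + sieM (G4 δ) w x)) : w' ∈ Submodule.span F {w} := by
  set A := 1 + sieM (G4 δ) w x
  set S := sieM (G4 δ) w' x'
  have hS : A * S = S * A := by
    have hc' : A * (1 + S) = (1 + S) * A := hc
    simp only [mul_add, add_mul, mul_one, one_mul] at hc'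
    exact add_left_cancel hc'
  obtain ⟨z, hz⟩ := exists_gB_ne_zero hd hw0'
  have hSS : S *ᵥ (S *ᵥ z) = (-gB (G4 δ) x' x') • w' := by
    have e : ∀ v, S *ᵥ v = gB (G4 δ) w' v • x' - gB (G4 δ) x' v • w' -
        (gB (G4 δ) x' x' / 2) • gB (G4 δ) w' v • w' := fun v => by
      have h := u_mulVec (δ := δ) w' x' v
      rw [add_mulVec, one_mulVec] at h
      exact add_left_cancel h
    simp only [e, hz, one_smul, map_sub, map_smul, hw', hwx', gB_symm δ x' w']
    match_scalars <;> ring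
  have hAz : A *ᵥ (S *ᵥ (S *ᵥ z)) = S *ᵥ (S *ᵥ (A *ᵥ z)) := by
    simp only [mulVec_mulVec]
    rw [← mul_assoc, hS, mul_assoc, hS, ← mul_assoc]
  obtain ⟨c, hcw⟩ : ∃ c : F, A *ᵥ w' = c • w' := by
    have e : ∀ v, S *ᵥ v = gB (G4 δ) w' v • x' - gB (G4 δ) x' v • w' -
        (gB (G4 δ) x' x' / 2) • gB (G4 δ) w' v • w' := fun v => by
      have h := u_mulVec (δ := δ) w' x' v
      rw [add_mulVec, one_mulVec] at h
      exact add_left_cancel h
    refine ⟨gB (G4 δ) w' (A *ᵥ z), ?_⟩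
    have hr : S *ᵥ (S *ᵥ (A *ᵥ z)) = (-gB (G4 δ) x' x') • gB (G4 δ) w' (A *ᵥ z) • w' := by
      simp only [e, map_sub, map_smul, smul_eq_mul, hw', hwx', gB_symm δ x' w']
      match_scalars <;> ring
    rw [hr, hSS, mulVec_smul] at hAz
    exact smul_right_injective _ (neg_ne_zero.2 hx') hAz
  have hiA : IsoW δ A := isoW_u h2 ⟨w, x, hw0, hw, hwx, hx, rfl⟩
  by_cases hg : gB (G4 δ) w w' = 0
  · by_contra hs
    exact gB_self_ne_zero hd hw0 hw hg hs hw'
  · exfalso
    have hAw : A *ᵥ w = w := by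
      show (1 + sieM (G4 δ) w x) *ᵥ w = w
      simp [u_mulVec, hw, gB_symm δ x w, hwx]
    have e := hiA.gB_eq w w'
    rw [hAw, hcw, map_smul, smul_eq_mul, mul_left_eq_self₀, or_iff_left hg] at e
    rw [e, one_smul] at hcw
    have hh : gB (G4 δ) w w' • x - gB (G4 δ) x w' • w -
        (gB (G4 δ) x x / 2) • gB (G4 δ) w w' • w = 0 :=
      add_eq_left.1 ((u_mulVec w x w').symm.trans hcw)
    have hxs : x ∈ Submodule.span F {w} := Submodule.mem_span_singleton.2
      ⟨(gB (G4 δ) w w')⁻¹ * (gB (G4 δ) x w' + gB (G4 δ) x x / 2 * gB (G4 δ) w w'), by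
        rw [sub_sub, sub_eq_zero, smul_smul (gB (G4 δ) x x / 2), ← add_smul] at hh
        rw [mul_smul, ← hh, inv_smul_smul₀ hg]⟩
    obtain ⟨l, rfl⟩ := Submodule.mem_span_singleton.1 hxs
    simp [hw] at hx

/-- Every site has root elements, one of them off any given line. -/
lemma exists_other (h2 : (2 : F) ≠ 0) (hd : ¬ IsSquare δ) {w : Fin 4 → F} (hw0 : w ≠ 0)
    (hw : gB (G4 δ) w w = 0) :
    ∃ w' x', w' ≠ 0 ∧ gB (G4 δ) w' w' = 0 ∧ gB (G4 δ) w' x' = 0 ∧ gB (G4 δ) x' x' ≠ 0 ∧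
      w' ∉ Submodule.span F {w} := by
  obtain ⟨z₀, hz₀⟩ := exists_gB_ne_zero hd hw0
  set z := z₀ - (gB (G4 δ) z₀ z₀ / 2) • w with hz
  have hwz : gB (G4 δ) w z = 1 := by rw [hz, map_sub, map_smul, hw, smul_zero, sub_zero, hz₀]
  have hzz : gB (G4 δ) z z = 0 := by
    simp only [hz, map_sub, map_smul, LinearMap.sub_apply, LinearMap.smul_apply, smul_eq_mul, hw,
      gB_symm δ z₀ w, hz₀]
    field_simp
    ring
  have hz0 : z ≠ 0 := fun e => by rw [e, map_zero] at hwz; exact zero_ne_one hwz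
  obtain ⟨x, hxk, hxs⟩ : ∃ x, gB (G4 δ) z x = 0 ∧ x ∉ Submodule.span F {z} := by
    by_contra h
    push Not at h
    have hle : LinearMap.ker (gB (G4 δ) z) ≤ Submodule.span F {z} := fun x hx => h x hx
    have h1 := Submodule.finrank_mono hle
    have h3 := LinearMap.finrank_range_add_finrank_ker (gB (G4 δ) z)
    have h4 := Submodule.finrank_le (LinearMap.range (gB (G4 δ) z))
    rw [Module.finrank_fin_fun] at h3
    rw [Module.finrank_self] at h4
    rw [finrank_span_singleton hz0] at h1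
    omega
  refine ⟨z, x, hz0, hzz, hxk, gB_self_ne_zero hd hz0 hzz hxk hxs, fun hs => ?_⟩
  obtain ⟨l, hl⟩ := Submodule.mem_span_singleton.1 hs
  rw [← hl, map_smul, hw, smul_zero] at hwz
  exact zero_ne_one hwz

lemma exists_uw [Finite F] (h2 : (2 : F) ≠ 0) (hd : ¬ IsSquare δ) : ∃ A : M4 F, UW δ A := by
  obtain ⟨a, b, hab⟩ := Forms.exists_mul_sq_add_mul_sq_eq (one_ne_zero (α := F)) one_ne_zero (-1)
  set w : Fin 4 → F := ![0, a, b, 1] with hw
  have hw0 : w ≠ 0 := fun e => one_ne_zero (congrFun e 3)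
  have hww : gB (G4 δ) w w = 0 := by
    rw [gB_diag]; simp [hw]; linear_combination hab
  obtain ⟨w', x', h1, h3, h4, h5, -⟩ := exists_other h2 hd hw0 hww
  exact ⟨_, w', x', h1, h3, h4, h5, rfl⟩

/-! ### Sites -/

lemma site_pow (i : Fin t) (A : M4 F) : ∀ n : ℕ, site i A ^ n = site i (A ^ n)
  | 0 => by rw [pow_zero, pow_zero, site_one]
  | n + 1 => by rw [pow_succ, site_pow i A n, site_mul, pow_succ]

lemma siteUnit_mem_Wr (i : Fin t) (A : M4 F) (hA : A.det ≠ 0) : siteUnit i A hA ∈ Wr F t := by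
  refine Subgroup.subset_closure (Or.inl ⟨Function.update (1 : Fin t → GL (Fin 4) F) i
    (Matrix.GeneralLinearGroup.mkOfDetNeZero A hA), fun a b => ?_⟩)
  show site i A a b = _
  rw [site, pureMat]
  refine Finset.prod_congr rfl fun l _ => ?_
  by_cases h : l = i
  · subst h; simp
  · simp [h]

lemma site_mem [Finite F] {M : Subgroup (GV F t)} (hM : Over δ M) (ht : 3 ≤ t) (i : Fin t)
    {A : M4 F} (hA : IsoW δ A) :
    ∃ g ∈ M, (g : MV F t) = site i A :=
  ⟨siteUnit i A (hA.sim.det_ne hM.nsq), hM.mem (siteUnit_mem_Wr i A _)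
    (site_mem_Om hM.two hM.nsq ht hA rfl), rfl⟩

lemma trace_site (i : Fin t) (A : M4 F) : (site i A).trace = A.trace * 4 ^ (t - 1) := by
  have h : (site i A).trace = ∏ l, (Function.update (1 : Fin t → M4 F) i A l).trace := by
    simp only [Matrix.trace, diag_apply, site, pureMat]
    exact (Fintype.prod_sum fun l p => Function.update (1 : Fin t → M4 F) i A l p p).symm
  rw [h, ← Finset.mul_prod_erase Finset.univ _ (Finset.mem_univ i), Function.update_self]
  congr 1
  rw [Finset.prod_congr rfl fun l hl => show (Function.update (1 : Fin t → M4 F) i A l).trace = 4 by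
    rw [Function.update_of_ne (Finset.ne_of_mem_erase hl)]; simp]
  simp [Finset.card_erase_of_mem]

lemma scalar_of_site_eq {i j : Fin t} (h : i ≠ j) {A B : M4 F} (e : site i A = site j B) :
    ∃ c : F, A = c • 1 := by
  obtain ⟨c, hc⟩ := Matrix.mem_range_scalar_iff_commute_single'.2
    fun p q : Fin 4 => show Commute (Matrix.single p q (1 : F)) A from site_injective i (by
      rw [← site_mul, ← site_mul, e, site_comm h])
  exact ⟨c, by rw [← hc]; simp [Matrix.scalar_apply, ← Matrix.smul_one_eq_diagonal]⟩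

lemma trip_mul {i j k : Fin t} (hij : i ≠ j) (hik : i ≠ k) (hjk : j ≠ k) (A B C A' B' C' : M4 F) :
    site i A * site j B * site k C * (site i A' * site j B' * site k C') =
      site i (A * A') * site j (B * B') * site k (C * C') := by
  calc site i A * site j B * site k C * (site i A' * site j B' * site k C')
      = site i A * site j B * (site k C * site i A') * site j B' * site k C' := by
        simp only [mul_assoc]
    _ = site i A * site j B * (site i A' * site k C) * site j B' * site k C' := by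
        rw [site_comm hik.symm]
    _ = site i A * (site j B * site i A') * (site k C * site j B') * site k C' := by
        simp only [mul_assoc]
    _ = site i A * (site i A' * site j B) * (site j B' * site k C) * site k C' := by
        rw [site_comm hij.symm, site_comm hjk.symm]
    _ = site i A * site i A' * (site j B * site j B') * (site k C * site k C') := by
        simp only [mul_assoc]
    _ = _ := by rw [site_mul, site_mul, site_mul]

/-- Two involutions are conjugate or their product has a central involution. -/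
lemma dihedral {H : Type*} [Group H] [Finite H] {a b : H} (ha : a * a = 1) (hb : b * b = 1) :
    (∃ c, c * a * c⁻¹ = b) ∨ ∃ w, w ≠ 1 ∧ w * w = 1 ∧ w * a = a * w ∧ w * b = b * w ∧
      ∃ c, c * a * c⁻¹ = w * a ∨ c * b * c⁻¹ = w * a := by
  set c := a * b with hc
  have ha' : a⁻¹ = a := inv_eq_of_mul_eq_one_right ha
  have hb' : b⁻¹ = b := inv_eq_of_mul_eq_one_right hb
  have hinv : a * c * a⁻¹ = c⁻¹ := by
    rw [hc, _root_.mul_inv_rev, ha', hb', ← mul_assoc, ha, one_mul]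
  have hconj : ∀ k : ℕ, c ^ k * a * (c ^ k)⁻¹ = c ^ k * c ^ k * a := fun k => by
    have e : a * (c ^ k)⁻¹ = c ^ k * a := by
      rw [← inv_pow, ← hinv, conj_pow, ← mul_assoc, ← mul_assoc, ha, one_mul, ha']
    rw [mul_assoc, e, mul_assoc]
  have hbc : b = c⁻¹ * a := by rw [hc, _root_.mul_inv_rev, mul_assoc, inv_mul_cancel, mul_one, hb']
  rcases Nat.even_or_odd (orderOf c) with ⟨m, hm⟩ | ⟨k, hk⟩
  · right
    have hpos := orderOf_pos c
    have hmm : c ^ m * c ^ m = 1 := by rw [← pow_add, ← hm, pow_orderOf_eq_one]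
    have hwa : c ^ m * a = a * c ^ m := by
      calc c ^ m * a = (c ^ m)⁻¹ * a := by rw [inv_eq_of_mul_eq_one_right hmm]
        _ = a * c ^ m * a⁻¹ * a := by rw [← inv_pow, ← hinv, conj_pow]
        _ = _ := by group
    refine ⟨c ^ m, pow_ne_one_of_lt_orderOf (by omega) (by omega), hmm, hwa, ?_, ?_⟩
    · rw [hbc, ← mul_assoc, (Commute.inv_right (Commute.pow_self c m)).eq, mul_assoc, hwa,
        ← mul_assoc]
    · rcases Nat.even_or_odd m with ⟨l, hl⟩ | ⟨l, hl⟩
      · exact ⟨c ^ l, Or.inl (by rw [hconj, ← pow_add, ← hl])⟩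
      · refine ⟨c ^ (l + 1), Or.inr ?_⟩
        have e : c ^ (l + 1) * c⁻¹ = c⁻¹ * c ^ (l + 1) :=
          ((Commute.pow_self c (l + 1)).inv_right).eq
        rw [hbc, ← mul_assoc, e, mul_assoc, mul_assoc, ← mul_assoc _ a, hconj, ← pow_add,
          ← mul_assoc, hl, show l + 1 + (l + 1) = 2 * l + 1 + 1 by omega, pow_succ',
          inv_mul_cancel_left]
  · left
    refine ⟨c ^ k, ?_⟩
    rw [hconj, ← pow_add, hbc]
    congr 1
    rw [eq_inv_iff_mul_eq_one, ← pow_succ, show k + k + 1 = orderOf c by omega, pow_orderOf_eq_one]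

/-! ### Partners -/

section

variable [Finite F] {M : Subgroup (GV F t)} {b : GV F t}
  (hM : Over δ M) (ht : 3 ≤ t)
  (hrefl : ∀ a ∈ M, IsRefl δ (a : MV F t) → CenLe M (a : MV F t))
  (hhalf : ∀ a ∈ M, IsHalf δ (a : MV F t) → CenLe M (a : MV F t))
  (hbM : b ∈ M) (hb : b ∉ Wr F t)

include hM ht hrefl hhalf hbM hb in
lemma not_commute_invol {i : Fin t} {X : M4 F} (hX : IsoW δ X) (hXX : X * X = 1) (h1 : X ≠ 1)
    (hm1 : X ≠ -1) : ¬ Commute (site i X) (b : MV F t) := by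
  intro hc
  rcases invol_cases hM.two hM.nsq hX hXX h1 hm1 with ⟨r, hr, h⟩ | ⟨r, s, hr, hs, hrs, h⟩
  · obtain ⟨a, haM, ha⟩ := site_mem hM ht i (isoW_reflW hr)
    have hca : Commute (site i (reflW δ r)) (b : MV F t) := by
      rcases h with rfl | rfl
      · exact hc
      · rw [show site i (-reflW δ r) = -site i (reflW δ r) by
          rw [← neg_one_smul F (reflW δ r), site_smul, neg_one_smul]] at hc
        exact Commute.neg_left_iff.1 hc
    exact hb (hrefl a haM ⟨i, r, hr, ha⟩ b hbM (by rw [ha]; exact hca.symm.eq))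
  · subst h
    obtain ⟨a, haM, ha⟩ := site_mem hM ht i (isoW_mul (isoW_reflW hr) (isoW_reflW hs))
    exact hb (hhalf a haM ⟨i, r, s, hr, hs, hrs, ha⟩ b hbM (by rw [ha]; exact hc.symm.eq))

variable {h g : GV F t}
  (hclassR : ∀ g ∈ M, ∀ a ∈ M, IsRefl δ (a : MV F t) → g * a * g⁻¹ ∈ Wr F t → g ∈ Wr F t)
  (hconjR : ∀ g a : GV F t, IsoV δ (g : MV F t) → IsRefl δ (a : MV F t) → g * a * g⁻¹ ∈ Wr F t →
    IsRefl δ ((g * a * g⁻¹ : GV F t) : MV F t))
  (hconjH : ∀ g h : GV F t, g ∈ Wr F t → IsoV δ (g : MV F t) → IsHalf δ (h : MV F t) →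
    IsHalf δ ((g * h * g⁻¹ : GV F t) : MV F t))
  (hh : h ∈ M) (hhh : IsHalf δ (h : MV F t)) (hg : g ∈ M)

include hM ht hrefl hhalf hclassR hconjR hconjH hh hhh hg in
lemma partner_refl (hb : g * h * g⁻¹ ∉ Wr F t) (i : Fin t) {r : Fin 4 → F}
    (hr : gB (G4 δ) r r ≠ 0) :
    ∃ j Y, j ≠ i ∧ IsoW δ Y ∧ Y * Y = 1 ∧
      Commute (site i (reflW δ r) * site j Y) ((g * h * g⁻¹ : GV F t) : MV F t) := by
  classical
  set b := g * h * g⁻¹ with hbd
  have hbM : b ∈ M := M.mul_mem (M.mul_mem hg hh) (M.inv_mem hg)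
  obtain ⟨a, haM, ha⟩ := site_mem hM ht i (isoW_reflW hr)
  have haa : a * a = 1 := Units.ext (by rw [Units.val_mul, ha, site_mul, reflW_mul_self hr,
    site_one, Units.val_one])
  obtain ⟨i₀, r₀, s₀, hr₀, hs₀, hrs₀, hh₀⟩ := hhh
  have hbb : b * b = 1 := by
    have : h * h = 1 := Units.ext (by rw [Units.val_mul, hh₀, site_mul,
      half_mul_self hr₀ hs₀ hrs₀, site_one, Units.val_one])
    rw [hbd, show g * h * g⁻¹ * (g * h * g⁻¹) = g * (h * h) * g⁻¹ by group, this]
    group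
  have tr_conj : ∀ c x : GV F t, ((c * x * c⁻¹ : GV F t) : MV F t).trace = (x : MV F t).trace := by
    intro c x
    rw [Units.val_mul, Units.val_mul, trace_mul_comm, ← mul_assoc, Units.inv_mul, one_mul]
  have hta : (a : MV F t).trace = 2 * 4 ^ (t - 1) := by rw [ha, trace_site, trace_reflW hr]
  have h4 : (4 : F) ≠ 0 := by
    rw [show (4 : F) = 2 * 2 by norm_num]; exact mul_ne_zero hM.two hM.two
  have hta0 : (a : MV F t).trace ≠ 0 := hta ▸ mul_ne_zero hM.two (pow_ne_zero _ h4)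
  have htb : (b : MV F t).trace = 0 := by
    rw [hbd, tr_conj, hh₀, trace_site, trace_half hr₀ hs₀ hrs₀, zero_mul]
  have hneq : ∀ c : GV F t, c * a * c⁻¹ ≠ b := fun c e => hta0 (by rw [← tr_conj c a, e, htb])
  have haW : a ∈ Wr F t := by
    have : a = siteUnit i (reflW δ r) ((isoW_reflW hr).sim.det_ne hM.nsq) := Units.ext ha
    rw [this]; exact siteUnit_mem_Wr _ _ _
  rcases dihedral (H := M) (a := ⟨a, haM⟩) (b := ⟨b, hbM⟩) (Subtype.ext haa) (Subtype.ext hbb) with
    ⟨c, hc⟩ | ⟨w, hw1, hww, hwa, hwb, c, hc⟩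
  · exact absurd (congrArg Subtype.val hc) (hneq c.1)
  have hwa' : w.1 * a = a * w.1 := congrArg Subtype.val hwa
  have hwb' : w.1 * b = b * w.1 := congrArg Subtype.val hwb
  have hwW : w.1 ∈ Wr F t := hrefl a haM ⟨i, r, hr, ha⟩ w.1 w.2 (by
    rw [← Units.val_mul, hwa', Units.val_mul])
  obtain ⟨η, hη⟩ : ∃ η : GV F t, η = w.1 * a := ⟨_, rfl⟩
  have hηW : η ∈ Wr F t := hη ▸ mul_mem hwW haW
  have hηη : η * η = 1 := by
    calc η * η = w.1 * (a * w.1) * a := by rw [hη]; group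
      _ = (w.1 * w.1) * (a * a) := by rw [← hwa']; group
      _ = 1 := by rw [show w.1 * w.1 = 1 from congrArg Subtype.val hww, haa, mul_one]
  obtain ⟨j, Y, hY, hηY, hηne⟩ : ∃ j Y, IsoW δ Y ∧ (η : MV F t) = site j Y ∧
      (η : MV F t) ≠ -(a : MV F t) := by
    rcases hc with hc | hc
    · have hc' : c.1 * a * c.1⁻¹ = η := (congrArg Subtype.val hc).trans hη.symm
      obtain ⟨j, s, hs, hs'⟩ := hconjR c.1 a (hM.isoV c.2) ⟨i, r, hr, ha⟩ (hc' ▸ hηW)
      rw [hc'] at hs'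
      refine ⟨j, _, isoW_reflW hs, hs', fun e => ?_⟩
      have e' := congrArg Matrix.trace e
      rw [trace_neg, ← hc', tr_conj] at e'
      exact mul_ne_zero hM.two hta0 (by linear_combination e')
    · have hc' : c.1 * b * c.1⁻¹ = η := (congrArg Subtype.val hc).trans hη.symm
      have hg1 : c.1 * g ∈ Wr F t := by
        set g₁ := c.1 * g with hg₁
        have hηg : η = g₁ * h * g₁⁻¹ := by rw [← hc', hbd, hg₁]; group
        have hg₁M : g₁ ∈ M := M.mul_mem c.2 hg
        have hk : g₁⁻¹ * a * g₁⁻¹⁻¹ ∈ Wr F t := by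
          refine hhalf h hh ⟨i₀, r₀, s₀, hr₀, hs₀, hrs₀, hh₀⟩ _
            (M.mul_mem (M.mul_mem (M.inv_mem hg₁M) haM) (M.inv_mem (M.inv_mem hg₁M))) ?_
          have ηa : η * a = a * η := by rw [hη, ← mul_assoc a, ← hwa']
          rw [← Units.val_mul, ← Units.val_mul]
          congr 1
          rw [hηg] at ηa
          calc g₁⁻¹ * a * g₁⁻¹⁻¹ * h = g₁⁻¹ * (a * (g₁ * h * g₁⁻¹)) * g₁ := by group
            _ = g₁⁻¹ * (g₁ * h * g₁⁻¹ * a) * g₁ := by rw [ηa]
            _ = h * (g₁⁻¹ * a * g₁⁻¹⁻¹) := by group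
        exact inv_inv g₁ ▸ (Wr F t).inv_mem
          (hclassR _ (M.inv_mem hg₁M) a haM ⟨i, r, hr, ha⟩ hk)
      have hηg : c.1 * g * h * (c.1 * g)⁻¹ = η := by rw [← hc', hbd]; group
      have hhalfη := hconjH _ h hg1 (hM.isoV (M.mul_mem c.2 hg))
        ⟨i₀, r₀, s₀, hr₀, hs₀, hrs₀, hh₀⟩
      rw [hηg] at hhalfη
      obtain ⟨j, r', s', hr', hs', -, e'⟩ := hhalfη
      refine ⟨j, _, isoW_mul (isoW_reflW hr') (isoW_reflW hs'), e', fun e => ?_⟩
      have e'' := congrArg Matrix.trace e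
      rw [trace_neg, ← hc', tr_conj, htb] at e''
      exact hta0 (by linear_combination e'')
  have hwη : (w.1 : MV F t) = site j Y * site i (reflW δ r) := by
    rw [← hηY, ← ha, ← Units.val_mul, hη, mul_assoc, haa, mul_one]
  have hcom : Commute (w.1 : MV F t) (b : MV F t) := by
    show _ * _ = _ * _
    rw [← Units.val_mul, hwb', Units.val_mul]
  have hYY : Y * Y = 1 := site_injective j (by
    rw [← site_mul, ← hηY, site_one, ← Units.val_mul, hηη, Units.val_one])
  have hji : j ≠ i := fun e => by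
    subst e
    rw [site_mul] at hwη
    refine not_commute_invol hM ht hrefl hhalf hbM hb (isoW_mul hY (isoW_reflW hr))
      (site_injective j ?_) (fun e => ?_) (fun e => hηne ?_) (hwη ▸ hcom)
    · rw [← site_mul, ← hwη, site_one, ← Units.val_mul,
        show w.1 * w.1 = 1 from congrArg Subtype.val hww, Units.val_one]
    · exact hw1 (Subtype.ext (Units.ext (by rw [hwη, e, site_one]; rfl)))
    · rw [hη, Units.val_mul, hwη, e, ← neg_one_smul F (1 : M4 F), site_smul, site_one, smul_mul,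
        one_mul, neg_one_smul]
  refine ⟨j, Y, hji, hY, hYY, ?_⟩
  rw [site_comm hji.symm, ← hwη]
  exact hcom

end

section

variable [Finite F] {b : MV F t}
  (h2 : (2 : F) ≠ 0) (hd : ¬ IsSquare δ)
  (hnh : ∀ i r s, gB (G4 δ) r r ≠ 0 → gB (G4 δ) s s ≠ 0 → gB (G4 δ) r s = 0 →
    ¬ Commute (site i (reflW δ r * reflW δ s)) b)
  (hpr : ∀ (i : Fin t) (r : Fin 4 → F), gB (G4 δ) r r ≠ 0 →
    ∃ j Y, j ≠ i ∧ IsoW δ Y ∧ Y * Y = 1 ∧ Commute (site i (reflW δ r) * site j Y) b)

include h2 hd hnh hpr in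
lemma no_single {i : Fin t} {X : M4 F} (hX : IsoW δ X) (hns : ∀ c : F, X ≠ c • 1) :
    ¬ Commute (site i X) b := by
  intro hc
  obtain ⟨r, s, hr, hs, hrs, hS⟩ := exists_half h2 hd
    (S := fun A => IsoW δ A ∧ Commute (site i A) b) (fun A h => h.1)
    (fun A B hA hB => ⟨isoW_mul hA.1 hB.1, by rw [← site_mul]; exact hA.2.mul_left hB.2⟩)
    (fun A B hA e => ⟨isoW_inv hA.1 e, by
      have h1 : site i A * site i B = 1 := by rw [site_mul, e, site_one]
      have h3 : site i B * site i A = 1 := mul_eq_one_comm.1 h1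
      show site i B * b = b * site i B
      calc site i B * b = site i B * (b * (site i A * site i B)) := by rw [h1, mul_one]
        _ = site i B * (site i A * b) * site i B := by rw [hA.2.eq]; noncomm_ring
        _ = b * site i B := by rw [← mul_assoc (site i B), h3, one_mul]⟩)
    (fun A r hr hA => ⟨isoW_mul (isoW_mul (isoW_reflW hr) hA.1) (isoW_reflW hr), by
      obtain ⟨j, Y, hji, -, hYY, hw⟩ := hpr i r hr
      have e : site i (reflW δ r) * site j Y * site i A * (site i (reflW δ r) * site j Y) =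
          site i (reflW δ r * A * reflW δ r) := by
        calc _ = site i (reflW δ r) * (site j Y * site i A) * (site i (reflW δ r) * site j Y) := by
              noncomm_ring
          _ = site i (reflW δ r) * site i A * (site j Y * site i (reflW δ r)) * site j Y := by
              rw [site_comm hji]; noncomm_ring
          _ = site i (reflW δ r) * site i A * site i (reflW δ r) * (site j Y * site j Y) := by
              rw [site_comm hji]; noncomm_ring
          _ = _ := by rw [site_mul, site_mul, site_mul, hYY, site_one, mul_one]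
      rw [← e]
      exact (hw.mul_left hA.2).mul_left hw⟩)
    ⟨hX, hc⟩ hns
  exact hnh i r s hr hs hrs hS.2

include h2 hd hnh hpr in
lemma partner_u {i : Fin t} {w x : Fin 4 → F} (hw0 : w ≠ 0) (hw : gB (G4 δ) w w = 0)
    (hwx : gB (G4 δ) w x = 0) (hx : gB (G4 δ) x x ≠ 0) :
    ∃ j D, j ≠ i ∧ IsoW δ D ∧ Commute (site i (1 + sieM (G4 δ) w x) * site j D) b := by
  obtain ⟨hy, e⟩ := u_eq_refl_mul h2 hw hwx hx
  obtain ⟨j, B, hji, hB, hBB, hc1⟩ := hpr i x hx
  obtain ⟨k, C, hki, hC, hCC, hc2⟩ := hpr i _ hy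
  by_cases hjk : j = k
  · subst hjk
    refine ⟨j, B * C, hji, isoW_mul hB hC, ?_⟩
    rw [e, ← site_mul, ← site_mul, show site i (reflW δ x) * site i (reflW δ _) *
        (site j B * site j C) = site i (reflW δ x) * (site i (reflW δ _) * site j B) * site j C by
      noncomm_ring, site_comm hji.symm]
    have := hc1.mul_left hc2
    simpa only [mul_assoc] using this
  · exfalso
    have hP : Commute (site i (1 + sieM (G4 δ) w x) * site j B * site k C) b := by
      have := hc1.mul_left hc2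
      rwa [e, show site i (reflW δ x * reflW δ (x + (gB (G4 δ) x x / 2) • w)) * site j B * site k C =
        site i (reflW δ x) * site j B *
          (site i (reflW δ (x + (gB (G4 δ) x x / 2) • w)) * site k C) by
        have := trip_mul hji.symm hki.symm hjk (reflW δ x) B 1
          (reflW δ (x + (gB (G4 δ) x x / 2) • w)) 1 C
        simp only [site_one, mul_one, one_mul] at this
        exact this.symm]
    have h3 := hP.mul_left hP
    rw [trip_mul hji.symm hki.symm hjk, hBB, hCC, site_one, site_one, mul_one, mul_one,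
      one_add_sieM_mul h2 hw hwx hwx] at h3
    have hxx : gB (G4 δ) (x + x) (x + x) ≠ 0 := by
      rw [← two_smul F x]; simp [hx, h2]
    have hwxx : gB (G4 δ) w (x + x) = 0 := by simp [hwx]
    exact no_single h2 hd hnh hpr (isoW_u h2 ⟨w, _, hw0, hw, hwxx, hxx, rfl⟩)
      (u_not_scalar hd hw0 hw hwxx hxx) h3

include h2 hd hnh hpr in
lemma partner_uw {i : Fin t} {A : M4 F} (hA : UW δ A) :
    ∃ j B, j ≠ i ∧ UW δ B ∧ Commute (site i A * site j B) b := by
  classical
  obtain ⟨w, x, hw0, hw, hwx, hx, rfl⟩ := hA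
  obtain ⟨p, hp⟩ := CharP.exists F
  have : Fact p.Prime := ⟨CharP.char_is_prime F p⟩
  have : Finite (M4 F) := Pi.finite
  obtain ⟨e, m, hm, hcard⟩ := Nat.exists_eq_pow_mul_and_not_dvd (n := Nat.card (GL (Fin 4) F))
    Nat.card_pos.ne' p (Fact.out : p.Prime).ne_one
  have hm0 : (m : F) ≠ 0 := fun h => hm ((CharP.cast_eq_zero_iff F p m).1 h)
  have hwx' : gB (G4 δ) w ((m : F)⁻¹ • x) = 0 := by simp [hwx]
  have hx' : gB (G4 δ) ((m : F)⁻¹ • x) ((m : F)⁻¹ • x) ≠ 0 := by simp [hm0, hx]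
  obtain ⟨j, D, hji, hD, hc⟩ := partner_u h2 hd hnh hpr (i := i) hw0 hw hwx' hx'
  have hc' : Commute (site i (1 + sieM (G4 δ) w x) * site j (D ^ m)) b := by
    have h := hc.pow_left m
    rwa [Commute.mul_pow (show Commute (site i (1 + sieM (G4 δ) w ((m : F)⁻¹ • x))) (site j D) from
      site_comm hji.symm _ _), site_pow, site_pow,
      u_pow h2 hw hwx', smul_smul, mul_inv_cancel₀ hm0, one_smul] at h
  have hne : D ^ m ≠ 1 := fun h => by
    rw [h, site_one, mul_one] at hc'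
    exact no_single h2 hd hnh hpr (isoW_u h2 ⟨w, x, hw0, hw, hwx, hx, rfl⟩)
      (u_not_scalar hd hw0 hw hwx hx) hc'
  have hpw : (D ^ m) ^ (p ^ e) = 1 := by
    rw [← pow_mul, mul_comm, ← hcard]
    have h := pow_card_eq_one' (x := Matrix.GeneralLinearGroup.mkOfDetNeZero D (hD.sim.det_ne hd))
    exact congrArg Units.val h
  have : CharP (M4 F) p := charP_of_injective_algebraMap
    (algebraMap F (M4 F)).injective p
  exact ⟨j, D ^ m, hji, uw_of_unipotent h2 hd (isoW_pow hD m) hne (m := p ^ e) (by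
    rw [sub_pow_char_pow_of_commute _ _ (Commute.one_right _), hpw, one_pow, sub_self]), hc'⟩

include h2 hd hnh hpr in
lemma commute_of_partners {i j k : Fin t} (hji : j ≠ i) (hki : k ≠ i) (hjk : j ≠ k)
    {A A' B B' : M4 F} (hA : UW δ A) (hA' : UW δ A') (hB : UW δ B) (hB' : UW δ B')
    (hc : Commute (site i A * site j B) b) (hc' : Commute (site i A' * site k B') b) :
    A * A' = A' * A := by
  have inv : ∀ {X : M4 F}, UW δ X → X * X⁻¹ = 1 := fun hX =>
    mul_nonsing_inv _ (isUnit_iff_ne_zero.2 ((isoW_u h2 hX).sim.det_ne hd))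
  have invc : ∀ {Z Z' : MV F t}, Z * Z' = 1 → Commute Z b → Commute Z' b := by
    intro Z Z' h1 hz
    show Z' * b = b * Z'
    calc Z' * b = Z' * (b * (Z * Z')) := by rw [h1, mul_one]
      _ = Z' * (Z * b) * Z' := by rw [hz.eq]; noncomm_ring
      _ = b * Z' := by rw [← mul_assoc Z', mul_eq_one_comm.1 h1, one_mul]
  have hP : Commute (site i A * site j B * site k (1 : M4 F)) b := by
    rw [site_one, mul_one]; exact hc
  have hQ : Commute (site i A' * site j (1 : M4 F) * site k B') b := by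
    rw [site_one, mul_one]; exact hc'
  have hPi : Commute (site i A⁻¹ * site j B⁻¹ * site k (1 : M4 F)) b := invc (by
    rw [trip_mul hji.symm hki.symm hjk, inv hA, inv hB, one_mul, site_one, site_one, site_one,
      one_mul, one_mul]) hP
  have hQi : Commute (site i A'⁻¹ * site j (1 : M4 F) * site k B'⁻¹) b := invc (by
    rw [trip_mul hji.symm hki.symm hjk, inv hA', inv hB', one_mul, site_one, site_one, site_one,
      one_mul, one_mul]) hQ
  have h := ((hP.mul_left hQ).mul_left hPi).mul_left hQi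
  rw [trip_mul hji.symm hki.symm hjk, trip_mul hji.symm hki.symm hjk,
    trip_mul hji.symm hki.symm hjk, mul_one, mul_one, one_mul, mul_one, inv hB, inv hB',
    site_one, site_one, mul_one, mul_one] at h
  have hiso : IsoW δ (A * A' * A⁻¹ * A'⁻¹) :=
    isoW_mul (isoW_mul (isoW_mul (isoW_u h2 hA) (isoW_u h2 hA'))
      (isoW_inv (isoW_u h2 hA) (inv hA))) (isoW_inv (isoW_u h2 hA') (inv hA'))
  obtain ⟨c, hc⟩ : ∃ c : F, A * A' * A⁻¹ * A'⁻¹ = c • 1 := by
    by_contra hcon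
    push Not at hcon
    exact no_single h2 hd hnh hpr hiso hcon h
  have e1 : A * A' * A⁻¹ = c • A' := by
    rw [← mul_one (A * A' * A⁻¹), ← mul_eq_one_comm.1 (inv hA'), ← mul_assoc, hc, smul_mul,
      one_mul]
  have hc1 : c = 1 := by
    have e := congrArg Matrix.trace e1
    rw [trace_mul_comm, ← mul_assoc, mul_eq_one_comm.1 (inv hA), one_mul, trace_smul,
      trace_u hA', smul_eq_mul] at e
    refine mul_right_cancel₀ (b := (4 : F)) ?_ ((e.symm.trans (one_mul _).symm))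
    rw [show (4 : F) = 2 * 2 by norm_num]; exact mul_ne_zero h2 h2
  rw [hc1, one_smul] at e1
  calc A * A' = A * A' * (A⁻¹ * A) := by rw [mul_eq_one_comm.1 (inv hA), mul_one]
    _ = A * A' * A⁻¹ * A := by rw [← mul_assoc]
    _ = A' * A := by rw [e1]

include h2 hd hnh hpr in
lemma partner_unique {i j k : Fin t} (hji : j ≠ i) (hki : k ≠ i) {A A' B B' : M4 F}
    (hA : UW δ A) (hA' : UW δ A') (hB : UW δ B) (hB' : UW δ B')
    (hc : Commute (site i A * site j B) b) (hc' : Commute (site i A' * site k B') b) : j = k := by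
  by_contra hjk
  have hcom := commute_of_partners h2 hd hnh hpr hji hki hjk hA hA' hB hB' hc hc'
  obtain ⟨w, x, hw0, hw, hwx, hx, rfl⟩ := id hA
  obtain ⟨w', x', hw0', hw', hwx', hx', rfl⟩ := id hA'
  have hline := same_line h2 hd hw0 hw hwx hx hw0' hw' hwx' hx' hcom
  obtain ⟨v, y, hv0, hv, hvy, hy, hnv⟩ := exists_other h2 hd hw0 hw
  obtain ⟨l, C, hli, hC, hcC⟩ := partner_uw h2 hd hnh hpr (i := i)
    ⟨v, y, hv0, hv, hvy, hy, rfl⟩
  by_cases hlj : l = j
  · refine hnv ?_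
    have h' := same_line h2 hd hw0' hw' hwx' hx' hv0 hv hvy hy (commute_of_partners h2 hd hnh hpr
      hki hli (fun e => hjk (hlj ▸ e).symm) hA' ⟨v, y, hv0, hv, hvy, hy, rfl⟩ hB' hC hc' hcC)
    exact Submodule.span_le.2 (Set.singleton_subset_iff.2 hline) h'
  · exact hnv (same_line h2 hd hw0 hw hwx hx hv0 hv hvy hy (commute_of_partners h2 hd hnh hpr
      hji hli (fun e => hlj e.symm) hA ⟨v, y, hv0, hv, hvy, hy, rfl⟩ hB hC hc hcC))

end

end Cfsg.Agent.MaxSub.OrthFour.PB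

namespace Cfsg.Agent.MaxSub.OrthFour

open Matrix Cfsg.Geo Cfsg.Agent.NotMax Cfsg.Agent.GeoClasses
open Cfsg.Agent.MaxSub.OrthWreathBig (gB cr sieM)
open scoped MatrixGroups Matrix

variable {F : Type*} [Field F] {t : ℕ} {δ : F}

/-- A conjugate of a half turn outside the monomial group pairs the sites: every root element of a
site has a partner root element at the paired site, their product commuting with the conjugate,
and no non-scalar isometry of a single site commutes with it. -/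
theorem partners [Finite F] {M : Subgroup (GV F t)} (hM : Over δ M) (ht : 3 ≤ t)
    (hrefl : ∀ a ∈ M, IsRefl δ (a : MV F t) → CenLe M (a : MV F t))
    (hhalf : ∀ a ∈ M, IsHalf δ (a : MV F t) → CenLe M (a : MV F t))
    (hclassR : ∀ g ∈ M, ∀ a ∈ M, IsRefl δ (a : MV F t) → g * a * g⁻¹ ∈ Wr F t → g ∈ Wr F t)
    (hconjR : ∀ g a : GV F t, IsoV δ (g : MV F t) → IsRefl δ (a : MV F t) →
      g * a * g⁻¹ ∈ Wr F t → IsRefl δ ((g * a * g⁻¹ : GV F t) : MV F t))
    (hconjH : ∀ g h : GV F t, g ∈ Wr F t → IsoV δ (g : MV F t) → IsHalf δ (h : MV F t) →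
      IsHalf δ ((g * h * g⁻¹ : GV F t) : MV F t))
    {h g : GV F t} (hh : h ∈ M) (hhh : IsHalf δ (h : MV F t)) (hg : g ∈ M)
    (hb : g * h * g⁻¹ ∉ Wr F t) :
    ∃ σ : Equiv.Perm (Fin t), (∀ i, σ i ≠ i) ∧ (∀ i, σ (σ i) = i) ∧
      (∀ (i : Fin t) (A : M4 F), (∃ u : GV F t, (u : MV F t) = site i A ∧ IsSiteU δ (u : MV F t)) →
        ∃ B : M4 F, (∃ u : GV F t, (u : MV F t) = site (σ i) B ∧ IsSiteU δ (u : MV F t)) ∧
          Commute (site i A * site (σ i) B) ((g * h * g⁻¹ : GV F t) : MV F t)) ∧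
      ∀ (i : Fin t) (X : M4 F), IsoW δ X → (∀ c : F, X ≠ c • 1) →
        ¬ Commute (site i X) ((g * h * g⁻¹ : GV F t) : MV F t) := by
  classical
  have h2 := hM.two
  have hd := hM.nsq
  have hbM : g * h * g⁻¹ ∈ M := M.mul_mem (M.mul_mem hg hh) (M.inv_mem hg)
  have hnh : ∀ i r s, gB (G4 δ) r r ≠ 0 → gB (G4 δ) s s ≠ 0 → gB (G4 δ) r s = 0 →
      ¬ Commute (site i (reflW δ r * reflW δ s)) ((g * h * g⁻¹ : GV F t) : MV F t) := by
    intro i r s hr hs hrs hc
    obtain ⟨a, haM, ha⟩ := PB.site_mem hM ht i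
      (PB.isoW_mul (PB.isoW_reflW hr) (PB.isoW_reflW hs))
    exact hb (hhalf a haM ⟨i, r, s, hr, hs, hrs, ha⟩ _ hbM (by rw [ha]; exact hc.symm.eq))
  have hpr : ∀ (i : Fin t) (r : Fin 4 → F), gB (G4 δ) r r ≠ 0 → ∃ j Y, j ≠ i ∧ IsoW δ Y ∧
      Y * Y = 1 ∧
      Commute (site i (reflW δ r) * site j Y) ((g * h * g⁻¹ : GV F t) : MV F t) :=
    fun i r hr => PB.partner_refl hM ht hrefl hhalf hclassR hconjR hconjH hh hhh hg hb i hr
  obtain ⟨A₀, hA₀⟩ := PB.exists_uw h2 hd
  choose σ₀ B₀ hne hB₀ hc₀ using fun i => PB.partner_uw h2 hd hnh hpr (i := i) hA₀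
  have hσ : ∀ (i j : Fin t) (A B : M4 F), j ≠ i → PB.UW δ A → PB.UW δ B →
      Commute (site i A * site j B) ((g * h * g⁻¹ : GV F t) : MV F t) → j = σ₀ i :=
    fun i j A B hji hA hB hc =>
      PB.partner_unique h2 hd hnh hpr hji (hne i) hA hA₀ hB (hB₀ i) hc (hc₀ i)
  have hinv : Function.Involutive σ₀ := fun i =>
    (hσ (σ₀ i) i (B₀ i) A₀ (hne i).symm (hB₀ i) hA₀
      (by rw [site_comm (hne i)]; exact hc₀ i)).symm
  refine ⟨hinv.toPerm, hne, hinv, ?_, fun i X hX hns => PB.no_single h2 hd hnh hpr hX hns⟩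
  rintro i A ⟨u, hu, i', w, x, hw0, hw, hwx, hx, hu'⟩
  have hii : i = i' := by
    by_contra hne'
    obtain ⟨c, hc⟩ := PB.scalar_of_site_eq (Ne.symm hne') (hu'.symm.trans hu)
    exact PB.u_not_scalar hd hw0 hw hwx hx c hc
  subst hii
  have hA : PB.UW δ A := ⟨w, x, hw0, hw, hwx, hx,
    TensorPowSp.site_injective i (hu.symm.trans hu')⟩
  obtain ⟨j, B, hji, hB, hc⟩ := PB.partner_uw h2 hd hnh hpr (i := i) hA
  obtain rfl := hσ i j A B hji hA hB hc
  obtain ⟨w', x', hw0', hw', hwx', hx', hB'⟩ := hB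
  refine ⟨B, ⟨siteUnit (σ₀ i) B ?_, rfl, σ₀ i, w', x', hw0', hw', hwx', hx', ?_⟩, hc⟩
  · exact (PB.isoW_u h2 ⟨w', x', hw0', hw', hwx', hx', hB'⟩).sim.det_ne hd
  · show site (σ₀ i) B = _
    rw [hB']

end Cfsg.Agent.MaxSub.OrthFour
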