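import Mathlib

/-!
A finite group with an involution whose centraliser consists of involutions, in which the other
side of a commutative half of a Sylow 2-subgroup is never conjugate into that half: the elements
of odd order form a commutative subgroup inverted by the involution.
-/

set_option autoImplicit false
set_option linter.unusedSectionVars false
set_option linter.unusedVariables false
set_option linter.style.haveILetI false

namespace Cfsg.Agent.MaxSub.OrthFour.PlaneKernel

open Subgroup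

variable {G : Type*} [Group G] [Finite G]

/-- The hypotheses on a Sylow 2-subgroup. -/
structure SplitTwo (a z : G) (S : Sylow 2 G) (R : Subgroup G) : Prop where
  aS : a ∈ S
  aa : a * a = 1
  zz : z * z = 1
  zc : ∀ g, g * z = z * g
  le : R ≤ S
  aR : a ∉ R
  cover : ∀ s ∈ S, s ∈ R ∨ a * s ∈ R
  invol : ∀ s ∈ S, s ∉ R → s * s = 1 ∧ ∀ g, g * s * g⁻¹ ∉ R
  comm : ∀ x ∈ R, ∀ y ∈ R, x * y = y * x
  uniq : ∀ r ∈ R, r * r = 1 → r = 1 ∨ r = z
  cent : ∀ g, g * a = a * g → g * g = 1

variable {a z : G} {S : Sylow 2 G} {R : Subgroup G}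

lemma SplitTwo.card_S (h : SplitTwo a z S R) :
    Nat.card (S : Subgroup G) = 2 * Nat.card R := by
  classical
  have hb : Function.Bijective (fun p : Fin 2 × R =>
      (⟨(if p.1 = 0 then 1 else a) * (p.2 : G), mul_mem
        (by split_ifs; exacts [one_mem _, h.aS]) (h.le p.2.2)⟩ : (S : Subgroup G))) := by
    constructor
    · rintro ⟨e, r⟩ ⟨e', r'⟩ heq
      have h' : (if e = 0 then 1 else a) * (r : G) = (if e' = 0 then 1 else a) * (r' : G) :=
        congrArg Subtype.val heq
      have bad : ∀ u v : R, a * (u : G) ≠ v := fun u v hh => h.aR (by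
        rw [show a = (v : G) * (u : G)⁻¹ by rw [← hh, mul_inv_cancel_right]]
        exact R.mul_mem v.2 (R.inv_mem u.2))
      fin_cases e <;> fin_cases e' <;> simp at h'
      · exact Prod.ext rfl h'
      · exact absurd h'.symm (bad r' r)
      · exact absurd h' (bad r r')
      · exact Prod.ext rfl h'
    · rintro ⟨s, hs⟩
      rcases h.cover s hs with hr | hr
      · exact ⟨(0, ⟨s, hr⟩), Subtype.ext (by simp)⟩
      · exact ⟨(1, ⟨a * s, hr⟩), Subtype.ext (by simp [← mul_assoc, h.aa])⟩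
  rw [← Nat.card_congr (Equiv.ofBijective _ hb), Nat.card_prod]
  simp

lemma SplitTwo.exists_index (h : SplitTwo a z S R) :
    ∃ k, Odd k ∧ R.index = 2 * k := by
  haveI : Fact (Nat.Prime 2) := ⟨Nat.prime_two⟩
  refine ⟨(S : Subgroup G).index, Nat.not_even_iff_odd.1 fun he => S.not_dvd_index he.two_dvd, ?_⟩
  have h1 := Subgroup.card_mul_index R
  have h3 := Subgroup.card_mul_index (S : Subgroup G)
  rw [h.card_S, mul_assoc] at h3
  apply mul_left_cancel₀ (Nat.card_pos (α := R)).ne'
  rw [h1, ← h3]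
  ring

/-- The sign of the action on the cosets of the commutative half. -/
noncomputable def sgnHom (R : Subgroup G) : G →* ℤˣ :=
  letI := Fintype.ofFinite (G ⧸ R)
  letI := Classical.decEq (G ⧸ R)
  (Equiv.Perm.sign).comp (MulAction.toPermHom G (G ⧸ R))

lemma SplitTwo.sgn_outer (h : SplitTwo a z S R) {s : G} (hs : s ∈ S) (hsR : s ∉ R) :
    sgnHom R s = -1 := by
  obtain ⟨hss, hconj⟩ := h.invol s hs hsR
  obtain ⟨k, hk, hkR⟩ := h.exists_index
  letI := Fintype.ofFinite (G ⧸ R)
  letI := Classical.decEq (G ⧸ R)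
  set σ := MulAction.toPermHom G (G ⧸ R) s
  show Equiv.Perm.sign σ = -1
  have hfix : ∀ x, σ x ≠ x := by
    intro x
    induction x using QuotientGroup.induction_on with
    | _ g =>
      intro e
      have e' : ((s * g : G) : G ⧸ R) = (g : G ⧸ R) := e
      refine hconj g⁻¹ ?_
      have h1 := QuotientGroup.eq.1 e'.symm
      simpa [mul_assoc] using h1
  have hsupp : σ.support = Finset.univ := Finset.eq_univ_of_forall fun x => by
    simpa using hfix x
  have hsq : σ ^ 2 = 1 := by rw [← map_pow, pow_two, hss, map_one]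
  have hcyc : ∀ n ∈ σ.cycleType, n = 2 := by
    intro n hn
    have h1 := Equiv.Perm.two_le_of_mem_cycleType hn
    have h3 := (Equiv.Perm.dvd_of_mem_cycleType hn).trans (orderOf_dvd_of_pow_eq_one hsq)
    exact le_antisymm (Nat.le_of_dvd two_pos h3) h1
  rw [Equiv.Perm.sign_of_cycleType, Multiset.eq_replicate_of_mem hcyc]
  have hsum : σ.cycleType.sum = R.index := by
    rw [Equiv.Perm.sum_cycleType, hsupp, Finset.card_univ, Subgroup.index_eq_card,
      Nat.card_eq_fintype_card]
  rw [Multiset.eq_replicate_of_mem hcyc, Multiset.sum_replicate, smul_eq_mul, hkR] at hsum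
  have : σ.cycleType.card = k := by omega
  rw [Multiset.card_replicate, Multiset.sum_replicate, smul_eq_mul, this]
  exact Odd.neg_one_pow (by rw [mul_comm k 2]; exact (even_two_mul k).add_odd hk)

lemma SplitTwo.sgn_inner (h : SplitTwo a z S R) {r : G} (hr : r ∈ R) : sgnHom R r = 1 := by
  have h1 : a * r ∉ R := fun hm => h.aR (by simpa using R.mul_mem hm (R.inv_mem hr))
  have e := h.sgn_outer (mul_mem h.aS (h.le hr)) h1
  rw [map_mul, h.sgn_outer h.aS h.aR] at e
  simpa using e

/-- A normaliser of the half of odd part acts trivially. -/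
lemma two_pow_commutes (hzz : z * z = 1) (hzc : ∀ g, g * z = z * g)
    (hcomm : ∀ x ∈ R, ∀ y ∈ R, x * y = y * x) (huniq : ∀ r ∈ R, r * r = 1 → r = 1 ∨ r = z)
    {y : G} (hy : ∀ r ∈ R, y * r * y⁻¹ ∈ R) :
    ∀ (k : ℕ), ∀ r ∈ R, r ^ (2 ^ k) = 1 → y ^ (2 ^ k) * r = r * y ^ (2 ^ k) := by
  have hpow : ∀ (n : ℕ), ∀ r ∈ R, y ^ n * r * (y ^ n)⁻¹ ∈ R := by
    intro n
    induction n with
    | zero => intro r hr; simpa using hr
    | succ n ih =>
      intro r hr
      have := hy _ (ih r hr)
      rwa [pow_succ', show y * y ^ n * r * (y * y ^ n)⁻¹ = y * (y ^ n * r * (y ^ n)⁻¹) * y⁻¹ by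
        group]
  intro k
  induction k with
  | zero => intro r _ h; simp only [pow_zero, pow_one] at h; simp [h]
  | succ k ih =>
    intro r hr h
    set Y := y ^ (2 ^ k) with hY
    have hr2 : Y * (r * r) = r * r * Y :=
      ih (r * r) (R.mul_mem hr hr) (by rw [← pow_two, ← pow_mul, ← pow_succ']; exact h)
    have hrY : Y * r * Y⁻¹ ∈ R := hpow _ r hr
    have hsq : (Y * r * Y⁻¹ * r⁻¹) * (Y * r * Y⁻¹ * r⁻¹) = 1 := by
      have hc := hcomm _ hrY _ (R.inv_mem hr)
      calc Y * r * Y⁻¹ * r⁻¹ * (Y * r * Y⁻¹ * r⁻¹)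
          = Y * r * Y⁻¹ * (r⁻¹ * (Y * r * Y⁻¹)) * r⁻¹ := by group
        _ = Y * r * Y⁻¹ * (Y * r * Y⁻¹ * r⁻¹) * r⁻¹ := by rw [hc]
        _ = Y * (r * r) * Y⁻¹ * (r * r)⁻¹ := by group
        _ = 1 := by rw [hr2]; group
    have e : y ^ (2 ^ (k + 1)) = Y * Y := by rw [hY, ← pow_add, pow_succ]; congr 1; omega
    rw [e]
    rcases huniq _ (R.mul_mem hrY (R.inv_mem hr)) hsq with h1 | h1
    · have : Y * r = r * Y := by
        have := congrArg (· * r * Y) h1
        simpa [mul_assoc] using this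
      rw [mul_assoc, this, ← mul_assoc, this, mul_assoc]
    · have : Y * r = z * r * Y := by
        have := congrArg (· * r * Y) h1
        simpa [mul_assoc] using this
      calc Y * Y * r = Y * (z * r * Y) := by rw [mul_assoc, this]
        _ = z * (Y * r) * Y := by rw [← mul_assoc, ← mul_assoc, hzc Y, mul_assoc z Y r]
        _ = z * z * r * Y * Y := by rw [this]; group
        _ = r * (Y * Y) := by rw [hzz, one_mul, mul_assoc]

/-- The elements of odd order. -/
theorem SplitTwo.exists_core (h : SplitTwo a z S R) :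
    ∃ O : Subgroup G, (∀ g, g ∈ O ↔ Odd (orderOf g)) ∧ (∀ x ∈ O, ∀ y ∈ O, x * y = y * x) ∧
      (∀ x ∈ O, a * x * a = x⁻¹) ∧ ∀ g, ∃ o ∈ O, ∃ s ∈ S, g = o * s := by
  haveI : Fact (Nat.Prime 2) := ⟨Nat.prime_two⟩
  obtain ⟨K, hKdef⟩ : ∃ K, K = (sgnHom R).ker := ⟨_, rfl⟩
  have hRK : R ≤ K := fun r hr => by rw [hKdef]; exact h.sgn_inner hr
  have hKidx : ∀ g, g ∈ K ∨ g * a ∈ K := fun g => by
    rcases Int.units_eq_one_or (sgnHom R g) with e | e
    · left; rw [hKdef]; exact e
    · right; rw [hKdef]; show sgnHom R (g * a) = 1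
      rw [map_mul, e, h.sgn_outer h.aS h.aR]; simp
  have haK : a ∉ K := by
    rw [hKdef]; intro e
    have e' : sgnHom R a = 1 := e
    rw [h.sgn_outer h.aS h.aR] at e'
    exact absurd e' (by decide)
  obtain ⟨R1, hR1⟩ : ∃ R1, R1 = R.subgroupOf K := ⟨_, rfl⟩
  have hp : IsPGroup 2 R1 := by
    rw [hR1]
    exact (S.2.to_le h.le).of_equiv (Subgroup.subgroupOfEquivOfLe hRK).symm
  have hidx : ¬ 2 ∣ R1.index := by
    obtain ⟨k, hk, hkR⟩ := h.exists_index
    have hK2 : K.index = 2 := by
      rw [Subgroup.index_eq_two_iff]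
      refine ⟨a, fun g => ?_⟩
      rcases hKidx g with e | e
      · exact Or.inr ⟨e, fun hm => haK (by simpa using K.mul_mem (K.inv_mem e) hm)⟩
      · exact Or.inl ⟨e, fun hm => haK (by simpa using K.mul_mem (K.inv_mem hm) e)⟩
    have h1 := Subgroup.relIndex_mul_index hRK
    rw [hK2, hkR, Subgroup.relIndex] at h1
    rw [hR1, show (R.subgroupOf K).index = k by omega]
    exact fun hd => Nat.not_even_iff_odd.2 hk (even_iff_two_dvd.2 hd)
  let P : Sylow 2 K := hp.toSylow hidx
  have hP : Subgroup.normalizer ((P : Subgroup K) : Set K) ≤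
      Subgroup.centralizer ((P : Subgroup K) : Set K) := by
    intro y hy r hr
    have hPe : ((P : Subgroup K)) = R1 := rfl
    rw [SetLike.mem_coe, hPe, hR1, Subgroup.mem_subgroupOf] at hr
    have hnorm : ∀ s ∈ R, (y : G) * s * (y : G)⁻¹ ∈ R := by
      intro s hs
      have h1 := (Subgroup.mem_normalizer_iff.1 hy (⟨s, hRK hs⟩ : K)).1
        (by rw [hPe, hR1, Subgroup.mem_subgroupOf]; exact hs)
      rw [hPe, hR1, Subgroup.mem_subgroupOf] at h1
      simpa using h1
    obtain ⟨e, m, hm, hord⟩ := Nat.exists_eq_two_pow_mul_odd (orderOf_pos y).ne'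
    -- the 2-part of `y` lies in the half
    have hym : y ^ m ∈ (P : Subgroup K) := by
      have hz : IsPGroup 2 (Subgroup.zpowers (y ^ m)) :=
        IsPGroup.of_card (n := e) (by
          rw [Nat.card_zpowers, orderOf_pow' y (Nat.pos_of_ne_zero fun h0 => by
            rw [h0] at hm; exact Nat.not_odd_zero hm).ne', hord]
          rw [Nat.gcd_eq_right (dvd_mul_left m _), Nat.mul_div_cancel _ hm.pos])
      have hsup := hz.to_sup_of_normal_right' P.2
        (Subgroup.zpowers_le.2 (pow_mem hy m))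
      have := P.3 hsup le_sup_right
      exact this ▸ Subgroup.mem_sup_left (Subgroup.mem_zpowers _)
    rw [hPe, hR1, Subgroup.mem_subgroupOf] at hym
    obtain ⟨n, hn⟩ := (S.2.to_le h.le) ⟨(r : G), hr⟩
    have hn' : (r : G) ^ (2 ^ n) = 1 := by simpa [Subtype.ext_iff] using hn
    have c1 : Commute ((y : G) ^ (2 ^ n)) (r : G) :=
      two_pow_commutes h.zz h.zc h.comm h.uniq hnorm n r hr hn'
    have c2 : Commute ((y : G) ^ m) (r : G) := h.comm _ (by simpa using hym) _ hr
    have hcop : Nat.Coprime (2 ^ n) m :=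
      Nat.Coprime.pow_left _ ((Nat.prime_two.coprime_iff_not_dvd).2
        fun hd => Nat.not_even_iff_odd.2 hm (even_iff_two_dvd.2 hd))
    have c3 : Commute (y : G) (r : G) := by
      have hgcd := Nat.gcd_eq_gcd_ab (2 ^ n) m
      rw [Nat.Coprime.gcd_eq_one hcop] at hgcd
      have h1 : (y : G) = ((y : G) ^ (2 ^ n)) ^ (Nat.gcdA (2 ^ n) m) *
          ((y : G) ^ m) ^ (Nat.gcdB (2 ^ n) m) := by
        rw [← zpow_natCast, ← zpow_natCast, ← zpow_mul, ← zpow_mul, ← zpow_add, ← hgcd]
        simp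
      rw [h1]
      exact (c1.zpow_left _).mul_left (c2.zpow_left _)
    exact Subtype.ext c3.symm
  obtain ⟨φ, hφ⟩ : ∃ φ, φ = MonoidHom.transferSylow P hP := ⟨_, rfl⟩
  obtain ⟨O, hO⟩ : ∃ O, O = φ.ker.map K.subtype := ⟨_, rfl⟩
  have hodd : ∀ g, g ∈ O ↔ Odd (orderOf g) := by
    intro g
    constructor
    · intro hg
      rw [hO] at hg
      obtain ⟨x, hx, rfl⟩ := hg
      rw [Subgroup.coe_subtype, Subgroup.orderOf_coe, ← Nat.not_even_iff_odd,
        even_iff_two_dvd]
      intro hd
      rw [hφ] at hx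
      have := Subgroup.orderOf_dvd_natCard (MonoidHom.transferSylow P hP).ker hx
      exact MonoidHom.not_dvd_card_ker_transferSylow P hP (hd.trans this)
    · intro hg
      have hgK : g ∈ K := by
        rw [hKdef]; show sgnHom R g = 1
        rcases Int.units_eq_one_or (sgnHom R g) with e | e
        · exact e
        · have := congrArg (fun u : ℤˣ => u ^ orderOf g) e
          simp only [← map_pow, pow_orderOf_eq_one, map_one, hg.neg_one_pow] at this
          exact absurd this (by decide)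
      rw [hO]
      refine ⟨⟨g, hgK⟩, ?_, rfl⟩
      obtain ⟨n, hn⟩ := P.2 (φ ⟨g, hgK⟩)
      have h1 : orderOf (φ ⟨g, hgK⟩) ∣ 2 ^ n := orderOf_dvd_of_pow_eq_one hn
      have h3 : orderOf (φ ⟨g, hgK⟩) ∣ orderOf g := by
        rw [← Subgroup.orderOf_mk (a := g) (ha := hgK)]
        exact orderOf_map_dvd φ _
      have h4 : Nat.Coprime (2 ^ n) (orderOf g) :=
        Nat.Coprime.pow_left _ ((Nat.prime_two.coprime_iff_not_dvd).2
          fun hd => Nat.not_even_iff_odd.2 hg (even_iff_two_dvd.2 hd))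
      exact MonoidHom.mem_ker.2 (orderOf_eq_one_iff.1 (Nat.eq_one_of_dvd_coprimes h4 h1 h3))
  have hfix : ∀ x ∈ O, a * x * a = x → x = 1 := by
    intro x hx e
    have h1 : x * a = a * x := by
      have := congrArg (a * ·) e
      simp only [← mul_assoc, h.aa, one_mul] at this
      exact this
    have h3 := orderOf_dvd_of_pow_eq_one (show x ^ 2 = 1 by rw [pow_two]; exact h.cent x h1)
    rcases (Nat.dvd_prime Nat.prime_two).1 h3 with e1 | e1
    · exact orderOf_eq_one_iff.1 e1
    · exact absurd ((hodd x).1 hx) (by rw [e1]; decide)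
  have hconj : ∀ x ∈ O, a * x * a ∈ O := by
    intro x hx
    rw [hodd] at hx ⊢
    have e : a⁻¹ = a := inv_eq_of_mul_eq_one_right h.aa
    have : orderOf (a * x * a) = orderOf x := by
      have := MulEquiv.orderOf_eq (MulAut.conj a) x
      rwa [MulAut.conj_apply, e] at this
    rwa [this]
  have hcm : ∀ x y, a * (x * y) * a = (a * x * a) * (a * y * a) := fun x y => by
    calc a * (x * y) * a = a * x * (a * a) * y * a := by rw [h.aa]; group
      _ = (a * x * a) * (a * y * a) := by group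
  have hcinv : ∀ x, a * x⁻¹ * a = (a * x * a)⁻¹ := fun x => by
    refine eq_inv_of_mul_eq_one_right ?_
    rw [← hcm, mul_inv_cancel, mul_one, h.aa]
  let f : O → O := fun x => ⟨(x : G)⁻¹ * (a * x * a), O.mul_mem (O.inv_mem x.2) (hconj _ x.2)⟩
  have finj : Function.Injective f := by
    intro x y e
    have e' : (x : G)⁻¹ * (a * x * a) = (y : G)⁻¹ * (a * y * a) := congrArg Subtype.val e
    have h1 : a * ((x : G) * (y : G)⁻¹) * a = (x : G) * (y : G)⁻¹ := by
      rw [hcm, hcinv, mul_inv_eq_iff_eq_mul]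
      have := congrArg ((x : G) * ·) e'
      simpa [mul_assoc] using this
    exact Subtype.ext (mul_inv_eq_one.1 (hfix _ (O.mul_mem x.2 (O.inv_mem y.2)) h1))
  have hinv : ∀ o ∈ O, a * o * a = o⁻¹ := by
    intro o ho
    obtain ⟨x, hx⟩ := Finite.surjective_of_injective finj ⟨o, ho⟩
    have hx' : (x : G)⁻¹ * (a * x * a) = o := congrArg Subtype.val hx
    have e : a * (a * (x : G) * a) * a = x := by
      calc a * (a * (x : G) * a) * a = a * a * x * (a * a) := by group
        _ = x := by rw [h.aa]; group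
    rw [← hx', hcm, hcinv, e]
    group
  refine ⟨O, hodd, ?_, hinv, ?_⟩
  · intro x hx y hy
    have := hinv _ (O.mul_mem hx hy)
    rw [hcm, hinv x hx, hinv y hy, mul_inv_rev] at this
    simpa using congrArg (·⁻¹) this.symm
  · intro g
    have hdec : ∀ k : K, ∃ o ∈ O, ∃ r ∈ R, (k : G) = o * r := by
      intro k
      have hc : Subgroup.IsComplement' φ.ker (P : Subgroup K) :=
        hφ ▸ MonoidHom.ker_transferSylow_isComplement' P hP
      obtain ⟨⟨o, r⟩, e⟩ := hc.2 k
      refine ⟨((o : K) : G), by rw [hO]; exact ⟨_, o.2, rfl⟩, ((r : K) : G), ?_,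
        (congrArg Subtype.val e).symm⟩
      have hr : (r : K) ∈ (P : Subgroup K) := r.2
      have h1 : ((r : K)) ∈ R1 := hr
      simpa [hR1, Subgroup.mem_subgroupOf] using h1
    rcases hKidx g with e | e
    · obtain ⟨o, ho, r, hr, he⟩ := hdec ⟨g, e⟩
      exact ⟨o, ho, r, h.le hr, he⟩
    · obtain ⟨o, ho, r, hr, he⟩ := hdec ⟨g * a, e⟩
      refine ⟨o, ho, r * a, mul_mem (h.le hr) h.aS, ?_⟩
      rw [← mul_assoc, ← he, mul_assoc, h.aa, mul_one]

end Cfsg.Agent.MaxSub.OrthFour.PlaneKernel
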