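import Cfsg.Agent.MaxSub.OrthFour.PlaneSite
import Cfsg.Agent.MaxSub.OrthFour.PlaneGroup
import Cfsg.Agent.MaxSub.OrthFour.FrameNormal

/-!
The elements fixing two slots of a frame at one site are monomial, given the same for the elements
which commute with a whole frame.

The facts of the neighbouring files are taken as explicit hypotheses:
* `hsite`: every isometry of one site is realised in the group;
* `hframe`: a member commuting with a frame at one site and fixing one slot of it is monomial.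
-/

set_option autoImplicit false
set_option linter.unusedSectionVars false
set_option linter.unusedVariables false
set_option linter.style.haveILetI false
set_option linter.unnecessarySeqFocus false
set_option linter.unusedSimpArgs false

namespace Cfsg.Agent.MaxSub.OrthFour.PlaneKernel

open Matrix Cfsg.Geo Cfsg.Agent.NotMax Cfsg.Agent.GeoClasses Cfsg.Agent.MaxSub.OrthFour
open Cfsg.Agent.MaxSub.TensorPowSp (gV fG site_injective)
open Cfsg.Agent.MaxSub.OrthWreathBig (gB cr sieM cr_mul cr_mulVec)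
open scoped MatrixGroups Matrix

variable {F : Type*} [Field F] {t : ℕ} {δ : F}

/-- The slot matrix of a vector of a frame. -/
def slotE (δ : F) (i : Fin t) (f : Fin 4 → Fin 4 → F) (l : Fin 4) : MV F t :=
  site i (cr (G4 δ) (f l) (f l))

/-- The members fixing two slots. -/
def Pl (δ : F) (M : Subgroup (GV F t)) (i : Fin t) (f : Fin 4 → Fin 4 → F) : Subgroup (GV F t) where
  carrier := {g | g ∈ M ∧ (g : MV F t) * slotE δ i f 0 = slotE δ i f 0 ∧
    (g : MV F t) * slotE δ i f 1 = slotE δ i f 1}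
  one_mem' := ⟨M.one_mem, by simp, by simp⟩
  mul_mem' := by
    rintro a b ⟨ha, a0, a1⟩ ⟨hb, b0, b1⟩
    exact ⟨M.mul_mem ha hb, by rw [Units.val_mul, mul_assoc, b0, a0],
      by rw [Units.val_mul, mul_assoc, b1, a1]⟩
  inv_mem' := by
    rintro a ⟨ha, a0, a1⟩
    refine ⟨M.inv_mem ha, ?_, ?_⟩
    · conv_lhs => rw [← a0]
      rw [← mul_assoc, ← Units.val_mul, inv_mul_cancel, Units.val_one, one_mul]
    · conv_lhs => rw [← a1]
      rw [← mul_assoc, ← Units.val_mul, inv_mul_cancel, Units.val_one, one_mul]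

variable {M : Subgroup (GV F t)} {i : Fin t} {f : Fin 4 → Fin 4 → F}

lemma mem_Pl {g : GV F t} :
    g ∈ Pl δ M i f ↔ g ∈ M ∧ TrivSlot δ i (f 0) (g : MV F t) ∧ TrivSlot δ i (f 1) (g : MV F t) :=
  Iff.rfl

lemma Pl_eq_of_frame {f' : Fin 4 → Fin 4 → F} (h0 : f' 0 = f 0) (h1 : f' 1 = f 1) :
    Pl δ M i f' = Pl δ M i f := by
  ext g; rw [mem_Pl, mem_Pl, h0, h1]

variable [Finite F]

lemma Pl_comm (h : Over δ M) {g : GV F t} (hg : g ∈ Pl δ M i f) :
    slotE δ i f 0 * (g : MV F t) = slotE δ i f 0 ∧ slotE δ i f 1 * (g : MV F t) = slotE δ i f 1 :=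
  ⟨trivSlot_comm h.nsq (h.isoV hg.1) i (f 0) hg.2.1,
    trivSlot_comm h.nsq (h.isoV hg.1) i (f 1) hg.2.2⟩

/-- Members acting at the site only. -/
lemma fixTwo_of_site (h : Over δ M) (hf : IsFrame δ f) {g : GV F t} (hg : g ∈ Pl δ M i f)
    {A : M4 F} (hA : (g : MV F t) = site i A) : FixTwo δ f A := by
  have key : ∀ l, (g : MV F t) * slotE δ i f l = slotE δ i f l → A *ᵥ f l = f l := by
    intro l hl
    rw [slotE, hA, site_mul] at hl
    have := congrArg (· *ᵥ f l) (site_injective i hl)
    simp only [← mulVec_mulVec, cr_frame hf, if_pos, mulVec_smul] at this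
    exact smul_right_injective _ (hf.1 l) this
  exact ⟨isoW_of_site h.nsq i (hA ▸ h.isoV hg.1), key 0 hg.2.1, key 1 hg.2.2⟩

lemma reflSite_comm {g : MV F t} {r : Fin 4 → F}
    (hc : g * site i (cr (G4 δ) r r) = site i (cr (G4 δ) r r) * g) :
    g * site i (reflW δ r) = site i (reflW δ r) * g := by
  have e : site i (reflW δ r) = (1 : MV F t) - (2 / gB (G4 δ) r r) • site i (cr (G4 δ) r r) := by
    rw [reflW, ← site_smul, eq_sub_iff_add_eq, ← site_add, sub_add_cancel, site_one]
  rw [e, mul_sub, sub_mul, mul_one, one_mul, mul_smul_comm, smul_mul_assoc, hc]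

lemma crSite_comm (h2 : (2 : F) ≠ 0) {g : MV F t} {r : Fin 4 → F} (hr : gB (G4 δ) r r ≠ 0)
    (hc : g * site i (reflW δ r) = site i (reflW δ r) * g) :
    g * site i (cr (G4 δ) r r) = site i (cr (G4 δ) r r) * g := by
  have e : site i (reflW δ r) = (1 : MV F t) - (2 / gB (G4 δ) r r) • site i (cr (G4 δ) r r) := by
    rw [reflW, ← site_smul, eq_sub_iff_add_eq, ← site_add, sub_add_cancel, site_one]
  rw [e, mul_sub, sub_mul, mul_one, one_mul, mul_smul_comm, smul_mul_assoc, sub_right_inj] at hc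
  exact smul_right_injective _ (div_ne_zero h2 hr) hc

lemma slot_sum (hf : IsFrame δ f) (i : Fin t) :
    ∑ l, (gB (G4 δ) (f l) (f l))⁻¹ • slotE δ i f l = (1 : MV F t) := by
  simp only [slotE, ← site_smul, Fin.sum_univ_four, ← site_add]
  rw [← site_one (F := F) (k := 4) i, ← frame_sum hf, Fin.sum_univ_four]

variable (hframe : ∀ g ∈ M, ∀ (i : Fin t) (f : Fin 4 → Fin 4 → F), IsFrame δ f →
  CommFrame δ i f (g : MV F t) → ∀ l, TrivSlot δ i (f l) (g : MV F t) → g ∈ Wr F t)
include hframe

/-- A member fixing two slots and commuting with a third reflection is a sign change of the site. -/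
lemma sq_one_of_commRefl (h : Over δ M) (hf : IsFrame δ f) {g : GV F t} (hg : g ∈ Pl δ M i f)
    (hc : (g : MV F t) * site i (reflW δ (f 2)) = site i (reflW δ (f 2)) * (g : MV F t)) :
    (∃ A, (g : MV F t) = site i A) ∧ g * g = 1 := by
  obtain ⟨l0, l1⟩ := Pl_comm h hg
  have c0 : (g : MV F t) * slotE δ i f 0 = slotE δ i f 0 * (g : MV F t) := hg.2.1.trans l0.symm
  have c1 : (g : MV F t) * slotE δ i f 1 = slotE δ i f 1 * (g : MV F t) := hg.2.2.trans l1.symm
  have c2 : (g : MV F t) * slotE δ i f 2 = slotE δ i f 2 * (g : MV F t) :=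
    crSite_comm h.two (hf.1 2) hc
  have c3 : (g : MV F t) * slotE δ i f 3 = slotE δ i f 3 * (g : MV F t) := by
    have e := congrArg (fun X => (g : MV F t) * X - X * (g : MV F t)) (slot_sum hf i)
    simp only [Fin.sum_univ_four, mul_add, add_mul, mul_smul_comm, smul_mul_assoc, c0, c1, c2,
      mul_one, one_mul, sub_self, add_sub_add_left_eq_sub] at e
    exact smul_right_injective _ (inv_ne_zero (hf.1 3)) (sub_eq_zero.1 e)
  have hW : g ∈ Wr F t := by
    refine hframe g hg.1 i f hf ?_ 0 hg.2.1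
    intro l
    fin_cases l
    · exact reflSite_comm c0
    · exact reflSite_comm c1
    · exact hc
    · exact reflSite_comm c3
  have hC : cr (G4 δ) (f 0) (f 0) ≠ 0 := fun e => by
    have := congrArg (fun X => gB (G4 δ) (f 0) (X *ᵥ f 0)) e
    simp [cr_frame hf, hf.1 0] at this
  obtain ⟨A, hA⟩ := exists_site_of_Wr hW i hC hg.2.1 l0
  refine ⟨⟨A, hA⟩, ?_⟩
  have hc' : A * reflW δ (f 2) = reflW δ (f 2) * A :=
    site_injective i (by rw [← site_mul, ← site_mul, ← hA]; exact hc)
  apply Units.ext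
  rw [Units.val_mul, hA, site_mul, sq_one_of_comm h.two hf (fixTwo_of_site h hf hg hA) hc',
    site_one, Units.val_one]

variable (hsite : ∀ (i : Fin t) (A : M4 F), IsoW δ A → ∃ u ∈ M, (u : MV F t) = site i A)
variable (hspan : Algebra.adjoin F (sieSet δ) = ⊤)
include hsite hspan

omit hframe in
lemma exists_site_of_comm_sie {y : GV F t}
    (hy : ∀ j, j ≠ i → ∀ u : GV F t, (∃ w x, w ≠ 0 ∧ gB (G4 δ) w w = 0 ∧ gB (G4 δ) w x = 0 ∧
      gB (G4 δ) x x ≠ 0 ∧ (u : MV F t) = site j (1 + sieM (G4 δ) w x)) → y * u = u * y)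
    (h : Over δ M) : ∃ A, (y : MV F t) = site i A := by
  refine exists_site_of_comm i fun j hj X => comm_site_of_sie hspan j ?_ X
  rintro _ ⟨w, x, hw0, hw, hwx, hx, rfl⟩
  obtain ⟨u, -, hue⟩ := hsite j _ (sie_iso h.two hw hwx hx)
  have := hy j hj u ⟨w, x, hw0, hw, hwx, hx, hue⟩
  rw [← hue, ← Units.val_mul, this, Units.val_mul]

omit hframe hspan in
lemma pow_char_eq_one (h : Over δ M) {p : ℕ} [CharP F p] {j : Fin t} {u : GV F t}
    {w x : Fin 4 → F} (hw : gB (G4 δ) w w = 0) (hwx : gB (G4 δ) w x = 0)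
    (hue : (u : MV F t) = site j (1 + sieM (G4 δ) w x)) : u ^ p = 1 := by
  have hn : ∀ n : ℕ, ((u ^ n : GV F t) : MV F t) = site j ((1 + sieM (G4 δ) w x) ^ n) := by
    intro n
    induction n with
    | zero => rw [pow_zero, pow_zero, site_one, Units.val_one]
    | succ n ih => rw [pow_succ, Units.val_mul, ih, hue, site_mul, ← pow_succ]
  apply Units.ext
  rw [hn, sie_pow h.two hw hwx, CharP.cast_eq_zero, zero_smul,
    show (0 : Fin 4 → F) = (0 : F) • w from (zero_smul F w).symm, sieM_self hw, add_zero, site_one,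
    Units.val_one]

/-- A member moving a plane reflection to a plane reflection acts at the site only. -/
lemma site_of_conj_refl (h : Over δ M) (hf : IsFrame δ f) {f' : Fin 4 → Fin 4 → F}
    (hf' : IsFrame δ f') (h0 : f' 0 = f 0) (h1 : f' 1 = f 1) {y a a' : GV F t}
    (hy : y ∈ Pl δ M i f) (ha : (a : MV F t) = site i (reflW δ (f 2)))
    (ha' : (a' : MV F t) = site i (reflW δ (f' 2))) (hconj : y * a * y⁻¹ = a') :
    ∃ A, (y : MV F t) = site i A := by
  obtain ⟨p, hch⟩ := CharP.exists F
  have hp : p.Prime := (CharP.char_is_prime_or_zero F p).resolve_right (CharP.char_ne_zero_of_finite F p)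
  have hpodd : Odd p := hp.odd_of_ne_two fun e => h.two (by
    subst e; exact_mod_cast CharP.cast_eq_zero F 2)
  refine exists_site_of_comm_sie hsite hspan ?_ h
  rintro j hj u ⟨w, x, hw0, hw, hwx, hx, hue⟩
  have huM : u ∈ M := by
    obtain ⟨v, hv, hve⟩ := hsite j _ (sie_iso h.two hw hwx hx)
    rwa [show u = v from Units.ext (hue.trans hve.symm)]
  have hcomm : ∀ {v : GV F t} {A : M4 F}, (v : MV F t) = site i A → u * v = v * u := by
    intro v A hv
    apply Units.ext
    rw [Units.val_mul, Units.val_mul, hue, hv, site_comm hj]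
  have hnorm : ∀ {g : GV F t}, g ∈ Pl δ M i f → u * g * u⁻¹ ∈ Pl δ M i f := by
    intro g hg
    refine ⟨M.mul_mem (M.mul_mem huM hg.1) (M.inv_mem huM), ?_, ?_⟩ <;>
    · have hcE : ∀ l, (u : MV F t) * slotE δ i f l = slotE δ i f l * (u : MV F t) := fun l => by
        rw [slotE, hue, site_comm hj]
      have hcE' : ∀ l, ((u⁻¹ : GV F t) : MV F t) * slotE δ i f l =
          slotE δ i f l * ((u⁻¹ : GV F t) : MV F t) := fun l => by
        have := congrArg (fun X => ((u⁻¹ : GV F t) : MV F t) * X * ((u⁻¹ : GV F t) : MV F t)) (hcE l)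
        simp only [← mul_assoc, Units.inv_mul, one_mul] at this
        simpa [mul_assoc] using this.symm
      rw [Units.val_mul, Units.val_mul, mul_assoc, hcE', ← mul_assoc, mul_assoc (u : MV F t)]
      first
        | rw [hg.2.1, hcE, mul_assoc, Units.mul_inv, mul_one]
        | rw [hg.2.2, hcE, mul_assoc, Units.mul_inv, mul_one]
  set c := y * u * y⁻¹ * u⁻¹ with hc
  have hcP : c ∈ Pl δ M i f := by
    rw [hc, mul_assoc, mul_assoc, ← mul_assoc u]
    exact mul_mem hy (hnorm (inv_mem hy))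
  have hua' : u * a' = a' * u := hcomm ha'
  have hua : u * a = a * u := hcomm ha
  have hca : c * a' = a' * c := by
    have h3 : u⁻¹ * a' = a' * u⁻¹ := by
      rw [inv_mul_eq_iff_eq_mul, ← mul_assoc, hua', mul_inv_cancel_right]
    calc c * a' = y * u * y⁻¹ * (u⁻¹ * a') := by rw [hc, mul_assoc]
      _ = y * u * y⁻¹ * (y * a * y⁻¹ * u⁻¹) := by rw [h3, hconj]
      _ = y * (u * a) * y⁻¹ * u⁻¹ := by group
      _ = y * (a * u) * y⁻¹ * u⁻¹ := by rw [hua]
      _ = y * a * y⁻¹ * (y * u * y⁻¹ * u⁻¹) := by group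
      _ = a' * c := by rw [hconj, hc]
  obtain ⟨⟨A, hA⟩, hcc⟩ := sq_one_of_commRefl hframe h hf'
    ((Pl_eq_of_frame h0 h1).symm ▸ hcP : c ∈ Pl δ M i f') (by
      rw [← ha', ← Units.val_mul, ← Units.val_mul, hca])
  have hcu : Commute c u := (hcomm hA).symm
  have h4 : (c * u) ^ p = 1 := by
    have : c * u = y * u * y⁻¹ := by rw [hc]; group
    rw [this, conj_pow, pow_char_eq_one hsite h hw hwx hue, mul_one, mul_inv_cancel]
  rw [hcu.mul_pow, pow_char_eq_one hsite h hw hwx hue, mul_one] at h4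
  obtain ⟨k, hk⟩ := hpodd
  rw [hk, pow_succ, pow_mul, pow_two, hcc, one_pow, one_mul] at h4
  rw [hc, mul_inv_eq_one, mul_inv_eq_iff_eq_mul] at h4
  exact h4

omit hframe hspan in
lemma conj_adjoin {S : Set (MV F t)} {u : GV F t}
    (hS : ∀ X ∈ S, (u : MV F t) * X * ((u⁻¹ : GV F t) : MV F t) ∈ S) {X : MV F t}
    (hX : X ∈ Algebra.adjoin F S) :
    (u : MV F t) * X * ((u⁻¹ : GV F t) : MV F t) ∈ Algebra.adjoin F S := by
  induction hX using Algebra.adjoin_induction with
  | mem x hx => exact Algebra.subset_adjoin (hS x hx)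
  | algebraMap r =>
    rw [Algebra.algebraMap_eq_smul_one, mul_smul_comm, mul_one, smul_mul_assoc, Units.mul_inv]
    exact Subalgebra.smul_mem _ (one_mem _) r
  | add a b _ _ ha hb => rw [mul_add, add_mul]; exact add_mem ha hb
  | mul a b _ _ ha hb =>
    have : (u : MV F t) * (a * b) * ((u⁻¹ : GV F t) : MV F t) =
        ((u : MV F t) * a * ((u⁻¹ : GV F t) : MV F t)) *
          ((u : MV F t) * b * ((u⁻¹ : GV F t) : MV F t)) := by
      simp only [mul_assoc, Units.inv_mul_cancel_left]
    rw [this]; exact mul_mem ha hb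

omit hframe hspan in
/-- A commutative group normalised by a root group of another site: elements of order prime to the
characteristic are centralised by it. -/
lemma comm_of_abelian (h : Over δ M) {p : ℕ} [CharP F p] (O : Subgroup (GV F t))
    (hO : ∀ x ∈ O, ∀ y ∈ O, x * y = y * x) {j : Fin t} {w x : Fin 4 → F} (hw0 : w ≠ 0)
    (hw : gB (G4 δ) w w = 0) (hwx : gB (G4 δ) w x = 0) (hx : gB (G4 δ) x x ≠ 0)
    (hnorm : ∀ v, gB (G4 δ) w v = 0 → ∀ u : GV F t,
      (u : MV F t) = site j (1 + sieM (G4 δ) w v) → ∀ y ∈ O, u * y * u⁻¹ ∈ O)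
    {y : GV F t} (hy : y ∈ O) (hcop : Nat.Coprime (orderOf y) p)
    {u : GV F t} (hue : (u : MV F t) = site j (1 + sieM (G4 δ) w x)) : y * u = u * y := by
  obtain ⟨x', hwx', hxx', hx'⟩ := exists_partner h.nsq hw0 hw hwx hx
  obtain ⟨S, hS⟩ : ∃ S, S = (fun g : GV F t => (g : MV F t)) '' O := ⟨_, rfl⟩
  have hA : ∀ a ∈ Algebra.adjoin F S, ∀ b ∈ Algebra.adjoin F S, a * b = b * a := by
    have h1 : ∀ a ∈ S, ∀ b ∈ Algebra.adjoin F S, a * b = b * a := by
      intro a ha b hb
      induction hb using Algebra.adjoin_induction with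
      | mem b hb =>
        rw [hS] at ha hb
        obtain ⟨g, hg, rfl⟩ := ha
        obtain ⟨g', hg', rfl⟩ := hb
        show (g : MV F t) * (g' : MV F t) = (g' : MV F t) * (g : MV F t)
        rw [← Units.val_mul, hO g hg g' hg', Units.val_mul]
      | algebraMap r => exact (Algebra.commutes r a).symm
      | add b c _ _ hb hc => rw [mul_add, add_mul, hb, hc]
      | mul b c _ _ hb hc => rw [← mul_assoc, hb, mul_assoc, hc, mul_assoc]
    intro a ha b hb
    induction ha using Algebra.adjoin_induction with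
    | mem a ha => exact h1 a ha b hb
    | algebraMap r => exact Algebra.commutes r b
    | add a c _ _ ha hc => rw [mul_add, add_mul, ha, hc]
    | mul a c _ _ ha hc => rw [mul_assoc, hc, ← mul_assoc, ha, mul_assoc]
  obtain ⟨L, hL⟩ : ∃ L : (Fin 4 → F) → MV F t,
      L = fun v => site j (cr (G4 δ) v w - cr (G4 δ) w v) := ⟨_, rfl⟩
  obtain ⟨K, hK⟩ : ∃ K : MV F t, K = site j (cr (G4 δ) w w) := ⟨_, rfl⟩
  have hexp : ∀ v, expTwo (L v) K (gB (G4 δ) v v) = (site j (1 + sieM (G4 δ) w v) : MV F t) := by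
    intro v
    rw [hL, hK, expTwo, ← site_one (F := F) (k := 4) j, ← site_smul, ← site_add, eq_comm,
      eq_sub_iff_add_eq, ← site_add]
    simp only [sieM]
    congr 1; abel
  have hLneg : ∀ v, L (-v) = -L v := by
    intro v
    rw [hL]
    show site j _ = -site j _
    rw [eq_neg_iff_add_eq_zero, ← site_add, ← site_zero (F := F) (k := 4) j]
    congr 1
    rw [show -v = (-1 : F) • v from (neg_one_smul F v).symm, OrthWreathBig.cr_smul_left,
      OrthWreathBig.cr_smul_right]
    module
  have hLadd : ∀ v v', L (v + v') = L v + L v' := by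
    intro v v'
    rw [hL]
    show site j _ = site j _ + site j _
    rw [← site_add, OrthWreathBig.cr_add_left, OrthWreathBig.cr_add_right]
    congr 1; abel
  have hconj : ∀ v, gB (G4 δ) w v = 0 → gB (G4 δ) v v ≠ 0 → ∀ a ∈ Algebra.adjoin F S,
      expTwo (L v) K (gB (G4 δ) v v) * a * expTwo (-L v) K (gB (G4 δ) v v) ∈ Algebra.adjoin F S := by
    intro v hv hvv a ha
    obtain ⟨u', -, hu'⟩ := hsite j _ (sie_iso h.two hw hv hvv)
    have hinv : ((u'⁻¹ : GV F t) : MV F t) = expTwo (-L v) K (gB (G4 δ) v v) := by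
      rw [← hLneg, show gB (G4 δ) v v = gB (G4 δ) (-v) (-v) by simp, hexp]
      refine Units.inv_eq_of_mul_eq_one_right ?_
      rw [hu', site_mul, one_add_sieM_mul h.two hw hv (by rw [map_neg, hv, neg_zero]),
        add_neg_cancel, show (0 : Fin 4 → F) = (0 : F) • w from (zero_smul F w).symm, sieM_self hw,
        add_zero, site_one]
    rw [hexp, ← hu', ← hinv]
    refine conj_adjoin hsite ?_ ha
    rw [hS]
    rintro _ ⟨g, hg, rfl⟩
    exact ⟨u' * g * u'⁻¹, hnorm v hv u' hu' g hg, rfl⟩
  have hboth : ∀ v, gB (G4 δ) w v = 0 → ∀ a ∈ Algebra.adjoin F S,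
      expTwo (L v) K (gB (G4 δ) v v) * a * expTwo (-L v) K (gB (G4 δ) v v) ∈ Algebra.adjoin F S ∧
      expTwo (-L v) K (gB (G4 δ) v v) * a * expTwo (L v) K (gB (G4 δ) v v) ∈
        Algebra.adjoin F S := by
    intro v hv a ha
    by_cases hvv : gB (G4 δ) v v = 0
    · -- singular vectors perpendicular to `w` are multiples of it
      have hv' : ∃ c : F, v = c • w := by
        by_contra hne
        have hvw : v ∉ F ∙ w := fun hm => hne (by
          obtain ⟨c, hc⟩ := Submodule.mem_span_singleton.1 hm; exact ⟨c, hc.symm⟩)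
        exact hvw (singular_perp h.nsq hw0 hw hv hvv)
      obtain ⟨c, rfl⟩ := hv'
      have hz : L (c • w) = 0 := by
        rw [hL]; show site j _ = 0
        rw [OrthWreathBig.cr_smul_left, OrthWreathBig.cr_smul_right, sub_self, site_zero]
      rw [hz, neg_zero, expTwo, hvv, zero_div, zero_smul, add_zero, sub_zero, one_mul, mul_one]
      exact ⟨ha, ha⟩
    · refine ⟨hconj v hv hvv a ha, ?_⟩
      have := hconj (-v) (by rw [map_neg, hv, neg_zero]) (by simpa using hvv) a ha
      simpa [hLneg] using this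
  have hyk : ∃ k, y = (y ^ k) ^ p := by
    obtain ⟨k, hk⟩ := exists_pow_eq_self_of_coprime (x := y) (n := p) hcop.symm
    exact ⟨k, by rw [← pow_mul, mul_comm, pow_mul]; exact hk.symm⟩
  obtain ⟨k, hk⟩ := hyk
  have hb : ((y ^ k : GV F t) : MV F t) ∈ Algebra.adjoin F S :=
    Algebra.subset_adjoin (hS ▸ ⟨_, O.pow_mem hy k, rfl⟩)
  have hcx : L x * (y : MV F t) = (y : MV F t) * L x := by
    have hyv : (y : MV F t) = ((y ^ k : GV F t) : MV F t) ^ p := by
      rw [← Units.val_pow_eq_pow_val, ← hk]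
    rw [hyv]
    refine comm_pow_char (X := L x) (Y := L x') (K := K) (qx := gB (G4 δ) x x)
      (qy := gB (G4 δ) x' x') h.two _ hA hx' ?_ hb
    intro L' q hmem a ha
    simp only [Set.mem_insert_iff, Set.mem_singleton_iff, Prod.mk.injEq] at hmem
    have hx'x : gB (G4 δ) x' x = 0 := by rw [gB_symm, hxx']
    rcases hmem with ⟨rfl, rfl⟩ | ⟨rfl, rfl⟩ | ⟨rfl, rfl⟩ | ⟨rfl, rfl⟩
    · exact hboth x hwx a ha
    · exact hboth x' hwx' a ha
    · have := hboth (x + x') (by simp [hwx, hwx']) a ha
      simpa [hLadd, hxx', hx'x] using this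
    · have := hboth (x - x') (by simp [hwx, hwx']) a ha
      simpa [sub_eq_add_neg, hLadd, hLneg, hxx', hx'x] using this
  have hxw : gB (G4 δ) x w = 0 := by rw [gB_symm, hwx]
  have hLL : L x * L x = -(gB (G4 δ) x x) • K := by
    rw [hL, hK]
    show site j _ * site j _ = _
    rw [site_mul, ← site_smul]
    congr 1
    simp only [sub_mul, mul_sub, cr_mul, hw, hwx, hxw]
    module
  have hcK : K * (y : MV F t) = (y : MV F t) * K := by
    have h1 : L x * L x * (y : MV F t) = (y : MV F t) * (L x * L x) := by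
      rw [mul_assoc, hcx, ← mul_assoc, hcx, mul_assoc]
    rw [hLL, smul_mul_assoc, mul_smul_comm] at h1
    exact smul_right_injective _ (neg_ne_zero.2 hx) h1
  apply Units.ext
  rw [Units.val_mul, Units.val_mul, hue, ← hexp, expTwo]
  simp only [mul_add, add_mul, mul_sub, sub_mul, mul_one, one_mul, smul_mul_assoc, mul_smul_comm,
    hcx, hcK]

/-- A group of `p`-power order normalised by the root elements of the other sites fixes a third
slot. -/
lemma p_part_trivial (h : Over δ M) (hf : IsFrame δ f) {p : ℕ} [CharP F p] [Fact p.Prime]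
    (Op : Subgroup (GV F t)) (hle : Op ≤ Pl δ M i f) (hp : IsPGroup p Op) {a : GV F t}
    (hodd : ∀ y ∈ Op, Odd (orderOf y))
    (ha : (a : MV F t) = site i (reflW δ (f 2))) (haN : ∀ y ∈ Op, a * y * a⁻¹ ∈ Op)
    (hnorm : ∀ j, j ≠ i → ∀ u : GV F t, (∃ w x, w ≠ 0 ∧ gB (G4 δ) w w = 0 ∧ gB (G4 δ) w x = 0 ∧
      gB (G4 δ) x x ≠ 0 ∧ (u : MV F t) = site j (1 + sieM (G4 δ) w x)) →
      ∀ y ∈ Op, u⁻¹ * y * u ∈ Op) :
    ∀ y ∈ Op, y = 1 := by
  -- the matrices killed by the two slots
  let α : Type _ := {Z : MV F t // slotE δ i f 0 * Z = 0 ∧ slotE δ i f 1 * Z = 0}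
  let act : MulAction Op α :=
    { smul := fun y Z => ⟨((y : GV F t) : MV F t) * Z.1, by
        obtain ⟨l0, l1⟩ := Pl_comm h (hle y.2)
        exact ⟨by rw [← mul_assoc, l0, Z.2.1], by rw [← mul_assoc, l1, Z.2.2]⟩⟩
      one_smul := fun Z => Subtype.ext (by
        show ((1 : GV F t) : MV F t) * Z.1 = Z.1
        rw [Units.val_one, one_mul])
      mul_smul := fun y y' Z => Subtype.ext (by
        show (((y : GV F t) * (y' : GV F t) : GV F t) : MV F t) * Z.1 = _
        rw [Units.val_mul, mul_assoc]; rfl) }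
  haveI : Finite α := Subtype.finite
  -- the third slot is such a matrix
  have horth : ∀ l m, l ≠ m → slotE δ i f l * slotE δ i f m = 0 := fun l m hlm => by
    rw [slotE, slotE, site_mul, cr_mul, hf.2 l m hlm, zero_smul, site_zero]
  have hcrne : ∀ l, cr (G4 δ) (f l) (f l) ≠ 0 := fun l e => by
    have := congrArg (fun X => gB (G4 δ) (f l) (X *ᵥ f l)) e
    simp [cr_frame hf, hf.1 l] at this
  let Sα : AddSubgroup (MV F t) :=
    { carrier := {Z | slotE δ i f 0 * Z = 0 ∧ slotE δ i f 1 * Z = 0}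
      add_mem' := fun ha hb => ⟨by rw [mul_add, ha.1, hb.1, add_zero],
        by rw [mul_add, ha.2, hb.2, add_zero]⟩
      zero_mem' := ⟨mul_zero _, mul_zero _⟩
      neg_mem' := fun ha => ⟨by rw [mul_neg, ha.1, neg_zero], by rw [mul_neg, ha.2, neg_zero]⟩ }
  have hE2 : slotE δ i f 2 ∈ Sα := ⟨horth 0 2 (by decide), horth 1 2 (by decide)⟩
  have hdvd : p ∣ Nat.card α := by
    have h1 : addOrderOf (⟨_, hE2⟩ : Sα) = p := by
      refine addOrderOf_eq_prime (Subtype.ext ?_) (fun e => ?_)
      · show p • slotE δ i f 2 = 0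
        rw [← Nat.cast_smul_eq_nsmul F, CharP.cast_eq_zero F p, zero_smul]
      · have e' : slotE δ i f 2 = (0 : MV F t) := congrArg Subtype.val e
        rw [slotE, ← site_zero (F := F) (k := 4) i] at e'
        exact hcrne 2 (site_injective i e')
    exact h1 ▸ addOrderOf_dvd_natCard (⟨_, hE2⟩ : Sα)
  have hzero : (⟨0, mul_zero _, mul_zero _⟩ : α) ∈ MulAction.fixedPoints Op α := fun y =>
    Subtype.ext (mul_zero ((y : GV F t) : MV F t))
  obtain ⟨⟨Z, hZ0, hZ1⟩, hfix, hne⟩ :=
    hp.exists_fixed_point_of_prime_dvd_card_of_fixed_point α hdvd hzero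
  have hfixZ : ∀ y ∈ Op, (y : MV F t) * Z = Z := fun y hy =>
    congrArg Subtype.val (hfix ⟨y, hy⟩)
  have hZne : Z ≠ 0 := fun e => hne (Subtype.ext e.symm)
  -- the operators preserving the fixed matrices
  let 𝒞 : Subalgebra F (MV F t) :=
    { carrier := {X | ∀ Z : MV F t, (∀ y ∈ Op, (y : MV F t) * Z = Z) →
        ∀ y ∈ Op, (y : MV F t) * (X * Z) = X * Z}
      mul_mem' := fun ha hb Z hZ => by
        intro y hy; rw [mul_assoc]; exact ha _ (hb Z hZ) y hy
      add_mem' := fun ha hb Z hZ y hy => by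
        rw [add_mul, mul_add, ha Z hZ y hy, hb Z hZ y hy]
      algebraMap_mem' := fun r Z hZ y hy => by
        rw [Algebra.algebraMap_eq_smul_one, smul_mul_assoc, one_mul, mul_smul_comm, hZ y hy] }
  have hsiteC : ∀ j, j ≠ i → ∀ X : M4 F, site j X ∈ 𝒞 := by
    intro j hj X
    have hX : X ∈ Algebra.adjoin F (sieSet δ) := by rw [hspan]; exact Algebra.mem_top
    refine (Algebra.adjoin_le (S := 𝒞.comap (TensorPowSp.siteHom j)) ?_) hX
    rintro _ ⟨w, x, hw0, hw, hwx, hx, rfl⟩
    obtain ⟨u, -, hue⟩ := hsite j _ (sie_iso h.two hw hwx hx)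
    intro Z' hZ' y hy
    have h1 := hZ' _ (hnorm j hj u ⟨w, x, hw0, hw, hwx, hx, hue⟩ y hy)
    rw [Units.val_mul, Units.val_mul] at h1
    show (y : MV F t) * (TensorPowSp.siteHom j (1 + sieM (G4 δ) w x) * Z') =
      TensorPowSp.siteHom j (1 + sieM (G4 δ) w x) * Z'
    rw [TensorPowSp.siteHom_apply, ← hue]
    have h2 := congrArg ((u : MV F t) * ·) h1
    simp only [← mul_assoc, Units.mul_inv, one_mul] at h2
    simpa [mul_assoc] using h2
  have haC : (a : MV F t) ∈ 𝒞 := by
    intro Z' hZ' y hy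
    have hai : a⁻¹ = a := by
      rw [inv_eq_iff_mul_eq_one]
      apply Units.ext
      rw [Units.val_mul, ha, HalfBig.refl_isUnit h.two (hf.1 2), Units.val_one]
    have h1 := hZ' _ (haN y hy)
    rw [Units.val_mul, Units.val_mul] at h1
    have h2 := congrArg ((a : MV F t) * ·) h1
    have haa : (a : MV F t) * (a : MV F t) = 1 := by
      rw [ha, HalfBig.refl_isUnit h.two (hf.1 2)]
    rw [hai] at h2
    simp only [← mul_assoc, haa, one_mul] at h2
    simpa [mul_assoc] using h2
  have hcr : ∀ l, (l = 2 ∨ l = 3) → ∀ Z : MV F t, slotE δ i f 0 * Z = 0 → slotE δ i f 1 * Z = 0 →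
      (∀ y ∈ Op, (y : MV F t) * Z = Z) →
      ∀ y ∈ Op, (y : MV F t) * (slotE δ i f l * Z) = slotE δ i f l * Z := by
    intro l hl Z h0 h1 hZ y hy
    have hE2a : (2 / gB (G4 δ) (f 2) (f 2)) • slotE δ i f 2 = (1 : MV F t) - (a : MV F t) := by
      rw [ha, slotE, reflW, ← site_smul, eq_sub_iff_add_eq, ← site_add, add_sub_cancel, site_one]
    have hE2C : slotE δ i f 2 ∈ 𝒞 := by
      have := 𝒞.smul_mem (𝒞.sub_mem 𝒞.one_mem haC) (2 / gB (G4 δ) (f 2) (f 2))⁻¹
      rwa [← hE2a, smul_smul, inv_mul_cancel₀ (div_ne_zero h.two (hf.1 2)), one_smul] at this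
    rcases hl with rfl | rfl
    · exact hE2C Z hZ y hy
    · have e := congrArg (· * Z) (slot_sum hf i)
      simp only [Fin.sum_univ_four, add_mul, smul_mul_assoc, h0, h1, smul_zero, zero_add,
        one_mul] at e
      have e3 : slotE δ i f 3 * Z = gB (G4 δ) (f 3) (f 3) •
          (Z - (gB (G4 δ) (f 2) (f 2))⁻¹ • (slotE δ i f 2 * Z)) := by
        rw [eq_sub_of_add_eq' e |>.symm, smul_inv_smul₀ (hf.1 3)]
      rw [e3, mul_smul_comm, mul_sub, mul_smul_comm, hE2C Z hZ y hy, hZ y hy]
  -- a slot with a nonzero fixed part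
  obtain ⟨l, hl, hlZ⟩ : ∃ l, (l = 2 ∨ l = 3) ∧ slotE δ i f l * Z ≠ 0 := by
    by_contra hno
    push Not at hno
    apply hZne
    have e := congrArg (· * Z) (slot_sum hf i)
    simpa [Fin.sum_univ_four, add_mul, hZ0, hZ1, hno 2 (Or.inl rfl), hno 3 (Or.inr rfl)] using e.symm
  have hZ' : ∀ y ∈ Op, (y : MV F t) * (slotE δ i f l * Z) = slotE δ i f l * Z :=
    hcr l hl Z hZ0 hZ1 hfixZ
  obtain ⟨a₀, b₀, hab⟩ : ∃ a b, (slotE δ i f l * Z) a b ≠ 0 := by
    by_contra hno
    exact hlZ (Matrix.ext fun a b => by_contra fun h => hno ⟨a, b, h⟩)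
  have hpure : ∀ S : Fin t → Fin 4,
      pureMat (Function.update (fun m => Matrix.single (S m) (a₀ m) (1 : F)) i 1) ∈ 𝒞 := by
    intro S
    suffices hU : ∀ U : Finset (Fin t), i ∉ U →
        pureMat (fun m => if m ∈ U then Matrix.single (S m) (a₀ m) (1 : F) else 1) ∈ 𝒞 by
      have := hU (Finset.univ.erase i) (by simp)
      convert this using 2
      funext m
      by_cases hm : m = i
      · subst hm; simp
      · simp [hm]
    intro U
    induction U using Finset.induction with
    | empty => intro _; simp [pureMat_one, one_mem]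
    | insert m U hm ih =>
      intro hi
      rw [Finset.mem_insert, not_or] at hi
      have : pureMat (fun x => if x ∈ insert m U then Matrix.single (S x) (a₀ x) (1 : F) else 1) =
          site m (Matrix.single (S m) (a₀ m) (1 : F)) *
            pureMat (fun x => if x ∈ U then Matrix.single (S x) (a₀ x) (1 : F) else 1) := by
        rw [site, pureMat_mul]
        congr 1
        funext x
        by_cases hx : x = m
        · subst hx; simp [hm]
        · simp [hx]
      rw [this]
      exact mul_mem (hsiteC m (Ne.symm hi.1) _) (ih hi.2)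
  obtain ⟨φ, hφdef⟩ : ∃ φ : Fin 4 → F, φ = f l ᵥ* G4 δ := ⟨_, rfl⟩
  have hEl : ∀ x y : Fin t → Fin 4, slotE δ i f l x y =
      f l (x i) * φ (y i) * ∏ m ∈ Finset.univ.erase i, (if x m = y m then (1 : F) else 0) := by
    intro x y
    rw [slotE, prod_update_apply, hφdef]
    simp [cr, Matrix.vecMulVec_apply]
  obtain ⟨ζ, hζdef⟩ : ∃ ζ : (Fin t → Fin 4) → F,
      ζ = fun x => ∑ q, φ q * Z (Function.update x i q) b₀ := ⟨_, rfl⟩
  have hEZ : ∀ x, (slotE δ i f l * Z) x b₀ = f l (x i) * ζ x := by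
    intro x
    rw [Matrix.mul_apply, hζdef, Finset.mul_sum,
      ← Finset.sum_subset (Finset.subset_univ
        (Finset.univ.image fun q => Function.update x i q)) ?_, Finset.sum_image]
    · refine Finset.sum_congr rfl fun q _ => ?_
      rw [hEl, Function.update_self, Finset.prod_eq_one fun m hm => by
        rw [Function.update_of_ne (Finset.ne_of_mem_erase hm), if_pos rfl]]
      ring
    · intro q _ q' _ e
      simpa using congrFun e i
    · intro y _ hy
      rw [hEl]
      by_cases hall : ∀ m, m ≠ i → x m = y m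
      · exfalso
        refine hy (Finset.mem_image.2 ⟨y i, Finset.mem_univ _, funext fun m => ?_⟩)
        by_cases hm : m = i
        · subst hm; simp
        · rw [Function.update_of_ne hm, hall m hm]
      · push Not at hall
        obtain ⟨m, hm, hne⟩ := hall
        rw [Finset.prod_eq_zero (Finset.mem_erase.2 ⟨hm, Finset.mem_univ m⟩) (if_neg hne)]
        ring
  have hζ : ζ a₀ ≠ 0 := fun e => hab (by rw [hEZ, e, mul_zero])
  have hcol : ∀ (S S' : Fin t → Fin 4) (y : GV F t), y ∈ Op →
      (y : MV F t) * (slotE δ i f l * Matrix.single S S' 1) =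
        slotE δ i f l * Matrix.single S S' 1 := by
    intro S S' y hy
    have h1 : ∀ y ∈ Op, (y : MV F t) *
        (pureMat (Function.update (fun m => Matrix.single (S m) (a₀ m) (1 : F)) i 1) *
          (slotE δ i f l * Z)) = _ := fun y hy => hpure S _ hZ' y hy
    have e : slotE δ i f l * Matrix.single S S' 1 = (φ (S i) / ζ a₀) •
        (pureMat (Function.update (fun m => Matrix.single (S m) (a₀ m) (1 : F)) i 1) *
          (slotE δ i f l * Z) * Matrix.single b₀ S' 1) := by
      ext x z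
      rw [Matrix.smul_apply, smul_eq_mul]
      by_cases hz : z = S'
      · subst hz
        rw [Matrix.mul_single_apply_same, Matrix.mul_single_apply_same, mul_one, mul_one,
          Matrix.mul_apply, Finset.sum_eq_single (Function.update a₀ i (x i)), hEZ, hEl,
          Function.update_self]
        · have hT : pureMat (Function.update (fun m => Matrix.single (S m) (a₀ m) (1 : F)) i 1) x
              (Function.update a₀ i (x i)) =
              ∏ m ∈ Finset.univ.erase i, (if x m = S m then (1 : F) else 0) := by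
            rw [pureMat, ← Finset.mul_prod_erase _ _ (Finset.mem_univ i), Function.update_self,
              Function.update_self, Matrix.one_apply_eq, one_mul]
            refine Finset.prod_congr rfl fun m hm => ?_
            rw [Function.update_of_ne (Finset.ne_of_mem_erase hm),
              Function.update_of_ne (Finset.ne_of_mem_erase hm), Matrix.single_apply]
            simp [eq_comm]
          have hup : ζ (Function.update a₀ i (x i)) = ζ a₀ := by
            rw [hζdef]; simp only [Function.update_idem]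
          rw [hT, hup]
          field_simp
        · intro u _ hu
          have : pureMat (Function.update (fun m => Matrix.single (S m) (a₀ m) (1 : F)) i 1) x u
              = 0 := by
            obtain ⟨m, hm⟩ := Function.ne_iff.1 hu
            refine Finset.prod_eq_zero (Finset.mem_univ m) ?_
            by_cases hmi : m = i
            · subst hmi
              rw [Function.update_self] at hm ⊢
              exact Matrix.one_apply_ne (Ne.symm hm)
            · rw [Function.update_of_ne hmi] at hm ⊢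
              rw [Matrix.single_apply, if_neg]
              exact fun hh => hm hh.2.symm
          rw [this, zero_mul]
        · simp
      · rw [Matrix.mul_single_apply_of_ne (hbj := hz), Matrix.mul_single_apply_of_ne (hbj := hz),
          mul_zero]
    rw [e, mul_smul_comm, ← mul_assoc, h1 y hy]
  intro y hy
  have hyE : (y : MV F t) * slotE δ i f l = slotE δ i f l := by
    have e : slotE δ i f l = ∑ S, slotE δ i f l * Matrix.single S S 1 := by
      rw [← Finset.mul_sum, Matrix.sum_single_one, mul_one]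
    rw [e, Finset.mul_sum]
    exact Finset.sum_congr rfl fun S _ => hcol S S y hy
  have hyP := hle hy
  obtain ⟨l0, l1⟩ := Pl_comm h hyP
  have lE : slotE δ i f l * (y : MV F t) = slotE δ i f l :=
    trivSlot_comm h.nsq (h.isoV hyP.1) i (f l) hyE
  have hy2 : (y : MV F t) * slotE δ i f 2 = slotE δ i f 2 * (y : MV F t) := by
    rcases hl with rfl | rfl
    · exact hyE.trans lE.symm
    · have e := congrArg (fun X => (y : MV F t) * X - X * (y : MV F t)) (slot_sum hf i)
      simp only [Fin.sum_univ_four, mul_add, add_mul, mul_smul_comm, smul_mul_assoc,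
        show (y : MV F t) * slotE δ i f 0 = slotE δ i f 0 from hyP.2.1, l0,
        show (y : MV F t) * slotE δ i f 1 = slotE δ i f 1 from hyP.2.2, l1,
        hyE, lE, mul_one, one_mul, sub_self, add_sub_add_right_eq_sub,
        add_sub_add_left_eq_sub] at e
      exact smul_right_injective _ (inv_ne_zero (hf.1 2)) (sub_eq_zero.1 e)
  obtain ⟨-, hyy⟩ := sq_one_of_commRefl hframe h hf hyP (reflSite_comm hy2)
  have h3 := orderOf_dvd_of_pow_eq_one (show y ^ 2 = 1 by rw [pow_two]; exact hyy)
  rcases (Nat.dvd_prime Nat.prime_two).1 h3 with e1 | e1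
  · exact orderOf_eq_one_iff.1 e1
  · exact absurd (hodd y hy) (by rw [e1]; decide)

end Cfsg.Agent.MaxSub.OrthFour.PlaneKernel

namespace Cfsg.Agent.MaxSub.OrthFour

open Matrix Cfsg.Geo Cfsg.Agent.NotMax Cfsg.Agent.GeoClasses PlaneKernel
open Cfsg.Agent.MaxSub.TensorPowSp (gV fG site_injective)
open Cfsg.Agent.MaxSub.OrthWreathBig (gB cr sieM cr_mul cr_mulVec)
open scoped MatrixGroups Matrix

variable {F : Type*} [Field F] {t : ℕ} {δ : F}

/-- **The kernel on a plane is monomial.** -/
theorem plane_kernel [Finite F] {M : Subgroup (GV F t)} (h : Over δ M)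
    (hframe : ∀ g ∈ M, ∀ (i : Fin t) (f : Fin 4 → Fin 4 → F), IsFrame δ f →
      CommFrame δ i f (g : MV F t) → ∀ l, TrivSlot δ i (f l) (g : MV F t) → g ∈ Wr F t)
    (hsite : ∀ (i : Fin t) (A : M4 F), IsoW δ A → ∃ u ∈ M, (u : MV F t) = site i A) :
    ∀ g ∈ M, ∀ (i : Fin t) (f : Fin 4 → Fin 4 → F), IsFrame δ f →
      TrivSlot δ i (f 0) (g : MV F t) → TrivSlot δ i (f 1) (g : MV F t) → g ∈ Wr F t := by
  intro g hgM i f hf hg0 hg1
  have hspan : Algebra.adjoin F (sieSet δ) = ⊤ := Slot.adjoin_roots h.two h.nsq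
  obtain ⟨p, hch⟩ := CharP.exists F
  haveI : Fact p.Prime := ⟨(CharP.char_is_prime_or_zero F p).resolve_right
    (CharP.char_ne_zero_of_finite F p)⟩
  haveI : Fact (Nat.Prime 2) := ⟨Nat.prime_two⟩
  obtain ⟨P, hP⟩ : ∃ P, P = Pl δ M i f := ⟨_, rfl⟩
  have inP : ∀ {y : GV F t}, y ∈ P → y ∈ Pl δ M i f := fun {y} hy => by rwa [← hP]
  have toP : ∀ {y : GV F t}, y ∈ Pl δ M i f → y ∈ P := fun {y} hy => by rwa [hP]
  have hfix : ∀ {B : M4 F} {l : Fin 4}, B *ᵥ f l = f l →
      (site i B : MV F t) * slotE δ i f l = slotE δ i f l := by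
    intro B l hB
    rw [slotE, site_mul]
    congr 1
    rw [cr, Matrix.mul_vecMulVec, hB]
  -- the reflection and the minus one of the plane
  obtain ⟨aV, haM, ha⟩ := hsite i _ (HalfBig.refl_iso h.two (hf.1 2))
  obtain ⟨zV, hzM, hz⟩ := hsite i _ (zW_iso h.two hf)
  obtain ⟨z0, z1, z2, z3⟩ := zW_apply h.two hf
  have haP : aV ∈ P := by
    rw [hP]; refine ⟨haM, ?_, ?_⟩ <;> rw [ha] <;> refine hfix ?_ <;>
      rw [refl_frame h.two hf, if_neg (by decide)]
  have hzP : zV ∈ P := by
    rw [hP]; exact ⟨hzM, by rw [hz]; exact hfix z0, by rw [hz]; exact hfix z1⟩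
  let a : P := ⟨aV, haP⟩
  let z : P := ⟨zV, hzP⟩
  have hfx : ∀ {y : P} {A : M4 F}, ((y : GV F t) : MV F t) = site i A → FixTwo δ f A :=
    fun {y} {A} hA => fixTwo_of_site h hf (inP y.2) hA
  have zz : z * z = 1 := by
    refine Subtype.ext (Units.ext ?_)
    show ((zV * zV : GV F t) : MV F t) = ((1 : GV F t) : MV F t)
    rw [Units.val_mul, Units.val_one, hz, site_mul,
      show zW δ f * zW δ f = 1 from frame_ext hf fun l => by
        fin_cases l <;> simp [← mulVec_mulVec, z0, z1, z2, z3, mulVec_neg], site_one]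
  have aa : a * a = 1 := by
    refine Subtype.ext (Units.ext ?_)
    show ((aV * aV : GV F t) : MV F t) = ((1 : GV F t) : MV F t)
    rw [Units.val_mul, Units.val_one, ha, HalfBig.refl_isUnit h.two (hf.1 2)]
  have zc : ∀ y : P, y * z = z * y := by
    intro y
    have hy := inP y.2
    obtain ⟨l0, l1⟩ := Pl_comm h hy
    have c0 : ((y : GV F t) : MV F t) * site i (reflW δ (f 0)) =
        site i (reflW δ (f 0)) * ((y : GV F t) : MV F t) := reflSite_comm (hy.2.1.trans l0.symm)
    have c1 : ((y : GV F t) : MV F t) * site i (reflW δ (f 1)) =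
        site i (reflW δ (f 1)) * ((y : GV F t) : MV F t) := reflSite_comm (hy.2.2.trans l1.symm)
    refine Subtype.ext (Units.ext ?_)
    show (((y : GV F t) * zV : GV F t) : MV F t) = ((zV * (y : GV F t) : GV F t) : MV F t)
    rw [Units.val_mul, Units.val_mul, hz,
      show zW δ f = (-1 : F) • (reflW δ (f 0) * reflW δ (f 1)) from (neg_one_smul F _).symm,
      site_smul, ← site_mul, mul_smul_comm, smul_mul_assoc, ← mul_assoc, c0, mul_assoc, c1,
      mul_assoc]
  -- the members acting at the site only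
  let Hs : Subgroup P :=
    { carrier := {y | ∃ A, ((y : GV F t) : MV F t) = site i A}
      one_mem' := ⟨1, (site_one i).symm⟩
      mul_mem' := by
        rintro x y ⟨A, hA⟩ ⟨B, hB⟩
        exact ⟨A * B, by rw [Subgroup.coe_mul, Units.val_mul, hA, hB, site_mul]⟩
      inv_mem' := by
        rintro x ⟨A, hA⟩
        refine exists_site_of_comm i fun j hj X => ?_
        have e : ((x : GV F t) : MV F t) * site j X = site j X * ((x : GV F t) : MV F t) := by
          rw [hA, site_comm (Ne.symm hj)]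
        have := congrArg (fun Y => (((x : GV F t)⁻¹ : GV F t) : MV F t) * Y *
          (((x : GV F t)⁻¹ : GV F t) : MV F t)) e
        simp only [← mul_assoc, Units.inv_mul, one_mul] at this
        rw [Subgroup.coe_inv]
        simpa [mul_assoc] using this.symm }
  have eq_of_rot_invol : ∀ {y : P} {A : M4 F}, ((y : GV F t) : MV F t) = site i A →
      IsRot δ f A → y * y = 1 → y = 1 ∨ y = z := by
    intro y A hA hr hyy
    have hAA : A * A = 1 := site_injective i (by
      rw [← site_mul, ← hA, site_one, ← Units.val_mul, ← Subgroup.coe_mul, hyy, Subgroup.coe_one,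
        Units.val_one])
    rcases hr.invol h.two hf (hfx hA) hAA with e | e
    · exact Or.inl (Subtype.ext (Units.ext (by rw [hA, e, site_one]; rfl)))
    · exact Or.inr (Subtype.ext (Units.ext (by rw [hA, e]; exact hz.symm)))
  obtain ⟨S, hS⟩ : ∃ S : Sylow 2 P, Subgroup.zpowers a ≤ (S : Subgroup P) := by
    refine IsPGroup.exists_le_sylow fun x => ?_
    obtain ⟨n, hn⟩ := Subgroup.mem_zpowers_iff.1 x.2
    refine ⟨1, Subtype.ext ?_⟩
    rw [SubgroupClass.coe_pow, Subgroup.coe_one, ← hn, pow_one, pow_two, ← (Commute.refl a).mul_zpow,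
      aa, _root_.one_zpow]
  have haS : a ∈ S := hS (Subgroup.mem_zpowers a)
  have haH : a ∈ Hs := ⟨_, ha⟩
  have hSH : (S : Subgroup P) ≤ Hs := by
    haveI : Group.IsNilpotent (S : Subgroup P) := S.2.isNilpotent
    rw [← Subgroup.subgroupOf_eq_top]
    by_contra hne
    have hlt := Group.normalizerCondition_of_isNilpotent (Hs.subgroupOf (S : Subgroup P))
      (lt_top_iff_ne_top.2 hne)
    obtain ⟨y, hyN, hyH⟩ := SetLike.exists_of_lt hlt
    refine hyH ?_
    rw [Subgroup.mem_subgroupOf]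
    have h1 := (Subgroup.mem_normalizer_iff.1 hyN ⟨a, haS⟩).1
      (Subgroup.mem_subgroupOf.2 haH)
    rw [Subgroup.mem_subgroupOf] at h1
    obtain ⟨A, hA⟩ := h1
    have hya : (y : P) * a * (y : P)⁻¹ * ((y : P) * a * (y : P)⁻¹) = 1 := by
      rw [show (y : P) * a * (y : P)⁻¹ * ((y : P) * a * (y : P)⁻¹) = (y : P) * (a * a) * (y : P)⁻¹ by
        group, aa, mul_one, mul_inv_cancel]
    rcases (hfx hA).cases hf with hr | hflip
    · exfalso
      have hna : ∀ q : P, q = 1 ∨ q = z → a ≠ q := by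
        rintro q (rfl | rfl) e
        · have e' : site i (reflW δ (f 2)) = (site i (1 : M4 F) : MV F t) := by
            rw [site_one, ← ha]; exact congrArg (fun q : P => ((q : GV F t) : MV F t)) e
          exact refl_not_rot h.two hf (site_injective i e' ▸ IsRot.one hf)
        · have e' : site i (reflW δ (f 2)) = (site i (zW δ f) : MV F t) := by
            rw [← hz, ← ha]; exact congrArg (fun q : P => ((q : GV F t) : MV F t)) e
          have e2 := congrArg (· *ᵥ f 3) (site_injective i e')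
          simp only [refl_frame h.two hf, if_neg (show (2 : Fin 4) ≠ 3 by decide), z3] at e2
          have e3 := congrArg (gB (G4 δ) (f 3)) e2
          rw [map_neg] at e3
          exact mul_ne_zero h.two (hf.1 3) (by linear_combination e3)
      rcases eq_of_rot_invol (y := (y : P) * a * (y : P)⁻¹) hA hr hya with e | e
      · exact hna 1 (Or.inl rfl) (by simpa using conj_eq_one_iff.1 e)
      · refine hna z (Or.inr rfl) ?_
        rw [mul_inv_eq_iff_eq_mul, ← zc] at e
        exact mul_left_cancel e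
    · obtain ⟨f', hf', e0, e1, eA⟩ := hflip.exists_frame h.two hf (hfx hA)
      obtain ⟨B, hB⟩ := site_of_conj_refl hframe hsite hspan h hf hf' e0 e1
        (inP ((y : P) : P).2) ha (a' := ((y : P) * a * (y : P)⁻¹ : P)) (hA.trans (by rw [eA]))
        (by simp [a])
      exact ⟨B, hB⟩
  -- the rotations of the Sylow subgroup
  let R : Subgroup P :=
    { carrier := {y | y ∈ S ∧ ∃ A, ((y : GV F t) : MV F t) = site i A ∧ IsRot δ f A}
      one_mem' := ⟨one_mem _, 1, (site_one i).symm, IsRot.one hf⟩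
      mul_mem' := by
        rintro x y ⟨hx, A, hA, ra⟩ ⟨hy, B, hB, rb⟩
        exact ⟨mul_mem hx hy, A * B,
          by rw [Subgroup.coe_mul, Units.val_mul, hA, hB, site_mul], ra.mul hf rb⟩
      inv_mem' := by
        rintro x ⟨hx, A, hA, ra⟩
        obtain ⟨B, hB⟩ := Hs.inv_mem (show x ∈ Hs from ⟨A, hA⟩)
        refine ⟨inv_mem hx, B, hB, ra.left_inv hf (site_injective i ?_)⟩
        rw [← site_mul, ← hA, ← hB, site_one, ← Units.val_mul, ← Subgroup.coe_mul, inv_mul_cancel,
          Subgroup.coe_one, Units.val_one] }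
  have split : SplitTwo a z S R :=
    { aS := haS
      aa := aa
      zz := zz
      zc := zc
      le := fun y hy => hy.1
      aR := fun ⟨_, A, hA, hr⟩ => refl_not_rot h.two hf
        (site_injective (F := F) i (ha.symm.trans hA) ▸ hr)
      cover := fun s hs => by
        obtain ⟨A, hA⟩ := hSH hs
        rcases (hfx hA).cases hf with hr | hflip
        · exact Or.inl ⟨hs, A, hA, hr⟩
        · refine Or.inr ⟨mul_mem haS hs, reflW δ (f 2) * A, ?_, hflip.refl_mul h.two hf⟩
          rw [Subgroup.coe_mul, Units.val_mul, hA, show ((a : GV F t) : MV F t) = _ from ha,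
            site_mul]
      invol := fun s hs hsR => by
        obtain ⟨A, hA⟩ := hSH hs
        rcases (hfx hA).cases hf with hr | hflip
        · exact absurd ⟨hs, A, hA, hr⟩ hsR
        obtain ⟨f', hf', e0, e1, eA⟩ := hflip.exists_frame h.two hf (hfx hA)
        have hss : s * s = 1 := by
          refine Subtype.ext (Units.ext ?_)
          rw [Subgroup.coe_mul, Units.val_mul, hA, eA, HalfBig.refl_isUnit h.two (hf'.1 2)]
          rfl
        refine ⟨hss, fun k hk => ?_⟩
        obtain ⟨-, B, hB, hr⟩ := hk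
        have hkk : k * s * k⁻¹ * (k * s * k⁻¹) = 1 := by
          rw [show k * s * k⁻¹ * (k * s * k⁻¹) = k * (s * s) * k⁻¹ by group, hss, mul_one,
            mul_inv_cancel]
        rcases eq_of_rot_invol hB hr hkk with e | e
        · rw [conj_eq_one_iff] at e
          exact hsR (e ▸ ⟨one_mem _, 1, (site_one i).symm, IsRot.one hf⟩)
        · rw [mul_inv_eq_iff_eq_mul, ← zc] at e
          obtain rfl : s = z := mul_left_cancel e
          refine hsR ⟨hs, zW δ f, hz, -1, 0, ?_, ?_, by ring⟩ <;> simp [z2, z3]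
      comm := fun x hx y hy => by
        obtain ⟨-, A, hA, ra⟩ := hx
        obtain ⟨-, B, hB, rb⟩ := hy
        refine Subtype.ext (Units.ext ?_)
        rw [Subgroup.coe_mul, Units.val_mul, Subgroup.coe_mul, Units.val_mul, hA, hB, site_mul,
          site_mul, ra.comm hf (hfx hA) (hfx hB) rb]
      uniq := fun r hr hrr => by
        obtain ⟨-, A, hA, ra⟩ := hr
        exact eq_of_rot_invol hA ra hrr
      cent := fun y hy => by
        have hc : ((y : GV F t) : MV F t) * site i (reflW δ (f 2)) =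
            site i (reflW δ (f 2)) * ((y : GV F t) : MV F t) := by
          rw [← ha, ← Units.val_mul, ← Units.val_mul]
          exact congrArg (fun q : P => ((q : GV F t) : MV F t)) hy
        exact Subtype.ext (sq_one_of_commRefl hframe h hf (inP y.2) hc).2 }
  obtain ⟨O, hodd, hOc, hOinv, hdec⟩ := split.exists_core
  -- the elements of odd order, in the big group
  obtain ⟨OV, hOV⟩ : ∃ OV : Subgroup (GV F t), OV = O.map P.subtype := ⟨_, rfl⟩
  have memOV : ∀ y : GV F t, y ∈ OV ↔ y ∈ P ∧ Odd (orderOf y) := by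
    intro y
    constructor
    · intro hy
      rw [hOV] at hy
      obtain ⟨q, hq, rfl⟩ := hy
      exact ⟨q.2, by rw [Subgroup.coe_subtype, Subgroup.orderOf_coe]; exact (hodd q).1 hq⟩
    · rintro ⟨hy, ho⟩
      rw [hOV]
      exact ⟨⟨y, hy⟩, (hodd _).2 (by rwa [← Subgroup.orderOf_coe]), rfl⟩
  have hOVc : ∀ x ∈ OV, ∀ y ∈ OV, x * y = y * x := by
    intro x hx y hy
    rw [hOV] at hx hy
    obtain ⟨q, hq, rfl⟩ := hx
    obtain ⟨q', hq', rfl⟩ := hy
    rw [← map_mul, hOc q hq q' hq', map_mul]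
  have horder : ∀ u y : GV F t, orderOf (u * y * u⁻¹) = orderOf y := fun u y => by
    rw [← MulAut.conj_apply, MulEquiv.orderOf_eq]
  -- normalised by the isometries of the other sites and by the reflection
  have hnormP : ∀ (u : GV F t), u ∈ M → (∀ l, ((u : MV F t)) * slotE δ i f l =
      slotE δ i f l * (u : MV F t)) → ∀ y ∈ P, u * y * u⁻¹ ∈ P := by
    intro u huM hcE y hy
    rw [hP] at hy ⊢
    refine ⟨M.mul_mem (M.mul_mem huM hy.1) (M.inv_mem huM), ?_, ?_⟩ <;>
    · have hcE' : ∀ l, ((u⁻¹ : GV F t) : MV F t) * slotE δ i f l =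
          slotE δ i f l * ((u⁻¹ : GV F t) : MV F t) := fun l => by
        have := congrArg (fun X => ((u⁻¹ : GV F t) : MV F t) * X * ((u⁻¹ : GV F t) : MV F t)) (hcE l)
        simp only [← mul_assoc, Units.inv_mul, one_mul] at this
        simpa [mul_assoc] using this.symm
      rw [Units.val_mul, Units.val_mul, mul_assoc, hcE', ← mul_assoc, mul_assoc (u : MV F t)]
      first
        | rw [hy.2.1, hcE, mul_assoc, Units.mul_inv, mul_one]
        | rw [hy.2.2, hcE, mul_assoc, Units.mul_inv, mul_one]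
  have hnormSite : ∀ j, j ≠ i → ∀ (u : GV F t) (X : M4 F), u ∈ M →
      (u : MV F t) = site j X → ∀ y ∈ OV, u * y * u⁻¹ ∈ OV := by
    intro j hj u X huM hue y hy
    rw [memOV] at hy ⊢
    exact ⟨hnormP u huM (fun l => by rw [slotE, hue, site_comm hj]) y hy.1,
      by rw [horder]; exact hy.2⟩
  have hnormU : ∀ (j : Fin t), j ≠ i → ∀ (w v : Fin 4 → F), gB (G4 δ) w w = 0 →
      gB (G4 δ) w v = 0 → w ≠ 0 → ∀ u : GV F t, (u : MV F t) = site j (1 + sieM (G4 δ) w v) →
      ∀ y ∈ OV, u * y * u⁻¹ ∈ OV := by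
    intro j hj w v hw hwv hw0 u hue
    refine hnormSite j hj u _ ?_ hue
    by_cases hv : gB (G4 δ) v v = 0
    · obtain ⟨c, rfl⟩ := Submodule.mem_span_singleton.1 (singular_perp h.nsq hw0 hw hwv hv)
      rw [sieM_self hw, add_zero, site_one] at hue
      rw [show u = 1 from Units.ext hue]
      exact M.one_mem
    · obtain ⟨v', hv', hve⟩ := hsite j _ (sie_iso h.two hw hwv hv)
      rwa [show u = v' from Units.ext (hue.trans hve.symm)]
  -- no elements of characteristic order
  let Op : Subgroup (GV F t) :=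
    { carrier := {y | y ∈ OV ∧ ∃ k, y ^ (p ^ k) = 1}
      one_mem' := ⟨one_mem _, 0, one_pow _⟩
      mul_mem' := by
        rintro x y ⟨hx, k, hk⟩ ⟨hy, k', hk'⟩
        refine ⟨mul_mem hx hy, k + k', ?_⟩
        rw [Commute.mul_pow (hOVc x hx y hy), pow_add, pow_mul, hk, one_pow, one_mul, mul_comm,
          pow_mul, hk', one_pow]
      inv_mem' := by
        rintro x ⟨hx, k, hk⟩
        exact ⟨inv_mem hx, k, by rw [inv_pow, hk, inv_one]⟩ }
  have hOp : ∀ y ∈ Op, y = 1 := by
    refine p_part_trivial hframe hsite hspan h hf Op (fun y hy => inP ((memOV y).1 hy.1).1) ?_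
      (fun y hy => ((memOV y).1 hy.1).2) ha ?_ ?_
    · rintro ⟨y, hy, k, hk⟩
      exact ⟨k, Subtype.ext (by simpa using hk)⟩
    · rintro y ⟨hy, k, hk⟩
      refine ⟨?_, k, by rw [conj_pow, hk, mul_one, mul_inv_cancel]⟩
      rw [memOV] at hy ⊢
      exact ⟨P.mul_mem (P.mul_mem haP hy.1) (P.inv_mem haP), by rw [horder]; exact hy.2⟩
    · rintro j hj u ⟨w, x, hw0, hw, hwx, hx, hue⟩ y ⟨hy, k, hk⟩
      obtain ⟨v, hvM, hve⟩ := hsite j _ (sie_iso h.two hw hwx hx)
      obtain rfl : u = v := Units.ext (hue.trans hve.symm)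
      have hinv : ((u⁻¹ : GV F t) : MV F t) = site j (1 + sieM (G4 δ) w (-x)) := by
        refine Units.inv_eq_of_mul_eq_one_right ?_
        rw [hue, site_mul, one_add_sieM_mul h.two hw hwx (by rw [map_neg, hwx, neg_zero]),
          add_neg_cancel, show (0 : Fin 4 → F) = (0 : F) • w from (zero_smul F w).symm, sieM_self hw,
          add_zero, site_one]
      refine ⟨?_, k, ?_⟩
      · have := hnormU j hj w (-x) hw (by rw [map_neg, hwx, neg_zero]) hw0 u⁻¹ hinv y hy
        rwa [inv_inv] at this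
      · have := conj_pow (a := u⁻¹) (b := y) (i := p ^ k)
        rw [inv_inv] at this
        rw [this, hk, mul_one, inv_mul_cancel]
  have hcop : ∀ y ∈ OV, Nat.Coprime (orderOf y) p := by
    intro y hy
    refine Nat.Coprime.symm ((Nat.Prime.coprime_iff_not_dvd Fact.out).2 fun hd => ?_)
    obtain ⟨c, hc⟩ := hd
    have hord : orderOf (y ^ c) = p := by
      have hc0 : c ≠ 0 := fun e => (orderOf_pos y).ne' (by rw [hc, e, mul_zero])
      rw [orderOf_pow' _ hc0, hc, Nat.gcd_eq_right (dvd_mul_left c p),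
        Nat.mul_div_cancel _ (Nat.pos_of_ne_zero hc0)]
    have h1 := hOp _ (show y ^ c ∈ Op from
      ⟨pow_mem hy c, 1, by rw [pow_one, ← pow_mul, mul_comm, ← hc, pow_orderOf_eq_one]⟩)
    rw [h1, orderOf_one] at hord
    exact (Fact.out : p.Prime).ne_one hord.symm
  have hWr : ∀ y : GV F t, ∀ A, y ∈ P → (y : MV F t) = site i A → y ∈ Wr F t := fun y A hy hA =>
    mem_Wr_site i ((fixTwo_of_site h hf (inP hy) hA).iso.sim.det_ne h.nsq) hA
  obtain ⟨o, ho, s, hs, hos⟩ := hdec ⟨g, toP ⟨hgM, hg0, hg1⟩⟩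
  have hgv : g = (o : GV F t) * (s : GV F t) := congrArg Subtype.val hos
  rw [hgv]
  obtain ⟨B, hB⟩ := hSH hs
  refine mul_mem ?_ (hWr _ B s.2 hB)
  have hoV : (o : GV F t) ∈ OV := by rw [hOV]; exact ⟨o, ho, rfl⟩
  obtain ⟨A, hA⟩ := exists_site_of_comm_sie hsite hspan (i := i) (y := (o : GV F t))
    (fun j hj u ⟨w, x, hw0, hw, hwx, hx, hue⟩ => comm_of_abelian hsite h OV hOVc hw0 hw hwx hx
      (fun v hv u' hu' => hnormU j hj w v hw hv hw0 u' hu') hoV (hcop _ hoV) hue) h
  exact hWr _ A o.2 hA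

end Cfsg.Agent.MaxSub.OrthFour
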