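import Cfsg.Agent.MaxSub.OrthFour.Omega
import Cfsg.Agent.GeoClasses.OrthNondeg

/-!
A long root element of pure shape together with the isometries of determinant one of the sites
generates `Ω` of the tensor power.
-/

set_option autoImplicit false
set_option linter.unusedSectionVars false
set_option linter.unusedSimpArgs false
set_option linter.style.haveILetI false

namespace Cfsg.Agent.MaxSub.OrthFour

open Matrix Module QuadraticMap Cfsg.Agent.NotMax Cfsg.Agent.GeoClasses Cfsg.Agent.Classical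
open Cfsg.Agent.MaxSub.TensorPowSp (gV fG InM inv_val_one_add dotProduct_pureVec)
open Cfsg.Agent.MaxSub.OrthWreathBig (gB cr nn sieM Link slot slot_apply cr_mul cr_mulVec
  pureVec_update pureMat_cr_nn cr_smul_left cr_smul_right cr_add_left cr_add_right)
open scoped MatrixGroups Matrix

variable {F : Type*} [Field F] {t : ℕ}

/-- Every site isometry of determinant one is in the group. -/
def SitesIn (δ : F) (M : Subgroup (GV F t)) : Prop :=
  ∀ (j : Fin t) (A : M4 F), IsoW δ A → A.det = 1 → InM M (site j A)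

namespace RootGen

/-! ### One site -/

lemma cr_transpose_mul (δ : F) (a b : Fin 4 → F) : (cr (G4 δ) a b)ᵀ * G4 δ = G4 δ * cr (G4 δ) b a := by
  rw [cr, cr, transpose_vecMulVec, vecMulVec_mul, mul_vecMulVec, ← vecMul_transpose, G4_transpose]

lemma gB_mulVec {δ : F} {A : M4 F} (hA : IsoW δ A) (x y : Fin 4 → F) :
    gB (G4 δ) (A *ᵥ x) (A *ᵥ y) = gB (G4 δ) x y := by
  rw [OrthWreathBig.gB_apply, OrthWreathBig.gB_apply, fG, fG, ← dotProduct_mulVec,
    ← dotProduct_mulVec, mulVec_mulVec, ← vecMul_transpose, ← dotProduct_mulVec, mulVec_mulVec,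
    ← mul_assoc, hA]

lemma det_ne_zero {δ : F} (hδ : ¬ IsSquare δ) {A : M4 F} (hA : IsoW δ A) : A.det ≠ 0 := fun h => by
  have := congrArg Matrix.det hA
  rw [det_mul, h, mul_zero] at this
  exact (G4_det hδ).ne_zero this.symm

lemma IsoW.mul {δ : F} {A B : M4 F} (hA : IsoW δ A) (hB : IsoW δ B) : IsoW δ (A * B) := by
  unfold IsoW at *
  rw [transpose_mul, show Bᵀ * Aᵀ * G4 δ * (A * B) = Bᵀ * (Aᵀ * G4 δ * A) * B by
    simp only [mul_assoc], hA, hB]

lemma reflW_iso (δ : F) {r : Fin 4 → F} (hr : gB (G4 δ) r r ≠ 0) : IsoW δ (reflW δ r) := by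
  unfold IsoW reflW
  have e1 : (1 - (2 / gB (G4 δ) r r) • cr (G4 δ) r r)ᵀ * G4 δ =
      G4 δ * (1 - (2 / gB (G4 δ) r r) • cr (G4 δ) r r) := by
    rw [transpose_sub, transpose_one, transpose_smul, sub_mul, one_mul, smul_mul_assoc,
      cr_transpose_mul, mul_sub, mul_one, mul_smul_comm]
  have e2 : (1 - (2 / gB (G4 δ) r r) • cr (G4 δ) r r) * (1 - (2 / gB (G4 δ) r r) • cr (G4 δ) r r) = 1 := by
    rw [sub_mul, one_mul, mul_sub, mul_one, smul_mul_smul_comm, cr_mul, smul_smul]
    match_scalars <;> field_simp <;> ring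
  rw [e1, mul_assoc, e2, mul_one]

lemma reflW_mulVec (δ : F) (r x : Fin 4 → F) :
    reflW δ r *ᵥ x = x - (2 / gB (G4 δ) r r * gB (G4 δ) r x) • r := by
  rw [reflW, sub_mulVec, one_mulVec, smul_mulVec, cr_mulVec, smul_smul]

lemma reflW_det (δ : F) {r : Fin 4 → F} (hr : gB (G4 δ) r r ≠ 0) : (reflW δ r).det = -1 := by
  have e : reflW δ r = 1 + replicateCol Unit (-(2 / gB (G4 δ) r r) • r) * replicateRow Unit (r ᵥ* G4 δ) := by
    rw [← vecMulVec_eq, reflW, sub_eq_add_neg, ← neg_smul, cr, smul_vecMulVec]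
  rw [e, det_one_add_replicateCol_mul_replicateRow, dotProduct_smul,
    show (r ᵥ* G4 δ) ⬝ᵥ r = gB (G4 δ) r r from rfl, smul_eq_mul]
  field_simp
  ring

lemma sieM_mulVec (δ : F) (u y x : Fin 4 → F) : sieM (G4 δ) u y *ᵥ x =
    gB (G4 δ) u x • y - gB (G4 δ) y x • u - (gB (G4 δ) y y / 2 * gB (G4 δ) u x) • u := by
  rw [sieM, sub_mulVec, sub_mulVec, smul_mulVec, cr_mulVec, cr_mulVec, cr_mulVec, smul_smul]

lemma sie_mul {δ : F} (h2 : (2 : F) ≠ 0) {u y y' : Fin 4 → F} (hu : gB (G4 δ) u u = 0)
    (hy : gB (G4 δ) u y = 0) (hy' : gB (G4 δ) u y' = 0) :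
    (1 + sieM (G4 δ) u y) * (1 + sieM (G4 δ) u y') = 1 + sieM (G4 δ) u (y + y') := by
  simp only [sieM, mul_add, add_mul, mul_sub, sub_mul, mul_one, one_mul, smul_mul_assoc,
    mul_smul_comm, cr_mul, hu, hy, hy', gB_symm δ y u, zero_smul, smul_zero, cr_add_left,
    cr_add_right, map_add, LinearMap.add_apply, gB_symm δ y' y]
  match_scalars <;> field_simp <;> ring

lemma sie_zero (δ : F) (u : Fin 4 → F) : sieM (G4 δ) u 0 = 0 := by simp [sieM, cr]

lemma sie_iso {δ : F} (h2 : (2 : F) ≠ 0) {u y : Fin 4 → F} (hu : gB (G4 δ) u u = 0)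
    (hy : gB (G4 δ) u y = 0) : IsoW δ (1 + sieM (G4 δ) u y) := by
  have hn : gB (G4 δ) u (-y) = 0 := by rw [map_neg, hy, neg_zero]
  have e1 : (sieM (G4 δ) u y)ᵀ * G4 δ = G4 δ * sieM (G4 δ) u (-y) := by
    simp only [sieM, transpose_sub, transpose_smul, sub_mul, smul_mul_assoc, cr_transpose_mul,
      mul_sub, mul_smul_comm, map_neg, LinearMap.neg_apply, neg_neg]
    rw [show cr (G4 δ) (-y) u = (-1 : F) • cr (G4 δ) y u by rw [← cr_smul_left, neg_one_smul],
      show cr (G4 δ) u (-y) = (-1 : F) • cr (G4 δ) u y by rw [← cr_smul_right, neg_one_smul]]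
    simp only [mul_smul_comm]
    module
  unfold IsoW
  rw [transpose_add, transpose_one, add_mul, one_mul, e1, ← mul_one_add (G4 δ), mul_assoc,
    sie_mul h2 hu hn hy, neg_add_cancel, sie_zero, add_zero, mul_one]

lemma sie_det {δ : F} (h2 : (2 : F) ≠ 0) (hδ : ¬ IsSquare δ) {u y : Fin 4 → F}
    (hu : gB (G4 δ) u u = 0) (hy : gB (G4 δ) u y = 0) : (1 + sieM (G4 δ) u y).det = 1 := by
  have hz : gB (G4 δ) u ((2 : F)⁻¹ • y) = 0 := by rw [map_smul, hy, smul_zero]
  have h := congrArg Matrix.det (sie_iso h2 hu hz)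
  rw [det_mul, det_mul, det_transpose] at h
  have e := sie_mul h2 hu hz hz
  rw [← add_smul, ← two_mul, mul_inv_cancel₀ h2, one_smul] at e
  rw [← e, det_mul]
  exact mul_right_cancel₀ (G4_det hδ).ne_zero (by linear_combination h)

/-- Orthogonal singular vectors are proportional. -/
lemma witt {δ : F} (hδ : ¬ IsSquare δ) {a b : Fin 4 → F} (ha : a ≠ 0)
    (haa : gB (G4 δ) a a = 0) (hbb : gB (G4 δ) b b = 0) (hab : gB (G4 δ) a b = 0) :
    ∃ c : F, b = c • a := by
  have sq : ∀ x y : F, x ≠ 0 → δ * (x * x) = y * y → False := fun x y hx h =>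
    hδ ⟨y / x, by field_simp; linear_combination h⟩
  have key : ∀ a c : Fin 4 → F, a 0 ≠ 0 → c 0 = 0 → gB (G4 δ) a a = 0 → gB (G4 δ) c c = 0 →
      gB (G4 δ) a c = 0 → c = 0 := by
    intro a c ha0 hc0 haa hcc hac
    simp only [gB_diag, hc0, mul_zero, zero_add] at haa hcc hac
    have h1 : c 1 = 0 := by
      by_contra h
      exact sq (a 0 * c 1) (a 2 * c 3 - a 3 * c 2) (mul_ne_zero ha0 h) (by
        linear_combination (c 1 * c 1) * haa - (a 2 * a 2 + a 3 * a 3) * hcc +
          (a 2 * c 2 + a 3 * c 3 - a 1 * c 1) * hac)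
    have h2 : c 2 = 0 := by
      by_contra h
      exact sq (a 0 * c 2) (a 3 * c 1 - a 1 * c 3) (mul_ne_zero ha0 h) (by
        linear_combination (c 2 * c 2) * haa - (a 3 * a 3 + a 1 * a 1) * hcc +
          (a 3 * c 3 + a 1 * c 1 - a 2 * c 2) * hac)
    have h3 : c 3 = 0 := by
      by_contra h
      exact sq (a 0 * c 3) (a 1 * c 2 - a 2 * c 1) (mul_ne_zero ha0 h) (by
        linear_combination (c 3 * c 3) * haa - (a 1 * a 1 + a 2 * a 2) * hcc +
          (a 1 * c 1 + a 2 * c 2 - a 3 * c 3) * hac)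
    funext i
    fin_cases i
    exacts [hc0, h1, h2, h3]
  by_cases ha0 : a 0 = 0
  · by_cases hb0 : b 0 = 0
    · -- a totally singular plane inside a three space: use a vector off it
      obtain ⟨i, hi⟩ := Function.ne_iff.1 ha
      refine ⟨b i / a i, ?_⟩
      simp only [gB_diag, ha0, hb0, mul_zero, zero_mul, zero_add] at haa hbb hab
      have hc : ∀ j l : Fin 4, j ≠ 0 → l ≠ 0 → a j * b l = a l * b j := by
        have e : (a 2 * b 3 - a 3 * b 2) = 0 ∧ (a 3 * b 1 - a 1 * b 3) = 0 ∧
            (a 1 * b 2 - a 2 * b 1) = 0 := by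
          refine ⟨?_, ?_, ?_⟩ <;> refine mul_self_eq_zero.1 ?_
          · linear_combination (-(b 1 * b 1)) * haa + (a 2 * a 2 + a 3 * a 3) * hbb -
              (a 2 * b 2 + a 3 * b 3 - a 1 * b 1) * hab
          · linear_combination (-(b 2 * b 2)) * haa + (a 3 * a 3 + a 1 * a 1) * hbb -
              (a 3 * b 3 + a 1 * b 1 - a 2 * b 2) * hab
          · linear_combination (-(b 3 * b 3)) * haa + (a 1 * a 1 + a 2 * a 2) * hbb -
              (a 1 * b 1 + a 2 * b 2 - a 3 * b 3) * hab
        intro j l hj hl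
        obtain ⟨e1, e2, e3⟩ := e
        fin_cases j <;> fin_cases l <;> simp_all <;> grind
      funext j
      have hi0 : i ≠ 0 := fun h => hi (h ▸ ha0)
      simp only [Pi.smul_apply, smul_eq_mul]
      by_cases hj : j = 0
      · subst hj; rw [hb0, ha0, mul_zero]
      · have hai : a i ≠ 0 := hi
        field_simp
        linear_combination hc i j hi0 hj
    · have := key b a hb0 ha0 hbb haa (by rw [gB_symm]; exact hab)
      exact absurd this ha
  · refine ⟨b 0 / a 0, sub_eq_zero.1 (key a (b - (b 0 / a 0) • a) ha0 (by simp [ha0]) haa ?_ ?_)⟩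
    · simp only [map_sub, map_smul, LinearMap.sub_apply, LinearMap.smul_apply, smul_eq_mul,
        gB_symm δ b a, haa, hbb, hab]
      ring
    · simp only [map_sub, map_smul, smul_eq_mul, haa, hab]; ring

lemma gB_nd {δ : F} (hδ : ¬ IsSquare δ) {x : Fin 4 → F} (hx : x ≠ 0) :
    ∃ y, gB (G4 δ) x y ≠ 0 := by
  obtain ⟨i, hi⟩ := Function.ne_iff.1 hx
  refine ⟨Pi.single i 1, ?_⟩
  have h0 : δ ≠ 0 := fun e => hδ (e ▸ IsSquare.zero)
  rw [gB_diag]
  fin_cases i <;> simp_all

/-- The partner of a singular vector. -/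
lemma exists_partner {δ : F} (h2 : (2 : F) ≠ 0) (hδ : ¬ IsSquare δ) {w : Fin 4 → F} (hw : w ≠ 0)
    (hww : gB (G4 δ) w w = 0) :
    ∃ w', gB (G4 δ) w' w' = 0 ∧ gB (G4 δ) w w' = 1 ∧ w' ≠ 0 := by
  obtain ⟨y, hy⟩ := gB_nd hδ hw
  obtain ⟨z, hz⟩ : ∃ z, z = (gB (G4 δ) w y)⁻¹ • y := ⟨_, rfl⟩
  have hwz : gB (G4 δ) w z = 1 := by rw [hz, map_smul, smul_eq_mul, inv_mul_cancel₀ hy]
  refine ⟨z - (gB (G4 δ) z z / 2) • w, ?_, ?_, fun e => ?_⟩
  · simp only [map_sub, map_smul, LinearMap.sub_apply, LinearMap.smul_apply, smul_eq_mul, hww, hwz,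
      gB_symm δ z w]
    field_simp
    ring
  · simp [hww, hwz]
  · have := congrArg (gB (G4 δ) w) e
    simp [hww, hwz] at this

lemma aniso_of_perp {δ : F} (hδ : ¬ IsSquare δ) {w v f : Fin 4 → F} (hw : w ≠ 0)
    (hww : gB (G4 δ) w w = 0) (hwv : gB (G4 δ) w v ≠ 0) (hf : f ≠ 0) (hwf : gB (G4 δ) w f = 0)
    (hvf : gB (G4 δ) v f = 0) : gB (G4 δ) f f ≠ 0 := fun hff => by
  obtain ⟨c, rfl⟩ := witt hδ hw hww hff hwf
  rw [map_smul, gB_symm δ v w, smul_eq_mul, mul_eq_zero] at hvf
  rcases hvf with rfl | h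
  · exact hf (zero_smul F w)
  · exact hwv h

/-- An anisotropic vector orthogonal to a pair of singular vectors and a further vector. -/
lemma exists_perp {δ : F} (hδ : ¬ IsSquare δ) {w v : Fin 4 → F} (hw : w ≠ 0)
    (hww : gB (G4 δ) w w = 0) (hwv : gB (G4 δ) w v ≠ 0) (r : Fin 4 → F) :
    ∃ f, gB (G4 δ) w f = 0 ∧ gB (G4 δ) v f = 0 ∧ gB (G4 δ) r f = 0 ∧ gB (G4 δ) f f ≠ 0 := by
  let Lm : (Fin 4 → F) →ₗ[F] (Fin 3 → F) :=
    LinearMap.pi ![gB (G4 δ) w, gB (G4 δ) v, gB (G4 δ) r]
  have hk : LinearMap.ker Lm ≠ ⊥ := LinearMap.ker_ne_bot_of_finrank_lt (by simp)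
  obtain ⟨f, hf, hf0⟩ := Submodule.exists_mem_ne_zero_of_ne_bot hk
  have h : ∀ i : Fin 3, (![gB (G4 δ) w, gB (G4 δ) v, gB (G4 δ) r] i) f = 0 := fun i =>
    congrFun (LinearMap.mem_ker.1 hf) i
  exact ⟨f, h 0, h 1, h 2, aniso_of_perp hδ hw hww hwv hf0 (h 0) (h 1)⟩

/-- Transitivity on non-orthogonal singular vectors. -/
lemma trans_one {δ : F} (h2 : (2 : F) ≠ 0) (hδ : ¬ IsSquare δ) {s v : Fin 4 → F} (hs : s ≠ 0)
    (hss : gB (G4 δ) s s = 0) (hvv : gB (G4 δ) v v = 0) (hsv : gB (G4 δ) s v ≠ 0) :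
    ∃ A, IsoW δ A ∧ A.det = 1 ∧ A *ᵥ s = v := by
  obtain ⟨f, hsf, -, -, hff⟩ := exists_perp hδ hs hss hsv 0
  have hr : gB (G4 δ) (v - s) (v - s) = -2 * gB (G4 δ) s v := by
    simp only [map_sub, LinearMap.sub_apply, hvv, hss, gB_symm δ v s]; ring
  have hr0 : gB (G4 δ) (v - s) (v - s) ≠ 0 := hr ▸ mul_ne_zero (neg_ne_zero.2 h2) hsv
  refine ⟨reflW δ (v - s) * reflW δ f, IsoW.mul (reflW_iso δ hr0) (reflW_iso δ hff),
    by rw [det_mul, reflW_det δ hr0, reflW_det δ hff]; ring, ?_⟩
  rw [← mulVec_mulVec, reflW_mulVec δ f, gB_symm δ f s, hsf, mul_zero, zero_smul, sub_zero,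
    reflW_mulVec, hr, map_sub, LinearMap.sub_apply, hss, gB_symm δ v s, sub_zero]
  have hk : 2 / (-2 * gB (G4 δ) s v) * gB (G4 δ) s v = -1 := by field_simp
  rw [hk, neg_one_smul]
  abel

/-- Transitivity on singular vectors. -/
lemma trans {δ : F} (h2 : (2 : F) ≠ 0) (hδ : ¬ IsSquare δ) {s v : Fin 4 → F} (hs : s ≠ 0)
    (hss : gB (G4 δ) s s = 0) (hv : v ≠ 0) (hvv : gB (G4 δ) v v = 0) :
    ∃ A, IsoW δ A ∧ A.det = 1 ∧ A *ᵥ s = v := by
  by_cases hsv : gB (G4 δ) s v = 0
  · obtain ⟨c, rfl⟩ := witt hδ hs hss hvv hsv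
    have hc : c ≠ 0 := fun e => hv (by rw [e, zero_smul])
    obtain ⟨u, huu, hsu, hu⟩ := exists_partner h2 hδ hs hss
    obtain ⟨A, hA, hdA, hAs⟩ := trans_one h2 hδ hs hss huu (by rw [hsu]; exact one_ne_zero)
    obtain ⟨B, hB, hdB, hBu⟩ := trans_one h2 hδ hu huu hvv
      (by rw [map_smul, gB_symm δ u s, hsu, smul_eq_mul, mul_one]; exact hc)
    exact ⟨B * A, IsoW.mul hB hA, by rw [det_mul, hdA, hdB, mul_one], by rw [← mulVec_mulVec, hAs, hBu]⟩
  · exact trans_one h2 hδ hs hss hvv hsv

/-! ### The tensor power -/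

/-- The bilinear form of the tensor power. -/
def bV (δ : F) (p z : Vec F t) : F := p ⬝ᵥ gV (G4 δ) t *ᵥ z

lemma bV_symm (δ : F) (p z : Vec F t) : bV δ p z = bV δ z p := by
  simp only [bV, gV_diag, dotProduct, mulVec_diagonal]
  exact Finset.sum_congr rfl fun a _ => by ring

lemma bV_pure (δ : F) (f g : Fin t → Fin 4 → F) :
    bV δ (pureVec f) (pureVec g) = ∏ i, gB (G4 δ) (f i) (g i) := by
  rw [bV, gV, pureMat_mulVec, dotProduct_pureVec]
  exact Finset.prod_congr rfl fun i _ => dotProduct_mulVec _ _ _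

lemma bV_add_left (δ : F) (p q z : Vec F t) : bV δ (p + q) z = bV δ p z + bV δ q z :=
  add_dotProduct _ _ _

lemma bV_smul_left (δ : F) (c : F) (p z : Vec F t) : bV δ (c • p) z = c * bV δ p z :=
  smul_dotProduct _ _ _

lemma bV_iso {δ : F} {g : MV F t} (hg : IsoV δ g) (p z : Vec F t) :
    bV δ (g *ᵥ p) (g *ᵥ z) = bV δ p z := by
  rw [bV, bV, mulVec_mulVec, ← vecMul_transpose, ← dotProduct_mulVec, mulVec_mulVec, ← mul_assoc, hg]

lemma skV_mulVec (δ : F) (p z v : Vec F t) :
    skV δ p z *ᵥ v = bV δ z v • p - bV δ p v • z := by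
  rw [skV, sub_mulVec, vecMulVec_mulVec, vecMulVec_mulVec, bV, bV, dotProduct_mulVec,
    dotProduct_mulVec]
  ext i; simp [mul_comm]

lemma skV_add_left (δ : F) (p q z : Vec F t) : skV δ (p + q) z = skV δ p z + skV δ q z := by
  simp only [skV, add_vecMulVec, add_vecMul, vecMulVec_add]; abel

lemma skV_smul_left (δ : F) (c : F) (p z : Vec F t) : skV δ (c • p) z = c • skV δ p z := by
  simp only [skV, smul_vecMulVec, smul_vecMul, vecMulVec_smul, smul_sub]

lemma skV_smul_right (δ : F) (c : F) (p z : Vec F t) : skV δ p (c • z) = c • skV δ p z := by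
  simp only [skV, smul_vecMulVec, smul_vecMul, vecMulVec_smul, smul_sub]

lemma skV_mul_eq_zero (δ : F) {p z p' z' : Vec F t} (h1 : bV δ p p' = 0) (h2 : bV δ p z' = 0)
    (h3 : bV δ z p' = 0) (h4 : bV δ z z' = 0) : skV δ p z * skV δ p' z' = 0 := by
  refine Matrix.ext_iff_mulVec.2 fun v => ?_
  rw [← mulVec_mulVec, skV_mulVec δ p' z', mulVec_sub, mulVec_smul, mulVec_smul, skV_mulVec,
    skV_mulVec, h1, h2, h3, h4]
  simp

/-- The matrix of a long root element of one site. -/
def pm (δ : F) (q : Fin t) (s : Fin t → Fin 4 → F) (X : M4 F) : MV F t :=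
  pureMat (Function.update (fun i => cr (G4 δ) (s i) (s i)) q X)

lemma pm_nn (δ : F) (q : Fin t) (s : Fin t → Fin 4 → F) (a b : Fin 4 → F) :
    pm δ q s (nn (G4 δ) a b) =
      skV δ (pureVec (Function.update s q a)) (pureVec (Function.update s q b)) :=
  pureMat_cr_nn s q a b

lemma pm_add (δ : F) (q : Fin t) (s : Fin t → Fin 4 → F) (X Y : M4 F) :
    pm δ q s (X + Y) = pm δ q s X + pm δ q s Y := by
  ext a b
  simp only [pm, pureMat, Matrix.add_apply]
  rw [← Finset.mul_prod_erase _ _ (Finset.mem_univ q), ← Finset.mul_prod_erase _ _ (Finset.mem_univ q),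
    ← Finset.mul_prod_erase _ _ (Finset.mem_univ q)]
  simp only [Function.update_self, Matrix.add_apply]
  rw [add_mul]
  congr 1 <;> congr 1 <;> exact Finset.prod_congr rfl fun j hj => by
    rw [Function.update_of_ne (Finset.ne_of_mem_erase hj), Function.update_of_ne (Finset.ne_of_mem_erase hj)]

lemma pm_smul (δ : F) (q : Fin t) (s : Fin t → Fin 4 → F) (c : F) (X : M4 F) :
    pm δ q s (c • X) = c • pm δ q s X := by
  ext a b
  simp only [pm, pureMat, Matrix.smul_apply, smul_eq_mul]
  rw [← Finset.mul_prod_erase _ _ (Finset.mem_univ q), ← Finset.mul_prod_erase _ _ (Finset.mem_univ q)]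
  simp only [Function.update_self, Matrix.smul_apply, smul_eq_mul]
  rw [mul_assoc]
  congr 2
  exact Finset.prod_congr rfl fun j hj => by
    rw [Function.update_of_ne (Finset.ne_of_mem_erase hj), Function.update_of_ne (Finset.ne_of_mem_erase hj)]

lemma pm_mul (δ : F) {q l : Fin t} (hl : l ≠ q) {s : Fin t → Fin 4 → F}
    (hs : gB (G4 δ) (s l) (s l) = 0) (X Y : M4 F) : pm δ q s X * pm δ q s Y = 0 := by
  rw [pm, pm, pureMat_mul]
  ext a b
  refine Finset.prod_eq_zero (Finset.mem_univ l) ?_
  simp [Function.update_of_ne hl, cr_mul, hs]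

variable [Finite F] {δ : F} {M : Subgroup (GV F t)}

lemma conj_mem (h : Over δ M) {g : GV F t} (hg : g ∈ M) {p z : Vec F t}
    (hR : InM M (1 + skV δ p z)) :
    InM M (1 + skV δ ((g : MV F t) *ᵥ p) ((g : MV F t) *ᵥ z)) := by
  obtain ⟨u, hu, hue⟩ := hR
  refine ⟨g * u * g⁻¹, mul_mem (mul_mem hg hu) (inv_mem hg), Matrix.ext_iff_mulVec.2 fun v => ?_⟩
  have hgg : (g : MV F t) *ᵥ (((g⁻¹ : GV F t) : MV F t) *ᵥ v) = v := by
    rw [mulVec_mulVec, Units.mul_inv, one_mulVec]
  rw [Units.val_mul, Units.val_mul, ← mulVec_mulVec, ← mulVec_mulVec, hue, add_mulVec, one_mulVec,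
    mulVec_add, hgg, add_mulVec, one_mulVec, skV_mulVec, skV_mulVec, mulVec_sub, mulVec_smul,
    mulVec_smul]
  conv_rhs => rw [← hgg, bV_iso (h.isoV hg), bV_iso (h.isoV hg), hgg]

lemma site_conj (h : Over δ M) (hS : SitesIn δ M) (l : Fin t) {A : M4 F} (hA : IsoW δ A)
    (hd : A.det = 1) {f g : Fin t → Fin 4 → F} (hR : InM M (1 + skV δ (pureVec f) (pureVec g))) :
    InM M (1 + skV δ (pureVec (Function.update f l (A *ᵥ f l)))
      (pureVec (Function.update g l (A *ᵥ g l)))) := by
  obtain ⟨u, hu, hue⟩ := hS l A hA hd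
  have := conj_mem h hu hR
  rwa [hue, site_mulVec, site_mulVec] at this

/-- Singular vectors off the site `q`. -/
def Sing (δ : F) (q : Fin t) (s : Fin t → Fin 4 → F) : Prop :=
  ∀ l, l ≠ q → s l ≠ 0 ∧ gB (G4 δ) (s l) (s l) = 0

lemma pureVec_smul_update (f : Fin t → Fin 4 → F) (l : Fin t) (c : F) :
    pureVec (Function.update f l (c • f l)) = c • pureVec f := by
  rw [← slot_apply, map_smul, slot_apply, Function.update_eq_self]

/-- The parameters of the site root elements at `q`. -/
def roots (δ : F) (M : Subgroup (GV F t)) {q l : Fin t} (hl : l ≠ q) {s : Fin t → Fin 4 → F}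
    (hs : gB (G4 δ) (s l) (s l) = 0) : Submodule F (M4 F) where
  carrier := {X | ∀ c : F, InM M (1 + pm δ q s (c • X))}
  zero_mem' c := ⟨1, one_mem M, by
    rw [Units.val_one, smul_zero, show pm δ q s (0 : M4 F) = (0 : F) • pm δ q s 0 by
      rw [← pm_smul, zero_smul], zero_smul, add_zero]⟩
  add_mem' := fun {X Y} hX hY c => by
    obtain ⟨u, hu, hue⟩ := hX c
    obtain ⟨v, hv, hve⟩ := hY c
    refine ⟨u * v, mul_mem hu hv, ?_⟩
    rw [Units.val_mul, hue, hve, smul_add, pm_add]
    simp only [add_mul, mul_add, one_mul, mul_one, pm_mul δ hl hs]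
    abel
  smul_mem' := fun a X hX c => by rw [smul_smul]; exact hX _

section

variable (h : Over δ M) (hS : SitesIn δ M)
include h hS

lemma change_site {q : Fin t} {s s' : Fin t → Fin 4 → F} {a b : Fin 4 → F} (hs : Sing δ q s)
    (hs' : Sing δ q s')
    (hR : InM M (1 + skV δ (pureVec (Function.update s q a)) (pureVec (Function.update s q b)))) :
    InM M (1 + skV δ (pureVec (Function.update s' q a)) (pureVec (Function.update s' q b))) := by
  classical
  suffices key : ∀ U : Finset (Fin t), q ∉ U →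
      InM M (1 + skV δ (pureVec (Function.update (fun i => if i ∈ U then s' i else s i) q a))
        (pureVec (Function.update (fun i => if i ∈ U then s' i else s i) q b))) by
    have := key (Finset.univ.erase q) (Finset.notMem_erase _ _)
    have e : ∀ x, Function.update (fun i => if i ∈ Finset.univ.erase q then s' i else s i) q x =
        Function.update s' q x := fun x => funext fun i => by
      by_cases hi : i = q <;> simp [hi]
    rwa [e, e] at this
  intro U
  induction U using Finset.induction with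
  | empty => simpa using hR
  | insert j U hj ih =>
    intro hq
    rw [Finset.mem_insert, not_or] at hq
    have hjq : j ≠ q := Ne.symm hq.1
    obtain ⟨A, hA, hd, hAs⟩ := trans h.two h.nsq (hs j hjq).1 (hs j hjq).2 (hs' j hjq).1 (hs' j hjq).2
    have := site_conj h hS j hA hd (ih hq.2)
    have e : ∀ x, Function.update (Function.update (fun i => if i ∈ U then s' i else s i) q x) j
        (A *ᵥ Function.update (fun i => if i ∈ U then s' i else s i) q x j) =
        Function.update (fun i => if i ∈ insert j U then s' i else s i) q x := fun x => funext fun i => by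
      by_cases hi : i = j
      · subst hi; simp [hjq, hj, hAs]
      · by_cases hiq : i = q
        · subst hiq; simp [hi]
        · simp [hi, hiq]
    rwa [e, e] at this

variable {q l : Fin t} (hl : l ≠ q) {s : Fin t → Fin 4 → F} (hs : Sing δ q s)
include hl hs

lemma mem_roots {a b : Fin 4 → F}
    (hR : InM M (1 + skV δ (pureVec (Function.update s q a)) (pureVec (Function.update s q b)))) :
    nn (G4 δ) a b ∈ roots δ M hl (hs l hl).2 := by
  classical
  intro c
  have hsq : ∀ μ : F, InM M (1 + pm δ q s ((μ * μ) • nn (G4 δ) a b)) := by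
    intro μ
    rcases eq_or_ne μ 0 with rfl | hμ
    · exact ⟨1, one_mem M, by rw [mul_zero, pm_smul, zero_smul, add_zero]; rfl⟩
    obtain ⟨A, hA, hd, hAs⟩ := trans h.two h.nsq (hs l hl).1 (hs l hl).2
      (smul_ne_zero hμ (hs l hl).1) (by simp [(hs l hl).2])
    have := site_conj h hS l hA hd hR
    rw [Function.update_of_ne hl, hAs] at this
    have e : ∀ x, pureVec (Function.update (Function.update s q x) l (μ • s l)) =
        μ • pureVec (Function.update s q x) := fun x => by
      have := pureVec_smul_update (Function.update s q x) l μ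
      rwa [Function.update_of_ne hl] at this
    rw [Function.update_of_ne hl, hAs, e, e, skV_smul_left, skV_smul_right, smul_smul] at this
    rwa [pm_smul, pm_nn]
  obtain ⟨u, hu, hue⟩ := hsq ((c + 1) / 2)
  obtain ⟨v, hv, hve⟩ := hsq ((c - 1) / 2)
  have hz : ∀ X Y : M4 F, pm δ q s X * pm δ q s Y = 0 := pm_mul δ hl (hs l hl).2
  refine ⟨u * v⁻¹, mul_mem hu (inv_mem hv), ?_⟩
  rw [Units.val_mul, hue, inv_val_one_add hve (hz _ _), add_mul, mul_sub, mul_sub, one_mul, one_mul,
    mul_one, hz, sub_zero, pm_smul, pm_smul, pm_smul]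
  have hc : c = (c + 1) / 2 * ((c + 1) / 2) - (c - 1) / 2 * ((c - 1) / 2) := by
    have := h.two
    field_simp
    ring
  conv_rhs => rw [hc, sub_smul]
  abel

lemma roots_move {a b : Fin 4 → F} (hab : nn (G4 δ) a b ∈ roots δ M hl (hs l hl).2) {A : M4 F}
    (hA : IsoW δ A) (hd : A.det = 1) :
    nn (G4 δ) (A *ᵥ a) (A *ᵥ b) ∈ roots δ M hl (hs l hl).2 := by
  intro c
  have e : ∀ x y : Fin 4 → F, c • nn (G4 δ) x y = nn (G4 δ) (c • x) y := fun x y => by
    rw [nn, nn, cr_smul_left, cr_smul_right, smul_sub]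
  have := hab c
  rw [e, pm_nn] at this
  have := site_conj h hS q hA hd this
  rw [Function.update_self, Function.update_self, Function.update_idem, Function.update_idem,
    mulVec_smul, ← pm_nn, ← e] at this
  exact this

/-- All site root elements at `q` from one. -/
lemma roots_all {x w : Fin 4 → F} (hw : w ≠ 0) (hww : gB (G4 δ) w w = 0)
    (hwx : gB (G4 δ) w x = 0) (hxx : gB (G4 δ) x x ≠ 0)
    (hxw : nn (G4 δ) x w ∈ roots δ M hl (hs l hl).2) (a b : Fin 4 → F) :
    nn (G4 δ) a b ∈ roots δ M hl (hs l hl).2 := by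
  have h2 := h.two
  set L := roots δ M hl (hs l hl).2
  obtain ⟨y, hy0⟩ : ∃ y, gB (G4 δ) w y ≠ 0 := gB_nd h.nsq hw
  set y' := y - (gB (G4 δ) x y / gB (G4 δ) x x) • x with hy'
  have hxy' : gB (G4 δ) x y' = 0 := by
    rw [hy', map_sub, map_smul, smul_eq_mul, div_mul_cancel₀ _ hxx, sub_self]
  have hwy' : gB (G4 δ) w y' ≠ 0 := by simp [hy', hwx, hy0]
  obtain ⟨z, hz⟩ : ∃ z, z = (gB (G4 δ) w y')⁻¹ • y' := ⟨_, rfl⟩
  have hwz : gB (G4 δ) w z = 1 := by rw [hz, map_smul, smul_eq_mul, inv_mul_cancel₀ hwy']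
  have hxz : gB (G4 δ) x z = 0 := by rw [hz, map_smul, hxy', smul_zero]
  set v := z - (gB (G4 δ) z z / 2) • w with hv
  have hxw' : gB (G4 δ) x w = 0 := by rw [gB_symm, hwx]
  have hwv : gB (G4 δ) w v = 1 := by simp [hv, hww, hwz]
  have hvw : gB (G4 δ) v w = 1 := by rw [gB_symm, hwv]
  have hxv : gB (G4 δ) x v = 0 := by simp [hv, hxw', hxz]
  have hvx : gB (G4 δ) v x = 0 := by rw [gB_symm, hxv]
  have hvv : gB (G4 δ) v v = 0 := by
    simp only [hv, map_sub, map_smul, LinearMap.sub_apply, LinearMap.smul_apply, smul_eq_mul, hww,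
      hwz, gB_symm δ z w]
    field_simp
    ring
  obtain ⟨f, hwf, hvf, hxf, hff⟩ := exists_perp h.nsq hw hww (by rw [hwv]; exact one_ne_zero) x
  have hfw : gB (G4 δ) f w = 0 := by rw [gB_symm, hwf]
  have hfv : gB (G4 δ) f v = 0 := by rw [gB_symm, hvf]
  have hfx : gB (G4 δ) f x = 0 := by rw [gB_symm, hxf]
  let N : (Fin 4 → F) →ₗ[F] (Fin 4 → F) →ₗ[F] M4 F := LinearMap.mk₂ F (fun a b => nn (G4 δ) a b)
    (fun a a' b => by simp only [nn, cr_add_left, cr_add_right]; abel)
    (fun c a b => by simp only [nn, cr_smul_left, cr_smul_right, smul_sub])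
    (fun a b b' => by simp only [nn, cr_add_left, cr_add_right]; abel)
    (fun c a b => by simp only [nn, cr_smul_left, cr_smul_right, smul_sub])
  have hN : ∀ a b, N a b = nn (G4 δ) a b := fun _ _ => rfl
  have hself : ∀ a, N a a = 0 := fun a => sub_self _
  have hswap : ∀ a b, N a b ∈ L → N b a ∈ L := fun a b hm => by
    rw [show N b a = -N a b by rw [hN, hN, nn, nn, neg_sub]]
    exact L.neg_mem hm
  have hxw0 : N x w ∈ L := hxw
  -- the linear and quadratic parts of a conjugation
  have lin : ∀ u y a b, gB (G4 δ) u u = 0 → gB (G4 δ) u y = 0 → N a b ∈ L →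
      N (gB (G4 δ) u a • y - gB (G4 δ) y a • u) b + N a (gB (G4 δ) u b • y - gB (G4 δ) y b • u) ∈ L ∧
      N (-(gB (G4 δ) y y / 2 * gB (G4 δ) u a) • u) b +
        N (gB (G4 δ) u a • y - gB (G4 δ) y a • u) (gB (G4 δ) u b • y - gB (G4 δ) y b • u) +
        N a (-(gB (G4 δ) y y / 2 * gB (G4 δ) u b) • u) +
        ((gB (G4 δ) y y / 2) ^ 2 * (gB (G4 δ) u a * gB (G4 δ) u b)) • N u u ∈ L := by
    intro u y a b hu hy hab
    set A1 := gB (G4 δ) u a • y - gB (G4 δ) y a • u with hA1
    set A2 := -(gB (G4 δ) y y / 2 * gB (G4 δ) u a) • u with hA2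
    set B1 := gB (G4 δ) u b • y - gB (G4 δ) y b • u with hB1
    set B2 := -(gB (G4 δ) y y / 2 * gB (G4 δ) u b) • u with hB2
    have hv : ∀ (c : F) (p : Fin 4 → F), (1 + sieM (G4 δ) u (c • y)) *ᵥ p =
        p + c • (gB (G4 δ) u p • y - gB (G4 δ) y p • u) +
          (c * c) • (-(gB (G4 δ) y y / 2 * gB (G4 δ) u p) • u) := fun c p => by
      rw [add_mulVec, one_mulVec, sieM_mulVec]
      simp only [map_smul, LinearMap.smul_apply, smul_eq_mul]
      module
    have hm : ∀ c : F, N (a + c • A1 + (c * c) • A2) (b + c • B1 + (c * c) • B2) ∈ L := fun c => by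
      have hcy : gB (G4 δ) u (c • y) = 0 := by rw [map_smul, hy, smul_zero]
      have := roots_move h hS hl hs (a := a) (b := b) hab (sie_iso h2 hu hcy) (sie_det h2 h.nsq hu hcy)
      rwa [hv, hv, ← hN] at this
    have h3 : ∀ r s : F, N (r • u) (s • u) = 0 := fun r s => by simp [hself]
    have hp := hm 1
    have hn := hm (-1)
    constructor
    · have hq : N A1 B2 + N A2 B1 = 0 := by
        simp only [hA1, hA2, hB1, hB2, map_sub, map_smul, LinearMap.sub_apply, LinearMap.smul_apply,
          hself, smul_zero, sub_zero]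
        rw [show N u y = -N y u by rw [hN, hN, nn, nn, neg_sub]]
        module
      have := L.smul_mem (2 : F)⁻¹ (L.sub_mem hp hn)
      convert this using 1
      simp only [one_smul, mul_one, neg_smul, neg_mul, neg_neg, one_mul, map_add, map_neg,
        LinearMap.add_apply, LinearMap.neg_apply]
      calc N A1 b + N a B1 = N A1 b + N a B1 + (N A1 B2 + N A2 B1) := by rw [hq, add_zero]
        _ = _ := by match_scalars <;> field_simp <;> ring
    · have := L.smul_mem (2 : F)⁻¹ (L.add_mem (L.sub_mem hp hab) (L.sub_mem hn hab))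
      convert this using 1
      have hq : N A2 B2 = 0 := by simp only [hA2, hB2]; exact h3 _ _
      simp only [one_smul, mul_one, neg_smul, neg_mul, neg_neg, one_mul, map_add, map_neg,
        LinearMap.add_apply, LinearMap.neg_apply, hq, hself, smul_zero, add_zero]
      match_scalars <;> field_simp <;> ring
  have c1 := lin v f x w hvv hvf hxw0
  have hxfL : N x f ∈ L := by
    simpa [hvx, hfx, hvw, hfw] using c1.1
  have hxvL : N x v ∈ L := by
    have := c1.2
    simp [hvx, hfx, hvw, hfw, hself] at this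
    exact (Submodule.smul_mem_iff L (div_ne_zero hff h2)).1 this
  have hvwL : N v w ∈ L := by
    have := (lin v x x w hvv hvx hxw0).1
    simp [hvx, hxw', hvw, hself] at this
    exact (Submodule.smul_mem_iff L hxx).1 this
  have hwfL : N w f ∈ L := by
    have := (lin w x x f hww hwx hxfL).1
    simp [hwx, hwf, hxf] at this
    exact (Submodule.smul_mem_iff L hxx).1 this
  have hvfL : N v f ∈ L := by
    have := (lin v x x f hvv hvx hxfL).1
    simp [hvx, hvf, hxf] at this
    exact (Submodule.smul_mem_iff L hxx).1 this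
  have hli : LinearIndependent F ![w, v, x, f] := by
    rw [Fintype.linearIndependent_iff]
    intro g hg
    simp only [Fin.sum_univ_four, Matrix.cons_val_zero, Matrix.cons_val_one, Matrix.cons_val] at hg
    have e1 := congrArg (gB (G4 δ) w) hg
    have e2 := congrArg (gB (G4 δ) v) hg
    have e3 := congrArg (gB (G4 δ) x) hg
    have e4 := congrArg (gB (G4 δ) f) hg
    simp [hww, hwv, hwx, hwf] at e1
    simp [hvw, hvv, hvx, hvf] at e2
    simp [hxw', hxv, hxf, hxx] at e3
    simp [hfw, hfv, hfx, hff] at e4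
    intro i
    fin_cases i <;> assumption
  have hspan := hli.span_eq_top_of_card_eq_finrank (by simp)
  have hb : ∀ i j : Fin 4, N (![w, v, x, f] i) (![w, v, x, f] j) ∈ L := by
    intro i j
    fin_cases i <;> fin_cases j <;>
      simp [hself, hxw0, hxfL, hxvL, hvwL, hwfL, hvfL, hswap _ _ hxw0, hswap _ _ hxfL,
        hswap _ _ hxvL, hswap _ _ hvwL, hswap _ _ hwfL, hswap _ _ hvfL]
  have h1 : ∀ i, ∀ b, N (![w, v, x, f] i) b ∈ L := fun i b => by
    have : (⊤ : Submodule F (Fin 4 → F)) ≤ L.comap (N (![w, v, x, f] i)) := by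
      rw [← hspan, Submodule.span_le]
      rintro _ ⟨j, rfl⟩
      exact hb i j
    exact this trivial
  have : (⊤ : Submodule F (Fin 4 → F)) ≤ L.comap (N.flip b) := by
    rw [← hspan, Submodule.span_le]
    rintro _ ⟨i, rfl⟩
    exact h1 i b
  exact this (show a ∈ ⊤ from trivial)

end

lemma factorPerm_pureVec' {π : Equiv.Perm (Fin t)} {f : Fin t → Fin 4 → F} :
    (factorPerm 4 π : MV F t) *ᵥ pureVec f = pureVec fun i => f (π.symm i) := by
  ext x
  simp only [Matrix.mulVec, dotProduct, factorPerm, ite_mul, one_mul, zero_mul,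
    Finset.sum_ite_eq', Finset.mem_univ, if_true, pureVec, Function.comp_apply]
  exact Fintype.prod_equiv π _ _ fun i => by simp

/-- All pure long root elements. -/
def AllRoots (δ : F) (M : Subgroup (GV F t)) : Prop :=
  ∀ (q : Fin t) (s : Fin t → Fin 4 → F), Sing δ q s → ∀ a b : Fin 4 → F,
    InM M (1 + skV δ (pureVec (Function.update s q a)) (pureVec (Function.update s q b)))

theorem allRoots (h : Over δ M) (ht : 2 ≤ t) (hS : SitesIn δ M)
    (hperm : ∀ i j : Fin t, ∃ g ∈ M, ∃ (π : Equiv.Perm (Fin t)) (As : Fin t → M4 F),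
      π i = j ∧ (∀ l, IsoW δ (As l)) ∧ (g : MV F t) = pureMat As * factorPerm 4 π)
    (hP : PureRoot δ M) : AllRoots δ M := by
  classical
  obtain ⟨g, hg, q₀, w, x, hw, hww, hwx, hxx, hge⟩ := hP
  haveI : Nontrivial (Fin t) := Fin.nontrivial_iff_two_le.2 ht
  have h0 : ∀ s, Sing δ q₀ s → ∀ a b : Fin 4 → F,
      InM M (1 + skV δ (pureVec (Function.update s q₀ a)) (pureVec (Function.update s q₀ b))) := by
    intro s hs a b
    obtain ⟨l, hl⟩ := exists_ne q₀
    have hR : InM M (1 + skV δ (pureVec (Function.update (fun _ : Fin t => w) q₀ x))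
        (pureVec (Function.update (fun _ : Fin t => w) q₀ w))) :=
      ⟨g, hg, by rw [hge, Function.update_eq_self q₀ (fun _ : Fin t => w)]⟩
    have := roots_all h hS hl hs hw hww hwx hxx
      (mem_roots h hS hl hs (change_site h hS (fun _ _ => ⟨hw, hww⟩) hs hR)) a b 1
    rwa [one_smul, pm_nn] at this
  intro q s hs a b
  obtain ⟨m, hm, π, As, hπ, hAs, hme⟩ := hperm q₀ q
  have hinv : ∀ i (y : Fin 4 → F), ∃ z, As i *ᵥ z = y := fun i y =>
    ⟨(As i)⁻¹ *ᵥ y, by rw [mulVec_mulVec, Matrix.mul_nonsing_inv _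
      (isUnit_iff_ne_zero.2 (det_ne_zero h.nsq (hAs i))), one_mulVec]⟩
  choose pre hpre using hinv
  have hsing : Sing δ q₀ fun i => pre (π i) (s (π i)) := by
    intro i hi
    have hne : π i ≠ q := fun e => hi (π.injective (e.trans hπ.symm))
    refine ⟨fun e => (hs _ hne).1 ?_, ?_⟩
    · rw [← hpre (π i) (s (π i)), show pre (π i) (s (π i)) = 0 from e, mulVec_zero]
    · rw [← gB_mulVec (hAs (π i)), hpre]; exact (hs _ hne).2
  have := conj_mem h hm (h0 _ hsing (pre q a) (pre q b))
  have e : ∀ y, (m : MV F t) *ᵥ pureVec (Function.update (fun i => pre (π i) (s (π i))) q₀ (pre q y)) =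
      pureVec (Function.update s q y) := fun y => by
    rw [hme, ← mulVec_mulVec, factorPerm_pureVec', pureMat_mulVec]
    congr 1
    funext i
    by_cases hi : i = q
    · subst hi; simp [← hπ, hpre]
    · have : π.symm i ≠ q₀ := fun e => hi (by rw [← hπ, ← e, Equiv.apply_symm_apply])
      simp [hi, this, hpre]
  rwa [e, e] at this

/-! ### Generation -/

lemma bNondeg (h2 : (2 : F) ≠ 0) (hδ : ¬ IsSquare δ) : BNondeg (Qd δ t) := fun x hx => by
  funext a
  have := hx (Pi.single a 1)
  rw [(link δ t h2).polar_eq, gV_diag, diagonal_mulVec_single, dotProduct_single] at this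
  have hp : ∏ i, wt δ (a i) ≠ 0 := Finset.prod_ne_zero_iff.2 fun i _ => wt_ne_zero hδ _
  simpa [h2, hp] using this

section

variable (h : Over δ M)
include h

lemma polar_bV (p z : Vec F t) : polar (Qd δ t) p z = 2 * bV δ p z := (link δ t h.two).polar_eq p z

lemma Qd_self (p : Vec F t) : Qd δ t p = bV δ p p := by
  rw [(link δ t h.two).apply_self h.two, polar_bV h, mul_div_cancel_left₀ _ h.two]

/-- A root element of the group as an Eichler transformation. -/
lemma siegel_mem {p z : Vec F t} (hpp : bV δ p p = 0)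
    (hR : InM M (1 + skV δ p z)) (hz : Qd δ t z = 0)
    (hp : polar (Qd δ t) z ((2 : F)⁻¹ • p) = 0) :
    siegel (Qd δ t) hz hp ∈ M.comap (oqToGL (Qd δ t)) := by
  obtain ⟨u, hu, hue⟩ := hR
  show oqToGL (Qd δ t) _ ∈ M
  convert hu using 1
  refine Units.ext (Matrix.ext_iff_mulVec.2 fun v => ?_)
  rw [oqToGL_mulVec, siegel_apply, hue, add_mulVec, one_mulVec, skV_mulVec, QuadraticMap.map_smul,
    Qd_self h, hpp, smul_zero, zero_mul, zero_smul, sub_zero, polar_smul_left, polar_bV h, polar_bV h, smul_eq_mul]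
  have := h.two
  match_scalars <;> field_simp

variable {w : Fin 4 → F} (hQ : Qd δ t (pureVec fun _ => w) = 0)

/-- Moving a parameter by a root element fixing the centre. -/
lemma move {p z y : Vec F t} (hy : y ∈ OrthWreathBig.Sys.par M hQ)
    (hR : InM M (1 + skV δ p z)) (hpp : bV δ p p = 0) (hzz : bV δ z z = 0) (hpz : bV δ p z = 0)
    (hp : bV δ p (pureVec fun _ => w) = 0) (hz : bV δ z (pureVec fun _ => w) = 0) :
    bV δ z y • p - bV δ p y • z ∈ OrthWreathBig.Sys.par M hQ := by
  have hz' : Qd δ t z = 0 := by rw [Qd_self h, hzz]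
  have hp' : polar (Qd δ t) z ((2 : F)⁻¹ • p) = 0 := by
    rw [polar_smul_right, polar_bV h, bV_symm, hpz]; simp
  have hg := siegel_mem h hpp hR hz' hp'
  obtain ⟨u, -, hue⟩ := hR
  have hact : ∀ v, (siegel (Qd δ t) hz' hp').1 v = v + (bV δ z v • p - bV δ p v • z) := fun v => by
    rw [siegel_apply, QuadraticMap.map_smul, Qd_self h, hpp, smul_zero, zero_mul, zero_smul,
      sub_zero, polar_smul_left, polar_bV h, polar_bV h, smul_eq_mul]
    have := h.two
    match_scalars <;> field_simp
  have := sub_mem (OrthWreathBig.Sys.map_mem_par hy hg (by rw [hact, hp, hz]; simp)) hy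
  rwa [hact, add_sub_cancel_left] at this

end

/-- **Pure singular vectors are centres.** -/
theorem pure_mem_centres (h : Over δ M) (ht : 2 ≤ t) (hA : AllRoots δ M) {w : Fin 4 → F}
    (hw : w ≠ 0) (hww : gB (G4 δ) w w = 0) :
    pureVec (fun _ : Fin t => w) ∈ siegelCentres (Qd δ t) (M.comap (oqToGL (Qd δ t))) := by
  classical
  have h2 := h.two
  haveI : Nontrivial (Fin t) := Fin.nontrivial_iff_two_le.2 ht
  obtain ⟨w', hw'w', hwv, hw'0⟩ := exists_partner h2 h.nsq hw hww
  have hvw : gB (G4 δ) w' w = 1 := by rw [gB_symm, hwv]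
  set W := pureVec fun _ : Fin t => w with hW
  have hWW : bV δ W W = 0 := by
    obtain ⟨i, -⟩ := exists_pair_ne (Fin t)
    rw [hW, bV_pure, Finset.prod_eq_zero (Finset.mem_univ i) hww]
  have hQ : Qd δ t W = 0 := by rw [Qd_self h, hWW]
  set P := OrthWreathBig.Sys.par M hQ with hP
  have hpp : ∀ (q : Fin t) (s : Fin t → Fin 4 → F), Sing δ q s → ∀ a b : Fin 4 → F,
      bV δ (pureVec (Function.update s q a)) (pureVec (Function.update s q b)) = 0 := by
    intro q s hs a b
    obtain ⟨l, hl⟩ := exists_ne q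
    rw [bV_pure, Finset.prod_eq_zero (Finset.mem_univ l) (by simp [hl, (hs l hl).2])]
  -- the vectors differing from the centre at one site
  have h0 : ∀ (q : Fin t) (c : Fin 4 → F), pureVec (Function.update (fun _ => w) q c) ∈ P := by
    intro q c k
    have hs : Sing δ q fun _ => w := fun _ _ => ⟨hw, hww⟩
    have hcW : bV δ (pureVec (Function.update (fun _ => w) q c)) W = 0 := by
      have := hpp q _ hs c w
      rwa [Function.update_eq_self q (fun _ : Fin t => w)] at this
    have hp : polar (Qd δ t) W (k • pureVec (Function.update (fun _ => w) q c)) = 0 := by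
      rw [polar_smul_right, polar_bV h, bV_symm, hcW]; simp
    refine ⟨hp, ?_⟩
    have e : (2 * k) • pureVec (Function.update (fun _ : Fin t => w) q c) =
        pureVec (Function.update (fun _ : Fin t => w) q ((2 * k) • c)) := by
      rw [← slot_apply, ← slot_apply, map_smul]
    have hR : InM M (1 + skV δ ((2 * k) • pureVec (Function.update (fun _ : Fin t => w) q c)) W) := by
      have := hA q _ hs ((2 * k) • c) w
      rw [← e, Function.update_eq_self q (fun _ : Fin t => w)] at this
      exact this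
    have hh : (2 : F)⁻¹ • ((2 * k) • pureVec (Function.update (fun _ : Fin t => w) q c)) =
        k • pureVec (Function.update (fun _ : Fin t => w) q c) := by
      rw [smul_smul, ← mul_assoc, inv_mul_cancel₀ h2, one_mul]
    have hm := siegel_mem h (p := (2 * k) • pureVec (Function.update (fun _ : Fin t => w) q c)) (z := W)
      (by rw [e]; exact hpp q _ hs _ _) hR hQ (by rw [hh]; exact hp)
    convert hm using 1
    exact siegel_congr (Qd δ t) _ _ _ _ rfl hh.symm
  obtain ⟨x, hwx, hw'x, -, hxx⟩ := exists_perp h.nsq hw hww (by rw [hwv]; exact one_ne_zero) 0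
  obtain ⟨f, hwf, hw'f, hxf, hff⟩ := exists_perp h.nsq hw hww (by rw [hwv]; exact one_ne_zero) x
  have hxw : gB (G4 δ) x w = 0 := by rw [gB_symm, hwx]
  have hfw : gB (G4 δ) f w = 0 := by rw [gB_symm, hwf]
  have hxv : gB (G4 δ) x w' = 0 := by rw [gB_symm, hw'x]
  have hfv : gB (G4 δ) f w' = 0 := by rw [gB_symm, hw'f]
  have hfx : gB (G4 δ) f x = 0 := by rw [gB_symm, hxf]
  -- singular vectors off the line of the centre
  set C := {v : Fin 4 → F | v ≠ 0 ∧ gB (G4 δ) v v = 0 ∧ gB (G4 δ) v w ≠ 0} with hC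
  have hCspan : ∀ v : Fin 4 → F, v ∈ Submodule.span F C := by
    set S := Submodule.span F C with hS'
    have hv' : w' ∈ S := Submodule.subset_span ⟨hw'0, hw'w', by rw [hvw]; exact one_ne_zero⟩
    have hplane : ∀ e, gB (G4 δ) w e = 0 → gB (G4 δ) w' e = 0 → gB (G4 δ) e e ≠ 0 →
        e ∈ S ∧ w ∈ S := by
      intro e he he' hee
      have hmem : ∀ σ : F, σ * σ = 1 → w' + σ • e - (gB (G4 δ) e e / 2) • w ∈ S := fun σ hσ => by
        have h1 : gB (G4 δ) (w' + σ • e - (gB (G4 δ) e e / 2) • w) w = 1 := by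
          simp [hvw, gB_symm δ e w, he, hww]
        refine Submodule.subset_span ⟨fun h0 => ?_, ?_, by rw [h1]; exact one_ne_zero⟩
        · rw [h0] at h1; simp at h1
        · simp only [map_add, map_sub, map_smul, LinearMap.add_apply, LinearMap.sub_apply,
            LinearMap.smul_apply, smul_eq_mul, hw'w', gB_symm δ e w', he', gB_symm δ e w, he, hvw,
            hwv, hww]
          field_simp
          linear_combination (4 * gB (G4 δ) e e) * hσ
      have hp := S.sub_mem (hmem 1 (one_mul 1)) hv'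
      have hn := S.sub_mem (hmem (-1) (by ring)) hv'
      constructor
      · have := S.smul_mem (2 : F)⁻¹ (S.sub_mem hp hn)
        convert this using 1
        match_scalars <;> field_simp <;> ring
      · have := S.smul_mem (-(gB (G4 δ) e e)⁻¹) (S.add_mem hp hn)
        convert this using 1
        match_scalars <;> field_simp <;> ring
    have hx' := hplane x hwx hw'x hxx
    have hf' := hplane f hwf hw'f hff
    intro v
    have hli : LinearIndependent F ![w, w', x, f] := by
      rw [Fintype.linearIndependent_iff]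
      intro g hg
      simp only [Fin.sum_univ_four, Matrix.cons_val_zero, Matrix.cons_val_one, Matrix.cons_val] at hg
      have e1 := congrArg (gB (G4 δ) w) hg
      have e2 := congrArg (gB (G4 δ) w') hg
      have e3 := congrArg (gB (G4 δ) x) hg
      have e4 := congrArg (gB (G4 δ) f) hg
      simp [hww, hwv, hwx, hwf] at e1
      simp [hvw, hw'w', hw'x, hw'f] at e2
      simp [hxw, hxv, hxf, hxx] at e3
      simp [hfw, hfv, hfx, hff] at e4
      intro i
      fin_cases i <;> assumption
    have : (⊤ : Submodule F (Fin 4 → F)) ≤ S := by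
      rw [← hli.span_eq_top_of_card_eq_finrank (by simp), Submodule.span_le]
      rintro _ ⟨i, rfl⟩
      fin_cases i
      exacts [hx'.2, hv', hx'.1, hf'.1]
    exact this trivial
  -- a fixed vector at one site and anything elsewhere
  have extend : ∀ (q : Fin t) (a : Fin 4 → F),
      (∀ s, (∀ l, l ≠ q → s l ∈ C) → pureVec (Function.update s q a) ∈ P) →
      ∀ z : Fin t → Fin 4 → F, z q = a → pureVec z ∈ P := by
    intro q a hs
    suffices key : ∀ U : Finset (Fin t), ∀ z : Fin t → Fin 4 → F, z q = a →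
        (∀ l, l ≠ q → l ∉ U → z l ∈ C) → pureVec z ∈ P by
      intro z hz
      exact key Finset.univ z hz fun l _ hl => absurd (Finset.mem_univ l) hl
    intro U
    induction U using Finset.induction with
    | empty =>
      intro z hz hzC
      have := hs z fun l hl => hzC l hl (Finset.notMem_empty l)
      rwa [← hz, Function.update_eq_self] at this
    | insert j U hj ih =>
      intro z hz hzC
      by_cases hjq : j = q
      · exact ih z hz fun l hl hlU => hzC l hl (by simp [hlU, hjq ▸ hl])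
      have : Submodule.span F C ≤ P.comap (slot z j) := Submodule.span_le.2 fun c hc => by
        show pureVec (Function.update z j c) ∈ P
        refine ih _ (by rw [Function.update_of_ne (Ne.symm hjq), hz]) fun l hl hlU => ?_
        by_cases hlj : l = j
        · subst hlj; simpa using hc
        · rw [Function.update_of_ne hlj]; exact hzC l hl (by simp [hlU, hlj])
      have := this (hCspan (z j))
      simpa [slot_apply] using this
  -- every site orthogonal to the centre
  have site_perp : ∀ i e, gB (G4 δ) w e = 0 → ∀ z : Fin t → Fin 4 → F, z i = e → pureVec z ∈ P := by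
    intro q e hwe z hz
    have hfix : ∀ (s : Fin t → Fin 4 → F) (a : Fin 4 → F), gB (G4 δ) w a = 0 →
        bV δ (pureVec (Function.update s q a)) W = 0 := fun s a ha => by
      rw [hW, bV_pure, Finset.prod_eq_zero (Finset.mem_univ q) (by simp [gB_symm δ a w, ha])]
    -- the anisotropic plane
    have hplane : ∀ a, gB (G4 δ) w a = 0 → gB (G4 δ) w' a = 0 →
        ∀ z : Fin t → Fin 4 → F, z q = a → pureVec z ∈ P := by
      intro a ha ha'
      refine extend q a fun s hsC => ?_
      have hs : Sing δ q s := fun l hl => ⟨(hsC l hl).1, (hsC l hl).2.1⟩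
      have := move h hQ (h0 q w') (hA q s hs a w) (hpp q s hs a a) (hpp q s hs w w) (hpp q s hs a w)
        (hfix s a ha) (hfix s w hww)
      have hb : bV δ (pureVec (Function.update s q a)) (pureVec (Function.update (fun _ => w) q w')) = 0 := by
        rw [bV_pure, Finset.prod_eq_zero (Finset.mem_univ q) (by simp [gB_symm δ a w', ha'])]
      have hb' : bV δ (pureVec (Function.update s q w)) (pureVec (Function.update (fun _ => w) q w')) ≠ 0 := by
        rw [bV_pure, Finset.prod_ne_zero_iff]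
        intro l _
        by_cases hl : l = q
        · subst hl; simp [hwv]
        · simp [hl, (hsC l hl).2.2]
      rw [hb, zero_smul, sub_zero] at this
      exact (Submodule.smul_mem_iff P hb').1 this
    have hline : ∀ z : Fin t → Fin 4 → F, z q = w → pureVec z ∈ P := by
      refine extend q w fun s hsC => ?_
      have hs : Sing δ q s := fun l hl => ⟨(hsC l hl).1, (hsC l hl).2.1⟩
      have := move h hQ (h0 q x) (hA q s hs w x) (hpp q s hs w w) (hpp q s hs x x) (hpp q s hs w x)
        (hfix s w hww) (hfix s x hwx)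
      have hb : bV δ (pureVec (Function.update s q w)) (pureVec (Function.update (fun _ => w) q x)) = 0 := by
        rw [bV_pure, Finset.prod_eq_zero (Finset.mem_univ q) (by simp [hwx])]
      have hb' : bV δ (pureVec (Function.update s q x)) (pureVec (Function.update (fun _ => w) q x)) ≠ 0 := by
        rw [bV_pure, Finset.prod_ne_zero_iff]
        intro l _
        by_cases hl : l = q
        · subst hl; simp [hxx]
        · simp [hl, (hsC l hl).2.2]
      rw [hb, zero_smul, sub_zero] at this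
      exact (Submodule.smul_mem_iff P hb').1 this
    obtain ⟨a, ha⟩ : ∃ a, a = e - gB (G4 δ) w' e • w := ⟨_, rfl⟩
    have h1 : gB (G4 δ) w a = 0 := by simp [ha, hwe, hww]
    have h2' : gB (G4 δ) w' a = 0 := by simp [ha, hvw]
    have := P.add_mem (hplane a h1 h2' (Function.update z q a) (by simp))
      (P.smul_mem (gB (G4 δ) w' e) (hline (Function.update z q w) (by simp)))
    rw [← slot_apply, ← slot_apply, ← map_smul, ← map_add, ha, sub_add_cancel, slot_apply, ← hz,
      Function.update_eq_self] at this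
    exact this
  -- every parameter
  have hpure : ∀ y : Fin t → Fin 4 → F,
      pureVec y - (∏ i, gB (G4 δ) w (y i)) • pureVec (fun _ : Fin t => w') ∈ P := by
    intro y
    have key : ∀ U : Finset (Fin t),
        pureVec y - pureVec (fun i => if i ∈ U then gB (G4 δ) w (y i) • w' else y i) ∈ P := by
      intro U
      induction U using Finset.induction with
      | empty => simp
      | insert j U hj ih =>
        set z := fun i => if i ∈ U then gB (G4 δ) w (y i) • w' else y i with hzdef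
        have e : (fun i => if i ∈ insert j U then gB (G4 δ) w (y i) • w' else y i) =
            Function.update z j (gB (G4 δ) w (y j) • w') := by
          funext i
          by_cases hi : i = j
          · subst hi; simp
          · simp [hzdef, hi]
        have e' : z = Function.update z j (y j) := by
          funext i
          by_cases hi : i = j
          · subst hi; simp [hzdef, hj]
          · simp [hi]
        have := add_mem ih (site_perp j (y j - gB (G4 δ) w (y j) • w') (by simp [hwv])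
          (Function.update z j (y j - gB (G4 δ) w (y j) • w')) (by simp))
        convert this using 1
        rw [e, ← slot_apply, ← slot_apply, map_sub]
        conv_rhs => arg 1; arg 2; rw [e', ← slot_apply]
        abel
    convert key Finset.univ using 2
    funext z
    simp [pureVec, Finset.prod_mul_distrib]
  refine ⟨hQ, fun X hX => ?_⟩
  have hmem : X ∈ P := by
    let Φ : Vec F t →ₗ[F] Vec F t :=
      LinearMap.id - (((2 : F)⁻¹ • (Qd δ t).polarBilin W)).smulRight (pureVec fun _ : Fin t => w')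
    have hΦp : ∀ y, Φ (pureVec y) ∈ P := fun y => by
      have := hpure y
      simpa [Φ, hW, polar_bV h, bV_pure, ← mul_assoc, inv_mul_cancel₀ h2] using this
    have hΦ : Φ X ∈ P := by
      rw [pi_eq_sum_univ' X, map_sum]
      refine sum_mem fun z _ => ?_
      rw [map_smul]
      refine Submodule.smul_mem _ _ ?_
      rw [single_eq_pureVec]
      exact hΦp _
    simpa [Φ, hX] using hΦ
  obtain ⟨hp, hm⟩ := hmem 1
  convert hm using 1
  exact siegel_congr (Qd δ t) _ _ _ _ rfl (one_smul F X).symm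

end RootGen

variable [Finite F] {δ : F}

/-- The sites are in the group as soon as their isometries of determinant one are in `Ω`. -/
lemma sitesIn_of_mem_Om {M : Subgroup (GV F t)} (h : Over δ M)
    (hΩ : ∀ (j : Fin t) (A : M4 F) (g : GV F t), IsoW δ A → A.det = 1 →
      (g : MV F t) = site j A → g ∈ Om δ t) : SitesIn δ M := fun j A hA hd => by
  let u : GL (Fin 4) F := Matrix.GeneralLinearGroup.mkOfDetNeZero A (by rw [hd]; exact one_ne_zero)
  let g : GV F t := glPure (Function.update (1 : Fin t → GL (Fin 4) F) j u)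
  have hg : (g : MV F t) = site j A := by
    show pureMat _ = _
    rw [site]
    congr 1
    funext i
    by_cases hi : i = j
    · subst hi; simp [u, Matrix.GeneralLinearGroup.mkOfDetNeZero]
    · simp [hi]
  exact ⟨g, h.mem (Subgroup.subset_closure (Or.inl ⟨_, fun x y => rfl⟩)) (hΩ j A g hA hd hg), hg⟩

open RootGen in
/-- **A long root element of pure shape gives all of `Ω`.** -/
theorem eq_Om_of_pureRoot_of {M : Subgroup (GV F t)} (h : Over δ M) (ht : 2 ≤ t) (hS : SitesIn δ M)
    (hperm : ∀ i j : Fin t, ∃ g ∈ M, ∃ (π : Equiv.Perm (Fin t)) (As : Fin t → M4 F),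
      π i = j ∧ (∀ l, IsoW δ (As l)) ∧ (g : MV F t) = pureMat As * factorPerm 4 π)
    (hP : PureRoot δ M) : M = Om δ t := by
  have hA := allRoots h ht hS hperm hP
  obtain ⟨-, -, -, w, x, hw, hww, -⟩ := hP
  obtain ⟨w', hw'w', hwv, hw'0⟩ := exists_partner h.two h.nsq hw hww
  have hn : 5 ≤ finrank F (Vec F t) := by
    rw [Module.finrank_fintype_fun_eq_card, Fintype.card_fun, Fintype.card_fin, Fintype.card_fin]
    calc 5 ≤ 4 ^ 2 := by norm_num
      _ ≤ 4 ^ t := Nat.pow_le_pow_right (by norm_num) ht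
  refine le_antisymm h.le ?_
  rw [Om, Subgroup.map_le_iff_le_comap]
  refine commutator_le_of_centre_pair (bNondeg h.two h.nsq) hn (pure_mem_centres h ht hA hw hww)
    (pure_mem_centres h ht hA hw'0 hw'w') ?_
  rw [polar_bV h, bV_pure, Finset.prod_eq_one fun i _ => by rw [gB_symm, hwv], mul_one]
  exact h.two

open RootGen in
/-- For two sites, a long root element at the point of two copies of a singular vector gives one of pure shape. -/
theorem pureRoot_of_rootTwo_of {M : Subgroup (GV F 2)} (h : Over δ M) (hS : SitesIn δ M)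
    (hR : RootTwo δ M) : PureRoot δ M := by
  classical
  obtain ⟨g, hg, w, a, b, hw, hww, hwa, hwb, hab, hge⟩ := hR
  have h2 := h.two
  obtain ⟨w', hw'w', hwv, -⟩ := exists_partner h2 h.nsq hw hww
  obtain ⟨e, hwe, hw'e, -, hee⟩ := exists_perp h.nsq hw hww (by rw [hwv]; exact one_ne_zero) 0
  obtain ⟨f, hwf, hw'f, hef, hff⟩ := exists_perp h.nsq hw hww (by rw [hwv]; exact one_ne_zero) e
  set B := reflW δ e * reflW δ f with hB
  have hBiso : IsoW δ B := IsoW.mul (reflW_iso δ hee) (reflW_iso δ hff)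
  have hBdet : B.det = 1 := by rw [hB, det_mul, reflW_det δ hee, reflW_det δ hff]; ring
  have hew : gB (G4 δ) e w = 0 := by rw [gB_symm, hwe]
  have hfw : gB (G4 δ) f w = 0 := by rw [gB_symm, hwf]
  have hBw : B *ᵥ w = w := by
    rw [hB, ← mulVec_mulVec, RootGen.reflW_mulVec δ f, hfw, mul_zero, zero_smul, sub_zero, RootGen.reflW_mulVec, hew,
      mul_zero, zero_smul, sub_zero]
  -- the difference of a vector orthogonal to `w` with its image
  have hdiff : ∀ c, gB (G4 δ) w c = 0 → gB (G4 δ) c c ≠ 0 →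
      gB (G4 δ) w (c - B *ᵥ c) = 0 ∧ gB (G4 δ) (c - B *ᵥ c) (c - B *ᵥ c) ≠ 0 := by
    intro c hwc hcc
    have hd1 : gB (G4 δ) w (B *ᵥ c) = 0 := by
      rw [← hwc]; conv_lhs => rw [← hBw]
      exact gB_mulVec hBiso w c
    set c₀ := c - gB (G4 δ) w' c • w with hc₀
    have hwc₀ : gB (G4 δ) w c₀ = 0 := by simp [hc₀, hwc, hww]
    have hw'c₀ : gB (G4 δ) w' c₀ = 0 := by simp [hc₀, gB_symm δ w' w, hwv]
    -- the image of the plane part is its negative
    have hneg : B *ᵥ c₀ = -c₀ := by
      obtain ⟨r, hr⟩ : ∃ r, r = c₀ - (gB (G4 δ) e c₀ / gB (G4 δ) e e) • e -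
          (gB (G4 δ) f c₀ / gB (G4 δ) f f) • f := ⟨_, rfl⟩
      have hfe : gB (G4 δ) f e = 0 := by rw [gB_symm, hef]
      have hr0 : r = 0 := by
        by_contra hne
        have h1 : gB (G4 δ) w r = 0 := by simp [hr, hwc₀, hwe, hwf]
        have h3 : gB (G4 δ) e r = 0 := by simp [hr, hef, hee]
        have h4 : gB (G4 δ) f r = 0 := by simp [hr, hfe, hff]
        have h5 : gB (G4 δ) w' r = 0 := by simp [hr, hw'c₀, hw'e, hw'f]
        have hrr := aniso_of_perp h.nsq hw hww (by rw [hwv]; exact one_ne_zero) hne h1 h5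
        have hli : LinearIndependent F ![w, w', e, f, r] := by
          rw [Fintype.linearIndependent_iff]
          intro gg hg
          simp only [Fin.sum_univ_five, Matrix.cons_val_zero, Matrix.cons_val_one, Matrix.cons_val] at hg
          have e1 := congrArg (gB (G4 δ) w) hg
          have e2 := congrArg (gB (G4 δ) w') hg
          have e3 := congrArg (gB (G4 δ) e) hg
          have e4 := congrArg (gB (G4 δ) f) hg
          have e5 := congrArg (gB (G4 δ) r) hg
          simp [hww, hwv, hwe, hwf, h1] at e1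
          simp [gB_symm δ w' w, hwv, hw'w', hw'e, hw'f, h5] at e2
          simp [hew, gB_symm δ e w', hw'e, hef, hee, h3] at e3
          simp [hfw, gB_symm δ f w', hw'f, hfe, hff, h4] at e4
          simp [gB_symm δ r w, h1, gB_symm δ r w', h5, gB_symm δ r e, h3, gB_symm δ r f, h4, hrr] at e5
          intro i
          fin_cases i <;> assumption
        simpa using hli.fintype_card_le_finrank
      rw [hr, sub_eq_zero, sub_eq_iff_eq_add] at hr0
      rw [hr0, mulVec_add, mulVec_smul, mulVec_smul, hB, ← mulVec_mulVec, ← mulVec_mulVec,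
        RootGen.reflW_mulVec δ f f, RootGen.reflW_mulVec δ f e, hfe, mul_zero, zero_smul, sub_zero,
        div_mul_cancel₀ _ hff, two_smul, sub_add_cancel_left, mulVec_neg, RootGen.reflW_mulVec δ e f, hef,
        mul_zero, zero_smul, sub_zero, RootGen.reflW_mulVec δ e e, div_mul_cancel₀ _ hee, two_smul,
        sub_add_cancel_left]
      module
    have hc : c = c₀ + gB (G4 δ) w' c • w := by rw [hc₀, sub_add_cancel]
    have hd : c - B *ᵥ c = (2 : F) • c₀ := by
      conv_lhs => rw [hc, mulVec_add, hneg, mulVec_smul, hBw]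
      module
    have hcc₀ : gB (G4 δ) c₀ c₀ = gB (G4 δ) c c := by
      simp only [hc₀, map_sub, map_smul, LinearMap.sub_apply, LinearMap.smul_apply, smul_eq_mul,
        hwc, hww, gB_symm δ c w]
      ring
    refine ⟨by rw [map_sub, hwc, hd1, sub_zero], ?_⟩
    simp only [hd, map_smul, LinearMap.smul_apply, smul_eq_mul, hcc₀]
    exact mul_ne_zero h2 (mul_ne_zero h2 hcc)
  set W := pureVec (fun _ : Fin 2 => w) with hW
  set P : Fin 2 → (Fin 4 → F) → Vec F 2 := fun l c => pureVec (Function.update (fun _ => w) l c)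
    with hP
  have hperp : ∀ l m c d, gB (G4 δ) w c = 0 → gB (G4 δ) w d = 0 → bV δ (P l c) (P m d) = 0 := by
    intro l m c d hc hd
    obtain ⟨i, hi⟩ := exists_ne l
    by_cases hlm : l = m
    · subst hlm
      rw [bV_pure, Finset.prod_eq_zero (Finset.mem_univ i) (by simp [hi, hww])]
    · rw [bV_pure, Finset.prod_eq_zero (Finset.mem_univ l)
        (by simp [hlm, gB_symm δ c w, hc])]
  have hPw : ∀ l, P l w = W := fun l => by
    simp [hP, hW, Function.update_eq_self l (fun _ : Fin 2 => w)]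
  have hsum : ∀ (i j : Fin 2), i ≠ j → ∀ A A' : Fin 4 → F,
      InM M (1 + skV δ (P i A + P j A') W) → gB (G4 δ) w A = 0 → gB (G4 δ) w A' = 0 →
      gB (G4 δ) A A ≠ 0 → PureRoot δ M := by
    intro i j hij A A' hR h0 h1 hA
    obtain ⟨u, hu, hue⟩ := hS i B hBiso hBdet
    obtain ⟨g', hg', hge'⟩ := conj_mem h hu hR
    obtain ⟨g₁, hg₁, hge₁⟩ := hR
    have hact : ∀ v : Fin 2 → Fin 4 → F, (u : MV F 2) *ᵥ pureVec v =
        pureVec (Function.update v i (B *ᵥ v i)) := fun v => by rw [hue, site_mulVec]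
    have hWu : (u : MV F 2) *ᵥ W = W := by
      rw [hW, hact]; simp [hBw, Function.update_eq_self i (fun _ : Fin 2 => w)]
    have hiA : (u : MV F 2) *ᵥ P i A = P i (B *ᵥ A) := by simp [hP, hact]
    have hjA : (u : MV F 2) *ᵥ P j A' = P j A' := by
      simp only [hP, hact, Function.update_of_ne hij, hBw]
      congr 1
      funext l
      by_cases hl : l = i <;> simp [hl, hij]
    rw [hWu, mulVec_add, hiA, hjA] at hge'
    have hBA : gB (G4 δ) w (B *ᵥ A) = 0 := by
      rw [← h0]; conv_lhs => rw [← hBw]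
      exact gB_mulVec hBiso w A
    have hz : ∀ C D, gB (G4 δ) w C = 0 → gB (G4 δ) w D = 0 →
        skV δ (P i C + P j A') W * skV δ (P i D + P j A') W = 0 := by
      intro C D hC hD
      have hW' : ∀ l c, gB (G4 δ) w c = 0 → bV δ (P l c) W = 0 := fun l c hc =>
        hPw l ▸ hperp l l c w hc hww
      refine skV_mul_eq_zero δ ?_ ?_ ?_ ?_
      · rw [bV_add_left, bV_symm δ (P i C), bV_symm δ (P j A'), bV_add_left, bV_add_left,
          hperp _ _ _ _ hD hC, hperp _ _ _ _ h1 hC, hperp _ _ _ _ hD h1, hperp _ _ _ _ h1 h1]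
        simp
      · rw [bV_add_left, hW' _ _ hC, hW' _ _ h1, add_zero]
      · rw [bV_symm, bV_add_left, hW' _ _ hD, hW' _ _ h1, add_zero]
      · rw [← hPw i]; exact hperp _ _ _ _ hww hww
    refine ⟨g₁ * g'⁻¹, mul_mem hg₁ (inv_mem hg'), i, w, A - B *ᵥ A, hw, hww,
      (hdiff _ h0 hA).1, (hdiff _ h0 hA).2, ?_⟩
    rw [Units.val_mul, hge₁, inv_val_one_add hge' (hz _ _ hBA hBA), add_mul, mul_sub, mul_sub,
      one_mul, one_mul, mul_one, hz _ _ h0 hBA, sub_zero]
    have hpd : pureVec (Function.update (fun _ : Fin 2 => w) i (A - B *ᵥ A)) =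
        P i A + (-1 : F) • P i (B *ᵥ A) := by
      rw [hP, ← slot_apply, map_sub, slot_apply, slot_apply]
      module
    rw [hpd, ← hW]
    simp only [skV_add_left, skV_smul_left]
    module
  have e0 : pureVec ![a, w] = P 0 a := congrArg pureVec (funext fun l => by fin_cases l <;> simp)
  have e1 : pureVec ![w, b] = P 1 b := congrArg pureVec (funext fun l => by fin_cases l <;> simp)
  have e2 : pureVec ![w, w] = W := congrArg pureVec (funext fun l => by fin_cases l <;> simp)
  rw [e0, e1, e2] at hge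
  rcases hab with h' | h'
  · exact hsum 0 1 (by decide) a b ⟨g, hg, hge⟩ hwa hwb h'
  · exact hsum 1 0 (by decide) b a ⟨g, hg, by rw [hge, add_comm (P 1 b)]⟩ hwb hwa h'

/-- The sites are in the group. -/
lemma sitesIn {M : Subgroup (GV F t)} (h : Over δ M) (ht : 2 ≤ t) : SitesIn δ M := by
  refine sitesIn_of_mem_Om h fun j A g hA hd hg => ?_
  rcases lt_or_eq_of_le ht with h3 | h2'
  · exact site_mem_Om h.two h.nsq h3 hA hg
  subst h2'
  have h1 : IsoW δ (1 : M4 F) := by simp [IsoW]
  have hj : j = 0 ∨ j = 1 := by fin_cases j <;> simp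
  rcases hj with rfl | rfl
  · exact (pair_mem_Om_iff h.two h.nsq hA h1 (by rw [hg, site_one, mul_one])).2 (by rw [hd, det_one])
  · exact (pair_mem_Om_iff h.two h.nsq h1 hA (by rw [hg, site_one, one_mul])).2 (by rw [hd, det_one])

/-- The group moves each site to each site. -/
lemma exists_move {M : Subgroup (GV F t)} (h : Over δ M) (ht : 2 ≤ t) (i j : Fin t) :
    ∃ g ∈ M, ∃ (π : Equiv.Perm (Fin t)) (As : Fin t → M4 F),
      π i = j ∧ (∀ l, IsoW δ (As l)) ∧ (g : MV F t) = pureMat As * factorPerm 4 π := by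
  classical
  have h1 : IsoW δ (1 : M4 F) := by simp [IsoW]
  rcases eq_or_ne i j with rfl | hij
  · exact ⟨1, one_mem M, 1, fun _ => 1, rfl, fun _ => h1, by
      rw [Units.val_one, factorPerm_one, pureMat_one, mul_one]⟩
  rcases lt_or_eq_of_le ht with h3 | h2'
  · exact ⟨glFactorPerm 4 (Equiv.swap i j),
      h.mem (Subgroup.subset_closure (Or.inr ⟨Equiv.swap i j, fun x y => rfl⟩))
        (perm_mem_Om h.two h.nsq h3 _), Equiv.swap i j, fun _ => 1, Equiv.swap_apply_left i j,
      fun _ => h1, by rw [pureMat_one, one_mul]; rfl⟩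
  subst h2'
  have he : gB (G4 δ) (Pi.single 1 1 : Fin 4 → F) (Pi.single 1 1 : Fin 4 → F) ≠ 0 := by simp [gB_diag]
  set R := reflW δ (Pi.single 1 1 : Fin 4 → F)
  have hR : IsoW δ R := RootGen.reflW_iso δ he
  let u : GL (Fin 4) F := Matrix.GeneralLinearGroup.mkOfDetNeZero R (RootGen.det_ne_zero h.nsq hR)
  let g₁ : GV F 2 := glPure (Function.update (1 : Fin 2 → GL (Fin 4) F) i u)
  let g : GV F 2 := g₁ * glFactorPerm 4 (Equiv.swap i j)
  have hpure : pureMat (Function.update (fun _ => 1) i R) = (site i R : MV F 2) := rfl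
  have hg₁ : (g₁ : MV F 2) = site i R := by
    show pureMat (fun l => ((Function.update (1 : Fin 2 → GL (Fin 4) F) i u l : GL (Fin 4) F) : M4 F)) = _
    rw [← hpure]
    congr 1
    funext l
    by_cases hl : l = i
    · subst hl; simp [u, Matrix.GeneralLinearGroup.mkOfDetNeZero]
    · simp [hl]
  have hev : Ev δ (g : MV F 2) (eR 2 + 3 * 4 ^ (2 - 2)) := by
    rw [show (g : MV F 2) = site i R * factorPerm 4 (Equiv.swap i j) by
      rw [← hg₁]; rfl]
    exact (Ev.site_refl h.two h.nsq le_rfl i he).mul (Ev.swap h.two h.nsq hij)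
  refine ⟨g, h.mem (mul_mem (Subgroup.subset_closure (Or.inl ⟨_, fun x y => rfl⟩))
      (Subgroup.subset_closure (Or.inr ⟨Equiv.swap i j, fun x y => rfl⟩)))
      ((hev.mem_iff h.two h.nsq).2 (by decide)), Equiv.swap i j, Function.update (fun _ => 1) i R,
    Equiv.swap_apply_left i j, fun l => ?_, ?_⟩
  · by_cases hl : l = i
    · subst hl; simpa using hR
    · simpa [hl] using h1
  · rw [hpure, ← hg₁]; rfl

/-- For two sites, a long root element at two copies of a singular vector gives one of pure shape. -/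
theorem pureRoot_of_rootTwo {M : Subgroup (GV F 2)} (h : Over δ M) (hR : RootTwo δ M) : PureRoot δ M :=
  pureRoot_of_rootTwo_of h (sitesIn h le_rfl) hR

/-- **A long root element of pure shape gives all of `Ω`.** -/
theorem eq_Om_of_pureRoot {M : Subgroup (GV F t)} (h : Over δ M) (ht : 2 ≤ t) (hP : PureRoot δ M) :
    M = Om δ t :=
  eq_Om_of_pureRoot_of h ht (sitesIn h ht) (exists_move h ht) hP

/-- For two sites, a long root element at two copies of a singular vector gives all of `Ω`. -/
theorem eq_Om_of_rootTwo {M : Subgroup (GV F 2)} (h : Over δ M) (hR : RootTwo δ M) : M = Om δ 2 :=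
  eq_Om_of_pureRoot h le_rfl (pureRoot_of_rootTwo h hR)

end Cfsg.Agent.MaxSub.OrthFour
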