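import Cfsg.Agent.MaxSub.OrthFour.SylowFrame
import Mathlib.GroupTheory.Perm.Cycle.Type

/-!
The Sylow subgroups of a group over the decomposition into two sites without a long root element.
-/

set_option autoImplicit false
set_option linter.unusedSectionVars false
set_option linter.unusedSimpArgs false
set_option linter.style.haveILetI false

namespace Cfsg.Agent.MaxSub.OrthFour

open Matrix Cfsg.Geo Cfsg.Agent.NotMax Cfsg.Agent.GeoClasses Cfsg.Agent.Classical
open Cfsg.Agent.MaxSub.TensorPowSp (gV)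
open Cfsg.Agent.MaxSub.OrthWreathBig (gB cr sieM)
open scoped MatrixGroups Matrix

variable {F : Type*} [Field F] {δ : F}

namespace Syl

lemma bv_zero_right (z : Vec F 2) : bv δ z 0 = 0 := by simp [bv]

lemma bv_neg_left (z y : Vec F 2) : bv δ (-z) y = -bv δ z y := neg_dotProduct _ _

lemma bv_zero_left (z : Vec F 2) : bv δ 0 z = 0 := zero_dotProduct _

lemma pv_neg_left (x y : Fin 4 → F) : pv (-x) y = -pv x y := by ext a; simp [pv_entry]

lemma pv_neg_right (x y : Fin 4 → F) : pv x (-y) = -pv x y := by ext a; simp [pv_entry]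

section
variable (fr : Fr δ) (h2 : (2 : F) ≠ 0)

/-- An element of the root group of one site. -/
noncomputable def glU (s : F × F) : GL (Fin 4) F where
  val := fr.u s
  inv := fr.u (-s)
  val_inv := by rw [fr.u_mul h2, add_neg_cancel, fr.u_zero]
  inv_val := by rw [fr.u_mul h2, neg_add_cancel, fr.u_zero]

lemma glPure_val (s r : F × F) :
    (glPure ![glU fr h2 s, glU fr h2 r] : MV F 2) = tt (fr.u s) (fr.u r) := by
  ext a b
  rw [tt_entry]
  simp [glPure, pureMat, Fin.prod_univ_two, glU]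

/-- The product of the root groups of the two sites. -/
noncomputable def phi : Multiplicative ((F × F) × (F × F)) →* GV F 2 :=
  MonoidHom.mk' (fun x => glPure ![glU fr h2 (Multiplicative.toAdd x).1,
      glU fr h2 (Multiplicative.toAdd x).2]) fun x y => Units.ext (by
    rw [Units.val_mul, glPure_val, glPure_val, glPure_val, tt_mul, fr.u_mul h2, fr.u_mul h2,
      toAdd_mul, Prod.fst_add, Prod.snd_add])

/-- Its elements. -/
noncomputable def el (x : (F × F) × (F × F)) : GV F 2 := phi fr h2 (Multiplicative.ofAdd x)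

lemma el_val (x : (F × F) × (F × F)) : (el fr h2 x : MV F 2) = tt (fr.u x.1) (fr.u x.2) :=
  glPure_val fr h2 _ _

lemma el_add (x y : (F × F) × (F × F)) : el fr h2 (x + y) = el fr h2 x * el fr h2 y := by
  rw [el, ofAdd_add, map_mul]; rfl

lemma el_zero : el fr h2 0 = 1 := by rw [el, ofAdd_zero, map_one]

lemma mem_range {g : GV F 2} : g ∈ (phi fr h2).range ↔ ∃ x, el fr h2 x = g :=
  ⟨fun ⟨x, hx⟩ => ⟨Multiplicative.toAdd x, hx⟩, fun ⟨x, hx⟩ => ⟨Multiplicative.ofAdd x, hx⟩⟩

lemma el_pair (x : (F × F) × (F × F)) (a b : Fin 4 → F) :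
    bv δ (pv a b) ((el fr h2 x : MV F 2) *ᵥ pv fr.v fr.v) =
      gB (G4 δ) a (fr.u x.1 *ᵥ fr.v) * gB (G4 δ) b (fr.u x.2 *ᵥ fr.v) := by
  rw [el_val, tt_mulVec, bv_pv]

lemma u_v (s : F × F) : fr.u s *ᵥ fr.v = fr.v + (fr.yl s - (qf δ s s / 2) • fr.w) := by
  rw [fr.u_apply, fr.wv, fr.yv, one_smul, zero_smul, sub_zero, mul_one]

lemma w_uv (s : F × F) : gB (G4 δ) fr.w (fr.u s *ᵥ fr.v) = 1 := by
  simp [u_v, map_add, map_sub, fr.wv, fr.wy, fr.ww]

lemma y_uv (r s : F × F) : gB (G4 δ) (fr.yl r) (fr.u s *ᵥ fr.v) = qf δ r s := by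
  simp [u_v, map_add, map_sub, fr.yv, fr.yy, fr.yw]

lemma v_uv (s : F × F) : gB (G4 δ) fr.v (fr.u s *ᵥ fr.v) = -(qf δ s s / 2) := by
  simp [u_v, map_add, map_sub, fr.vv, fr.vy, fr.vw]

lemma el_injective (hδ : ¬ IsSquare δ) : Function.Injective (el fr h2) := by
  intro x y h
  have key : ∀ r, qf δ r (x.1 - y.1) = 0 ∧ qf δ r (x.2 - y.2) = 0 := fun r => by
    have e1 := el_pair fr h2 x (fr.yl r) fr.w
    have e2 := el_pair fr h2 x fr.w (fr.yl r)
    rw [h, el_pair fr h2 y, w_uv, w_uv, y_uv, y_uv] at e1 e2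
    constructor
    · rw [sub_eq_add_neg, qf_add_right, qf_neg_right, ← sub_eq_add_neg, sub_eq_zero]
      linear_combination -e1
    · rw [sub_eq_add_neg, qf_add_right, qf_neg_right, ← sub_eq_add_neg, sub_eq_zero]
      linear_combination -e2
  exact Prod.ext (sub_eq_zero.1 (qf_eq_zero hδ (key _).1)) (sub_eq_zero.1 (qf_eq_zero hδ (key _).2))

lemma card_range (hδ : ¬ IsSquare δ) [Finite F] :
    Nat.card (phi fr h2).range = Nat.card F ^ 4 := by
  have hinj : Function.Injective (phi fr h2) := fun x y h =>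
    Multiplicative.toAdd.injective (el_injective fr h2 hδ h)
  rw [← Nat.card_congr (MonoidHom.ofInjective hinj).toEquiv,
    Nat.card_congr Multiplicative.toAdd, Nat.card_prod, Nat.card_prod]
  ring

lemma el_iso (x : (F × F) × (F × F)) : IsoV δ (el fr h2 x : MV F 2) := by
  rw [IsoV, el_val, tt_adj (fr.u_adj x.1) (fr.u_adj x.2), mul_assoc, tt_mul, fr.u_mul h2,
    fr.u_mul h2, neg_add_cancel, neg_add_cancel, fr.u_zero, tt_one, mul_one]

lemma el_mem_Wr (x : (F × F) × (F × F)) : el fr h2 x ∈ Wr F 2 :=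
  Subgroup.subset_closure (Or.inl ⟨![glU fr h2 x.1, glU fr h2 x.2], fun _ _ => rfl⟩)

include h2 in
lemma bnondeg (hδ : ¬ IsSquare δ) : BNondeg (Qd δ 2) := fun x hx => funext fun a => by
  have := hx (Pi.single a 1)
  rw [(link δ 2 h2).polar_eq, gV_diag, Matrix.mulVec_single_one, Matrix.col] at this
  have e := (mul_eq_zero.1 this).resolve_left h2
  simp only [dotProduct, Matrix.transpose_apply, Matrix.diagonal_apply, mul_ite, mul_zero,
    Finset.sum_ite_eq', Finset.mem_univ, if_true] at e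
  exact (mul_eq_zero.1 e).resolve_right (Finset.prod_ne_zero_iff.2 fun i _ => wt_ne_zero hδ _)

lemma el_mem_Om (hδ : ¬ IsSquare δ) [Finite F] (x : (F × F) × (F × F)) : el fr h2 x ∈ Om δ 2 := by
  haveI := Fintype.ofFinite F
  obtain ⟨g, hg⟩ := (link δ 2 h2).exists_oq h2 (el_iso fr h2 ((2 : F)⁻¹ • x))
  refine ⟨g * g, Forms.mul_self_mem_commutator (bnondeg h2 hδ)
    (OrthGen.notExceptional_of_two_ne_zero h2) g, ?_⟩
  rw [map_mul, hg, ← el_add, ← add_smul, ← two_mul, mul_inv_cancel₀ h2, one_smul]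

lemma range_le [Finite F] {M : Subgroup (GV F 2)} (h : Over δ M) : (phi fr h2).range ≤ M := by
  rintro _ ⟨x, rfl⟩
  exact h.mem (el_mem_Wr fr h2 _) (el_mem_Om fr h2 h.nsq (Multiplicative.toAdd x))

/-! ### Pairs of displacements with zero product -/

/-- The displacement. -/
noncomputable def N (x : (F × F) × (F × F)) : MV F 2 := (el fr h2 x : MV F 2) - 1

lemma N_mul (x y : (F × F) × (F × F)) : N fr h2 x * N fr h2 y =
    (el fr h2 (x + y) : MV F 2) - el fr h2 x - el fr h2 y + 1 := by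
  rw [N, N, el_add, Units.val_mul]; noncomm_ring

lemma pure_of_N_mul (hδ : ¬ IsSquare δ) {x y : (F × F) × (F × F)} (hx : x ≠ 0) (hy : y ≠ 0)
    (h : N fr h2 x * N fr h2 y = 0) : x.1 = 0 ∨ x.2 = 0 := by
  rw [N_mul] at h
  have key : ∀ a b, gB (G4 δ) a (fr.u (x.1 + y.1) *ᵥ fr.v) * gB (G4 δ) b (fr.u (x.2 + y.2) *ᵥ fr.v)
      - gB (G4 δ) a (fr.u x.1 *ᵥ fr.v) * gB (G4 δ) b (fr.u x.2 *ᵥ fr.v)
      - gB (G4 δ) a (fr.u y.1 *ᵥ fr.v) * gB (G4 δ) b (fr.u y.2 *ᵥ fr.v)
      + gB (G4 δ) a fr.v * gB (G4 δ) b fr.v = 0 := fun a b => by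
    have := congrArg (fun X : MV F 2 => bv δ (pv a b) (X *ᵥ pv fr.v fr.v)) h
    simp only [add_mulVec, sub_mulVec, one_mulVec, zero_mulVec, bv_add_right] at this
    rw [show bv δ (pv a b) (0 : Vec F 2) = 0 by simp [bv]] at this
    have exy := el_pair fr h2 (x + y) a b
    rw [Prod.fst_add, Prod.snd_add] at exy
    rw [← exy, ← el_pair fr h2 x, ← el_pair fr h2 y, ← bv_pv, ← this]
    simp only [bv, mulVec_sub, dotProduct_sub]
  have k1 : qf δ x.1 y.1 = 0 := by
    have := key fr.v fr.w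
    rw [v_uv, v_uv, v_uv, w_uv, w_uv, w_uv, fr.vv, fr.wv, qf_add_left, qf_add_right, qf_add_right,
      qf_symm δ y.1 x.1] at this
    field_simp at this
    have h' : (2 : F) * qf δ x.1 y.1 = 0 := by linear_combination -this
    exact (mul_eq_zero.1 h').resolve_left h2
  have k2 : qf δ x.2 y.2 = 0 := by
    have := key fr.w fr.v
    rw [v_uv, v_uv, v_uv, w_uv, w_uv, w_uv, fr.vv, fr.wv, qf_add_left, qf_add_right, qf_add_right,
      qf_symm δ y.2 x.2] at this
    field_simp at this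
    have h' : (2 : F) * qf δ x.2 y.2 = 0 := by linear_combination -this
    exact (mul_eq_zero.1 h').resolve_left h2
  have k3 : ∀ s s', qf δ s x.1 * qf δ s' y.2 + qf δ s y.1 * qf δ s' x.2 = 0 := fun s s' => by
    have := key (fr.yl s) (fr.yl s')
    rw [y_uv, y_uv, y_uv, y_uv, y_uv, y_uv, fr.yv, fr.yv, qf_add_right, qf_add_right] at this
    linear_combination this
  by_contra hne
  push Not at hne
  obtain ⟨h1, h2'⟩ := hne
  have a := k3 x.1 y.2
  rw [k1, zero_mul, add_zero] at a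
  have hy2 : y.2 = 0 := qf_eq_zero hδ
    ((mul_eq_zero.1 a).resolve_left fun e => h1 (qf_eq_zero hδ e))
  have b := k3 y.1 x.2
  rw [hy2, qf_zero_right, mul_zero, zero_add] at b
  rcases mul_eq_zero.1 b with e | e
  · exact hy (Prod.ext (qf_eq_zero hδ e) hy2)
  · exact h2' (qf_eq_zero hδ e)

lemma N_zero_site (s r : F × F) (h : qf δ s r = 0) : N fr h2 (s, 0) * N fr h2 (r, 0) = 0 := by
  rw [N, N, el_val, el_val, fr.u_zero, ← tt_one, ← tt_sub_left, ← tt_sub_left, tt_mul]
  simp [Fr.u, sub_mul, mul_sub, fr.KK, fr.KB, fr.BK, fr.BB, h]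

lemma N_one_site (s r : F × F) (h : qf δ s r = 0) : N fr h2 (0, s) * N fr h2 (0, r) = 0 := by
  rw [N, N, el_val, el_val, fr.u_zero, ← tt_one, ← tt_sub_right, ← tt_sub_right, tt_mul]
  simp [Fr.u, sub_mul, mul_sub, fr.KK, fr.KB, fr.BK, fr.BB, h]

end

/-- An additive bijection of `p`-power order of the plane scaling the form is trivial. -/
theorem plane_id [Finite F] (hδ : ¬ IsSquare δ) {p : ℕ} [Fact p.Prime] [CharP F p]
    (α : F × F → F × F) (hadd : ∀ s r, α (s + r) = α s + α r) (ν : F)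
    (hν : ∀ s r, qf δ (α s) (α r) = ν * qf δ s r) (k : ℕ) (hk : α^[p ^ k] = id) : α = id := by
  haveI : Fintype F := Fintype.ofFinite F
  have hbij : Function.Bijective α := by
    have h1 : p ^ k = (p ^ k - 1) + 1 :=
      (Nat.sub_add_cancel (Nat.one_le_pow _ _ (Fact.out : p.Prime).pos)).symm
    refine Finite.injective_iff_bijective.1 fun s r e => ?_
    have := congrArg (α^[p ^ k - 1]) e
    rwa [← Function.iterate_succ_apply, ← Function.iterate_succ_apply, Nat.succ_eq_add_one, ← h1,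
      hk] at this
  have h0 : α 0 = 0 := by
    have := hadd 0 0
    rw [add_zero] at this
    simpa using this
  have hsmul : ∀ (c : F) s, α (c • s) = c • α s := fun c s => by
    refine sub_eq_zero.1 (qf_eq_zero hδ ?_)
    have aux : ∀ z, qf δ (α (c • s) - c • α s) z = 0 := fun z => by
      obtain ⟨r, rfl⟩ := hbij.2 z
      rw [sub_eq_add_neg, qf_add_left, qf_neg_left, qf_smul_left, hν, hν, qf_smul_left]; ring
    exact aux _
  let σ : Equiv.Perm (F × F) := Equiv.ofBijective α hbij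
  have hσ : σ ^ p ^ k = 1 := Equiv.ext fun s => by
    rw [← Equiv.Perm.iterate_eq_pow]
    exact congrFun hk s
  obtain ⟨x, hx, hx0⟩ := Equiv.Perm.exists_fixed_point_of_prime' (p := p) (n := k)
    (by
      obtain ⟨n, hp, hc⟩ := FiniteField.card F p
      rw [Fintype.card_prod, hc]; exact dvd_mul_of_dvd_left (dvd_pow_self p n.ne_zero) _)
    hσ (a := (0 : F × F)) h0
  replace hx : α x = x := hx
  have hxq : qf δ x x ≠ 0 := fun e => hx0 (qf_eq_zero hδ e)
  have hν1 : ν = 1 := by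
    have := hν x x
    rw [hx] at this
    exact mul_right_cancel₀ hxq (by rw [one_mul]; exact this.symm)
  set y := perp δ x with hy
  set l := qf δ (α y) y / qf δ y y with hl
  have hy' : α y = l • y := eq_smul_of_perp hδ hx0 (by
    have := hν x y
    rwa [hx, hy, qf_perp, mul_zero] at this)
  have hy0 : y ≠ 0 := perp_ne_zero hδ hx0
  have hiter : ∀ m, α^[m] y = l ^ m • y := fun m => by
    induction m with
    | zero => simp
    | succ m ih => rw [Function.iterate_succ_apply', ih, hsmul, hy', smul_smul, pow_succ]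
  have hl1 : l = 1 := by
    have h1 : l ^ p ^ k = 1 := by
      have := hiter (p ^ k)
      rw [hk] at this
      have e : (l ^ p ^ k - 1) • y = 0 := by rw [sub_smul, ← this, one_smul]; simp
      exact sub_eq_zero.1 ((smul_eq_zero.1 e).resolve_right hy0)
    have h2 : (l - 1) ^ p ^ k = 0 := by rw [sub_pow_char_pow, h1, one_pow, sub_self]
    exact sub_eq_zero.1 (eq_zero_of_pow_eq_zero h2)
  funext z
  set a := qf δ z x / qf δ x x with ha
  have hz : qf δ x (z - a • x) = 0 := by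
    rw [sub_eq_add_neg, qf_add_right, qf_neg_right, qf_smul_right, ha, div_mul_cancel₀ _ hxq,
      qf_symm, add_neg_cancel]
  have e := eq_smul_of_perp hδ hx0 hz
  rw [← hy] at e
  obtain ⟨b, hb⟩ : ∃ b : F, z = a • x + b • y := ⟨_, by rw [← e]; abel⟩
  rw [id_eq, hb, hadd, hsmul, hsmul, hx, hy', hl1, one_smul]

/-- The root subgroups are self-normalising `p`-subgroups unless there is a long root element. -/
theorem normalizer_step [Finite F] {p : ℕ} [Fact p.Prime] [CharP F p] {M : Subgroup (GV F 2)}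
    (h : Over δ M) (hno : ¬ RootTwo δ M) (fr : Fr δ) {g : GV F 2} (hgM : g ∈ M) (k : ℕ)
    (hk : g ^ p ^ k = 1)
    (hnorm : ∀ x, ∃ y, el fr h.two y = g * el fr h.two x * g⁻¹) :
    g ∈ (phi fr h.two).range := by
  have h2 := h.two
  have hδ := h.nsq
  have hpodd : Odd p := (Fact.out : p.Prime).odd_of_ne_two fun e => by
    subst e; exact h2 (CharP.cast_eq_zero F 2)
  choose ψ hψ using hnorm
  have hinj := el_injective fr h.two hδ
  have hψadd : ∀ x y, ψ (x + y) = ψ x + ψ y := fun x y => hinj (by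
    rw [hψ, el_add, el_add, hψ, hψ]; group)
  have hψ0 : ψ 0 = 0 := hinj (by rw [hψ, el_zero]; group)
  have hψinj : Function.Injective ψ := fun x y e => hinj (by
    have := hψ x
    rw [e, hψ y] at this
    exact (mul_left_cancel (mul_right_cancel this)).symm)
  have hiter : ∀ (m : ℕ) x, el fr h.two (ψ^[m] x) = g ^ m * el fr h.two x * (g ^ m)⁻¹ := by
    intro m x
    induction m with
    | zero => simp
    | succ m ih => rw [Function.iterate_succ_apply', hψ, ih, pow_succ']; group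
  have hid : ψ^[p ^ k] = id := funext fun x => hinj (by rw [hiter, hk]; simp)
  have hN : ∀ x, N fr h.two (ψ x) = (g : MV F 2) * N fr h.two x * ((g⁻¹ : GV F 2) : MV F 2) := by
    intro x
    rw [N, N, hψ, Units.val_mul, Units.val_mul, mul_sub, sub_mul, mul_one, Units.mul_inv]
  -- images of site elements are site elements
  have hpure : ∀ x, x.1 = 0 ∨ x.2 = 0 → (ψ x).1 = 0 ∨ (ψ x).2 = 0 := by
    intro x hx
    by_cases hx0 : x = 0
    · rw [hx0, hψ0]; exact Or.inl rfl
    obtain ⟨y, hy0, hxy⟩ : ∃ y, y ≠ 0 ∧ N fr h.two x * N fr h.two y = 0 := by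
      obtain ⟨a, b⟩ := x
      rcases hx with e | e
      · obtain rfl : a = 0 := e
        have hb : b ≠ 0 := fun e => hx0 (by simp [e])
        exact ⟨(0, perp δ b), fun e => perp_ne_zero hδ hb (congrArg Prod.snd e),
          N_one_site fr h.two _ _ (qf_perp δ b)⟩
      · obtain rfl : b = 0 := e
        have ha : a ≠ 0 := fun e => hx0 (by simp [e])
        exact ⟨(perp δ a, 0), fun e => perp_ne_zero hδ ha (congrArg Prod.fst e),
          N_zero_site fr h.two _ _ (qf_perp δ a)⟩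
    refine pure_of_N_mul fr h.two hδ (fun e => hx0 (hψinj (e.trans hψ0.symm)))
      (fun e => hy0 (hψinj (e.trans hψ0.symm))) ?_
    rw [hN, hN, show (g : MV F 2) * N fr h.two x * ((g⁻¹ : GV F 2) : MV F 2) *
      ((g : MV F 2) * N fr h.two y * ((g⁻¹ : GV F 2) : MV F 2)) =
        (g : MV F 2) * (N fr h.two x * N fr h.two y) * ((g⁻¹ : GV F 2) : MV F 2) by
      simp only [mul_assoc, Units.inv_mul_cancel_left], hxy, mul_zero, zero_mul]
  have huni : ∀ j : F × F → (F × F) × (F × F), (∀ s r, j (s + r) = j s + j r) →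
      (∀ s, (j s).1 = 0 ∨ (j s).2 = 0) →
      (∀ s, (ψ (j s)).1 = 0) ∨ (∀ s, (ψ (j s)).2 = 0) := by
    intro j hj hjp
    by_contra hne
    push Not at hne
    obtain ⟨⟨s, hs⟩, ⟨r, hr⟩⟩ := hne
    have s2 := (hpure _ (hjp s)).resolve_left hs
    have r1 := (hpure _ (hjp r)).resolve_right hr
    rcases hpure _ (hjp (s + r)) with e | e
    · rw [hj, hψadd, Prod.fst_add, r1, add_zero] at e; exact hs e
    · rw [hj, hψadd, Prod.snd_add, s2, zero_add] at e; exact hr e
  have h0 := huni (fun s => (s, 0)) (fun s r => by simp) (fun s => Or.inr rfl)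
  have h1 := huni (fun s => (0, s)) (fun s r => by simp) (fun s => Or.inl rfl)
  have hsplit : ∀ x : (F × F) × (F × F), ψ x = ψ (x.1, 0) + ψ (0, x.2) := fun x => by
    rw [← hψadd]; simp
  have hsurj := Finite.injective_iff_surjective.1 hψinj
  obtain ⟨one, hone⟩ : ∃ one : F × F, one ≠ 0 := ⟨(1, 0), by simp⟩
  have hsame : (∀ s, (ψ (s, 0)).2 = 0) ∧ (∀ s, (ψ (0, s)).1 = 0) := by
    rcases h0 with a | a <;> rcases h1 with b | b
    · exfalso
      obtain ⟨x, hx⟩ := hsurj (one, 0)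
      have := congrArg Prod.fst hx
      rw [hsplit, Prod.fst_add, a, b, add_zero] at this
      exact hone this.symm
    · exfalso
      -- a swap has even order
      have key : ∀ m x, (x.2 = 0 → (ψ^[2 * m] x).2 = 0 ∧ (ψ^[2 * m + 1] x).1 = 0) := by
        intro m
        induction m with
        | zero =>
          rintro ⟨s, r⟩ (rfl : r = 0)
          exact ⟨rfl, a s⟩
        | succ m ih =>
          intro x hx
          obtain ⟨-, h'⟩ := ih x hx
          have e2 : (ψ^[2 * (m + 1)] x).2 = 0 := by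
            rw [show 2 * (m + 1) = (2 * m + 1) + 1 by ring, Function.iterate_succ_apply',
              show ψ^[2 * m + 1] x = (0, (ψ^[2 * m + 1] x).2) from Prod.ext h' rfl]
            exact b _
          refine ⟨e2, ?_⟩
          rw [Function.iterate_succ_apply',
            show ψ^[2 * (m + 1)] x = ((ψ^[2 * (m + 1)] x).1, 0) from Prod.ext rfl e2]
          exact a _
      obtain ⟨m, hm⟩ := hpodd.pow (n := k)
      have := (key m (one, 0) rfl).2
      rw [← hm, hid] at this
      exact hone this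
    · exact ⟨a, b⟩
    · exfalso
      obtain ⟨x, hx⟩ := hsurj (0, one)
      have := congrArg Prod.snd hx
      rw [hsplit, Prod.snd_add, a, b, add_zero] at this
      exact hone this.symm
  -- the action on each plane is trivial
  have hK0 : tt fr.K (1 : M4 F) ≠ 0 := fun e => by
    have := congrArg (fun X : MV F 2 => bv δ (pv fr.v fr.w) (X *ᵥ pv fr.v fr.v)) e
    simp [tt_mulVec, bv_pv, fr.K_apply, fr.wv, fr.vw, bv_zero_right] at this
  have hK1 : tt (1 : M4 F) fr.K ≠ 0 := fun e => by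
    have := congrArg (fun X : MV F 2 => bv δ (pv fr.w fr.v) (X *ᵥ pv fr.v fr.v)) e
    simp [tt_mulVec, bv_pv, fr.K_apply, fr.wv, fr.vw, bv_zero_right] at this
  have hprod : ∀ (j : F × F → (F × F) × (F × F)) (T : MV F 2) (α : F × F → F × F), T ≠ 0 →
      (∀ s r, N fr h.two (j s) * N fr h.two (j r) = -qf δ s r • T) →
      (∀ s, ψ (j s) = j (α s)) →
      ∃ ν : F, ∀ s r, qf δ (α s) (α r) = ν * qf δ s r := by
    intro j T α hT hj hα
    refine ⟨qf δ (α (0, 1)) (α (0, 1)), fun s r => ?_⟩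
    have e : ∀ s r, -qf δ (α s) (α r) • T =
        -qf δ s r • ((g : MV F 2) * T * ((g⁻¹ : GV F 2) : MV F 2)) := fun s r => by
      rw [← hj, ← hα, ← hα, hN, hN, ← Matrix.smul_mul, ← Matrix.mul_smul, ← hj]
      simp only [mul_assoc, Units.inv_mul_cancel_left]
    have e1 := e (0, 1) (0, 1)
    rw [show qf δ ((0 : F), (1 : F)) (0, 1) = 1 by simp [qf], neg_one_smul] at e1
    have e2 := e s r
    rw [show (g : MV F 2) * T * ((g⁻¹ : GV F 2) : MV F 2) = qf δ (α (0, 1)) (α (0, 1)) • T by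
      rw [← neg_inj, ← e1, neg_smul], smul_smul] at e2
    have e3 := sub_eq_zero.2 e2
    rw [← sub_smul, smul_eq_zero] at e3
    linear_combination -(e3.resolve_right hT)
  have hj0 : ∀ s r, N fr h.two (s, 0) * N fr h.two (r, 0) = -qf δ s r • tt fr.K 1 := fun s r => by
    rw [N, N, el_val, el_val, fr.u_zero, ← tt_one, ← tt_sub_left, ← tt_sub_left, tt_mul,
      ← tt_smul_left, mul_one]
    congr 1
    simp [Fr.u, sub_mul, mul_sub, fr.KK, fr.KB, fr.BK, fr.BB]
  have hj1 : ∀ s r, N fr h.two (0, s) * N fr h.two (0, r) = -qf δ s r • tt 1 fr.K := fun s r => by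
    rw [N, N, el_val, el_val, fr.u_zero, ← tt_one, ← tt_sub_right, ← tt_sub_right, tt_mul,
      ← tt_smul_right, mul_one]
    congr 1
    simp [Fr.u, sub_mul, mul_sub, fr.KK, fr.KB, fr.BK, fr.BB]
  have hfix : ∀ x, ψ x = x := by
    have main : ∀ (j : F × F → (F × F) × (F × F)) (T : MV F 2) (α : F × F → F × F), T ≠ 0 →
        (∀ s r, N fr h.two (j s) * N fr h.two (j r) = -qf δ s r • T) →
        (∀ s, ψ (j s) = j (α s)) → (∀ s r, α (s + r) = α s + α r) → Function.Injective j →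
        α = id := by
      intro j T α hT hj hα hadd hjinj
      obtain ⟨ν, hν⟩ := hprod j T α hT hj hα
      refine plane_id hδ α hadd ν hν k (funext fun s => hjinj ?_)
      have : ∀ m, ψ^[m] (j s) = j (α^[m] s) := fun m => by
        induction m with
        | zero => rfl
        | succ m ih => rw [Function.iterate_succ_apply', Function.iterate_succ_apply', ih, hα]
      rw [← this, hid]; rfl
    have a0 := main (fun s => (s, 0)) _ (fun s => (ψ (s, 0)).1) hK0 hj0
      (fun s => Prod.ext rfl (hsame.1 s))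
      (fun s r => by rw [← Prod.fst_add, ← hψadd]; simp) (fun s r e => congrArg Prod.fst e)
    have a1 := main (fun s => (0, s)) _ (fun s => (ψ (0, s)).2) hK1 hj1
      (fun s => Prod.ext (hsame.2 s) rfl)
      (fun s r => by rw [← Prod.snd_add, ← hψadd]; simp) (fun s r e => congrArg Prod.snd e)
    intro x
    have e0 : ψ (x.1, 0) = (x.1, 0) := Prod.ext (congrFun a0 x.1) (hsame.1 x.1)
    have e1 : ψ (0, x.2) = (0, x.2) := Prod.ext (hsame.2 x.2) (congrFun a1 x.2)
    rw [hsplit, e0, e1]; simp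
  -- the centraliser
  have hcom : ∀ g' : GV F 2, (∀ x, Commute g' (el fr h.two x)) →
      ∀ X Y, fr.InA X → fr.InA Y → Commute (g' : MV F 2) (tt X Y) := by
    intro g' hc
    have hu : ∀ x, Commute (g' : MV F 2) (el fr h.two x : MV F 2) := fun x => (hc x).units_val
    have hB0 : ∀ s, Commute (g' : MV F 2) (tt (fr.B s) 1) := fun s => by
      have e : tt (fr.B s) 1 = (2 : F)⁻¹ •
          ((el fr h.two (s, 0) : MV F 2) - (el fr h.two (-s, 0) : MV F 2)) := by
        rw [el_val, el_val, fr.u_zero, ← tt_sub_left, ← tt_smul_left]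
        congr 1
        simp only [Fr.u, fr.B_neg, qf_neg_left, qf_neg_right, neg_neg]
        match_scalars <;> field_simp <;> ring
      rw [e]; exact ((hu _).sub_right (hu _)).smul_right _
    have hB1 : ∀ s, Commute (g' : MV F 2) (tt 1 (fr.B s)) := fun s => by
      have e : tt 1 (fr.B s) = (2 : F)⁻¹ •
          ((el fr h.two (0, s) : MV F 2) - (el fr h.two (0, -s) : MV F 2)) := by
        rw [el_val, el_val, fr.u_zero, ← tt_sub_right, ← tt_smul_right]
        congr 1
        simp only [Fr.u, fr.B_neg, qf_neg_left, qf_neg_right, neg_neg]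
        match_scalars <;> field_simp <;> ring
      rw [e]; exact ((hu _).sub_right (hu _)).smul_right _
    have hK0' : Commute (g' : MV F 2) (tt fr.K 1) := by
      have := (hB0 (0, 1)).mul_right (hB0 (0, 1))
      rw [tt_mul, fr.BB, mul_one, show qf δ ((0 : F), (1 : F)) (0, 1) = 1 by simp [qf],
        tt_smul_left] at this
      simpa using this.smul_right (-1 : F)
    have hK1' : Commute (g' : MV F 2) (tt 1 fr.K) := by
      have := (hB1 (0, 1)).mul_right (hB1 (0, 1))
      rw [tt_mul, fr.BB, mul_one, show qf δ ((0 : F), (1 : F)) (0, 1) = 1 by simp [qf],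
        tt_smul_right] at this
      simpa using this.smul_right (-1 : F)
    have h11 : Commute (g' : MV F 2) (tt (1 : M4 F) 1) := by rw [tt_one]; exact Commute.one_right _
    rintro X Y ⟨a, c, s, rfl⟩ ⟨a', c', r, rfl⟩
    rw [show tt (a • fr.K + c • (1 : M4 F) + fr.B s) (a' • fr.K + c' • (1 : M4 F) + fr.B r) =
      (a • tt fr.K 1 + c • tt 1 1 + tt (fr.B s) 1) *
        (a' • tt 1 fr.K + c' • tt 1 1 + tt 1 (fr.B r)) by
      simp only [tt_add_left, tt_add_right, tt_smul_left, tt_smul_right, mul_add, add_mul,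
        smul_mul_assoc, mul_smul_comm, tt_mul, mul_one, one_mul, smul_add, smul_smul]]
    exact (((hK0'.smul_right a).add_right (h11.smul_right c)).add_right (hB0 s)).mul_right
      (((hK1'.smul_right a').add_right (h11.smul_right c')).add_right (hB1 r))
  have hgc : ∀ x, Commute g (el fr h.two x) := fun x => by
    have := hψ x
    rw [hfix] at this
    exact (mul_inv_eq_iff_eq_mul.1 this.symm)
  set vv := pv fr.v fr.v with hvv
  -- the leading coefficient
  have hlead : ∀ g' : GV F 2, (∀ x, Commute g' (el fr h.two x)) → ∀ (n : ℕ), g' ^ p ^ n = 1 →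
      bv δ (pv fr.w fr.w) ((g' : MV F 2) *ᵥ vv) = 1 := by
    intro g' hc n hn
    set γ := bv δ (pv fr.w fr.w) ((g' : MV F 2) *ᵥ vv) with hγ
    have step : ∀ z, bv δ (pv fr.w fr.w) ((g' : MV F 2) *ᵥ z) = γ * bv δ (pv fr.w fr.w) z := by
      have pure : ∀ x y, bv δ (pv fr.w fr.w) ((g' : MV F 2) *ᵥ pv x y) =
          γ * bv δ (pv fr.w fr.w) (pv x y) := fun x y => by
        obtain ⟨X, hX, rfl⟩ := fr.exists_inA x
        obtain ⟨Y, hY, rfl⟩ := fr.exists_inA y
        rw [← tt_mulVec, mulVec_mulVec, (hcom g' hc X Y hX hY).eq, ← mulVec_mulVec]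
        obtain ⟨a, c, s, rfl⟩ := hX
        obtain ⟨a', c', r, rfl⟩ := hY
        have hadj : ∀ (a c : F) s, (a • fr.K + c • (1 : M4 F) + fr.B s)ᵀ * G4 δ =
            G4 δ * (a • fr.K + c • (1 : M4 F) + fr.B (-s)) := fun a c s => by
          simp only [transpose_add, transpose_smul, transpose_one, add_mul, smul_mul_assoc, one_mul,
            fr.K_adj, fr.B_adj, mul_add, mul_smul_comm, mul_one]
        have hw : ∀ (a c : F) s, (a • fr.K + c • (1 : M4 F) + fr.B s) *ᵥ fr.w = c • fr.w :=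
          fun a c s => by
            simp [add_mulVec, smul_mulVec, fr.K_apply, fr.B_apply, fr.ww, fr.yw]
        have key : ∀ z, bv δ (pv fr.w fr.w) (tt (a • fr.K + c • (1 : M4 F) + fr.B s)
            (a' • fr.K + c' • (1 : M4 F) + fr.B r) *ᵥ z) = c * c' * bv δ (pv fr.w fr.w) z := by
          intro z
          rw [bv_symm, bv_tt (hadj a c s) (hadj a' c' r), tt_mulVec, hw, hw, pv_smul_left,
            pv_smul_right, bv_smul_right, bv_smul_right, bv_symm]
          ring
        rw [key, key, hγ, hvv, bv_pv, fr.wv]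
        ring
      intro z
      induction z using Pi.single_induction with
      | zero => simp [bv]
      | single a c =>
        rw [show (Pi.single a c : Vec F 2) = c • Pi.single a 1 by rw [← Pi.single_smul', smul_eq_mul,
          mul_one], single_eq, mulVec_smul, bv_smul_right, bv_smul_right, pure]
        ring
      | add z z' hz hz' => rw [mulVec_add, bv_add_right, bv_add_right, hz, hz', mul_add]
    have hm : ∀ m : ℕ, bv δ (pv fr.w fr.w) (((g' ^ m : GV F 2) : MV F 2) *ᵥ vv) = γ ^ m := by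
      intro m
      induction m with
      | zero => simp [hvv, bv_pv, fr.wv]
      | succ m ih => rw [pow_succ', Units.val_mul, ← mulVec_mulVec, step, ih, pow_succ']
    have := hm (p ^ n)
    rw [hn, Units.val_one, one_mulVec, hvv, bv_pv, fr.wv, one_mul] at this
    have h' : (γ - 1) ^ p ^ n = 0 := by rw [sub_pow_char_pow, ← this, one_pow, sub_self]
    exact sub_eq_zero.1 (eq_zero_of_pow_eq_zero h')
  -- remove the component of degree one
  set C := (g : MV F 2) *ᵥ vv with hC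
  obtain ⟨a1, ha1⟩ : ∃ a1, ∀ s, bv δ (pv (fr.yl s) fr.w) C = qf δ a1 s := by
    refine ⟨(bv δ (pv (fr.yl (1, 0)) fr.w) C / (-δ), bv δ (pv (fr.yl (0, 1)) fr.w) C), fun s => ?_⟩
    have hδ0 : δ ≠ 0 := fun e => hδ (e ▸ IsSquare.zero)
    rw [show s = s.1 • ((1 : F), (0 : F)) + s.2 • ((0 : F), (1 : F)) by simp, map_add, map_smul,
      map_smul, pv_add_left, pv_smul_left, pv_smul_left, bv_add_left, bv_smul_left, bv_smul_left]
    simp [qf]; field_simp
  obtain ⟨b1, hb1⟩ : ∃ b1, ∀ s, bv δ (pv fr.w (fr.yl s)) C = qf δ b1 s := by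
    refine ⟨(bv δ (pv fr.w (fr.yl (1, 0))) C / (-δ), bv δ (pv fr.w (fr.yl (0, 1))) C), fun s => ?_⟩
    have hδ0 : δ ≠ 0 := fun e => hδ (e ▸ IsSquare.zero)
    rw [show s = s.1 • ((1 : F), (0 : F)) + s.2 • ((0 : F), (1 : F)) by simp, map_add, map_smul,
      map_smul, pv_add_right, pv_smul_right, pv_smul_right, bv_add_left, bv_smul_left, bv_smul_left]
    simp [qf]; field_simp
  set g' := el fr h.two (-a1, -b1) * g with hg'
  have hc' : ∀ x, Commute g' (el fr h.two x) := fun x => by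
    refine Commute.mul_left ?_ (hgc x)
    show _ = _
    rw [← el_add, ← el_add, add_comm]
  have hg'M : g' ∈ M := mul_mem (range_le fr h.two h ((mem_range fr h.two).2 ⟨_, rfl⟩)) hgM
  have hg'ord : g' ^ p ^ (k + 1) = 1 := by
    rw [hg', (hgc _).symm.mul_pow, show g ^ p ^ (k + 1) = 1 by rw [pow_succ, pow_mul, hk, one_pow],
      mul_one, el, ← map_pow, ← ofAdd_nsmul]
    rw [show p ^ (k + 1) • ((-a1, -b1) : (F × F) × (F × F)) = 0 by
      rw [← Nat.cast_smul_eq_nsmul F, Nat.cast_pow, CharP.cast_eq_zero, zero_pow (Nat.succ_ne_zero k),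
        zero_smul], ofAdd_zero, map_one]
  set c := (g' : MV F 2) *ᵥ vv with hc
  have cww : bv δ (pv fr.w fr.w) c = 1 := hlead g' hc' _ hg'ord
  have huw : ∀ s, fr.u s *ᵥ fr.w = fr.w := fun s => by
    simp [fr.u_apply, fr.ww, fr.yw]
  have huy : ∀ s r, fr.u s *ᵥ fr.yl r = fr.yl r - qf δ s r • fr.w := fun s r => by
    simp [fr.u_apply, fr.wy, fr.yy, sub_eq_add_neg]
  have cshift : ∀ x y, bv δ (pv x y) c = bv δ (pv (fr.u a1 *ᵥ x) (fr.u b1 *ᵥ y)) C := fun x y => by
    rw [hc, hg', Units.val_mul, el_val, ← mulVec_mulVec, bv_symm,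
      bv_tt (fr.u_adj _) (fr.u_adj _), neg_neg, neg_neg, tt_mulVec, bv_symm, ← hC]
  have hCww : bv δ (pv fr.w fr.w) C = 1 := hlead g hgc k hk
  have cyw : ∀ s, bv δ (pv (fr.yl s) fr.w) c = 0 := fun s => by
    rw [cshift, huw, huy, pv_sub_left, pv_smul_left, bv_sub_left, bv_smul_left, ha1, hCww, mul_one,
      sub_self]
  have cwy : ∀ s, bv δ (pv fr.w (fr.yl s)) c = 0 := fun s => by
    rw [cshift, huw, huy, pv_sub_right, pv_smul_right, bv_sub_left, bv_smul_left, hb1, hCww, mul_one,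
      sub_self]
  -- bilinear expansion
  have hexp : ∀ z : Vec F 2, ∀ a a' c₁ c₂ : F, ∀ s r : F × F,
      bv δ (pv (a • fr.w + c₁ • fr.v + fr.yl s) (a' • fr.w + c₂ • fr.v + fr.yl r)) z =
      a * a' * bv δ (pv fr.w fr.w) z + a * c₂ * bv δ (pv fr.w fr.v) z +
        a * bv δ (pv fr.w (fr.yl r)) z + c₁ * a' * bv δ (pv fr.v fr.w) z +
        c₁ * c₂ * bv δ (pv fr.v fr.v) z + c₁ * bv δ (pv fr.v (fr.yl r)) z +
        a' * bv δ (pv (fr.yl s) fr.w) z + c₂ * bv δ (pv (fr.yl s) fr.v) z +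
        bv δ (pv (fr.yl s) (fr.yl r)) z := fun z a a' c₁ c₂ s r => by
    simp only [pv_add_left, pv_add_right, pv_smul_left, pv_smul_right, bv_add_left, bv_smul_left,
      mul_add]
    ring
  have hext : ∀ z z' : Vec F 2,
      bv δ (pv fr.w fr.w) z = bv δ (pv fr.w fr.w) z' →
      bv δ (pv fr.w fr.v) z = bv δ (pv fr.w fr.v) z' →
      (∀ r, bv δ (pv fr.w (fr.yl r)) z = bv δ (pv fr.w (fr.yl r)) z') →
      bv δ (pv fr.v fr.w) z = bv δ (pv fr.v fr.w) z' →
      bv δ (pv fr.v fr.v) z = bv δ (pv fr.v fr.v) z' →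
      (∀ r, bv δ (pv fr.v (fr.yl r)) z = bv δ (pv fr.v (fr.yl r)) z') →
      (∀ r, bv δ (pv (fr.yl r) fr.w) z = bv δ (pv (fr.yl r) fr.w) z') →
      (∀ r, bv δ (pv (fr.yl r) fr.v) z = bv δ (pv (fr.yl r) fr.v) z') →
      (∀ s r, bv δ (pv (fr.yl s) (fr.yl r)) z = bv δ (pv (fr.yl s) (fr.yl r)) z') → z = z' := by
    intro z z' e1 e2 e3 e4 e5 e6 e7 e8 e9
    refine ext_bv hδ fun x y => ?_
    obtain ⟨a, c₁, s, rfl⟩ := fr.expand x
    obtain ⟨a', c₂, r, rfl⟩ := fr.expand y
    rw [hexp, hexp, e1, e2, e3, e4, e5, e6, e7, e8, e9]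
  have hiso := h.isoV hg'M
  have hac : ∀ X Y, fr.InA X → fr.InA Y →
      bv δ (tt X Y *ᵥ c) c = bv δ (tt X Y *ᵥ vv) vv := fun X Y hX hY => by
    rw [hc, mulVec_mulVec, ← (hcom g' hc' X Y hX hY).eq, ← mulVec_mulVec, bv_iso hiso]
  have pair0 : ∀ x y : Fin 4 → F, bv δ (pv x y) c = bv δ c (pv x y) := fun x y => bv_symm _ _
  have cvw : bv δ (pv fr.v fr.w) c = 0 := by
    -- the map at the second site
    have e : tt 1 fr.K *ᵥ c = pv fr.v fr.w + bv δ (pv fr.v fr.w) c • pv fr.w fr.w := by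
      have sand : ∀ x y, bv δ (pv x y) (tt 1 fr.K *ᵥ c) =
          gB (G4 δ) fr.w y * bv δ (pv x fr.w) c := fun x y => by
        rw [bv_symm, bv_tt (show (1 : M4 F)ᵀ * G4 δ = G4 δ * 1 by simp) fr.K_adj, tt_mulVec,
          one_mulVec, fr.K_apply, pv_smul_right, bv_smul_right, bv_symm]
      refine hext _ _ ?_ ?_ (fun r => ?_) ?_ ?_ (fun r => ?_) (fun r => ?_) (fun r => ?_)
        (fun s r => ?_) <;>
        simp [sand, bv_add_right, bv_smul_right, bv_pv, fr.ww, fr.wv, fr.vw, fr.vv, fr.wy, fr.vy,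
          fr.yw, fr.yv, cww, cyw, cwy]
    have h' := hac 1 fr.K fr.inA_one fr.inA_K
    rw [e, bv_add_left, bv_smul_left, cww, hvv, tt_mulVec, one_mulVec, fr.K_apply, fr.wv, one_smul,
      bv_pv, fr.vv, zero_mul, mul_one, ← two_mul] at h'
    exact (mul_eq_zero.1 h').resolve_left h2
  have cwv : bv δ (pv fr.w fr.v) c = 0 := by
    have e : tt fr.K 1 *ᵥ c = pv fr.w fr.v + bv δ (pv fr.w fr.v) c • pv fr.w fr.w := by
      have sand : ∀ x y, bv δ (pv x y) (tt fr.K 1 *ᵥ c) =
          gB (G4 δ) fr.w x * bv δ (pv fr.w y) c := fun x y => by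
        rw [bv_symm, bv_tt fr.K_adj (show (1 : M4 F)ᵀ * G4 δ = G4 δ * 1 by simp), tt_mulVec,
          one_mulVec, fr.K_apply, pv_smul_left, bv_smul_right, bv_symm]
      refine hext _ _ ?_ ?_ (fun r => ?_) ?_ ?_ (fun r => ?_) (fun r => ?_) (fun r => ?_)
        (fun s r => ?_) <;>
        simp [sand, bv_add_right, bv_smul_right, bv_pv, fr.ww, fr.wv, fr.vw, fr.vv, fr.wy, fr.vy,
          fr.yw, fr.yv, cww, cyw, cwy]
    have h' := hac fr.K 1 fr.inA_K fr.inA_one
    rw [e, bv_add_left, bv_smul_left, cww, hvv, tt_mulVec, one_mulVec, fr.K_apply, fr.wv, one_smul,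
      bv_pv, fr.vv, mul_zero, mul_one, ← two_mul] at h'
    exact (mul_eq_zero.1 h').resolve_left h2
  have cyy : ∀ s r, bv δ (pv (fr.yl s) (fr.yl r)) c = 0 := fun s r => by
    have e : tt (fr.B s) (fr.B r) *ᵥ c = pv (fr.yl s) (fr.yl r) +
        bv δ (pv (fr.yl s) (fr.yl r)) c • pv fr.w fr.w := by
      have sand : ∀ x y, bv δ (pv x y) (tt (fr.B s) (fr.B r) *ᵥ c) =
          bv δ (pv (fr.B (-s) *ᵥ x) (fr.B (-r) *ᵥ y)) c := fun x y => by
        rw [bv_symm, bv_tt (fr.B_adj s) (fr.B_adj r), tt_mulVec, bv_symm]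
      refine hext _ _ ?_ ?_ (fun z => ?_) ?_ ?_ (fun z => ?_) (fun z => ?_) (fun z => ?_)
        (fun z z' => ?_) <;>
        simp [sand, fr.B_apply, bv_add_right, bv_smul_right, bv_pv, fr.ww, fr.wv, fr.vw, fr.vv,
          fr.wy, fr.vy, fr.yw, fr.yv, fr.yy, cww, cyw, cwy, pv_sub_left, pv_sub_right, pv_smul_left,
          pv_smul_right, bv_sub_left, bv_smul_left, bv_neg_left, bv_zero_left, pv_neg_left, pv_neg_right, fr.B_neg, neg_mulVec, map_neg, qf_symm δ] <;>
        ring
    have h' := hac (fr.B s) (fr.B r) (fr.inA_B s) (fr.inA_B r)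
    rw [e, bv_add_left, bv_smul_left, cww, hvv, tt_mulVec, fr.B_apply, fr.B_apply, fr.wv, fr.yv,
      fr.yv, one_smul, one_smul, zero_smul, sub_zero, sub_zero, bv_pv, fr.yv, zero_mul, mul_one,
      ← two_mul] at h'
    exact (mul_eq_zero.1 h').resolve_left h2
  obtain ⟨a, ha⟩ : ∃ a, ∀ s, bv δ (pv (fr.yl s) fr.v) c = qf δ a s := by
    refine ⟨(bv δ (pv (fr.yl (1, 0)) fr.v) c / (-δ), bv δ (pv (fr.yl (0, 1)) fr.v) c), fun s => ?_⟩
    have hδ0 : δ ≠ 0 := fun e => hδ (e ▸ IsSquare.zero)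
    rw [show s = s.1 • ((1 : F), (0 : F)) + s.2 • ((0 : F), (1 : F)) by simp, map_add, map_smul,
      map_smul, pv_add_left, pv_smul_left, pv_smul_left, bv_add_left, bv_smul_left, bv_smul_left]
    simp [qf]; field_simp
  obtain ⟨b, hb⟩ : ∃ b, ∀ s, bv δ (pv fr.v (fr.yl s)) c = qf δ b s := by
    refine ⟨(bv δ (pv fr.v (fr.yl (1, 0))) c / (-δ), bv δ (pv fr.v (fr.yl (0, 1))) c), fun s => ?_⟩
    have hδ0 : δ ≠ 0 := fun e => hδ (e ▸ IsSquare.zero)
    rw [show s = s.1 • ((1 : F), (0 : F)) + s.2 • ((0 : F), (1 : F)) by simp, map_add, map_smul,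
      map_smul, pv_add_right, pv_smul_right, pv_smul_right, bv_add_left, bv_smul_left, bv_smul_left]
    simp [qf]; field_simp
  set z := bv δ (pv fr.v fr.v) c with hz
  have hcc : c = vv + pv (fr.yl a) fr.w + pv fr.w (fr.yl b) + z • pv fr.w fr.w := by
    refine hext _ _ ?_ ?_ (fun r => ?_) ?_ ?_ (fun r => ?_) (fun r => ?_) (fun r => ?_)
      (fun s r => ?_) <;>
      simp [hvv, bv_add_right, bv_smul_right, bv_pv, fr.ww, fr.wv, fr.vw, fr.vv, fr.wy, fr.vy,
        fr.yw, fr.yv, fr.yy, cww, cyw, cwy, cvw, cwv, cyy, ha, hb, qf_symm δ, ← hz]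
  have hz0 : z = 0 := by
    have h' := hac 1 1 fr.inA_one fr.inA_one
    rw [tt_one, one_mulVec, one_mulVec, hcc] at h'
    simp [hvv, bv_add_left, bv_add_right, bv_smul_left, bv_smul_right, bv_pv, fr.ww, fr.wv, fr.vw,
      fr.vv, fr.wy, fr.vy, fr.yw, fr.yv] at h'
    have h'' : (2 : F) * z = 0 := by linear_combination h'
    exact (mul_eq_zero.1 h'').resolve_left h2
  rw [hz0, zero_smul, add_zero] at hcc
  -- the long root element
  have hval : (g' : MV F 2) = 1 + (tt (fr.B a) fr.K + tt fr.K (fr.B b)) := by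
    refine fr.eq_of_apply_eq (hcom g' hc') (fun X Y hX hY => ?_) ?_
    · refine (Commute.one_left _).add_left (Commute.add_left ?_ ?_) <;>
      · show _ * _ = _ * _
        rw [tt_mul, tt_mul]
        first
          | rw [(fr.inA_comm (fr.inA_B a) hX).eq, (fr.inA_comm fr.inA_K hY).eq]
          | rw [(fr.inA_comm fr.inA_K hX).eq, (fr.inA_comm (fr.inA_B b) hY).eq]
    · rw [← hvv, ← hc, hcc, add_mulVec, one_mulVec, add_mulVec, hvv, tt_mulVec, tt_mulVec,
        fr.K_apply, fr.B_apply, fr.B_apply, fr.wv, fr.yv, fr.yv, one_smul, one_smul, one_smul,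
        zero_smul, sub_zero, sub_zero, add_assoc]
  by_contra hout
  apply hno
  refine ⟨g', hg'M, fr.w, fr.yl a, fr.yl b, fr.w_ne, fr.ww, fr.wy a, fr.wy b, ?_, ?_⟩
  · rw [fr.yy, fr.yy]
    by_contra hab
    push Not at hab
    apply hout
    rw [qf_eq_zero hδ hab.1, qf_eq_zero hδ hab.2, fr.B_zero, tt_zero_left, tt_zero_right, add_zero,
      add_zero] at hval
    have : el fr h.two (-a1, -b1) * g = 1 := Units.ext hval
    refine (mem_range fr h.two).2 ⟨(a1, b1), ?_⟩
    rw [eq_comm, ← inv_eq_of_mul_eq_one_right this]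
    refine inv_eq_of_mul_eq_one_right ?_
    rw [← el_add]
    simp [el_zero]
    exact el_zero fr h.two
  · have hcr : ∀ x x' y y' : Fin 4 → F, vecMulVec (pv x y) (pv x' y' ᵥ* gV (G4 δ) 2) =
        tt (cr (G4 δ) x x') (cr (G4 δ) y y') := fun x x' y y' => by
      rw [tt, pv, pv, ← OrthWreathBig.pureMat_cr]
      congr 1; funext i; fin_cases i <;> rfl
    rw [hval]
    show 1 + _ = 1 + skV δ (pv (fr.yl a) fr.w + pv fr.w (fr.yl b)) (pv fr.w fr.w)
    rw [skV, add_vecMulVec, add_vecMul, vecMulVec_add, hcr, hcr, hcr, hcr]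
    simp only [Fr.B, Fr.K, tt_sub_left, tt_sub_right]
    abel

end Syl

/-- Without a long root element a `p`-subgroup has order at most `q⁴` and is abelian. -/
theorem pgroup_bound [Finite F] {p : ℕ} [Fact p.Prime] [CharP F p] {M : Subgroup (GV F 2)}
    (h : Over δ M) (hno : ¬ RootTwo δ M) (P : Subgroup (GV F 2)) (hPM : P ≤ M)
    (hP : IsPGroup p P) :
    Nat.card P ≤ Nat.card F ^ 4 ∧ ∀ a ∈ P, ∀ b ∈ P, a * b = b * a := by
  haveI : Finite (GV F 2) := inferInstance
  obtain ⟨fr⟩ := Syl.exists_fr h.two h.nsq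
  set U := (Syl.phi fr h.two).range with hU
  have hUM : U ≤ M := Syl.range_le fr h.two h
  have hUcard : Nat.card U = Nat.card F ^ 4 := Syl.card_range fr h.two h.nsq
  have hUp : IsPGroup p U := by
    rintro ⟨g, hg⟩
    obtain ⟨x, rfl⟩ := (Syl.mem_range fr h.two).1 hg
    refine ⟨1, Subtype.ext ?_⟩
    show Syl.el fr h.two x ^ p ^ 1 = 1
    rw [pow_one, Syl.el, ← map_pow, ← ofAdd_nsmul, ← Nat.cast_smul_eq_nsmul F, CharP.cast_eq_zero,
      zero_smul, ofAdd_zero, map_one]
  obtain ⟨S, hS⟩ := (hUp.comap_of_injective M.subtype M.subtype_injective).exists_le_sylow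
  have hSeq : (S : Subgroup M) = U.comap M.subtype := by
    by_contra hne
    set H := (U.comap M.subtype).subgroupOf (S : Subgroup M) with hH
    have hHtop : H < ⊤ := lt_top_iff_ne_top.2 fun e => hne
      (le_antisymm (Subgroup.subgroupOf_eq_top.1 e) hS)
    haveI : Group.IsNilpotent (S : Subgroup M) := S.2.isNilpotent
    obtain ⟨x, hxn, hxH⟩ := SetLike.exists_of_lt
      (Group.normalizerCondition_of_isNilpotent (G := (S : Subgroup M)) H hHtop)
    obtain ⟨k, hk⟩ := S.2 x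
    refine hxH ?_
    show ((x : M) : GV F 2) ∈ U
    refine Syl.normalizer_step h hno fr (x : M).2 k (congrArg (fun y : (S : Subgroup M) =>
      ((y : M) : GV F 2)) hk) fun y => ?_
    have hy : Syl.el fr h.two y ∈ U := (Syl.mem_range fr h.two).2 ⟨y, rfl⟩
    have hyS : (⟨_, hUM hy⟩ : M) ∈ (S : Subgroup M) := hS hy
    have := (Subgroup.mem_normalizer_iff.1 hxn ⟨_, hyS⟩).1 hy
    exact (Syl.mem_range fr h.two).1 this
  obtain ⟨T, hT⟩ := (hP.comap_of_injective M.subtype M.subtype_injective).exists_le_sylow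
  obtain ⟨c, hc⟩ := MulAction.exists_smul_eq M T S
  have hmem : ∀ a ∈ P, (c : GV F 2) * a * (c : GV F 2)⁻¹ ∈ U := fun a ha => by
    have : MulAut.conj c • (⟨a, hPM ha⟩ : M) ∈ (S : Subgroup M) := by
      rw [← hc, Sylow.coe_subgroup_smul]
      exact Subgroup.smul_mem_pointwise_smul _ (MulAut.conj c) T.1 (hT ha)
    rw [hSeq] at this
    exact this
  refine ⟨?_, fun a ha b hb => ?_⟩
  · rw [← hUcard]
    refine Nat.card_le_card_of_injective (fun a => ⟨_, hmem a.1 a.2⟩) fun a b e => ?_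
    exact Subtype.ext (mul_left_cancel (mul_right_cancel (congrArg Subtype.val e)))
  · obtain ⟨x, hx⟩ := (Syl.mem_range fr h.two).1 (hmem a ha)
    obtain ⟨y, hy⟩ := (Syl.mem_range fr h.two).1 (hmem b hb)
    have e : ((c : GV F 2) * a * (c : GV F 2)⁻¹) * ((c : GV F 2) * b * (c : GV F 2)⁻¹) =
        ((c : GV F 2) * b * (c : GV F 2)⁻¹) * ((c : GV F 2) * a * (c : GV F 2)⁻¹) := by
      rw [← hx, ← hy, ← Syl.el_add, ← Syl.el_add, add_comm]
    rw [conj_mul, conj_mul] at e
    exact mul_left_cancel (mul_right_cancel e)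

end Cfsg.Agent.MaxSub.OrthFour
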