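import Cfsg.Agent.MaxSub.OrthFour.Omega
import Cfsg.Agent.MaxSub.OrthFour.Pair
import Cfsg.Agent.MaxSub.OrthFour.Sylow
import Cfsg.Agent.MaxSub.OrthFour.EGen
import Cfsg.Agent.MaxSub.OrthFour.HalfBig
import Cfsg.Agent.MaxSub.OrthFour.GroupFour
import Cfsg.Agent.MaxSub.OrthFour.Frame
import Cfsg.Agent.MaxSub.OrthFour.HalfTwo
import Cfsg.Agent.MaxSub.OrthFour.InvolBig
import Cfsg.Agent.MaxSub.OrthFour.ReflKernel
import Cfsg.Agent.MaxSub.OrthFour.Root
import Cfsg.Agent.MaxSub.OrthFour.Stab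
import Cfsg.Agent.MaxSub.OrthFour.HalfThree
import Cfsg.Agent.MaxSub.OrthFour.PairReflTwo
import Cfsg.Agent.MaxSub.OrthFour.BadTwo
import Cfsg.Agent.MaxSub.OrthFour.InvolTwo
import Cfsg.Agent.MaxSub.OrthFour.MainTwo
import Cfsg.Agent.MaxSub.OrthFour.PlaneKernel
import Cfsg.Agent.MaxSub.OrthFour.PartnerBig
import Cfsg.Agent.MaxSub.OrthFour.Bridge
import Cfsg.Agent.MaxSub.OrthFour.Wreath
import Cfsg.Agent.MaxSub.OrthFour.CRefl
import Cfsg.Agent.MaxSub.OrthFour.CountBig

set_option autoImplicit false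

/-!
The maximality statement for every number of sites.
-/

namespace Cfsg.Agent.MaxSub.OrthFour

open Matrix Cfsg.Geo Cfsg.Agent.NotMax Cfsg.Agent.GeoClasses
open Cfsg.Agent.MaxSub.TensorPowSp (gV)
open Cfsg.Agent.MaxSub.OrthWreathBig (gB cr sieM)
open scoped MatrixGroups Matrix

variable {F : Type*} [Field F] {δ : F} {t : ℕ}

/-- Every site isometry is in an intermediate group when there are at least three sites. -/
lemma site_mem_over [Finite F] {M : Subgroup (GV F t)} (ht : 3 ≤ t) (h : Over δ M) (i : Fin t)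
    (A : M4 F) (hA : IsoW δ A) : ∃ u ∈ M, (u : MV F t) = site i A := by
  refine ⟨siteUnit i A (SimW.det_ne h.nsq hA.sim), h.mem ?_ ?_, rfl⟩
  · exact Subgroup.subset_closure (Or.inl
      ⟨Function.update 1 i (GeneralLinearGroup.mkOfDetNeZero A (SimW.det_ne h.nsq hA.sim)),
        fun a b => by
          show site i A a b = _
          simp only [site, pureMat]
          refine Finset.prod_congr rfl fun l _ => ?_
          by_cases hl : l = i
          · subst hl; simp [GeneralLinearGroup.mkOfDetNeZero]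
          · simp [hl]⟩)
  · exact site_mem_Om h.two h.nsq ht hA rfl

/-- The root elements of one site span all matrices. -/
lemma span_roots [Finite F] (h2 : (2 : F) ≠ 0) (hd : ¬ IsSquare δ) :
    Algebra.adjoin F {B : M4 F | ∃ w x, w ≠ 0 ∧ gB (G4 δ) w w = 0 ∧
      gB (G4 δ) w x = 0 ∧ gB (G4 δ) x x ≠ 0 ∧ B = 1 + sieM (G4 δ) w x} = ⊤ := by
  rw [eq_top_iff, ← span_OmW h2 hd, Algebra.adjoin_le_iff]
  rintro _ ⟨g, hg, rfl⟩
  set S := Algebra.adjoin F {B : M4 F | ∃ w x, w ≠ 0 ∧ gB (G4 δ) w w = 0 ∧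
      gB (G4 δ) w x = 0 ∧ gB (G4 δ) x x ≠ 0 ∧ B = 1 + sieM (G4 δ) w x}
  refine (Subgroup.closure_induction (p := fun (k : GL (Fin 4) F) _ =>
    (k : M4 F) ∈ S ∧ ((k⁻¹ : GL (Fin 4) F) : M4 F) ∈ S) ?_ ?_ ?_ ?_ hg).1
  · rintro A ⟨w, x, hw, hww, hwx, hxx, e⟩
    refine ⟨Algebra.subset_adjoin ⟨w, x, hw, hww, hwx, hxx, e⟩,
      Algebra.subset_adjoin ⟨w, -x, hw, hww, by simp [hwx], by simpa using hxx, ?_⟩⟩
    have hm := one_add_sieM_mul (δ := δ) h2 hww hwx
      (show gB (G4 δ) w (-x) = 0 by simp [hwx])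
    rw [add_neg_cancel, show (0 : Fin 4 → F) = (0 : F) • w from (zero_smul F w).symm,
      sieM_self hww, add_zero, ← e] at hm
    exact Units.inv_eq_of_mul_eq_one_right hm
  · simp [one_mem]
  · rintro a b _ _ ⟨ha, ha'⟩ ⟨hb, hb'⟩
    exact ⟨by rw [Units.val_mul]; exact mul_mem ha hb,
      by rw [_root_.mul_inv_rev, Units.val_mul]; exact mul_mem hb' ha'⟩
  · rintro a _ ⟨ha, ha'⟩
    exact ⟨ha', by rwa [inv_inv]⟩

section

variable [Fintype F]

theorem dicho_two : Dicho F δ 2 := by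
  intro M hM
  have h2 := hM.two
  have hd := hM.nsq
  obtain ⟨p, hp⟩ := CharP.exists F
  have : Fact p.Prime := ⟨CharP.char_is_prime F p⟩
  by_cases hr : RootTwo δ M
  · exact Or.inr (eq_Om_of_pureRoot hM le_rfl (pureRoot_of_rootTwo hM hr))
  have hb : ∀ P ≤ M, IsPGroup p P → Nat.card P ≤ Nat.card F ^ 4 ∧ ∀ a ∈ P, ∀ b ∈ P, a * b = b * a :=
    fun P hP hp => pgroup_bound hM hr P hP hp
  have hU := cenLe_siteU_two hM hb
  have hclass : ∀ g ∈ M, ∀ u : GV F 2, IsSiteU δ (u : MV F 2) → g * u * g⁻¹ ∈ Wr F 2 →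
      g ∈ Wr F 2 := fun g hg u hu hw => mem_Wr_of_conj_two hM hb
      (fun g u hg hu hw => siteU_of_conj_mem h2 hd hg hu hw) hg hu hw
  have hhalf : ∀ x ∈ M, IsHalf δ (x : MV F 2) → CenLe M (x : MV F 2) := by
    by_cases hq : 5 ≤ Nat.card F
    · exact cenLe_half_two hM hq hb hU (stab_le_two hM hb)
    · have hne : ringChar F ≠ 2 := fun e => by
        have := ringChar.of_eq e
        exact h2 (CharP.cast_eq_zero F 2)
      have hodd := FiniteField.odd_card_of_char_ne_two hne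
      rw [← Nat.card_eq_fintype_card] at hodd
      have h1 : 1 < Nat.card F := Finite.one_lt_card
      exact cenLe_half_three (by omega) hM (kernel_le_site hM hb hU)
        (fun g hg u _ hu hw => hclass g hg u hu hw)
  have hpr := cenLe_pairRefl_two hM hU hclass hhalf
  have hbad := cenLe_bad_two hM (fun g A B hA hB hg => pair_mem_Om_iff h2 hd hA hB hg)
    (fun g hg => siteU_mem_Om h2 hd hg)
    (fun g A ν ε hA hε hg => swap_conj_not_mem_Om h2 hd hA hε hg)
    (fun g hg hgi => exists_normal_form h2 hd hg hgi)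
    (fun g y hg hy hw => pairRefl_of_conj h2 hd hg hy hw) hclass hhalf hpr
  exact Or.inl (monomial_two hM hpr hhalf hbad (fun w y => invol_cases h2 hd)
    (fun g hgi hg => mem_Wr_of_conj_siteU h2 hd two_pos hgi hg))

theorem dicho_step {s : ℕ} (hs : 2 ≤ s) (hD2 : Dicho F δ 2) (hD : Dicho F δ s) : Dicho F δ (s + 1) := by
  intro M hM
  have ht : 3 ≤ s + 1 := by omega
  have hrec : ∀ g : GV F (s + 1), IsoV δ (g : MV F (s + 1)) →
      (∀ u : GV F (s + 1), IsSiteU δ (u : MV F (s + 1)) → g * u * g⁻¹ ∈ Wr F (s + 1)) →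
      g ∈ Wr F (s + 1) :=
    fun g hgi hg => mem_Wr_of_conj_siteU hM.two hM.nsq (Nat.succ_pos s) hgi hg
  have hconjH := fun g h hg hgi hu =>
    isHalf_conj (g := g) (u := h) (t := s + 1) hM.two hM.nsq hg hgi hu
  rcases pairs_or_root ht hM hD2 (fun g hgi hg =>
    mem_Wr_of_conj_siteU hM.two hM.nsq two_pos hgi hg) with hP | hR
  swap
  · exact Or.inr (eq_Om_of_pureRoot hM (by omega) hR)
  have hframe := mem_Wr_of_commFrame hs hD hM hP
  have hker := refl_kernel ht hM hframe (plane_kernel hM hframe (site_mem_over ht hM))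
    (span_roots hM.two hM.nsq)
  have hrefl := CRefl.cenLe_refl hs hM hD hP hker
    (fun g hgi hg => mem_Wr_of_conj_siteU hM.two hM.nsq (by omega) hgi hg) hrec
  have hrc := fun g a hg ha hw => refl_of_conj (g := g) (a := a) hM.two hM.nsq ht hg ha hw
  have hhalf := cenLe_half ht hM hrefl (site_mem_over ht hM) hrec hrc
  have hclassR : ∀ g ∈ M, ∀ a ∈ M, IsRefl δ (a : MV F (s + 1)) →
      g * a * g⁻¹ ∈ Wr F (s + 1) → g ∈ Wr F (s + 1) := fun g hg a _ ha hw =>
    mem_Wr_of_conj_refl ht hM hrefl (site_mem_over ht hM) hrec hrc hg ha hw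
  exact Or.inl (monomial_big ht hM hhalf fun hh hhh hg hb =>
    partners hM ht hrefl hhalf hclassR hrc hconjH hh hhh hg hb)

/-- **The maximality statement for every number of sites.** -/
theorem dicho_all {t : ℕ} (ht : 2 ≤ t) : Dicho F δ t :=
  Nat.le_induction dicho_two (fun _ hs ih => dicho_step hs dicho_two ih) t ht

end

end Cfsg.Agent.MaxSub.OrthFour
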