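import Cfsg.Agent.MaxSub.OrthFour.Defs

/-!
One site split off from a tensor power, and elementary facts on site matrices.
-/

set_option autoImplicit false
set_option linter.unusedSectionVars false

namespace Cfsg.Agent.MaxSub.OrthFour.Slot

open Matrix QuadraticMap Cfsg.Geo Cfsg.Agent.NotMax Cfsg.Agent.GeoClasses Cfsg.Agent.Classical
open Cfsg.Agent.MaxSub.TensorPowSp (gV)
open Cfsg.Agent.MaxSub.OrthWreathBig (gB cr sieM Link)
open scoped MatrixGroups Matrix

variable {F : Type*} [Field F] {s t : ℕ}

/-- A matrix at one site times a matrix at the others. -/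
def kr (i : Fin (s + 1)) (P : M4 F) (X : MV F s) : MV F (s + 1) :=
  Matrix.of fun a b => P (a i) (b i) * X (a ∘ i.succAbove) (b ∘ i.succAbove)

lemma kr_apply (i : Fin (s + 1)) (P : M4 F) (X : MV F s) (a b : Fin (s + 1) → Fin 4) :
    kr i P X a b = P (a i) (b i) * X (a ∘ i.succAbove) (b ∘ i.succAbove) := rfl

lemma kr_insertNth (i : Fin (s + 1)) (P : M4 F) (X : MV F s) (p q : Fin 4)
    (a b : Fin s → Fin 4) : kr i P X (i.insertNth p a) (i.insertNth q b) = P p q * X a b := by
  simp [kr, Function.comp_def]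

lemma sum_split (i : Fin (s + 1)) (f : (Fin (s + 1) → Fin 4) → F) :
    ∑ a, f a = ∑ p : Fin 4, ∑ a : Fin s → Fin 4, f (i.insertNth p a) := by
  rw [← Fintype.sum_prod_type' (f := fun p a => f (i.insertNth p a))]
  exact ((Fin.insertNthEquiv (fun _ => Fin 4) i).sum_comp f).symm

lemma kr_mul (i : Fin (s + 1)) (P Q : M4 F) (X Y : MV F s) :
    kr i P X * kr i Q Y = kr i (P * Q) (X * Y) := by
  ext a b
  rw [Matrix.mul_apply, sum_split i, kr_apply, Matrix.mul_apply, Matrix.mul_apply,
    Finset.sum_mul_sum]
  refine Finset.sum_congr rfl fun p _ => Finset.sum_congr rfl fun c _ => ?_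
  simp [kr, Function.comp_def]
  ring

lemma kr_add_left (i : Fin (s + 1)) (P Q : M4 F) (X : MV F s) :
    kr i (P + Q) X = kr i P X + kr i Q X := by
  ext a b; simp [kr, add_mul]

lemma kr_sub_left (i : Fin (s + 1)) (P Q : M4 F) (X : MV F s) :
    kr i (P - Q) X = kr i P X - kr i Q X := by
  ext a b; simp [kr, sub_mul]

lemma kr_smul_left (i : Fin (s + 1)) (c : F) (P : M4 F) (X : MV F s) :
    kr i (c • P) X = c • kr i P X := by
  ext a b; simp [kr, mul_assoc]

lemma kr_smul_right (i : Fin (s + 1)) (c : F) (P : M4 F) (X : MV F s) :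
    kr i P (c • X) = c • kr i P X := by
  ext a b; simp [kr, mul_left_comm]

lemma kr_neg_right (i : Fin (s + 1)) (P : M4 F) (X : MV F s) : kr i P (-X) = -kr i P X := by
  ext a b; simp [kr]

lemma kr_zero_left (i : Fin (s + 1)) (X : MV F s) : kr i 0 X = 0 := by
  ext a b; simp [kr]

lemma kr_sum_left {ι : Type*} (S : Finset ι) (i : Fin (s + 1)) (P : ι → M4 F) (X : MV F s) :
    kr i (∑ n ∈ S, P n) X = ∑ n ∈ S, kr i (P n) X := by
  classical
  induction S using Finset.induction with
  | empty => simp [kr_zero_left]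
  | insert n S hn ih => rw [Finset.sum_insert hn, Finset.sum_insert hn, kr_add_left, ih]

lemma kr_transpose (i : Fin (s + 1)) (P : M4 F) (X : MV F s) : (kr i P X)ᵀ = kr i Pᵀ Xᵀ := rfl

lemma kr_right_inj {i : Fin (s + 1)} {P : M4 F} (hP : P ≠ 0) {X Y : MV F s}
    (h : kr i P X = kr i P Y) : X = Y := by
  obtain ⟨p, q, hpq⟩ : ∃ p q, P p q ≠ 0 := by
    by_contra hc
    push Not at hc
    exact hP (Matrix.ext hc)
  ext a b
  have := congrFun (congrFun h (i.insertNth p a)) (i.insertNth q b)
  rw [kr_insertNth, kr_insertNth] at this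
  exact mul_left_cancel₀ hpq this

lemma pureMat_split (i : Fin (s + 1)) (Ys : Fin (s + 1) → M4 F) :
    pureMat Ys = kr i (Ys i) (pureMat fun l => Ys (i.succAbove l)) := by
  ext a b
  exact Fin.prod_univ_succAbove (fun l => Ys l (a l) (b l)) i

lemma site_self (i : Fin (s + 1)) (P : M4 F) : site i P = kr i P 1 := by
  rw [site, pureMat_split i]
  congr 1
  · simp
  · simp [Fin.succAbove_ne, pureMat_one]

lemma site_other (i : Fin (s + 1)) (j : Fin s) (A : M4 F) :
    site (i.succAbove j) A = kr i 1 (site j A) := by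
  rw [site, pureMat_split i, site]
  congr 1
  · simp [Ne.symm (Fin.succAbove_ne i j)]
  · congr 1
    funext l
    by_cases h : l = j
    · subst h; simp
    · simp [h]

lemma kr_one (i : Fin (s + 1)) : kr i (1 : M4 F) (1 : MV F s) = 1 := by
  rw [← site_self, site_one]

lemma gV_split (δ : F) (i : Fin (s + 1)) :
    gV (G4 δ) (s + 1) = kr i (G4 δ) (gV (G4 δ) s) := pureMat_split i _

/-- The lift of a matrix to the other sites. -/
def liftHom (F : Type*) [Field F] (i : Fin (s + 1)) : MV F s →* MV F (s + 1) where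
  toFun X := kr i 1 X
  map_one' := kr_one i
  map_mul' X Y := by rw [kr_mul, Matrix.one_mul]

/-- The lift of invertible matrices to the other sites. -/
def liftG (i : Fin (s + 1)) : GV F s →* GV F (s + 1) := Units.map (liftHom F i)

lemma liftG_val (i : Fin (s + 1)) (X : GV F s) :
    ((liftG i X : GV F (s + 1)) : MV F (s + 1)) = kr i 1 (X : MV F s) := rfl

/-- A permutation of the other sites. -/
def permExt (i : Fin (s + 1)) (π : Equiv.Perm (Fin s)) : Equiv.Perm (Fin (s + 1)) :=
  ((finSuccEquiv' i).trans π.optionCongr).trans (finSuccEquiv' i).symm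

lemma permExt_self (i : Fin (s + 1)) (π : Equiv.Perm (Fin s)) : permExt i π i = i := by
  simp [permExt]

lemma permExt_succAbove (i : Fin (s + 1)) (π : Equiv.Perm (Fin s)) (l : Fin s) :
    permExt i π (i.succAbove l) = i.succAbove (π l) := by
  simp [permExt]

lemma liftG_mem_Wr (i : Fin (s + 1)) {X : GV F s} (hX : X ∈ Wr F s) :
    liftG i X ∈ Wr F (s + 1) := by
  induction hX using Subgroup.closure_induction with
  | one => rw [map_one]; exact one_mem _
  | mul a b _ _ ha hb => rw [map_mul]; exact mul_mem ha hb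
  | inv a _ ha => rw [map_inv]; exact inv_mem ha
  | mem X hX =>
    refine Subgroup.subset_closure ?_
    rcases hX with ⟨gs, hgs⟩ | ⟨σ, hσ⟩
    · refine Or.inl ⟨i.insertNth 1 gs, fun a b => ?_⟩
      rw [liftG_val, kr_apply, hgs, Fin.prod_univ_succAbove _ i]
      simp
    · refine Or.inr ⟨permExt i σ, fun a b => ?_⟩
      rw [liftG_val, kr_apply, hσ, Matrix.one_apply, ite_zero_mul_ite_zero, mul_one]
      congr 1
      refine propext ⟨fun ⟨h1, h2⟩ => funext fun l => ?_, fun h => ⟨?_, funext fun l => ?_⟩⟩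
      · rcases Fin.eq_self_or_eq_succAbove i l with rfl | ⟨l, rfl⟩
        · simp [permExt_self, h1]
        · have := congrFun h2 l
          simpa [permExt_succAbove] using this
      · rw [h]; simp [permExt_self]
      · rw [h]; simp [permExt_succAbove]

lemma factorPerm_mulVec_pureVec (π : Equiv.Perm (Fin t)) (v : Fin t → Fin 4 → F) :
    (factorPerm 4 π : MV F t) *ᵥ pureVec v = pureVec fun l => v (π.symm l) := by
  ext x
  simp only [Matrix.mulVec, dotProduct, factorPerm, ite_mul, one_mul, zero_mul, Finset.sum_ite_eq',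
    Finset.mem_univ, if_true, pureVec, Function.comp_apply]
  exact Fintype.prod_equiv π _ _ fun l => by simp

/-- Members of a wreath group send pure vectors to pure vectors. -/
lemma pure_of_mem_Wr {g : GV F t} (hg : g ∈ Wr F t) :
    (∀ v : Fin t → Fin 4 → F, ∃ w, (g : MV F t) *ᵥ pureVec v = pureVec w) ∧
      ∀ v : Fin t → Fin 4 → F, ∃ w, ((g⁻¹ : GV F t) : MV F t) *ᵥ pureVec v = pureVec w := by
  induction hg using Subgroup.closure_induction with
  | one => simp only [inv_one, Units.val_one, one_mulVec]; exact ⟨fun v => ⟨v, rfl⟩, fun v => ⟨v, rfl⟩⟩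
  | mul a b _ _ ha hb =>
    refine ⟨fun v => ?_, fun v => ?_⟩
    · obtain ⟨w, hw⟩ := hb.1 v
      obtain ⟨u, hu⟩ := ha.1 w
      exact ⟨u, by rw [Units.val_mul, ← mulVec_mulVec, hw, hu]⟩
    · obtain ⟨w, hw⟩ := ha.2 v
      obtain ⟨u, hu⟩ := hb.2 w
      exact ⟨u, by rw [_root_.mul_inv_rev, Units.val_mul, ← mulVec_mulVec, hw, hu]⟩
  | inv a _ ha => rw [inv_inv]; exact ⟨ha.2, ha.1⟩
  | mem g hg =>
    rcases hg with ⟨gs, hgs⟩ | ⟨σ, hσ⟩
    · have e : g = glPure gs := Units.ext (Matrix.ext fun a b => hgs a b)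
      subst e
      exact ⟨fun v => ⟨_, pureMat_mulVec _ v⟩, fun v => ⟨_, pureMat_mulVec _ v⟩⟩
    · have e : g = glFactorPerm 4 σ := Units.ext (Matrix.ext fun a b => by
        rw [hσ]; rfl)
      subst e
      exact ⟨fun v => ⟨_, factorPerm_mulVec_pureVec _ v⟩,
        fun v => ⟨_, factorPerm_mulVec_pureVec _ v⟩⟩

lemma isoV_lift {δ : F} (i : Fin (s + 1)) {X : MV F s} (hX : IsoV δ X) :
    IsoV δ (kr i 1 X) := by
  rw [IsoV, gV_split δ i, kr_transpose, kr_mul, kr_mul, Matrix.transpose_one, Matrix.one_mul,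
    Matrix.mul_one, hX]

lemma liftG_mem_Om [Finite F] {δ : F} (h2 : (2 : F) ≠ 0) (i : Fin (s + 1)) {X : GV F s}
    (hX : X ∈ Om δ s) : liftG i X ∈ Om δ (s + 1) := by
  obtain ⟨g, hg, rfl⟩ := hX
  let f : OQ (Qd δ s) →* GV F (s + 1) := (liftG i).comp (oqToGL (Qd δ s))
  have hf : ∀ x, ∃ y, oqToGL (Qd δ (s + 1)) y = f x := by
    intro x
    refine (link δ (s + 1) h2).exists_oq h2 ?_
    have hx : IsoV δ (oqToGL (Qd δ s) x : MV F s) := by
      refine Matrix.ext fun a b => ?_
      have := OQ_polar x (Pi.single a 1) (Pi.single b 1)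
      rw [← oqToGL_mulVec, ← oqToGL_mulVec, (link δ s h2).polar_eq, (link δ s h2).polar_eq] at this
      have h' := mul_left_cancel₀ h2 this
      rw [Matrix.mulVec_mulVec, ← Matrix.vecMul_transpose, ← Matrix.dotProduct_mulVec,
        Matrix.mulVec_mulVec, ← mul_assoc] at h'
      simpa [Matrix.mulVec_single_one, single_dotProduct] using h'
    exact isoV_lift i hx
  show f g ∈ (commutator (OQ (Qd δ (s + 1)))).map (oqToGL (Qd δ (s + 1)))
  have : (commutator (OQ (Qd δ s))).map f ≤
      (commutator (OQ (Qd δ (s + 1)))).map (oqToGL (Qd δ (s + 1))) := by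
    rw [commutator_def, commutator_def, Subgroup.map_commutator, Subgroup.map_commutator]
    refine Subgroup.commutator_mono ?_ ?_ <;>
    · rintro _ ⟨x, -, rfl⟩
      obtain ⟨y, hy⟩ := hf x
      exact ⟨y, Subgroup.mem_top y, hy⟩
  exact this ⟨g, hg, rfl⟩

/-- A matrix commuting with all matrices of all other sites lives at one site. -/
lemma eq_site_of_commute (j : Fin t) {h : MV F t}
    (hc : ∀ l, l ≠ j → ∀ X : M4 F, Commute (site l X) h) : ∃ A : M4 F, h = site j A := by
  classical
  have key : ∀ l, l ≠ j → ∀ (x y : Fin t → Fin 4) (p q : Fin 4),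
      site l (Matrix.single p q (1 : F)) x y =
        if y = Function.update x l q ∧ x l = p then 1 else 0 := by
    intro l _ x y p q
    by_cases hxy : ∀ m, m ≠ l → x m = y m
    · rw [site_apply_of_eq _ hxy, Matrix.single_apply]
      congr 1
      refine propext ⟨fun ⟨e1, e2⟩ => ⟨funext fun m => ?_, e1.symm⟩, fun ⟨e1, e2⟩ => ⟨e2.symm, ?_⟩⟩
      · by_cases hm : m = l
        · subst hm; simp [e2]
        · simp [hm, (hxy m hm).symm]
      · rw [e1]; simp
    · push Not at hxy
      obtain ⟨m, hm, hne⟩ := hxy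
      rw [site_apply_of_ne _ hm hne, if_neg]
      rintro ⟨e1, -⟩
      exact hne (by rw [e1]; simp [hm])
  have move : ∀ l, l ≠ j → ∀ (x y : Fin t → Fin 4) (p q : Fin 4), x l = p → y l = q →
      h x y = if p = q then h (Function.update x l 0) (Function.update y l 0) else 0 := by
    intro l hl x y p q hp hq
    have hrow : ∀ (a b : Fin 4) (u v : Fin t → Fin 4),
        (site l (Matrix.single a b (1 : F)) * h) u v =
          if u l = a then h (Function.update u l b) v else 0 := by
      intro a b u v
      rw [Matrix.mul_apply, Finset.sum_eq_single (Function.update u l b)]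
      · rw [key l hl]; by_cases e : u l = a <;> simp [e]
      · intro z _ hz; rw [key l hl, if_neg (fun e => hz e.1), zero_mul]
      · simp
    have hcol : ∀ (a b : Fin 4) (u v : Fin t → Fin 4),
        (h * site l (Matrix.single a b (1 : F))) u v =
          if v l = b then h u (Function.update v l a) else 0 := by
      intro a b u v
      rw [Matrix.mul_apply, Finset.sum_eq_single (Function.update v l a)]
      · rw [key l hl]
        by_cases e : v l = b
        · subst e; simp
        · rw [if_neg, if_neg e, mul_zero]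
          rintro ⟨e1, -⟩
          exact e (by rw [e1]; simp)
      · intro z _ hz
        rw [key l hl, if_neg, mul_zero]
        rintro ⟨e1, e2⟩
        exact hz (by rw [e1, Function.update_idem, ← e2, Function.update_eq_self])
      · simp
    have e := congrFun (congrFun (hc l hl (Matrix.single p 0 1)).eq x) (Function.update y l 0)
    rw [hrow, hcol, if_pos hp, Function.update_self, if_pos rfl, Function.update_idem] at e
    by_cases hpq : p = q
    · subst hpq
      rw [if_pos rfl, e, ← hq, Function.update_eq_self]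
    · rw [if_neg hpq]
      have e' := congrFun (congrFun (hc l hl (Matrix.single p p 1)).eq x) y
      rw [hrow, hcol, if_pos hp, if_neg (by rw [hq]; exact Ne.symm hpq), ← hp,
        Function.update_eq_self] at e'
      exact e'
  refine ⟨Matrix.of fun p q => h (Function.update 0 j p) (Function.update 0 j q), ?_⟩
  suffices ∀ S : Finset (Fin t), j ∉ S → ∀ x y : Fin t → Fin 4,
      (∀ l, l ≠ j → l ∉ S → x l = 0 ∧ y l = 0) →
      h x y = site j (Matrix.of fun p q => h (Function.update 0 j p) (Function.update 0 j q)) x y by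
    ext x y
    exact this (Finset.univ.erase j) (by simp) x y fun l hl hm =>
      absurd (Finset.mem_erase.2 ⟨hl, Finset.mem_univ l⟩) hm
  intro S
  induction S using Finset.induction with
  | empty =>
    intro _ x y h0
    rw [site_apply_of_eq _ fun l hl => ?_]
    · simp only [Matrix.of_apply]
      congr 1 <;> funext l <;> by_cases hl : l = j
      · subst hl; simp
      · simp [hl, (h0 l hl (by simp)).1]
      · subst hl; simp
      · simp [hl, (h0 l hl (by simp)).2]
    · rw [(h0 l hl (by simp)).1, (h0 l hl (by simp)).2]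
  | insert l S hlS ih =>
    intro hj x y h0
    have hlj : l ≠ j := fun e => hj (by simp [e])
    rw [move l hlj x y _ _ rfl rfl]
    by_cases hxy : x l = y l
    · rw [if_pos hxy, ih (fun e => hj (Finset.mem_insert_of_mem e))]
      · by_cases hoff : ∀ m, m ≠ j → x m = y m
        · rw [site_apply_of_eq _ fun m hm => ?_, site_apply_of_eq _ hoff]
          · simp [Ne.symm hlj]
          · by_cases e : m = l
            · subst e; simp
            · simp [e, hoff m hm]
        · push Not at hoff
          obtain ⟨m, hm, hne⟩ := hoff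
          have hml : m ≠ l := fun e => hne (e ▸ hxy)
          rw [site_apply_of_ne _ hm hne, site_apply_of_ne _ hm (by simpa [hml] using hne)]
      · intro m hmj hmS
        by_cases e : m = l
        · subst e; simp
        · simpa [e] using h0 m hmj (by simp [e, hmS])
    · rw [if_neg hxy, site_apply_of_ne _ hlj hxy]

end Cfsg.Agent.MaxSub.OrthFour.Slot
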