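import Cfsg.Agent.MaxSub.OrthFour.Slots

/-!
Monomial maps of prime order permuting the sites fix less than half of the space.
-/

set_option autoImplicit false
set_option linter.unusedSectionVars false
set_option linter.unusedSimpArgs false
set_option linter.unusedVariables false
set_option linter.style.haveILetI false

namespace Cfsg.Agent.MaxSub.OrthFour.Monomial

open Matrix Module Cfsg.Geo Cfsg.Agent.NotMax Cfsg.Agent.GeoClasses Slots
open scoped Matrix MatrixGroups

variable {F : Type*} [Field F] {δ : F} {t : ℕ}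

lemma glPure_mul (A B : Fin t → GL (Fin 4) F) : glPure A * glPure B = glPure (A * B) :=
  Units.ext (pureMat_mul _ _)

lemma glPure_one : glPure (1 : Fin t → GL (Fin 4) F) = 1 := Units.ext (pureMat_one 4 t)

lemma glFactorPerm_mul (π ρ : Equiv.Perm (Fin t)) :
    (glFactorPerm 4 π * glFactorPerm 4 ρ : GV F t) = glFactorPerm 4 (π * ρ) :=
  Units.ext (factorPerm_mul _ _)

lemma glFactorPerm_one : (glFactorPerm 4 (1 : Equiv.Perm (Fin t)) : GV F t) = 1 :=
  Units.ext (factorPerm_one 4 t)

lemma perm_mul_glPure (π : Equiv.Perm (Fin t)) (B : Fin t → GL (Fin 4) F) :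
    glFactorPerm 4 π * glPure B = glPure (fun i => B (π.symm i)) * glFactorPerm 4 π := by
  refine Units.ext (Eq.symm ?_)
  show pureMat _ * factorPerm 4 π = factorPerm 4 π * pureMat _
  rw [pureMat_mul_factorPerm]
  simp

lemma form_mul (A B : Fin t → GL (Fin 4) F) (π ρ : Equiv.Perm (Fin t)) :
    glPure A * glFactorPerm 4 π * (glPure B * glFactorPerm 4 ρ) =
      glPure (fun i => A i * B (π.symm i)) * glFactorPerm 4 (π * ρ) := by
  rw [mul_assoc, ← mul_assoc (glFactorPerm 4 π), perm_mul_glPure, mul_assoc, glFactorPerm_mul,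
    ← mul_assoc, glPure_mul]
  rfl

lemma exists_form {g : GV F t} (hg : g ∈ Wr F t) :
    ∃ (cs : Fin t → GL (Fin 4) F) (π : Equiv.Perm (Fin t)), g = glPure cs * glFactorPerm 4 π := by
  induction hg using Subgroup.closure_induction with
  | mem x hx =>
    rcases hx with ⟨As, h⟩ | ⟨σ, h⟩
    · exact ⟨As, 1, by rw [glFactorPerm_one, mul_one]; exact Units.ext (by ext x y; exact h x y)⟩
    · exact ⟨1, σ, by rw [glPure_one, one_mul]; exact Units.ext (by ext x y; exact h x y)⟩
  | one => exact ⟨1, 1, by rw [glPure_one, glFactorPerm_one, one_mul]⟩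
  | mul x y _ _ hx hy =>
    obtain ⟨A, π, rfl⟩ := hx
    obtain ⟨B, ρ, rfl⟩ := hy
    exact ⟨_, π * ρ, form_mul A B π ρ⟩
  | inv x _ hx =>
    obtain ⟨A, π, rfl⟩ := hx
    refine ⟨fun i => (A (π i))⁻¹, π⁻¹, inv_eq_of_mul_eq_one_right ?_⟩
    rw [form_mul, mul_inv_cancel, glFactorPerm_one, mul_one,
      show (fun i => A i * (A (π (π.symm i)))⁻¹) = 1 from funext fun i => by simp, glPure_one]

lemma form_mem (cs : Fin t → GL (Fin 4) F) (π : Equiv.Perm (Fin t)) :
    glPure cs * glFactorPerm 4 π ∈ Wr F t :=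
  Subgroup.mul_mem _ (Subgroup.subset_closure (Or.inl ⟨cs, fun _ _ => rfl⟩))
    (Subgroup.subset_closure (Or.inr ⟨π, fun _ _ => rfl⟩))

/-- A pure tensor times a permutation is the identity only trivially. -/
lemma of_form_one {C : Fin t → GL (Fin 4) F} {σ : Equiv.Perm (Fin t)}
    (h : glPure C * glFactorPerm 4 σ = 1) :
    σ = 1 ∧ ∀ i, ∃ c : F, c ≠ 0 ∧ (C i : M4 F) = c • 1 := by
  classical
  have hval : pureMat (fun i => (C i : M4 F)) = factorPerm 4 σ⁻¹ :=
    congrArg Units.val (eq_inv_of_mul_eq_one_left h : glPure C = (glFactorPerm 4 σ)⁻¹)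
  have hentry : ∀ x y, ∏ i, (C i : M4 F) (x i) (y i) = if y = x ∘ ⇑σ⁻¹ then 1 else 0 := fun x y =>
    congrFun (congrFun hval x) y
  have hσ : σ = 1 := by
    have h00 : ∀ i, (C i : M4 F) 0 0 ≠ 0 := fun i e => by
      have := hentry (fun _ => 0) fun _ => 0
      rw [if_pos (show (fun _ : Fin t => (0 : Fin 4)) = (fun _ => 0) ∘ ⇑σ⁻¹ from rfl)] at this
      exact one_ne_zero (this.symm.trans (Finset.prod_eq_zero (Finset.mem_univ i) e))
    have h01 : ∀ b, (C b : M4 F) 0 1 = 0 := fun b => by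
      have e := hentry (fun _ => 0) (Function.update (fun _ => 0) b 1)
      rw [if_neg (fun e' => by simpa using congrFun e' b), ← Finset.mul_prod_erase Finset.univ _
        (Finset.mem_univ b), Function.update_self] at e
      refine (mul_eq_zero.1 e).resolve_right (Finset.prod_ne_zero_iff.2 fun j hj => ?_)
      rw [Function.update_of_ne (Finset.ne_of_mem_erase hj)]
      exact h00 j
    refine Equiv.ext fun a => ?_
    by_contra hne
    have e := hentry (Function.update (fun _ => 0) a 1) (Function.update (fun _ => 0) a 1 ∘ ⇑σ⁻¹)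
    rw [if_pos rfl] at e
    refine one_ne_zero (e.symm.trans (Finset.prod_eq_zero (Finset.mem_univ (σ a)) ?_))
    simp only [Function.comp_apply, Equiv.Perm.inv_def, Equiv.symm_apply_apply, Function.update_self,
      Function.update_of_ne (show σ a ≠ a from hne)]
    exact h01 _
  refine ⟨hσ, fun i => pureMat_eq_smul_pureMat (A := fun i => (C i : M4 F)) (B := fun _ => (1 : M4 F)) (s := (1 : F)) ?_ one_ne_zero
    (fun _ => one_ne_zero) i⟩
  rw [hval, hσ, inv_one, factorPerm_one, pureMat_one, one_smul]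

lemma card_count {a b c : Fin t} (hab : a ≠ b) (hac : a ≠ c) (hbc : b ≠ c) :
    2 * Fintype.card {x : Fin t → Fin 4 // x a ≤ x b ∧ x a ≤ x c} < Fintype.card (Fin t → Fin 4) := by
  classical
  set s : Finset (Fin t) := {a, b, c} with hs
  let h : Fin 4 → Fin t → Fin 4 → ℕ := fun v i u =>
    if i = a then (if u = v then 1 else 0) else if i = b ∨ i = c then (if v ≤ u then 1 else 0) else 1
  have hcard : Fintype.card {x : Fin t → Fin 4 // x a ≤ x b ∧ x a ≤ x c} =
      ∑ v, ∏ i, ∑ u, h v i u := by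
    rw [Finset.sum_congr rfl fun v _ => Fintype.prod_sum (h v), Finset.sum_comm, Fintype.card_subtype,
      Finset.card_filter]
    refine Finset.sum_congr rfl fun x _ => ?_
    have e : ∀ v, ∏ i, h v i (x i) = ∏ i ∈ s, h v i (x i) := fun v =>
      (Finset.prod_subset (Finset.subset_univ s) fun i _ hi => by
        simp only [hs, Finset.mem_insert, Finset.mem_singleton, not_or] at hi
        simp [h, hi.1, hi.2.1, hi.2.2]).symm
    simp only [e, hs, Finset.prod_insert (show a ∉ ({b, c} : Finset (Fin t)) by simp [hab, hac]),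
      Finset.prod_insert (show b ∉ ({c} : Finset (Fin t)) by simp [hbc]), Finset.prod_singleton, h,
      hab.symm, hac.symm, if_true, if_false, true_or, or_true, ite_mul, one_mul, zero_mul]
    rw [Finset.sum_ite_eq, if_pos (Finset.mem_univ _)]
    split_ifs <;> simp_all
  have hprod : ∀ v, ∏ i, ∑ u, h v i u =
      (∏ i ∈ s, ∑ u, h v i u) * 4 ^ sᶜ.card := fun v => by
    rw [← Finset.prod_mul_prod_compl s]
    congr 1
    refine Finset.prod_eq_pow_card fun i hi => ?_
    simp only [Finset.mem_compl, hs, Finset.mem_insert, Finset.mem_singleton, not_or] at hi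
    simp [h, hi.1, hi.2.1, hi.2.2]
  have hs3 : s.card = 3 := by simp [hs, hab, hac, hbc]
  have ht : t = 3 + sᶜ.card := by
    rw [← hs3, Finset.card_add_card_compl, Fintype.card_fin]
  rw [hcard, Fintype.card_fun, Fintype.card_fin, Fintype.card_fin,
    Finset.sum_congr rfl fun v _ => hprod v, ← Finset.sum_mul]
  have h30 : ∑ v, ∏ i ∈ s, ∑ u, h v i u = 30 := by
    simp only [hs, Finset.prod_insert (show a ∉ ({b, c} : Finset (Fin t)) by simp [hab, hac]),
      Finset.prod_insert (show b ∉ ({c} : Finset (Fin t)) by simp [hbc]), Finset.prod_singleton, h,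
      hab.symm, hac.symm, if_true, if_false, true_or, or_true]
    decide
  rw [h30]
  conv_rhs => rw [ht, pow_add]
  have : 0 < 4 ^ sᶜ.card := by positivity
  omega

variable {p : ℕ}

/-- Monomial maps of odd prime order moving a site fix less than half of the space. -/
theorem fix_perm_lt (hp : p.Prime) (hp2 : p ≠ 2) {cs : Fin t → GL (Fin 4) F}
    {π : Equiv.Perm (Fin t)} {a : Fin t} (ha : π a ≠ a)
    (hv : (glPure cs * glFactorPerm 4 π) ^ p = 1) :
    2 * finrank F (Fix ((glPure cs * glFactorPerm 4 π : GV F t) : MV F t)) <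
      Fintype.card (Fin t → Fin 4) := by
  classical
  obtain ⟨E, hE0, hEs⟩ : ∃ E : ℕ → GL (Fin 4) F, E 0 = 1 ∧
      ∀ k, E (k + 1) = cs ((π ^ (k + 1)) a) * E k :=
    ⟨fun k => Nat.rec 1 (fun k e => cs ((π ^ (k + 1)) a) * e) k, rfl, fun _ => rfl⟩
  have hpow : ∀ k, ∃ C, (glPure cs * glFactorPerm 4 π) ^ k = glPure C * glFactorPerm 4 (π ^ k) ∧
      C ((π ^ k) a) = E k := by
    intro k
    induction k with
    | zero => exact ⟨1, by simp [glPure_one, glFactorPerm_one], by simp [hE0]⟩
    | succ k ih =>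
      obtain ⟨C, hC, hCa⟩ := ih
      refine ⟨fun i => cs i * C (π.symm i), by rw [pow_succ', hC, form_mul, pow_succ'], ?_⟩
      simp only [hEs, ← hCa]
      rw [pow_succ', Equiv.Perm.mul_apply, Equiv.symm_apply_apply]
  obtain ⟨C, hC, hCa⟩ := hpow p
  rw [hv] at hC
  obtain ⟨hπp, hsc⟩ := of_form_one hC.symm
  rw [hπp, Equiv.Perm.one_apply] at hCa
  obtain ⟨lam, -, hlam⟩ := hsc a
  rw [hCa] at hlam
  haveI := Fact.mk hp
  have hord : orderOf π = p := orderOf_eq_prime hπp fun e => ha (by simp [e])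
  have hinj : ∀ j k, j < k → k < p → (π ^ j) a ≠ (π ^ k) a := fun j k hjk hk e => by
    have e' : (π ^ (k - j)) a = a := by
      refine (π ^ j).injective ?_
      rw [← Equiv.Perm.mul_apply, ← pow_add, Nat.add_sub_cancel' hjk.le, e]
    obtain ⟨m, hm⟩ := exists_pow_eq_self_of_coprime (x := π) (n := k - j) (by
      rw [hord]; exact Nat.Coprime.symm (hp.coprime_iff_not_dvd.2
        (Nat.not_dvd_of_pos_of_lt (by omega) (by omega))))
    have hfix : ∀ m : ℕ, ((π ^ (k - j)) ^ m) a = a := fun m => by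
      induction m with
      | zero => simp
      | succ m ih => rw [pow_succ, Equiv.Perm.mul_apply, e', ih]
    exact ha (by conv_lhs => rw [← hm]
                 exact hfix m)
  let D : Fin t → GL (Fin 4) F := fun i =>
    if h : ∃ k, k < p ∧ (π ^ k) a = i then E (Nat.find h) else 1
  have hD : ∀ k < p, D ((π ^ k) a) = E k := fun k hk => by
    have hex : ∃ j, j < p ∧ (π ^ j) a = (π ^ k) a := ⟨k, hk, rfl⟩
    simp only [D, dif_pos hex]
    congr 1
    obtain ⟨h1, h2⟩ := Nat.find_spec hex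
    rcases lt_trichotomy (Nat.find hex) k with h | h | h
    · exact absurd h2 (hinj _ _ h hk)
    · exact h
    · exact absurd h2.symm (hinj _ _ h h1)
  set cs' : Fin t → GL (Fin 4) F := fun i => (D i)⁻¹ * (cs i * D (π.symm i))
  have hconj : (glPure D)⁻¹ * (glPure cs * glFactorPerm 4 π) * glPure D =
      glPure cs' * glFactorPerm 4 π := by
    rw [show (glPure D)⁻¹ = glPure D⁻¹ from inv_eq_of_mul_eq_one_right (by
      rw [glPure_mul, mul_inv_cancel, glPure_one]), mul_assoc, mul_assoc, perm_mul_glPure,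
      ← mul_assoc, ← mul_assoc, glPure_mul, glPure_mul]
    congr 2
    funext i
    simp [cs', mul_assoc]
  have hscal : ∀ j, ∃ c : F, (cs' ((π ^ j) a) : M4 F) = c • 1 := by
    intro j
    obtain ⟨k, hk, hkj⟩ : ∃ k, k < p ∧ π ^ (k + 1) = π ^ j :=
      ⟨(j + (p - 1)) % p, Nat.mod_lt _ hp.pos, by
        rw [pow_succ, ← pow_eq_pow_mod _ hπp, ← pow_succ,
          show j + (p - 1) + 1 = j + p by have := hp.pos; omega, pow_add, hπp, mul_one]⟩
    rw [← hkj]
    have hprev : π.symm ((π ^ (k + 1)) a) = (π ^ k) a := by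
      rw [pow_succ', Equiv.Perm.mul_apply, Equiv.symm_apply_apply]
    simp only [cs', hprev, hD k hk]
    by_cases hk1 : k + 1 < p
    · exact ⟨1, by rw [hD _ hk1, hEs, inv_mul_cancel, Units.val_one, one_smul]⟩
    · have hkp : k + 1 = p := by omega
      refine ⟨lam, ?_⟩
      rw [← hEs, hkp, hπp, Equiv.Perm.one_apply, ← hlam]
      have h0 := hD 0 hp.pos
      rw [pow_zero, Equiv.Perm.one_apply, hE0] at h0
      rw [h0, inv_one, one_mul]
  have hperiod : ∀ j, (π ^ j) a = (π ^ (j % p)) a := fun j => by rw [← pow_eq_pow_mod j hπp]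
  have hb : (π ^ 1) a ≠ a := by simpa using ha
  have hc : (π ^ 2) a ≠ a := by
    have h3 : 2 < p := lt_of_le_of_ne hp.two_le (Ne.symm hp2)
    simpa using (hinj 0 2 (by omega) h3).symm
  have hbc : (π ^ 1) a ≠ (π ^ 2) a := hinj 1 2 (by omega) (lt_of_le_of_ne hp.two_le (Ne.symm hp2))
  refine lt_of_le_of_lt ?_ (card_count hb.symm hc.symm hbc)
  refine Nat.mul_le_mul le_rfl ?_
  have hle := fix_le_conj (glPure D)⁻¹ (glPure cs * glFactorPerm 4 π)
  rw [inv_inv, hconj] at hle
  refine hle.trans ?_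
  rw [← Module.finrank_fintype_fun_eq_card F]
  refine LinearMap.finrank_le_finrank_of_injective (f :=
    (LinearMap.funLeft F F (Subtype.val :
      {x : Fin t → Fin 4 // x a ≤ x ((π ^ 1) a) ∧ x a ≤ x ((π ^ 2) a)} → _)).comp
      (Fix ((glPure cs' * glFactorPerm 4 π : GV F t) : MV F t)).subtype) ?_
  rw [← LinearMap.ker_eq_bot, LinearMap.ker_eq_bot']
  rintro ⟨f, hf⟩ h0
  have hfix : ∀ x, f x = ∑ z, pureMat (fun i => (cs' i : M4 F)) x z * f (z ∘ π) := fun x => by
    conv_lhs => rw [← mem_Fix.1 hf]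
    show ((pureMat (fun i => (cs' i : M4 F)) * factorPerm 4 π) *ᵥ f) x = _
    rw [← mulVec_mulVec]
    simp [Matrix.mulVec, dotProduct, factorPerm]
  have hmain : ∀ k (x : Fin t → Fin 4), (∀ j, x ((π ^ k) a) ≤ x ((π ^ j) a)) → f x = 0 := by
    intro k
    induction k with
    | zero =>
      intro x hx
      exact congrFun h0 ⟨x, by simpa using hx 1, by simpa using hx 2⟩
    | succ k ih =>
      intro x hx
      rw [hfix]
      refine Finset.sum_eq_zero fun z _ => ?_
      by_cases hz : ∀ j, z ((π ^ j) a) = x ((π ^ j) a)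
      · rw [ih (z ∘ π) fun j => ?_, mul_zero]
        simp only [Function.comp_apply, ← Equiv.Perm.mul_apply, ← pow_succ', hz]
        exact hx _
      · push Not at hz
        obtain ⟨j, hj⟩ := hz
        obtain ⟨c, hc⟩ := hscal j
        rw [pureMat, Finset.prod_eq_zero (Finset.mem_univ ((π ^ j) a)) (by simp [hc, hj.symm]), zero_mul]
  refine Subtype.ext (funext fun x => ?_)
  obtain ⟨k, -, hk⟩ := Finset.exists_min_image (Finset.range p) (fun j => x ((π ^ j) a))
    ⟨0, Finset.mem_range.2 hp.pos⟩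
  exact hmain k x fun j => by
    rw [hperiod j]; exact hk _ (Finset.mem_range.2 (Nat.mod_lt _ hp.pos))

end Cfsg.Agent.MaxSub.OrthFour.Monomial
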