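import Cfsg.Agent.MaxSub.OrthFour.Defs

/-!
Root elements of one site of dimension four and minus type.
-/

set_option autoImplicit false
set_option linter.unusedSectionVars false
set_option linter.unusedSimpArgs false
set_option linter.unnecessarySeqFocus false
set_option linter.unusedVariables false

namespace Cfsg.Agent.MaxSub.OrthFour.Site

open Matrix Module Cfsg.Agent.NotMax Cfsg.Agent.GeoClasses
open Cfsg.Agent.MaxSub.TensorPowSp (fG)
open Cfsg.Agent.MaxSub.OrthWreathBig (gB gB_apply cr cr_mul cr_mulVec cr_add_left cr_add_right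
  cr_smul_left cr_smul_right sieM)
open scoped Matrix

variable {F : Type*} [Field F] {δ : F}

lemma sim_gB {c : M4 F} {ν : F} (hc : cᵀ * G4 δ * c = ν • G4 δ) (a b : Fin 4 → F) :
    gB (G4 δ) (c *ᵥ a) (c *ᵥ b) = ν * gB (G4 δ) a b := by
  rw [gB_apply, gB_apply, fG, fG, dotProduct_mulVec, ← vecMul_transpose, vecMul_vecMul,
    vecMul_vecMul, ← mul_assoc, hc, vecMul_smul, smul_dotProduct, smul_eq_mul]

lemma iso_gB {A : M4 F} (hA : IsoW δ A) (a b : Fin 4 → F) :
    gB (G4 δ) (A *ᵥ a) (A *ᵥ b) = gB (G4 δ) a b := by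
  rw [sim_gB (ν := 1) (by rw [one_smul]; exact hA), one_mul]

lemma isoW_one : IsoW δ (1 : M4 F) := by simp [IsoW]

lemma isoW_mul {A B : M4 F} (hA : IsoW δ A) (hB : IsoW δ B) : IsoW δ (A * B) := by
  unfold IsoW at *
  rw [transpose_mul, show Bᵀ * Aᵀ * G4 δ * (A * B) = Bᵀ * (Aᵀ * G4 δ * A) * B by
    simp only [mul_assoc], hA, hB]

lemma isoW_pow {A : M4 F} (hA : IsoW δ A) (n : ℕ) : IsoW δ (A ^ n) := by
  induction n with
  | zero => simpa using isoW_one
  | succ n ih => rw [pow_succ]; exact isoW_mul ih hA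

lemma cr_transpose_mul (a b : Fin 4 → F) :
    (cr (G4 δ) a b)ᵀ * G4 δ = G4 δ * cr (G4 δ) b a := by
  rw [cr, cr, transpose_vecMulVec, vecMulVec_mul, mul_vecMulVec, ← vecMul_transpose, G4_transpose]

lemma sieM_zero (u : Fin 4 → F) : sieM (G4 δ) u 0 = 0 := by simp [sieM]

lemma sieM_mul (h2 : (2 : F) ≠ 0) {u y y' : Fin 4 → F} (hu : gB (G4 δ) u u = 0)
    (hy : gB (G4 δ) u y = 0) (hy' : gB (G4 δ) u y' = 0) :
    (1 + sieM (G4 δ) u y) * (1 + sieM (G4 δ) u y') = 1 + sieM (G4 δ) u (y + y') := by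
  have hyu : gB (G4 δ) y u = 0 := by rw [gB_symm, hy]
  simp only [sieM, mul_add, add_mul, mul_sub, sub_mul, mul_one, one_mul, smul_mul_assoc, mul_smul_comm,
    cr_mul, hu, hy, hy', hyu, zero_smul, smul_zero, cr_add_left, cr_add_right, map_add,
    LinearMap.add_apply, gB_symm δ y' y]
  match_scalars <;> field_simp <;> ring

lemma sie_mul_neg (h2 : (2 : F) ≠ 0) {u y : Fin 4 → F} (hu : gB (G4 δ) u u = 0)
    (hy : gB (G4 δ) u y = 0) :
    (1 + sieM (G4 δ) u y) * (1 + sieM (G4 δ) u (-y)) = 1 := by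
  rw [sieM_mul h2 hu hy (by rw [map_neg, hy, neg_zero]), add_neg_cancel, sieM_zero, add_zero]

lemma sie_neg_mul (h2 : (2 : F) ≠ 0) {u y : Fin 4 → F} (hu : gB (G4 δ) u u = 0)
    (hy : gB (G4 δ) u y = 0) :
    (1 + sieM (G4 δ) u (-y)) * (1 + sieM (G4 δ) u y) = 1 := by
  rw [sieM_mul h2 hu (by rw [map_neg, hy, neg_zero]) hy, neg_add_cancel, sieM_zero, add_zero]

lemma sie_pow (h2 : (2 : F) ≠ 0) {u y : Fin 4 → F} (hu : gB (G4 δ) u u = 0)
    (hy : gB (G4 δ) u y = 0) (n : ℕ) :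
    (1 + sieM (G4 δ) u y) ^ n = 1 + sieM (G4 δ) u ((n : F) • y) := by
  induction n with
  | zero => simp [sieM_zero]
  | succ n ih =>
    rw [pow_succ, ih, sieM_mul h2 hu (by rw [map_smul, hy, smul_zero]) hy, Nat.cast_succ, add_smul,
      one_smul]

lemma sie_isoW (h2 : (2 : F) ≠ 0) {u y : Fin 4 → F} (hu : gB (G4 δ) u u = 0)
    (hy : gB (G4 δ) u y = 0) : IsoW δ (1 + sieM (G4 δ) u y) := by
  have e : (1 + sieM (G4 δ) u y)ᵀ * G4 δ = G4 δ * (1 + sieM (G4 δ) u (-y)) := by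
    rw [transpose_add, transpose_one, add_mul, one_mul, mul_add, mul_one]
    congr 1
    simp only [sieM, transpose_sub, transpose_smul, sub_mul, smul_mul_assoc, cr_transpose_mul, mul_sub,
      mul_smul_comm, map_neg, LinearMap.neg_apply, neg_neg]
    rw [show cr (G4 δ) (-y) u = (-1 : F) • cr (G4 δ) y u by rw [← cr_smul_left, neg_one_smul],
      show cr (G4 δ) u (-y) = (-1 : F) • cr (G4 δ) u y by rw [← cr_smul_right, neg_one_smul]]
    simp only [mul_smul_comm]
    module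
  rw [IsoW, e, mul_assoc, sie_neg_mul h2 hu hy, mul_one]

/-- The action of a root element. -/
lemma sie_apply (u y z : Fin 4 → F) :
    (1 + sieM (G4 δ) u y) *ᵥ z = z + (gB (G4 δ) u z • y - gB (G4 δ) y z • u -
      (gB (G4 δ) y y / 2 * gB (G4 δ) u z) • u) := by
  rw [add_mulVec, one_mulVec, sieM, sub_mulVec, sub_mulVec, smul_mulVec, cr_mulVec, cr_mulVec,
    cr_mulVec, smul_smul]

/-- There are no totally singular planes. -/
lemma ts_line (hd : ¬ IsSquare δ) {a b : Fin 4 → F} (haa : gB (G4 δ) a a = 0)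
    (hbb : gB (G4 δ) b b = 0) (hab : gB (G4 δ) a b = 0) (ha : a ≠ 0) : ∃ c : F, b = c • a := by
  rw [gB_diag] at haa hbb hab
  have sq0 : ∀ s e : F, δ * s ^ 2 = e ^ 2 → s = 0 := fun s e h => by
    by_contra hs
    exact hd ⟨e / s, by field_simp; linear_combination h⟩
  by_cases h0 : a 0 = 0
  · rw [h0] at haa hab
    have hb0 : b 0 * a 1 = 0 ∧ b 0 * a 2 = 0 ∧ b 0 * a 3 = 0 :=
      ⟨sq0 _ (b 2 * a 3 - b 3 * a 2) (by
          linear_combination a 1 ^ 2 * hbb - (b 2 ^ 2 + b 3 ^ 2) * haa -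
            (b 1 * a 1 - b 2 * a 2 - b 3 * a 3) * hab),
        sq0 _ (b 1 * a 3 - b 3 * a 1) (by
          linear_combination a 2 ^ 2 * hbb - (b 1 ^ 2 + b 3 ^ 2) * haa -
            (b 2 * a 2 - b 1 * a 1 - b 3 * a 3) * hab),
        sq0 _ (b 2 * a 1 - b 1 * a 2) (by
          linear_combination a 3 ^ 2 * hbb - (b 2 ^ 2 + b 1 ^ 2) * haa -
            (b 3 * a 3 - b 2 * a 2 - b 1 * a 1) * hab)⟩
    obtain ⟨l, hl⟩ : ∃ l, a l ≠ 0 := Function.ne_iff.1 ha
    have hz : b 0 = 0 := by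
      fin_cases l
      · exact absurd h0 hl
      · exact (mul_eq_zero.1 hb0.1).resolve_right hl
      · exact (mul_eq_zero.1 hb0.2.1).resolve_right hl
      · exact (mul_eq_zero.1 hb0.2.2).resolve_right hl
    rw [hz] at hbb hab
    have n1 : a 2 * b 3 - a 3 * b 2 = 0 := sq_eq_zero_iff.1 (by
      linear_combination (b 2 ^ 2 + b 3 ^ 2) * haa - a 1 ^ 2 * hbb -
        (a 2 * b 2 + a 3 * b 3 - a 1 * b 1) * hab)
    have n2 : a 1 * b 3 - a 3 * b 1 = 0 := sq_eq_zero_iff.1 (by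
      linear_combination (b 1 ^ 2 + b 3 ^ 2) * haa - a 2 ^ 2 * hbb -
        (a 1 * b 1 + a 3 * b 3 - a 2 * b 2) * hab)
    have n3 : a 1 * b 2 - a 2 * b 1 = 0 := sq_eq_zero_iff.1 (by
      linear_combination (b 1 ^ 2 + b 2 ^ 2) * haa - a 3 ^ 2 * hbb -
        (a 1 * b 1 + a 2 * b 2 - a 3 * b 3) * hab)
    refine ⟨b l / a l, funext fun m => ?_⟩
    rw [Pi.smul_apply, smul_eq_mul, div_mul_eq_mul_div, eq_div_iff hl]
    fin_cases l <;> fin_cases m <;> (simp only [Fin.isValue, Fin.reduceFinMk, Fin.zero_eta] at *) <;>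
      first
        | exact absurd h0 hl
        | ring1
        | (rw [h0, hz]; ring1)
        | linear_combination n1
        | linear_combination -n1
        | linear_combination n2
        | linear_combination -n2
        | linear_combination n3
        | linear_combination -n3
  · set l := b 0 / a 0
    have hl : b 0 = l * a 0 := by simp [l, h0]
    have hs : a 1 * (b 1 - l * a 1) + a 2 * (b 2 - l * a 2) + a 3 * (b 3 - l * a 3) = 0 := by
      linear_combination hab - l * haa - δ * a 0 * hl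
    have hn : (b 1 - l * a 1) ^ 2 + (b 2 - l * a 2) ^ 2 + (b 3 - l * a 3) ^ 2 = 0 := by
      linear_combination hbb - 2 * l * hab + l ^ 2 * haa - δ * (b 0 - l * a 0) * hl
    have e : ∀ (p q r s u v : F), p * s + q * u + r * v = 0 → s ^ 2 + u ^ 2 + v ^ 2 = 0 →
        δ * a 0 * a 0 + p ^ 2 + q ^ 2 + r ^ 2 = 0 → s = 0 := fun p q r s u v e1 e2 e3 => by
      have := sq0 (a 0 * s) (q * v - r * u) (by
        linear_combination s ^ 2 * e3 - (q ^ 2 + r ^ 2) * e2 - (p * s - q * u - r * v) * e1)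
      exact (mul_eq_zero.1 this).resolve_left h0
    have s1 := e (a 1) (a 2) (a 3) _ _ _ hs hn (by linear_combination haa)
    have s2 := e (a 2) (a 1) (a 3) (b 2 - l * a 2) (b 1 - l * a 1) (b 3 - l * a 3)
      (by linear_combination hs) (by linear_combination hn) (by linear_combination haa)
    have s3 := e (a 3) (a 1) (a 2) (b 3 - l * a 3) (b 1 - l * a 1) (b 2 - l * a 2)
      (by linear_combination hs) (by linear_combination hn) (by linear_combination haa)
    refine ⟨l, funext fun m => ?_⟩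
    fin_cases m <;> simp only [Fin.isValue, Fin.reduceFinMk, Fin.zero_eta, Pi.smul_apply, smul_eq_mul]
    · exact hl
    · exact sub_eq_zero.1 s1
    · exact sub_eq_zero.1 s2
    · exact sub_eq_zero.1 s3

lemma exists_dual (hd : ¬ IsSquare δ) {w : Fin 4 → F} (hw : w ≠ 0) : ∃ y, gB (G4 δ) w y = 1 := by
  have hne : w ᵥ* G4 δ ≠ 0 := fun e =>
    hw (Matrix.vecMul_injective_of_isUnit ((Matrix.isUnit_iff_isUnit_det _).2 (G4_det hd))
      (show w ᵥ* G4 δ = 0 ᵥ* G4 δ by rw [e, zero_vecMul]))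
  obtain ⟨i, hi⟩ := Function.ne_iff.1 hne
  exact ⟨Pi.single i ((w ᵥ* G4 δ) i)⁻¹, by
    rw [gB_apply, fG, dotProduct_single, mul_inv_cancel₀ hi]⟩

lemma exists_opposite (h2 : (2 : F) ≠ 0) (hd : ¬ IsSquare δ) {w : Fin 4 → F} (hw : w ≠ 0)
    (hww : gB (G4 δ) w w = 0) : ∃ y, gB (G4 δ) w y = 1 ∧ gB (G4 δ) y y = 0 := by
  obtain ⟨y, hy⟩ := exists_dual hd hw
  refine ⟨y - (gB (G4 δ) y y / 2) • w, by simp [hy, hww], ?_⟩
  simp [hy, hww, gB_symm δ y w]
  field_simp
  ring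

/-- An anisotropic vector orthogonal to a hyperbolic pair and to one further vector. -/
lemma exists_perp (hd : ¬ IsSquare δ) {w y : Fin 4 → F} (hwy : gB (G4 δ) w y = 1)
    (hww : gB (G4 δ) w w = 0) (x : Fin 4 → F) :
    ∃ e, gB (G4 δ) w e = 0 ∧ gB (G4 δ) y e = 0 ∧ gB (G4 δ) x e = 0 ∧ gB (G4 δ) e e ≠ 0 := by
  have hw : w ≠ 0 := fun e => by simp [e] at hwy
  obtain ⟨e, he, he0⟩ := Submodule.exists_mem_ne_zero_of_ne_bot
    (p := LinearMap.ker ((gB (G4 δ) w).prod ((gB (G4 δ) y).prod (gB (G4 δ) x)))) (by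
      intro h
      have := LinearMap.finrank_le_finrank_of_injective (LinearMap.ker_eq_bot.1 h)
      simp at this)
  simp only [LinearMap.mem_ker, LinearMap.prod_apply, Function.prod, Prod.mk_eq_zero] at he
  refine ⟨e, he.1, he.2.1, he.2.2, fun hee => ?_⟩
  obtain ⟨c, rfl⟩ := ts_line hd hww hee he.1 hw
  have := he.2.1
  simp [gB_symm δ y w, hwy] at this
  exact he0 (by rw [this, zero_smul])

lemma aniso_of_perp (hd : ¬ IsSquare δ) {w y x : Fin 4 → F} (hwy : gB (G4 δ) w y = 1)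
    (hww : gB (G4 δ) w w = 0) (hwx : gB (G4 δ) w x = 0) (hxy : gB (G4 δ) x y = 0) (hx : x ≠ 0) :
    gB (G4 δ) x x ≠ 0 := fun h => by
  obtain ⟨c, rfl⟩ := ts_line hd hww h hwx (fun e => by simp [e] at hwy)
  simp [hwy] at hxy
  exact hx (by rw [hxy, zero_smul])

/-- The conditions on the parameters of a root element. -/
def Par (δ : F) (w x : Fin 4 → F) : Prop :=
  w ≠ 0 ∧ gB (G4 δ) w w = 0 ∧ gB (G4 δ) w x = 0 ∧ gB (G4 δ) x x ≠ 0

lemma Par.ne_one {w x : Fin 4 → F} (h : Par δ w x) : 1 + sieM (G4 δ) w x ≠ 1 := fun e => by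
  have := congrArg (fun A => A *ᵥ x) e
  simp only [sie_apply, one_mulVec, h.2.2.1, mul_zero, zero_smul, sub_zero, zero_sub,
    add_eq_left, neg_eq_zero, smul_eq_zero] at this
  exact this.elim h.2.2.2 h.1

lemma Par.neg {w x : Fin 4 → F} (h : Par δ w x) : Par δ w (-x) :=
  ⟨h.1, h.2.1, by simp [h.2.2.1], by simpa using h.2.2.2⟩

/-- A fixed vector in the image of the displacement of a unipotent isometry. -/
lemma exists_fixed {p : ℕ} (hA : ∀ A : M4 F, A ^ p = 1 → (A - 1) ^ p = 0) {A : M4 F}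
    (hiso : IsoW δ A) (hp : A ^ p = 1) (hne : A ≠ 1) :
    ∃ w, w ≠ 0 ∧ A *ᵥ w = w ∧ gB (G4 δ) w w = 0 ∧ ∃ z, A *ᵥ z - z = w := by
  classical
  set N := A - 1
  have hex : ∃ m, N ^ m = 0 := ⟨p, hA A hp⟩
  obtain ⟨m, hm, hmin⟩ : ∃ m, N ^ m = 0 ∧ ∀ k < m, N ^ k ≠ 0 :=
    ⟨Nat.find hex, Nat.find_spec hex, fun k hk => Nat.find_min hex hk⟩
  obtain _ | _ | m := m
  · exact absurd hm (by simp)
  · exact absurd (sub_eq_zero.1 (by simpa using hm)) hne
  obtain ⟨z, hz⟩ : ∃ z, N ^ (m + 1) *ᵥ z ≠ 0 := by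
    by_contra h
    push Not at h
    exact hmin (m + 1) (by omega) (Matrix.ext_of_mulVec_single fun i => by rw [h, zero_mulVec])
  set w := N ^ (m + 1) *ᵥ z
  have hfix : A *ᵥ w = w := by
    rw [← sub_eq_zero, show A *ᵥ w - w = N *ᵥ w by rw [sub_mulVec, one_mulVec], mulVec_mulVec,
      ← pow_succ', hm, zero_mulVec]
  set z' := N ^ m *ᵥ z
  have hz' : A *ᵥ z' - z' = w := by
    rw [show A *ᵥ z' - z' = N *ᵥ z' by rw [sub_mulVec, one_mulVec], mulVec_mulVec, ← pow_succ']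
  refine ⟨w, hz, hfix, ?_, z', hz'⟩
  calc gB (G4 δ) w w = gB (G4 δ) (A *ᵥ z' - z') w := by rw [hz']
    _ = gB (G4 δ) (A *ᵥ z') (A *ᵥ w) - gB (G4 δ) z' w := by
      rw [map_sub, LinearMap.sub_apply, hfix]
    _ = 0 := by rw [iso_gB hiso, sub_self]

/-- Isometries of prime order equal to the characteristic are root elements. -/
lemma exists_par (h2 : (2 : F) ≠ 0) (hd : ¬ IsSquare δ) {p : ℕ}
    (hA : ∀ A : M4 F, A ^ p = 1 → (A - 1) ^ p = 0) {A : M4 F}
    (hiso : IsoW δ A) (hp : A ^ p = 1) (hne : A ≠ 1) :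
    ∃ w x, Par δ w x ∧ A = 1 + sieM (G4 δ) w x := by
  obtain ⟨w, hw, hfix, hww, -⟩ := exists_fixed hA hiso hp hne
  obtain ⟨y, hwy, hyy⟩ := exists_opposite h2 hd hw hww
  have hyw : gB (G4 δ) y w = 1 := by rw [gB_symm, hwy]
  set y' := A *ᵥ y with hy'
  have hwy' : gB (G4 δ) w y' = 1 := by
    rw [hy']
    conv_lhs => arg 1; arg 2; rw [← hfix]
    rw [iso_gB hiso, hwy]
  have hy'w : gB (G4 δ) y' w = 1 := by rw [gB_symm, hwy']
  have hy'y' : gB (G4 δ) y' y' = 0 := by rw [hy', iso_gB hiso, hyy]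
  set s := gB (G4 δ) y' y with hs
  set x := y' - y - s • w with hx
  have hwx : gB (G4 δ) w x = 0 := by simp [hx, hwy', hwy, hww]
  have hxw : gB (G4 δ) x w = 0 := by rw [gB_symm, hwx]
  have hxy : gB (G4 δ) x y = 0 := by simp [hx, hyy, hwy, ← hs]
  have hxx : gB (G4 δ) x x = -2 * s := by
    simp [hx, hy'y', hyy, hww, hwy, hwy', hyw, hy'w, gB_symm δ y y', ← hs]
    ring
  have hBy : (1 + sieM (G4 δ) w x) *ᵥ y = y' := by
    rw [sie_apply, hwy, hxy, hxx, hx]
    match_scalars <;> field_simp <;> ring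
  have hBw : (1 + sieM (G4 δ) w x) *ᵥ w = w := by
    rw [sie_apply, hww, hxw]; simp
  set B := 1 + sieM (G4 δ) w x with hB
  set B' := 1 + sieM (G4 δ) w (-x) with hB'
  have hBiso : IsoW δ B := sie_isoW h2 hww hwx
  have hB'iso : IsoW δ B' := sie_isoW h2 hww (by rw [map_neg, hwx, neg_zero])
  set C := B' * A with hC
  have hCiso : IsoW δ C := isoW_mul hB'iso hiso
  have hBC : A = B * C := by rw [hC, ← mul_assoc, sie_mul_neg h2 hww hwx, one_mul]
  have hB'w : B' *ᵥ w = w := by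
    conv_lhs => rw [← hBw, mulVec_mulVec, sie_neg_mul h2 hww hwx, one_mulVec]
  have hCw : C *ᵥ w = w := by rw [hC, ← mulVec_mulVec, hfix, hB'w]
  have hCy : C *ᵥ y = y := by
    rw [hC, ← mulVec_mulVec, ← hy', ← hBy, mulVec_mulVec, sie_neg_mul h2 hww hwx, one_mulVec]
  have hCwn : ∀ n : ℕ, C ^ n *ᵥ w = w := fun n => by
    induction n with
    | zero => simp
    | succ n ih => rw [pow_succ, ← mulVec_mulVec, hCw, ih]
  have hCyn : ∀ n : ℕ, C ^ n *ᵥ y = y := fun n => by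
    induction n with
    | zero => simp
    | succ n ih => rw [pow_succ, ← mulVec_mulVec, hCy, ih]
  have hstep : ∀ (n : ℕ) (z : Fin 4 → F), gB (G4 δ) w z = 0 →
      ∃ f : F, A ^ n *ᵥ z = C ^ n *ᵥ z + f • w := fun n z hz => by
    induction n with
    | zero => exact ⟨0, by simp⟩
    | succ n ih =>
      obtain ⟨f, hf⟩ := ih
      have hperp : gB (G4 δ) w (C ^ (n + 1) *ᵥ z) = 0 := by
        conv_lhs => arg 1; arg 2; rw [← hCwn (n + 1)]
        rw [iso_gB (isoW_pow hCiso _), hz]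
      refine ⟨f - gB (G4 δ) x (C ^ (n + 1) *ᵥ z), ?_⟩
      rw [pow_succ', ← mulVec_mulVec, hf, mulVec_add, mulVec_smul, hfix, hBC, ← mulVec_mulVec,
        mulVec_mulVec _ C, ← pow_succ', hB, sie_apply, hperp]
      simp
      module
  have hCp : C ^ p = 1 := by
    refine Matrix.ext_of_mulVec_single fun i => ?_
    rw [one_mulVec]
    generalize (Pi.single i (1 : F) : Fin 4 → F) = z
    set z₀ := z - gB (G4 δ) w z • y with hz0
    have hz : gB (G4 δ) w z₀ = 0 := by simp [hz0, hwy]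
    obtain ⟨f, hf⟩ := hstep p z₀ hz
    rw [hp, one_mulVec] at hf
    have e := congrArg (gB (G4 δ) y) hf
    rw [map_add, map_smul, hyw, smul_eq_mul, mul_one] at e
    have e' : gB (G4 δ) y (C ^ p *ᵥ z₀) = gB (G4 δ) y z₀ := by
      conv_lhs => arg 1; arg 2; rw [← hCyn p]
      rw [iso_gB (isoW_pow hCiso _)]
    rw [e', left_eq_add] at e
    rw [e, zero_smul, add_zero] at hf
    calc C ^ p *ᵥ z = C ^ p *ᵥ z₀ + gB (G4 δ) w z • C ^ p *ᵥ y := by
          rw [← mulVec_smul, ← mulVec_add, hz0, sub_add_cancel]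
      _ = z := by rw [← hf, hCyn, hz0, sub_add_cancel]
  have hC1 : C = 1 := by
    by_contra hC1
    obtain ⟨w', hw', -, hw'w', z, hz⟩ := exists_fixed hA hCiso hCp hC1
    have hperp : ∀ v, C *ᵥ v = v → gB (G4 δ) v w' = 0 := fun v hv => by
      rw [← hz, map_sub]
      conv_lhs => arg 1; arg 1; arg 2; rw [← hv]
      rw [iso_gB hCiso, sub_self]
    obtain ⟨c, rfl⟩ := ts_line hd hww hw'w' (hperp w hCw) hw
    have := hperp y hCy
    simp [hyw] at this
    exact hw' (by rw [this, zero_smul])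
  rw [hC1, mul_one] at hBC
  refine ⟨w, x, ⟨hw, hww, hwx, aniso_of_perp hd hwy hww hwx hxy fun e => hne ?_⟩, hBC⟩
  rw [hBC, hB, e, sieM_zero, add_zero]

lemma sieM_sq (h2 : (2 : F) ≠ 0) {w x : Fin 4 → F} (hw : gB (G4 δ) w w = 0)
    (hx : gB (G4 δ) w x = 0) :
    sieM (G4 δ) w x * sieM (G4 δ) w x = (-gB (G4 δ) x x) • cr (G4 δ) w w := by
  have hxw : gB (G4 δ) x w = 0 := by rw [gB_symm, hx]
  simp only [sieM, sub_mul, mul_sub, smul_mul_assoc, mul_smul_comm, cr_mul, hw, hx, hxw, zero_smul,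
    smul_zero]
  module

/-- Root elements with different centres do not commute. -/
lemma line_of_comm (h2 : (2 : F) ≠ 0) (hd : ¬ IsSquare δ) {w x w' x' : Fin 4 → F} (h : Par δ w x)
    (h' : Par δ w' x')
    (hc : Commute (1 + sieM (G4 δ) w x) (1 + sieM (G4 δ) w' x')) : ∃ c : F, w' = c • w := by
  obtain ⟨hw, hww, hwx, hxx⟩ := h
  obtain ⟨hw', hw'w', hw'x', hx'x'⟩ := h'
  have hs : Commute (sieM (G4 δ) w x) (1 + sieM (G4 δ) w' x') := by
    simpa using hc.sub_left (Commute.one_left _)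
  have hs2 := hs.mul_left hs
  rw [sieM_sq h2 hww hwx] at hs2
  obtain ⟨y, hy⟩ := exists_dual hd hw
  have e := congrArg (fun D => D *ᵥ y) hs2.eq
  simp only [← mulVec_mulVec, smul_mulVec, cr_mulVec, mulVec_smul, hy, one_smul] at e
  rw [neg_smul, neg_smul, neg_inj] at e
  have e' : (1 + sieM (G4 δ) w' x') *ᵥ w = gB (G4 δ) w ((1 + sieM (G4 δ) w' x') *ᵥ y) • w :=
    (smul_right_injective _ hxx e).symm
  generalize gB (G4 δ) w ((1 + sieM (G4 δ) w' x') *ᵥ y) = r at e'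
  rw [sie_apply] at e'
  refine ts_line hd hww hw'w' ?_ hw
  by_contra hne
  have hw'w : gB (G4 δ) w' w ≠ 0 := by rwa [gB_symm]
  have f1 := congrArg (gB (G4 δ) w') e'
  simp [hw'w', hw'x'] at f1
  have hr : r = 1 := mul_right_cancel₀ hw'w (by linear_combination -f1)
  have f2 := congrArg (gB (G4 δ) x') e'
  simp [hr, gB_symm δ x' w', hw'x', hw'w, hx'x'] at f2

lemma mem_of_cr {A : Subalgebra F (M4 F)} (hd : ¬ IsSquare δ)
    (h : ∀ a b, cr (G4 δ) a b ∈ A) : A = ⊤ := by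
  rw [eq_top_iff]
  rintro X -
  rw [Matrix.matrix_eq_sum_single X]
  refine sum_mem fun p _ => sum_mem fun q _ => ?_
  have := h (Pi.single p (X p q)) (Pi.single q 1 ᵥ* (G4 δ)⁻¹)
  rw [cr, vecMul_vecMul, Matrix.nonsing_inv_mul _ (G4_det hd), vecMul_one] at this
  convert this using 1
  ext a b
  by_cases ha : p = a <;> by_cases hb : q = b <;> simp [Matrix.vecMulVec_apply, ha, hb, Ne.symm]

lemma exists_singular [Finite F] (h2 : (2 : F) ≠ 0) :
    ∃ w : Fin 4 → F, w ≠ 0 ∧ gB (G4 δ) w w = 0 := by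
  have : Fintype F := Fintype.ofFinite F
  have hodd : Fintype.card F % 2 = 1 := FiniteField.odd_card_of_char_ne_two fun e => by
    have : CharP F 2 := e ▸ ringChar.charP F
    exact h2 (by exact_mod_cast CharP.cast_eq_zero F 2)
  obtain ⟨a, b, hab⟩ := FiniteField.exists_root_sum_quadratic
    (f := (Polynomial.X ^ 2 : Polynomial F)) (g := Polynomial.X ^ 2 - Polynomial.C (-1 : F))
    (Polynomial.degree_X_pow 2) (Polynomial.degree_X_pow_sub_C (by norm_num) _) hodd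
  simp only [Polynomial.eval_pow, Polynomial.eval_X, Polynomial.eval_sub, Polynomial.eval_C,
    sub_neg_eq_add] at hab
  refine ⟨![0, a, b, 1], fun e => ?_, ?_⟩
  · simpa using congrFun e 3
  · rw [gB_diag]
    simp
    linear_combination hab

/-- The root elements generate all matrices of one site. -/
lemma span_par [Finite F] (h2 : (2 : F) ≠ 0) (hd : ¬ IsSquare δ) (A : Subalgebra F (M4 F))
    (hA : ∀ w x, Par δ w x → 1 + sieM (G4 δ) w x ∈ A) : A = ⊤ := by
  have hdiag : ∀ w, gB (G4 δ) w w = 0 → cr (G4 δ) w w ∈ A := by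
    intro w hww
    rcases eq_or_ne w 0 with rfl | hw
    · simp
    obtain ⟨y, hwy, -⟩ := exists_opposite h2 hd hw hww
    obtain ⟨x, hwx, -, -, hxx⟩ := exists_perp hd hwy hww 0
    have hs : sieM (G4 δ) w x ∈ A := by
      have := sub_mem (hA w x ⟨hw, hww, hwx, hxx⟩) (one_mem A)
      rwa [add_sub_cancel_left] at this
    have := A.smul_mem (mul_mem hs hs) (-gB (G4 δ) x x)⁻¹
    rwa [sieM_sq h2 hww hwx, smul_smul, inv_mul_cancel₀ (neg_ne_zero.2 hxx), one_smul] at this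
  have hsing : ∀ a b, gB (G4 δ) a a = 0 → gB (G4 δ) b b = 0 → cr (G4 δ) a b ∈ A := by
    intro a b ha hb
    by_cases hab : gB (G4 δ) a b = 0
    · rcases eq_or_ne a 0 with rfl | ha0
      · simp
      obtain ⟨c, rfl⟩ := ts_line hd ha hb hab ha0
      rw [cr_smul_right]
      exact A.smul_mem (hdiag a ha) c
    · have := A.smul_mem (mul_mem (hdiag a ha) (hdiag b hb)) (gB (G4 δ) a b)⁻¹
      rwa [cr_mul, smul_smul, inv_mul_cancel₀ hab, one_smul] at this
  obtain ⟨w, hw, hww⟩ := exists_singular (δ := δ) h2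
  obtain ⟨y, hwy, hyy⟩ := exists_opposite h2 hd hw hww
  have hyw : gB (G4 δ) y w = 1 := by rw [gB_symm, hwy]
  have hspan : ∀ T : Submodule F (Fin 4 → F), (∀ z, gB (G4 δ) z z = 0 → z ∈ T) → ∀ z, z ∈ T := by
    intro T hT z
    set b := z - gB (G4 δ) y z • w - gB (G4 δ) w z • y with hb
    have hwb : gB (G4 δ) w b = 0 := by simp [hb, hww, hwy]
    have hyb : gB (G4 δ) y b = 0 := by simp [hb, hyy, hyw]
    have hv := hT (b - (gB (G4 δ) b b / 2) • w + y) (by
      simp [hwb, hyb, hww, hwy, hyy, hyw, gB_symm δ b w, gB_symm δ b y]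
      field_simp
      ring)
    have hbT : b ∈ T := by
      have := add_mem (sub_mem hv (hT y hyy)) (T.smul_mem (gB (G4 δ) b b / 2) (hT w hww))
      rwa [add_sub_cancel_right, sub_add_cancel] at this
    have := add_mem (add_mem hbT (T.smul_mem (gB (G4 δ) w z) (hT y hyy)))
      (T.smul_mem (gB (G4 δ) y z) (hT w hww))
    rwa [hb, sub_add_cancel, sub_add_cancel] at this
  have hleft : ∀ b, gB (G4 δ) b b = 0 → ∀ a, cr (G4 δ) a b ∈ A := fun b hb a =>
    hspan
      { carrier := {a | cr (G4 δ) a b ∈ A}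
        zero_mem' := by simp
        add_mem' := fun {p q} hp hq => by
          show cr (G4 δ) (p + q) b ∈ A
          rw [cr_add_left]; exact add_mem hp hq
        smul_mem' := fun c p hp => by
          show cr (G4 δ) (c • p) b ∈ A
          rw [cr_smul_left]; exact A.smul_mem hp c }
      (fun z hz => hsing z b hz hb) a
  exact mem_of_cr hd fun a b => hspan
    { carrier := {b | cr (G4 δ) a b ∈ A}
      zero_mem' := by simp
      add_mem' := fun {p q} hp hq => by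
        show cr (G4 δ) a (p + q) ∈ A
        rw [cr_add_right]; exact add_mem hp hq
      smul_mem' := fun c p hp => by
        show cr (G4 δ) a (c • p) ∈ A
        rw [cr_smul_right]; exact A.smul_mem hp c }
    (fun z hz => hleft z hz a) b

end Cfsg.Agent.MaxSub.OrthFour.Site
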