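import Cfsg.Agent.MaxSub.OrthFour.Pair
import Cfsg.Agent.MaxSub.TensorPowSp.Normal
import Cfsg.Agent.MaxSub.Proper

/-!
Lifting the group of `s` sites to the sites different from a given one of `s + 1` sites, and the
reduction step of the dichotomy along such a lift.
-/

set_option autoImplicit false
set_option linter.unusedSectionVars false

namespace Cfsg.Agent.MaxSub.OrthFour

open Matrix Cfsg.Geo Cfsg.Agent.NotMax Cfsg.Agent.GeoClasses
open Cfsg.Agent.MaxSub.TensorPowSp (gV emb blk Rest)
open PairLift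
open scoped MatrixGroups Matrix

variable {F : Type*} [Field F] {s : ℕ}

/-- The indices of the sites different from `i`. -/
def restIdx (i : Fin (s + 1)) : (Fin s → Fin 4) ≃ Rest 4 i :=
  Equiv.arrowCongr (finSuccAboveEquiv i) (Equiv.refl (Fin 4))

/-- The matrices of `s` sites acting away from the site `i`. -/
noncomputable def siteLift (i : Fin (s + 1)) : MV F s →ₐ[F] MV F (s + 1) :=
  (emb i).comp (Matrix.reindexAlgEquiv F F (restIdx i)).toAlgHom

lemma siteLift_apply (i : Fin (s + 1)) (Y : MV F s) (a b : Fin (s + 1) → Fin 4) :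
    siteLift i Y a b =
      if a i = b i then Y (fun l => a (i.succAbove l)) (fun l => b (i.succAbove l)) else 0 := by
  have key : emb i (Matrix.reindexAlgEquiv F F (restIdx i) Y) a b =
      blk i (emb i (Matrix.reindexAlgEquiv F F (restIdx i) Y)) (a i) (b i)
        (fun l => a l.1) (fun l => b l.1) := by
    rw [TensorPowSp.blk_apply]
    simp [TensorPowSp.split_symm_of]
  show emb i (Matrix.reindexAlgEquiv F F (restIdx i) Y) a b = _
  rw [key, TensorPowSp.blk_emb, Matrix.scalar_apply, Matrix.diagonal_apply]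
  split_ifs with h
  · rfl
  · rfl

lemma siteLift_injective (i : Fin (s + 1)) : Function.Injective (siteLift (F := F) i) :=
  (TensorPowSp.emb_injective i).comp (Matrix.reindexAlgEquiv F F (restIdx i)).injective

lemma site_comm_siteLift (i : Fin (s + 1)) (X : M4 F) (Y : MV F s) :
    site i X * siteLift i Y = siteLift i Y * site i X :=
  (TensorPowSp.site_comm_emb i X _).eq

lemma exists_siteLift (i : Fin (s + 1)) {B : MV F (s + 1)}
    (h : ∀ X : M4 F, site i X * B = B * site i X) : ∃ Y, B = siteLift i Y := by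
  obtain ⟨Y, hY⟩ := TensorPowSp.exists_emb_of_commute i h
  exact ⟨(Matrix.reindexAlgEquiv F F (restIdx i)).symm Y, by rw [hY]; simp [siteLift]⟩

/-- The lift of invertible matrices. -/
noncomputable def siteLiftGL (i : Fin (s + 1)) : GV F s →* GV F (s + 1) :=
  Units.map (siteLift i).toMonoidHom

lemma coe_siteLiftGL (i : Fin (s + 1)) (g : GV F s) :
    (siteLiftGL i g : MV F (s + 1)) = siteLift i (g : MV F s) := rfl

lemma exists_siteLiftGL (i : Fin (s + 1)) {g : GV F (s + 1)}
    (h : ∀ X : M4 F, site i X * (g : MV F (s + 1)) = (g : MV F (s + 1)) * site i X) :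
    ∃ k, g = siteLiftGL i k := by
  obtain ⟨Y, hY⟩ := exists_siteLift i h
  obtain ⟨Y', hY'⟩ := exists_siteLift i (B := ((g⁻¹ : GV F (s + 1)) : MV F (s + 1))) fun X =>
    (Commute.units_inv_right (h X : Commute (site i X) (g : MV F (s + 1)))).eq
  have hYY : Y * Y' = 1 := siteLift_injective i (by
    rw [map_mul, map_one, ← hY, ← hY']; exact g.mul_inv)
  have hYY' : Y' * Y = 1 := siteLift_injective i (by
    rw [map_mul, map_one, ← hY, ← hY']; exact g.inv_mul)
  exact ⟨⟨Y, Y', hYY, hYY'⟩, Units.ext hY⟩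

lemma siteLift_pure (i : Fin (s + 1)) (Ys : Fin s → M4 F) :
    siteLift i (pureMat Ys) = pureMat (i.insertNth (1 : M4 F) Ys) := by
  ext a b
  rw [siteLift_apply, pureMat, pureMat, Fin.prod_univ_succAbove _ i, Fin.insertNth_apply_same]
  simp only [Fin.insertNth_apply_succAbove]
  split_ifs with h
  · rw [h, Matrix.one_apply_eq, one_mul]
  · rw [Matrix.one_apply_ne h, zero_mul]

lemma siteLift_transpose (i : Fin (s + 1)) (Y : MV F s) :
    (siteLift i Y)ᵀ = siteLift i Yᵀ := by
  ext a b
  simp only [Matrix.transpose_apply, siteLift_apply, eq_comm (a := b i)]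

lemma gV_siteLift (δ : F) (i : Fin (s + 1)) :
    gV (G4 δ) (s + 1) = siteLift i (gV (G4 δ) s) * site i (G4 δ) := by
  rw [gV, gV, siteLift_pure, site, pureMat_mul]
  congr 1
  funext l
  induction l using Fin.succAboveCases i with
  | x => simp
  | p l => simp

lemma isoV_siteLift_iff {δ : F} (hδ : ¬ IsSquare δ) (i : Fin (s + 1)) (X : MV F s) :
    IsoV δ (siteLift i X) ↔ IsoV δ X := by
  have e : (siteLift i X)ᵀ * gV (G4 δ) (s + 1) * siteLift i X =
      siteLift i (Xᵀ * gV (G4 δ) s * X) * site i (G4 δ) := by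
    rw [gV_siteLift δ i, siteLift_transpose, mul_assoc, mul_assoc _ (site i (G4 δ)),
      site_comm_siteLift, ← mul_assoc, ← mul_assoc, ← map_mul, ← map_mul]
  have hu : IsUnit (site i (G4 δ)) := ⟨siteUnit i (G4 δ) (isUnit_iff_ne_zero.1 (G4_det hδ)), rfl⟩
  rw [IsoV, e, gV_siteLift δ i, hu.mul_left_inj]
  exact ⟨fun h => siteLift_injective i h, fun h => congrArg _ h⟩

lemma siteLiftGL_mem_Iso {δ : F} (h2 : (2 : F) ≠ 0) (hδ : ¬ IsSquare δ) (i : Fin (s + 1))
    {g : GV F s} (hg : g ∈ Iso δ s) : siteLiftGL i g ∈ Iso δ (s + 1) := by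
  rw [mem_Iso h2] at hg ⊢
  rw [coe_siteLiftGL]
  exact (isoV_siteLift_iff hδ i (g : MV F s)).2 hg

lemma siteLiftGL_mem_Om [Finite F] {δ : F} (h2 : (2 : F) ≠ 0) (hδ : ¬ IsSquare δ)
    (i : Fin (s + 1)) {g : GV F s} (hg : g ∈ Om δ s) : siteLiftGL i g ∈ Om δ (s + 1) := by
  rw [Om_eq] at hg ⊢
  have : (⁅Iso δ s, Iso δ s⁆).map (siteLiftGL i) ≤ ⁅Iso δ (s + 1), Iso δ (s + 1)⁆ := by
    rw [Subgroup.map_commutator]
    refine Subgroup.commutator_mono ?_ ?_ <;>
      (rintro _ ⟨k, hk, rfl⟩; exact siteLiftGL_mem_Iso h2 hδ i hk)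
  exact this ⟨g, hg, rfl⟩

lemma siteLiftGL_mem_Wr (i : Fin (s + 1)) {g : GV F s} (hg : g ∈ Wr F s) :
    siteLiftGL i g ∈ Wr F (s + 1) := by
  refine (show Wr F s ≤ (Wr F (s + 1)).comap (siteLiftGL i) from
    (Subgroup.closure_le _).2 ?_) hg
  rintro u (⟨cs, hcs⟩ | ⟨σ, hσ⟩)
  · refine Subgroup.subset_closure (Or.inl ⟨i.insertNth (1 : GL (Fin 4) F) cs, fun x y => ?_⟩)
    have hu : (u : MV F s) = pureMat fun l => (cs l : M4 F) := Matrix.ext hcs
    rw [coe_siteLiftGL, hu, siteLift_pure]
    refine Finset.prod_congr rfl fun l _ => ?_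
    induction l using Fin.succAboveCases i with
    | x => simp
    | p l => simp
  · let e := finSuccEquiv' i
    let π : Equiv.Perm (Fin (s + 1)) := e.trans (σ.optionCongr.trans e.symm)
    have hi : π i = i := by simp [π, e]
    have hl : ∀ l, π (i.succAbove l) = i.succAbove (σ l) := fun l => by simp [π, e]
    refine Subgroup.subset_closure (Or.inr ⟨π, fun x y => ?_⟩)
    rw [coe_siteLiftGL, siteLift_apply, hσ, ← ite_and]
    refine if_congr ⟨fun ⟨h0, h1⟩ => funext fun l => ?_, fun h => ⟨?_, funext fun l => ?_⟩⟩ rfl rfl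
    · induction l using Fin.succAboveCases i with
      | x => simp [hi, h0]
      | p l => simpa [hl] using congrFun h1 l
    · simpa [hi] using (congrFun h i).symm
    · simpa [hl] using congrFun h (i.succAbove l)

lemma liftPair_eq_siteLift (i : Fin (s + 1)) (p q : Fin s) (X : MV F 2) :
    siteLift i (liftPair p q X) = liftPair (i.succAbove p) (i.succAbove q) X := by
  ext a b
  rw [siteLift_apply, liftPair, liftPair, ← ite_and]
  refine if_congr ⟨fun ⟨h0, h1⟩ l hp hq => ?_, fun h => ⟨?_, fun l hp hq => ?_⟩⟩ rfl rfl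
  · induction l using Fin.succAboveCases i with
    | x => exact h0
    | p l => exact h1 l (fun e => hp (e ▸ rfl)) (fun e => hq (e ▸ rfl))
  · exact h i (Fin.succAbove_ne i p).symm (Fin.succAbove_ne i q).symm
  · exact h (i.succAbove l) (fun e => hp (Fin.succAbove_right_injective e))
      (fun e => hq (Fin.succAbove_right_injective e))

/-! ### An element outside the monomial group -/

/-- A quarter turn of the plane of two pure basis vectors. -/
def turnFun : MV F 2 := Matrix.of fun a b =>
  if a = ![1, 1] then (if b = ![2, 2] then (1 : F) else 0)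
  else if a = ![2, 2] then (if b = ![1, 1] then -1 else 0)
  else if a = b then 1 else 0

/-- Diagonal signs at two pure basis vectors. -/
def turnSign (a : Fin 2 → Fin 4) : F := if a = ![1, 1] ∨ a = ![2, 2] then -1 else 1

lemma turn_sq : (turnFun (F := F)) * turnFun = Matrix.diagonal turnSign := by
  have hne : (![1, 1] : Fin 2 → Fin 4) ≠ ![2, 2] := by decide
  ext a b
  rw [Matrix.mul_apply]
  rcases eq_or_ne a ![1, 1] with rfl | ha
  · rw [Finset.sum_eq_single ![2, 2] (fun c _ hc => by simp [turnFun, Matrix.of_apply, hc]) (by simp)]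
    simp [turnFun, Matrix.of_apply, turnSign, hne.symm, Matrix.diagonal_apply, eq_comm (a := b)]
  rcases eq_or_ne a ![2, 2] with rfl | ha'
  · rw [Finset.sum_eq_single ![1, 1] (fun c _ hc => by simp [turnFun, Matrix.of_apply, hc, hne.symm]) (by simp)]
    simp [turnFun, Matrix.of_apply, turnSign, hne.symm, Matrix.diagonal_apply, eq_comm (a := b)]
  rw [Finset.sum_eq_single a (fun c _ hc => by simp [turnFun, Matrix.of_apply, ha, ha', Ne.symm hc]) (by simp)]
  simp [turnFun, Matrix.of_apply, turnSign, ha, ha', Matrix.diagonal_apply]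

lemma turn_iso (δ : F) : IsoV δ (turnFun (F := F)) := by
  have hne : (![1, 1] : Fin 2 → Fin 4) ≠ ![2, 2] := by decide
  show _ * _ * _ = _
  rw [gV_diag]
  ext a b
  rw [Matrix.mul_apply]
  simp only [Matrix.mul_diagonal, Matrix.transpose_apply]
  rcases eq_or_ne a ![1, 1] with rfl | ha
  · rw [Finset.sum_eq_single ![2, 2]]
    · simp [turnFun, Matrix.of_apply, hne.symm, Matrix.diagonal_apply, Fin.prod_univ_two, wt, eq_comm (a := b)]
    · intro c _ hc
      rcases eq_or_ne c ![1, 1] with rfl | hc'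
      · simp [turnFun, Matrix.of_apply, hne]
      · simp [turnFun, Matrix.of_apply, hc, hc']
    · simp
  rcases eq_or_ne a ![2, 2] with rfl | ha'
  · rw [Finset.sum_eq_single ![1, 1]]
    · simp [turnFun, Matrix.of_apply, hne.symm, Matrix.diagonal_apply, Fin.prod_univ_two, wt, eq_comm (a := b)]
    · intro c _ hc
      rcases eq_or_ne c ![2, 2] with rfl | hc'
      · simp [turnFun, Matrix.of_apply, hne.symm]
      · simp [turnFun, Matrix.of_apply, hc, hc']
    · simp
  rw [Finset.sum_eq_single a]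
  · simp [turnFun, Matrix.of_apply, ha, ha', Matrix.diagonal_apply]
  · intro c _ hc
    rcases eq_or_ne c ![1, 1] with rfl | hc'
    · simp [turnFun, Matrix.of_apply, ha']
    rcases eq_or_ne c ![2, 2] with rfl | hc''
    · simp [turnFun, Matrix.of_apply, ha, hne.symm]
    simp [turnFun, Matrix.of_apply, hc, hc', hc'']
  · simp

lemma diag_not_mem_Wr [Finite F] {t : ℕ} (h2 : (2 : F) ≠ 0) {p q : Fin t} (hpq : p ≠ q)
    {g : GV F t} (hg : (g : MV F t) = liftPair p q (Matrix.diagonal turnSign)) : g ∉ Wr F t := by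
  intro hW
  obtain ⟨gs, σ, h⟩ := MaxSub.tensorWreath_apply hW
  have hdiag : ∀ a : Fin t → Fin 4, ∏ l, gs l (a l) (a (σ l)) = (turnSign ![a p, a q] : F) := fun a => by
    rw [← h, hg, liftPair, if_pos fun _ _ _ => rfl, Matrix.diagonal_apply_eq]
  have hne : ∀ (a : Fin t → Fin 4) (l : Fin t), gs l (a l) (a (σ l)) ≠ 0 := fun a l h0 => by
    have := hdiag a
    rw [Finset.prod_eq_zero (Finset.mem_univ l) h0] at this
    rw [turnSign] at this
    split_ifs at this
    · exact neg_ne_zero.2 one_ne_zero this.symm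
    · exact one_ne_zero this.symm
  -- no site moves
  have hσ : σ = 1 := Equiv.ext fun k => by_contra fun hk => by
    have hk' : σ k ≠ k := hk
    let z : Fin t → Fin 4 := fun _ => 0
    let y : Fin t → Fin 4 := Function.update z (σ k) 1
    refine absurd (show (g : MV F t) z y = 0 from ?_) ?_
    · have hzy : z ≠ y := fun e => by
        have := congrFun e (σ k)
        simp [z, y] at this
      rw [hg, liftPair]
      split_ifs with hh
      · refine Matrix.diagonal_apply_ne _ fun e => hzy (funext fun l => ?_)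
        by_cases hp : l = p
        · subst hp; simpa using congrFun e 0
        by_cases hq : l = q
        · subst hq; simpa using congrFun e 1
        exact hh l hp hq
      · rfl
    · rw [h]
      refine Finset.prod_ne_zero_iff.2 fun l _ => ?_
      by_cases hl : l = k
      · subst hl
        simpa [z, y, Ne.symm hk'] using hne (Function.update z (σ l) 1) l
      · simpa [z, y, σ.injective.ne hl] using hne z l
  subst hσ
  simp only [Equiv.Perm.one_apply] at hdiag
  let A : Fin 4 → Fin 4 → Fin t → Fin 4 := fun x y => Function.update (Function.update 0 p x) q y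
  have hA : ∀ x y : Fin 4, ∏ l, gs l (A x y l) (A x y l) =
      gs p x x * gs q y y * ∏ l ∈ ({p, q} : Finset (Fin t))ᶜ, gs l 0 0 := fun x y => by
    rw [← Finset.prod_mul_prod_compl {p, q}, Finset.prod_pair hpq]
    congr 1
    · simp [A, hpq]
    · refine Finset.prod_congr rfl fun l hl => ?_
      simp only [Finset.mem_compl, Finset.mem_insert, Finset.mem_singleton, not_or] at hl
      simp [A, hl.1, hl.2]
  have ev : ∀ x y : Fin 4, gs p x x * gs q y y * ∏ l ∈ ({p, q} : Finset (Fin t))ᶜ, gs l 0 0 =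
      (turnSign ![x, y] : F) := fun x y => by
    rw [← hA, hdiag]
    simp [A, hpq]
  have e11 := ev 1 1
  have e33 := ev 3 3
  have e13 := ev 1 3
  have e31 := ev 3 1
  rw [show (turnSign ![(1 : Fin 4), 1] : F) = -1 from if_pos (Or.inl rfl)] at e11
  rw [show (turnSign ![(3 : Fin 4), 3] : F) = 1 from if_neg (by decide)] at e33
  rw [show (turnSign ![(1 : Fin 4), 3] : F) = 1 from if_neg (by decide)] at e13
  rw [show (turnSign ![(3 : Fin 4), 1] : F) = 1 from if_neg (by decide)] at e31
  generalize (∏ l ∈ ({p, q} : Finset (Fin t))ᶜ, gs l 0 0) = c at e11 e33 e13 e31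
  apply h2
  linear_combination (gs p 3 3 * gs q 3 3 * c) * e11 - e33 - (gs p 3 3 * gs q 1 1 * c) * e13 - e31

/-! ### Reduction of the dichotomy -/

variable [Finite F] {δ : F} {M : Subgroup (GV F (s + 1))}

/-- The members acting away from one site are monomial. -/
theorem siteLiftGL_mem_Wr_of_mem (hs : 2 ≤ s) (hO : Over δ M) (hD : Dicho F δ s) (hP : PairsLe M)
    (hconjU : ∀ g : GV F s, IsoV δ (g : MV F s) →
      (∀ u : GV F s, IsSiteU δ (u : MV F s) → g * u * g⁻¹ ∈ Wr F s) → g ∈ Wr F s)
    (hsiteU : ∀ u : GV F s, IsSiteU δ (u : MV F s) → u ∈ Wr F s)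
    {i : Fin (s + 1)} {k : GV F s} (hk : siteLiftGL i k ∈ M) : siteLiftGL i k ∈ Wr F (s + 1) := by
  have hkI : IsoV δ (k : MV F s) := (isoV_siteLift_iff hO.nsq i (k : MV F s)).1 (by rw [← coe_siteLiftGL]; exact hO.isoV hk)
  set X : Subgroup (GV F s) := Om δ s ⊓ M.comap (siteLiftGL i) with hX
  have hOX : Over δ X :=
    ⟨hO.two, hO.nsq, fun u hu => ⟨hu.2, hO.mem (siteLiftGL_mem_Wr i hu.1)
      (siteLiftGL_mem_Om hO.two hO.nsq i hu.2)⟩, inf_le_left⟩
  rcases hD X hOX with hle | htop
  · refine siteLiftGL_mem_Wr i (hconjU k hkI fun u hu => hle ⟨?_, ?_⟩)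
    · exact conj_mem_Om ((mem_Iso hO.two).2 hkI) (siteU_mem_Om hO.two hO.nsq hu)
    · show siteLiftGL i (k * u * k⁻¹) ∈ M
      rw [map_mul, map_mul, map_inv]
      exact M.mul_mem (M.mul_mem hk (hO.mem (siteLiftGL_mem_Wr i (hsiteU u hu))
        (siteLiftGL_mem_Om hO.two hO.nsq i (siteU_mem_Om hO.two hO.nsq hu)))) (M.inv_mem hk)
  · exfalso
    obtain ⟨J, hJ⟩ : ∃ J : GV F 2, (J : MV F 2) = turnFun := by
      have h4 : (turnFun (F := F)) * turnFun * (turnFun * turnFun) = 1 := by
        rw [turn_sq, Matrix.diagonal_mul_diagonal, ← Matrix.diagonal_one]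
        congr 1
        funext a
        simp only [turnSign]
        split_ifs <;> simp
      exact ⟨⟨turnFun, turnFun * (turnFun * turnFun), by rw [← h4]; simp only [mul_assoc],
        by rw [← h4]; simp only [mul_assoc]⟩, rfl⟩
    obtain ⟨p, q, hpq⟩ : ∃ p q : Fin s, p ≠ q :=
      ⟨⟨0, by omega⟩, ⟨1, by omega⟩, fun e => by simpa using congrArg Fin.val e⟩
    have hx : J * J ∈ Om δ 2 := mul_self_mem_Om hO.two hO.nsq (by rw [hJ]; exact turn_iso δ)
    have hxX : liftGL hpq (J * J) ∈ X := htop.symm ▸ liftGL_mem_Om hpq hO.two hO.nsq hx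
    have hval : (siteLiftGL i (liftGL hpq (J * J)) : MV F (s + 1)) =
        liftPair (i.succAbove p) (i.succAbove q) (Matrix.diagonal turnSign) := by
      rw [coe_siteLiftGL, coe_liftGL, liftPair_eq_siteLift, Units.val_mul, hJ, turn_sq]
    have hne : i.succAbove p ≠ i.succAbove q := fun e => hpq (Fin.succAbove_right_injective e)
    exact diag_not_mem_Wr hO.two hne hval (hP _ _ hne _ hxX.2 ⟨_, hval⟩)

end Cfsg.Agent.MaxSub.OrthFour
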