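import Cfsg.Agent.MaxSub.OrthFour.Site

/-!
Slices of vectors of the tensor power along one site, and fixed spaces of unipotent monomial maps.
-/

set_option autoImplicit false
set_option linter.unusedSectionVars false
set_option linter.unusedSimpArgs false
set_option linter.unusedVariables false
set_option linter.style.haveILetI false

namespace Cfsg.Agent.MaxSub.OrthFour.Slots

open Matrix Module Cfsg.Agent.NotMax Cfsg.Agent.GeoClasses Site
open Cfsg.Agent.MaxSub.TensorPowSp (Rest split blk blk_apply blk_site blk_emb emb)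
open Cfsg.Agent.MaxSub.OrthWreathBig (gB cr sieM)
open scoped Matrix

variable {F : Type*} [Field F] {δ : F} {t : ℕ}

/-- The slices along one site. -/
def slice (i : Fin t) : Vec F t →ₗ[F] Fin 4 → Rest 4 i → F where
  toFun f p r := f ((split i).symm (p, r))
  map_add' _ _ := rfl
  map_smul' _ _ := rfl

lemma slice_inj (i : Fin t) : Function.Injective (slice (F := F) i) := fun f f' e => by
  funext x
  have := congrFun (congrFun e (split i x).1) (split i x).2
  simpa [slice] using this

lemma slice_mulVec (i : Fin t) (B : MV F t) (f : Vec F t) (p : Fin 4) :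
    slice i (B *ᵥ f) p = ∑ q, blk i B p q *ᵥ slice i f q := by
  funext r
  simp only [Finset.sum_apply, Matrix.mulVec, dotProduct, slice, LinearMap.coe_mk, AddHom.coe_mk,
    blk_apply]
  rw [← Equiv.sum_comp (split i).symm, Fintype.sum_prod_type]

/-- The pairing of one site with a vector. -/
noncomputable def psi (δ : F) (i : Fin t) :
    (Fin 4 → F) →ₗ[F] Vec F t →ₗ[F] Rest 4 i → F :=
  LinearMap.mk₂ F (fun b f => ∑ p, (b ᵥ* G4 δ) p • slice i f p)
    (fun b b' f => by simp [add_vecMul, add_smul, Finset.sum_add_distrib])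
    (fun c b f => by simp [smul_vecMul, Finset.smul_sum, smul_smul])
    (fun b f f' => by simp [smul_add, Finset.sum_add_distrib])
    (fun c b f => by simp [Finset.smul_sum, smul_smul, mul_comm])

lemma psi_apply (i : Fin t) (b : Fin 4 → F) (f : Vec F t) :
    psi δ i b f = ∑ p, (b ᵥ* G4 δ) p • slice i f p := rfl

lemma psi_site (i : Fin t) (b b' : Fin 4 → F) (A : M4 F) (f : Vec F t)
    (h : b ᵥ* G4 δ ᵥ* A = b' ᵥ* G4 δ) : psi δ i b (site i A *ᵥ f) = psi δ i b' f := by
  simp only [psi_apply, slice_mulVec, blk_site, Matrix.map_apply, Algebra.algebraMap_eq_smul_one,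
    smul_mulVec, one_mulVec, Finset.smul_sum, smul_smul]
  rw [Finset.sum_comm]
  refine Finset.sum_congr rfl fun q _ => ?_
  rw [← Finset.sum_smul, ← h]
  rfl

lemma psi_emb (i : Fin t) (b : Fin 4 → F) (Q : Matrix (Rest 4 i) (Rest 4 i) F) (f : Vec F t) :
    psi δ i b (emb i Q *ᵥ f) = Q *ᵥ psi δ i b f := by
  simp only [psi_apply, slice_mulVec, blk_emb, Matrix.scalar_apply, Matrix.mulVec_sum,
    Matrix.mulVec_smul]
  refine Finset.sum_congr rfl fun p _ => ?_
  congr 1
  rw [Finset.sum_eq_single p (fun q _ hq => by rw [Matrix.diagonal_apply_ne _ hq.symm, zero_mulVec])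
    (by simp), Matrix.diagonal_apply_eq]

lemma psi_nondeg (hd : ¬ IsSquare δ) (i : Fin t) {f : Vec F t} (h : ∀ b, psi δ i b f = 0) : f = 0 := by
  refine slice_inj i (funext fun p => ?_)
  have := h (Pi.single p 1 ᵥ* (G4 δ)⁻¹)
  rw [psi_apply, vecMul_vecMul, Matrix.nonsing_inv_mul _ (G4_det hd), vecMul_one] at this
  rw [map_zero, Pi.zero_apply, ← this, Finset.sum_eq_single p (fun q _ hq => by simp [hq]) (by simp),
    Pi.single_eq_same, one_smul]

/-- The fixed space. -/
def Fix (B : MV F t) : Submodule F (Vec F t) := LinearMap.ker (Matrix.mulVecLin (B - 1))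

lemma mem_Fix {B : MV F t} {f : Vec F t} : f ∈ Fix B ↔ B *ᵥ f = f := by
  simp [Fix, LinearMap.mem_ker, sub_eq_zero]

lemma fix_le_conj (g u : GV F t) :
    finrank F (Fix (u : MV F t)) ≤ finrank F (Fix ((g * u * g⁻¹ : GV F t) : MV F t)) := by
  refine LinearMap.finrank_le_finrank_of_injective
    (f := (Matrix.mulVecLin (g : MV F t)).restrict (p := Fix (u : MV F t)) fun f hf => ?_) ?_
  · rw [mem_Fix] at hf ⊢
    rw [Matrix.mulVecLin_apply, mulVec_mulVec, Units.val_mul, Units.val_mul,
      Units.inv_mul_cancel_right, ← mulVec_mulVec, hf]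
  · rintro ⟨a, ha⟩ ⟨b, hb⟩ e
    refine Subtype.ext ?_
    have e' := congrArg (fun z : Fix ((g * u * g⁻¹ : GV F t) : MV F t) =>
      ((g⁻¹ : GV F t) : MV F t) *ᵥ (z : Vec F t)) e
    simp only [LinearMap.restrict_coe_apply, Matrix.mulVecLin_apply, mulVec_mulVec, Units.inv_mul,
      one_mulVec] at e'
    exact e'

lemma card_split (i : Fin t) :
    Fintype.card (Fin t → Fin 4) = 4 * Fintype.card (Rest 4 i) := by
  rw [Fintype.card_congr (split i), Fintype.card_prod, Fintype.card_fin]

/-- A root element of one site fixes half of the space. -/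
lemma half_le_fix (hd : ¬ IsSquare δ) (i : Fin t) (w x : Fin 4 → F) :
    Fintype.card (Fin t → Fin 4) ≤ 2 * finrank F (Fix (site i (1 + sieM (G4 δ) w x))) := by
  have hle : LinearMap.ker ((psi δ i w).prod (psi δ i x)) ≤ Fix (site i (1 + sieM (G4 δ) w x)) := by
    intro f hf
    simp only [LinearMap.mem_ker, LinearMap.prod_apply, Function.prod, Prod.mk_eq_zero] at hf
    rw [mem_Fix, site_add, site_one, add_mulVec, one_mulVec, add_eq_left]
    refine psi_nondeg hd i fun b => ?_
    have e : ∃ r s : F, b ᵥ* G4 δ ᵥ* sieM (G4 δ) w x = (r • w + s • x) ᵥ* G4 δ := by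
      refine ⟨gB (G4 δ) b x - gB (G4 δ) x x / 2 * gB (G4 δ) b w, -gB (G4 δ) b w, ?_⟩
      simp only [sieM, cr, vecMul_sub, vecMul_smul, vecMul_vecMulVec, add_vecMul, smul_vecMul,
        OrthWreathBig.gB_apply, TensorPowSp.fG]
      match_scalars <;> ring
    obtain ⟨r, s, e⟩ := e
    rw [psi_site i b _ _ f e, map_add, map_smul, map_smul, LinearMap.add_apply, LinearMap.smul_apply,
      LinearMap.smul_apply, hf.1, hf.2, smul_zero, smul_zero, add_zero]
  have h1 := LinearMap.finrank_range_add_finrank_ker ((psi δ i w).prod (psi δ i x))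
  have h2 := Submodule.finrank_le (LinearMap.range ((psi δ i w).prod (psi δ i x)))
  have h3 := Submodule.finrank_mono hle
  rw [Module.finrank_fintype_fun_eq_card, card_split i] at h1
  rw [Module.finrank_prod, Module.finrank_fintype_fun_eq_card] at h2
  rw [card_split i]
  omega

/-- A root element of one site times a further factor fixes less than half of the space. -/
lemma fix_two_lt (h2 : (2 : F) ≠ 0) (hd : ¬ IsSquare δ) (i : Fin t) {w x : Fin 4 → F}
    (h : Par δ w x) {Q : Matrix (Rest 4 i) (Rest 4 i) F} (hQ : Q ≠ 1) :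
    2 * finrank F (Fix (site i (1 + sieM (G4 δ) w x) * emb i Q)) < Fintype.card (Fin t → Fin 4) := by
  obtain ⟨hw, hww, hwx, hxx⟩ := h
  have hxw : gB (G4 δ) x w = 0 := by rw [gB_symm, hwx]
  obtain ⟨y₀, hy₀, -⟩ := exists_opposite h2 hd hw hww
  set y₁ := y₀ - (gB (G4 δ) x y₀ / gB (G4 δ) x x) • x
  have hwy : gB (G4 δ) w y₁ = 1 := by simp [y₁, hy₀, hwx]
  have hxy : gB (G4 δ) x y₁ = 0 := by simp [y₁, hxx]
  obtain ⟨e, hwe, hye, hxe, hee⟩ := exists_perp hd hwy hww x
  set A' := 1 + sieM (G4 δ) w (-x)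
  set g := gB (G4 δ) x x
  have hA : ∀ b, b ᵥ* G4 δ ᵥ* (1 + sieM (G4 δ) w x) = (A' *ᵥ b) ᵥ* G4 δ := fun b => by
    rw [← vecMul_transpose, vecMul_vecMul, vecMul_vecMul]
    congr 1
    have := sie_isoW h2 hww (show gB (G4 δ) w (-x) = 0 by rw [map_neg, hwx, neg_zero])
    conv_lhs => arg 1; rw [← this]
    rw [mul_assoc, sie_neg_mul h2 hww hwx, mul_one]
  set B := site i (1 + sieM (G4 δ) w x) * emb i Q
  have key : ∀ f ∈ Fix B, ∀ b, Q *ᵥ psi δ i (A' *ᵥ b) f = psi δ i b f := fun f hf b => by
    conv_rhs => rw [← mem_Fix.1 hf, ← mulVec_mulVec, psi_site i b _ _ _ (hA b), psi_emb]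
  have hA'w : A' *ᵥ w = w := by rw [sie_apply]; simp [hww, hxw]
  have hA'e : A' *ᵥ e = e := by rw [sie_apply]; simp [hwe, hxe]
  let K : Submodule F (Rest 4 i → F) := LinearMap.ker (Matrix.mulVecLin (Q - 1))
  have hK : K < ⊤ := lt_top_iff_ne_top.2 fun e' => hQ (Matrix.ext_of_mulVec_single fun j => by
    have := LinearMap.mem_ker.1 (e' ▸ Submodule.mem_top : Pi.single j (1 : F) ∈ K)
    rwa [Matrix.mulVecLin_apply, sub_mulVec, sub_eq_zero] at this)
  let Φ : Fix B →ₗ[F] K × (Rest 4 i → F) :=
    (((psi δ i e).comp (Fix B).subtype).codRestrict K fun f => by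
      have := key f.1 f.2 e
      rw [hA'e] at this
      simp [K, sub_mulVec, this]).prod ((psi δ i y₁).comp (Fix B).subtype)
  have hΦ : Function.Injective Φ := by
    rw [← LinearMap.ker_eq_bot, LinearMap.ker_eq_bot']
    rintro ⟨f, hf⟩ h0
    have he : psi δ i e f = 0 := congrArg (fun z : K × (Rest 4 i → F) => (z.1 : Rest 4 i → F)) h0
    have hy : psi δ i y₁ f = 0 := congrArg (fun z : K × (Rest 4 i → F) => z.2) h0
    have kw := key f hf w
    rw [hA'w] at kw
    have kx := key f hf x
    rw [sie_apply] at kx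
    simp [hwx] at kx
    have ky := key f hf y₁
    rw [sie_apply] at ky
    simp [hwy, hxy, hy] at ky
    simp only [mulVec_add, mulVec_sub, mulVec_neg, mulVec_smul, kw] at kx ky
    have hgw : g • psi δ i w f = 0 := by
      have e1 : Q *ᵥ psi δ i x f = psi δ i x f - g • psi δ i w f := eq_sub_of_add_eq kx
      have e2 : psi δ i x f = ((1 : F) / 2 * g) • psi δ i w f := by
        rw [e1] at ky
        linear_combination (norm := (simp only [g]; match_scalars <;> field_simp <;> ring)) -ky
      have e3 := e1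
      rw [e2, mulVec_smul, kw] at e3
      linear_combination (norm := module) e3
    have hw0 : psi δ i w f = 0 := (smul_eq_zero.1 hgw).resolve_left hxx
    have hx0 : psi δ i x f = 0 := by
      simp [hw0] at kx ky
      rw [← kx, ky]
    refine Subtype.ext (psi_nondeg hd i fun b => ?_)
    let Ψ : (Fin 4 → F) →ₗ[F] Fin 4 → F := LinearMap.pi fun l => gB (G4 δ) (![w, x, y₁, e] l)
    let pre : (Fin 4 → F) → (Fin 4 → F) := fun c =>
      c 0 • y₁ + (c 1 / g) • x + (c 2 - c 0 * gB (G4 δ) y₁ y₁) • w +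
        (c 3 / gB (G4 δ) e e) • e
    have hpre : ∀ c, Ψ (pre c) = c := fun c => by
      have hyw : gB (G4 δ) y₁ w = 1 := by rw [gB_symm, hwy]
      have hyx : gB (G4 δ) y₁ x = 0 := by rw [gB_symm, hxy]
      funext l
      fin_cases l <;> simp [Ψ, pre, hww, hwx, hwy, hwe, hxw, hxy, hxe, hye, hyw, hyx, hxx, hee, g,
        gB_symm δ e w, gB_symm δ e x, gB_symm δ e y₁] <;> field_simp <;> ring
    have hinj : Function.Injective Ψ :=
      LinearMap.injective_iff_surjective.2 fun c => ⟨pre c, hpre c⟩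
    rw [show b = pre (Ψ b) from (hinj (hpre _)).symm]
    simp only [pre, map_add, map_smul, LinearMap.add_apply, LinearMap.smul_apply, hy, hx0, hw0, he,
      smul_zero, add_zero]
  have h1 := LinearMap.finrank_le_finrank_of_injective hΦ
  have h3 := Submodule.finrank_lt hK.ne
  rw [Module.finrank_prod, Module.finrank_fintype_fun_eq_card] at h1
  rw [Module.finrank_fintype_fun_eq_card] at h3
  rw [card_split i]
  omega

end Cfsg.Agent.MaxSub.OrthFour.Slots
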