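import Cfsg.Agent.MaxSub.OrthFour.Defs
import Cfsg.Agent.MaxSub.OrthWreathBig.Generate

/-!
A hyperbolic pair and an anisotropic plane in one site, and two-site tensors.
-/

set_option autoImplicit false
set_option linter.unusedSectionVars false
set_option linter.unusedSimpArgs false
set_option linter.style.haveILetI false

namespace Cfsg.Agent.MaxSub.OrthFour.Syl

open Matrix Cfsg.Geo Cfsg.Agent.NotMax Cfsg.Agent.GeoClasses
open Cfsg.Agent.MaxSub.TensorPowSp (gV)
open Cfsg.Agent.MaxSub.OrthWreathBig (gB cr sieM)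
open scoped MatrixGroups Matrix

variable {F : Type*} [Field F]

/-- The anisotropic form of the plane. -/
def qf (δ : F) (s r : F × F) : F := -δ * (s.1 * r.1) + s.2 * r.2

lemma qf_symm (δ : F) (s r : F × F) : qf δ s r = qf δ r s := by simp only [qf]; ring

lemma qf_add_left (δ : F) (s s' r : F × F) : qf δ (s + s') r = qf δ s r + qf δ s' r := by
  simp only [qf, Prod.fst_add, Prod.snd_add]; ring

lemma qf_add_right (δ : F) (s r r' : F × F) : qf δ s (r + r') = qf δ s r + qf δ s r' := by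
  simp only [qf, Prod.fst_add, Prod.snd_add]; ring

lemma qf_smul_left (δ c : F) (s r : F × F) : qf δ (c • s) r = c * qf δ s r := by
  simp only [qf, Prod.smul_fst, Prod.smul_snd, smul_eq_mul]; ring

lemma qf_smul_right (δ c : F) (s r : F × F) : qf δ s (c • r) = c * qf δ s r := by
  simp only [qf, Prod.smul_fst, Prod.smul_snd, smul_eq_mul]; ring

@[simp] lemma qf_zero_left (δ : F) (r : F × F) : qf δ 0 r = 0 := by simp [qf]

@[simp] lemma qf_zero_right (δ : F) (s : F × F) : qf δ s 0 = 0 := by simp [qf]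

lemma qf_neg_right (δ : F) (s r : F × F) : qf δ s (-r) = -qf δ s r := by
  simp only [qf, Prod.fst_neg, Prod.snd_neg]; ring

lemma qf_neg_left (δ : F) (s r : F × F) : qf δ (-s) r = -qf δ s r := by
  simp only [qf, Prod.fst_neg, Prod.snd_neg]; ring

lemma qf_eq_zero {δ : F} (hδ : ¬ IsSquare δ) {s : F × F} (h : qf δ s s = 0) : s = 0 := by
  obtain ⟨a, b⟩ := s
  by_cases ha : a = 0
  · subst ha
    simp only [qf, mul_zero, zero_add, mul_self_eq_zero] at h
    simp [h]
  · refine absurd ⟨b / a, ?_⟩ hδ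
    simp only [qf] at h
    field_simp
    linear_combination -h

/-- The orthogonal vector. -/
def perp (δ : F) (s : F × F) : F × F := (s.2, δ * s.1)

lemma qf_perp (δ : F) (s : F × F) : qf δ s (perp δ s) = 0 := by simp only [qf, perp]; ring

lemma perp_ne_zero {δ : F} (hδ : ¬ IsSquare δ) {s : F × F} (hs : s ≠ 0) : perp δ s ≠ 0 := by
  obtain ⟨a, b⟩ := s
  simp only [perp, ne_eq, Prod.mk_eq_zero, mul_eq_zero, not_and, not_or]
  intro hb
  exact ⟨fun e => hδ (e ▸ IsSquare.zero), fun ha => hs (by simp [ha, hb])⟩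

/-- Two orthogonal nonzero vectors span the plane. -/
lemma eq_smul_of_perp {δ : F} (hδ : ¬ IsSquare δ) {x z : F × F} (hx : x ≠ 0)
    (h : qf δ x z = 0) : z = (qf δ z (perp δ x) / qf δ (perp δ x) (perp δ x)) • perp δ x := by
  set y := perp δ x with hy
  have hy0 : qf δ y y ≠ 0 := fun e => perp_ne_zero hδ hx (qf_eq_zero hδ e)
  set d := z - (qf δ z y / qf δ y y) • y with hd
  have h1 : qf δ x d = 0 := by
    rw [hd, sub_eq_add_neg, qf_add_right, qf_neg_right, qf_smul_right, h, hy, qf_perp]; ring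
  have h2 : qf δ y d = 0 := by
    rw [hd, sub_eq_add_neg, qf_add_right, qf_neg_right, qf_smul_right, div_mul_cancel₀ _ hy0,
      qf_symm δ y z, add_neg_cancel]
  have hδ0 : δ ≠ 0 := fun e => hδ (e ▸ IsSquare.zero)
  have hx0 : qf δ x x ≠ 0 := fun e => hx (qf_eq_zero hδ e)
  obtain ⟨a, b⟩ := x
  obtain ⟨d1, d2⟩ := d
  simp only [qf, hy, perp] at h1 h2 hx0
  have e1 : d1 * (δ * (-δ * (a * a) + b * b)) = 0 := by
    linear_combination (δ * a) * h1 - b * h2
  have e2 : d2 * (δ * (-δ * (a * a) + b * b)) = 0 := by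
    linear_combination (δ * b) * h1 - (δ * a) * h2
  have h3 : δ * (-δ * (a * a) + b * b) ≠ 0 := mul_ne_zero hδ0 hx0
  have : z - (qf δ z y / qf δ y y) • y = 0 := by
    rw [← hd]
    simp [(mul_eq_zero.1 e1).resolve_right h3, (mul_eq_zero.1 e2).resolve_right h3]
  exact sub_eq_zero.1 this

/-- A hyperbolic pair and an orthogonal plane. -/
structure Fr (δ : F) where
  w : Fin 4 → F
  v : Fin 4 → F
  yl : (F × F) →ₗ[F] (Fin 4 → F)
  ww : gB (G4 δ) w w = 0
  wv : gB (G4 δ) w v = 1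
  vv : gB (G4 δ) v v = 0
  wy : ∀ s, gB (G4 δ) w (yl s) = 0
  vy : ∀ s, gB (G4 δ) v (yl s) = 0
  yy : ∀ s r, gB (G4 δ) (yl s) (yl r) = qf δ s r
  expand : ∀ u : Fin 4 → F, ∃ (a c : F) (s : F × F), u = a • w + c • v + yl s

/-- A frame exists. -/
theorem exists_fr [Finite F] {δ : F} (h2 : (2 : F) ≠ 0) (hδ : ¬ IsSquare δ) : Nonempty (Fr δ) := by
  haveI := Fintype.ofFinite F
  obtain ⟨al, be, h⟩ : ∃ al be : F, al ^ 2 + be ^ 2 = -δ := by
    obtain ⟨a, b, h⟩ := FiniteField.exists_root_sum_quadratic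
      (Polynomial.degree_X_pow_sub_C (n := 2) (by norm_num) (-δ)) (Polynomial.degree_X_pow (R := F) 2)
      (FiniteField.odd_card_of_char_ne_two (fun e => by
        haveI : CharP F 2 := ringChar.of_eq e
        exact h2 (CharP.cast_eq_zero F 2)))
    refine ⟨a, b, ?_⟩
    simp only [Polynomial.eval_sub, Polynomial.eval_pow, Polynomial.eval_X, Polynomial.eval_C] at h
    linear_combination h
  have hδ0 : δ ≠ 0 := fun e => hδ (e ▸ IsSquare.zero)
  let c : F := 1 / (2 * δ)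
  refine ⟨⟨![1, al, be, 0], ![c, -al * c, -be * c, 0],
    (LinearMap.fst F F F).smulRight ![0, -be, al, 0] + (LinearMap.snd F F F).smulRight ![0, 0, 0, 1],
    ?_, ?_, ?_, fun s => ?_, fun s => ?_, fun s r => ?_, fun u => ?_⟩⟩
  · rw [gB_diag]; simp; linear_combination h
  · rw [gB_diag]; simp [c]; field_simp; linear_combination -h
  · rw [gB_diag]; simp [c]; field_simp; linear_combination h
  · rw [gB_diag]; simp; ring
  · rw [gB_diag]; simp; ring
  · rw [gB_diag]; simp [qf]; linear_combination (s.1 * r.1) * h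
  · refine ⟨c * δ * u 0 - al * c * u 1 - be * c * u 2, δ * u 0 + al * u 1 + be * u 2,
      ((-be * u 1 + al * u 2) / (-δ), u 3), ?_⟩
    funext i
    fin_cases i <;> simp [c] <;> field_simp <;> first
      | ring1
      | linear_combination (2 * u 1) * h
      | linear_combination (-2 * u 1) * h
      | linear_combination (2 * u 2) * h
      | linear_combination (-2 * u 2) * h
      | linear_combination (u 1) * h
      | linear_combination (-u 1) * h
      | linear_combination (u 2) * h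
      | linear_combination (-u 2) * h

variable {δ : F} (fr : Fr δ)

namespace Fr

lemma sy (x y : Fin 4 → F) : gB (G4 δ) x y = gB (G4 δ) y x := gB_symm δ x y

lemma vw : gB (G4 δ) fr.v fr.w = 1 := by rw [gB_symm, fr.wv]

lemma yw (s : F × F) : gB (G4 δ) (fr.yl s) fr.w = 0 := by rw [gB_symm, fr.wy]

lemma yv (s : F × F) : gB (G4 δ) (fr.yl s) fr.v = 0 := by rw [gB_symm, fr.vy]

lemma w_ne : fr.w ≠ 0 := fun e => by simpa [e] using fr.wv

/-- The long map. -/
def K : M4 F := cr (G4 δ) fr.w fr.w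

/-- The short skew map. -/
def B (s : F × F) : M4 F := cr (G4 δ) (fr.yl s) fr.w - cr (G4 δ) fr.w (fr.yl s)

/-- A root element. -/
noncomputable def u (s : F × F) : M4 F := 1 + (fr.B s - (qf δ s s / 2) • fr.K)

lemma u_eq_sieM (s : F × F) : fr.u s = 1 + sieM (G4 δ) fr.w (fr.yl s) := by
  simp only [u, B, K, sieM, fr.yy]

lemma KK : fr.K * fr.K = 0 := by simp [K, OrthWreathBig.cr_mul, fr.ww]

lemma KB (s : F × F) : fr.K * fr.B s = 0 := by
  simp [K, B, mul_sub, OrthWreathBig.cr_mul, fr.ww, fr.wy]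

lemma BK (s : F × F) : fr.B s * fr.K = 0 := by
  simp [K, B, sub_mul, OrthWreathBig.cr_mul, fr.ww, fr.yw]

lemma BB (s r : F × F) : fr.B s * fr.B r = -qf δ s r • fr.K := by
  simp [K, B, sub_mul, mul_sub, OrthWreathBig.cr_mul, fr.ww, fr.wy, fr.yw, fr.yy]

lemma B_add (s r : F × F) : fr.B (s + r) = fr.B s + fr.B r := by
  simp only [B, map_add, OrthWreathBig.cr_add_left, OrthWreathBig.cr_add_right]; abel

lemma B_neg (s : F × F) : fr.B (-s) = -fr.B s := by
  rw [eq_neg_iff_add_eq_zero, ← fr.B_add, neg_add_cancel]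
  simp [B]

lemma B_zero : fr.B 0 = 0 := by simp [B]

lemma u_zero : fr.u 0 = 1 := by simp [u, B_zero]

lemma u_mul (h2 : (2 : F) ≠ 0) (s r : F × F) : fr.u s * fr.u r = fr.u (s + r) := by
  simp only [u, add_mul, mul_add, mul_one, one_mul, sub_mul, mul_sub, smul_mul_assoc, mul_smul_comm,
    fr.KK, fr.KB, fr.BK, fr.BB, fr.B_add, smul_zero, sub_zero, qf_add_left, qf_add_right,
    qf_symm δ r s]
  match_scalars <;> field_simp <;> ring

lemma K_apply (x : Fin 4 → F) : fr.K *ᵥ x = gB (G4 δ) fr.w x • fr.w := OrthWreathBig.cr_mulVec _ _ _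

lemma B_apply (s : F × F) (x : Fin 4 → F) :
    fr.B s *ᵥ x = gB (G4 δ) fr.w x • fr.yl s - gB (G4 δ) (fr.yl s) x • fr.w := by
  rw [B, sub_mulVec, OrthWreathBig.cr_mulVec, OrthWreathBig.cr_mulVec]

lemma u_apply (s : F × F) (x : Fin 4 → F) :
    fr.u s *ᵥ x = x + (gB (G4 δ) fr.w x • fr.yl s - gB (G4 δ) (fr.yl s) x • fr.w -
      (qf δ s s / 2 * gB (G4 δ) fr.w x) • fr.w) := by
  rw [u, add_mulVec, one_mulVec, sub_mulVec, smul_mulVec, fr.B_apply, fr.K_apply, smul_smul]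

end Fr

lemma cr_adj (δ : F) (a b : Fin 4 → F) : (cr (G4 δ) a b)ᵀ * G4 δ = G4 δ * cr (G4 δ) b a := by
  rw [cr, cr, transpose_vecMulVec, vecMulVec_mul, mul_vecMulVec, ← vecMul_transpose, G4_transpose]

lemma adj_gB {X X' : M4 F} (h : Xᵀ * G4 δ = G4 δ * X') (x y : Fin 4 → F) :
    gB (G4 δ) (X *ᵥ x) y = gB (G4 δ) x (X' *ᵥ y) := by
  rw [OrthWreathBig.gB_apply, OrthWreathBig.gB_apply]
  simp only [TensorPowSp.fG, ← dotProduct_mulVec]
  rw [← vecMul_transpose, ← dotProduct_mulVec, mulVec_mulVec, h, ← mulVec_mulVec]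

namespace Fr

lemma K_adj : fr.Kᵀ * G4 δ = G4 δ * fr.K := cr_adj _ _ _

lemma B_adj (s : F × F) : (fr.B s)ᵀ * G4 δ = G4 δ * fr.B (-s) := by
  rw [fr.B_neg]
  simp only [B, transpose_sub, sub_mul, cr_adj, mul_neg, mul_sub, neg_sub]

lemma u_adj (s : F × F) : (fr.u s)ᵀ * G4 δ = G4 δ * fr.u (-s) := by
  simp only [u, transpose_add, transpose_one, transpose_sub, transpose_smul, add_mul, sub_mul, one_mul,
    smul_mul_assoc, fr.B_adj, fr.K_adj, mul_add, mul_sub, mul_smul_comm, mul_one, qf_neg_left,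
    qf_neg_right, neg_neg]

/-- The commutative algebra of one site. -/
def InA (X : M4 F) : Prop := ∃ (a c : F) (s : F × F), X = a • fr.K + c • (1 : M4 F) + fr.B s

lemma exists_inA (x : Fin 4 → F) : ∃ X, fr.InA X ∧ X *ᵥ fr.v = x := by
  obtain ⟨a, c, s, rfl⟩ := fr.expand x
  refine ⟨_, ⟨a, c, s, rfl⟩, ?_⟩
  rw [add_mulVec, add_mulVec, smul_mulVec, smul_mulVec, one_mulVec, fr.K_apply, fr.B_apply, fr.wv,
    fr.yv, one_smul, one_smul, zero_smul, sub_zero]

lemma inA_K : fr.InA fr.K := ⟨1, 0, 0, by simp [B_zero]⟩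

lemma inA_one : fr.InA 1 := ⟨0, 1, 0, by simp [B_zero]⟩

lemma inA_B (s : F × F) : fr.InA (fr.B s) := ⟨0, 0, s, by simp⟩

lemma inA_u (s : F × F) : fr.InA (fr.u s) :=
  ⟨-(qf δ s s / 2), 1, s, by simp only [u, neg_smul, one_smul]; abel⟩

lemma inA_comm {X Y : M4 F} (hX : fr.InA X) (hY : fr.InA Y) : Commute X Y := by
  obtain ⟨a, c, s, rfl⟩ := hX
  obtain ⟨a', c', r, rfl⟩ := hY
  show _ * _ = _ * _
  simp only [add_mul, mul_add, smul_mul_assoc, mul_smul_comm, one_mul, mul_one, fr.KK, fr.KB, fr.BK,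
    fr.BB, smul_zero, smul_smul, qf_symm δ r s]
  match_scalars <;> ring

end Fr

/-! ### Two sites -/

/-- A pure matrix of two sites. -/
def tt (X Y : M4 F) : MV F 2 := pureMat ![X, Y]

/-- A pure vector of two sites. -/
def pv (x y : Fin 4 → F) : Vec F 2 := pureVec ![x, y]

lemma tt_entry (X Y : M4 F) (a b : Fin 2 → Fin 4) : tt X Y a b = X (a 0) (b 0) * Y (a 1) (b 1) := by
  simp [tt, pureMat, Fin.prod_univ_two]

lemma pv_entry (x y : Fin 4 → F) (a : Fin 2 → Fin 4) : pv x y a = x (a 0) * y (a 1) := by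
  simp [pv, pureVec, Fin.prod_univ_two]

lemma tt_mul (X Y X' Y' : M4 F) : tt X Y * tt X' Y' = tt (X * X') (Y * Y') := by
  rw [tt, tt, tt, pureMat_mul]; congr 1; funext i; fin_cases i <;> rfl

lemma tt_one : tt (1 : M4 F) 1 = 1 := by
  rw [tt, ← pureMat_one 4 2]; congr 1; funext i; fin_cases i <;> rfl

lemma tt_add_left (X X' Y : M4 F) : tt (X + X') Y = tt X Y + tt X' Y := by
  ext a b; simp [tt_entry, add_mul]

lemma tt_add_right (X Y Y' : M4 F) : tt X (Y + Y') = tt X Y + tt X Y' := by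
  ext a b; simp [tt_entry, mul_add]

lemma tt_sub_left (X X' Y : M4 F) : tt (X - X') Y = tt X Y - tt X' Y := by
  ext a b; simp [tt_entry, sub_mul]

lemma tt_sub_right (X Y Y' : M4 F) : tt X (Y - Y') = tt X Y - tt X Y' := by
  ext a b; simp [tt_entry, mul_sub]

lemma tt_smul_left (c : F) (X Y : M4 F) : tt (c • X) Y = c • tt X Y := by
  ext a b; simp [tt_entry, mul_assoc]

lemma tt_smul_right (c : F) (X Y : M4 F) : tt X (c • Y) = c • tt X Y := by
  ext a b; simp [tt_entry, mul_left_comm]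

@[simp] lemma tt_zero_left (Y : M4 F) : tt 0 Y = 0 := by ext a b; simp [tt_entry]

@[simp] lemma tt_zero_right (X : M4 F) : tt X 0 = 0 := by ext a b; simp [tt_entry]

lemma tt_transpose (X Y : M4 F) : (tt X Y)ᵀ = tt Xᵀ Yᵀ := by
  rw [tt, tt, pureMat_transpose]; congr 1; funext i; fin_cases i <;> rfl

lemma gV_tt (δ : F) : gV (G4 δ) 2 = tt (G4 δ) (G4 δ) := by
  rw [tt, gV]; congr 1; funext i; fin_cases i <;> rfl

lemma site_zero_eq (X : M4 F) : site (0 : Fin 2) X = tt X 1 := by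
  rw [site, tt]; congr 1; funext i; fin_cases i <;> simp

lemma site_one_eq (Y : M4 F) : site (1 : Fin 2) Y = tt 1 Y := by
  rw [site, tt]; congr 1; funext i; fin_cases i <;> simp

lemma tt_mulVec (X Y : M4 F) (x y : Fin 4 → F) : tt X Y *ᵥ pv x y = pv (X *ᵥ x) (Y *ᵥ y) := by
  rw [tt, pv, pv, pureMat_mulVec]; congr 1; funext i; fin_cases i <;> rfl

lemma pv_add_left (x x' y : Fin 4 → F) : pv (x + x') y = pv x y + pv x' y := by
  ext a; simp [pv_entry, add_mul]

lemma pv_add_right (x y y' : Fin 4 → F) : pv x (y + y') = pv x y + pv x y' := by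
  ext a; simp [pv_entry, mul_add]

lemma pv_sub_left (x x' y : Fin 4 → F) : pv (x - x') y = pv x y - pv x' y := by
  ext a; simp [pv_entry, sub_mul]

lemma pv_sub_right (x y y' : Fin 4 → F) : pv x (y - y') = pv x y - pv x y' := by
  ext a; simp [pv_entry, mul_sub]

lemma pv_smul_left (c : F) (x y : Fin 4 → F) : pv (c • x) y = c • pv x y := by
  ext a; simp [pv_entry, mul_assoc]

lemma pv_smul_right (c : F) (x y : Fin 4 → F) : pv x (c • y) = c • pv x y := by
  ext a; simp [pv_entry, mul_left_comm]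

@[simp] lemma pv_zero_left (y : Fin 4 → F) : pv 0 y = 0 := by ext a; simp [pv_entry]

@[simp] lemma pv_zero_right (x : Fin 4 → F) : pv x 0 = 0 := by ext a; simp [pv_entry]

lemma single_eq (a : Fin 2 → Fin 4) :
    (Pi.single a 1 : Vec F 2) = pv (Pi.single (a 0) 1) (Pi.single (a 1) 1) := by
  rw [single_eq_pureVec, pv]; congr 1; funext i; fin_cases i <;> rfl

/-- The form of two sites. -/
def bv (δ : F) (z z' : Vec F 2) : F := z ⬝ᵥ gV (G4 δ) 2 *ᵥ z'

lemma bv_add_left (z z' y : Vec F 2) : bv δ (z + z') y = bv δ z y + bv δ z' y := add_dotProduct _ _ _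

lemma bv_add_right (z y y' : Vec F 2) : bv δ z (y + y') = bv δ z y + bv δ z y' := by
  simp [bv, mulVec_add, dotProduct_add]

lemma bv_smul_left (c : F) (z y : Vec F 2) : bv δ (c • z) y = c * bv δ z y := smul_dotProduct _ _ _

lemma bv_smul_right (c : F) (z y : Vec F 2) : bv δ z (c • y) = c * bv δ z y := by
  simp [bv, mulVec_smul, dotProduct_smul]

lemma bv_sub_left (z z' y : Vec F 2) : bv δ (z - z') y = bv δ z y - bv δ z' y := sub_dotProduct _ _ _

lemma bv_symm (z y : Vec F 2) : bv δ z y = bv δ y z := by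
  rw [bv, bv, gV_diag]
  simp only [dotProduct, mulVec_diagonal]
  exact Finset.sum_congr rfl fun a _ => by ring

lemma bv_pv (x y x' y' : Fin 4 → F) :
    bv δ (pv x y) (pv x' y') = gB (G4 δ) x x' * gB (G4 δ) y y' := by
  rw [bv, gV_tt, tt_mulVec, pv, pv, TensorPowSp.dotProduct_pureVec, Fin.prod_univ_two]
  simp [OrthWreathBig.gB_apply, TensorPowSp.fG, dotProduct_mulVec]

lemma bv_adj {g g' : MV F 2} (h : gᵀ * gV (G4 δ) 2 = gV (G4 δ) 2 * g') (z z' : Vec F 2) :
    bv δ (g *ᵥ z) z' = bv δ z (g' *ᵥ z') := by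
  rw [bv, bv, ← vecMul_transpose, ← dotProduct_mulVec, mulVec_mulVec, h, ← mulVec_mulVec]

lemma tt_adj {X X' Y Y' : M4 F} (hX : Xᵀ * G4 δ = G4 δ * X') (hY : Yᵀ * G4 δ = G4 δ * Y') :
    (tt X Y)ᵀ * gV (G4 δ) 2 = gV (G4 δ) 2 * tt X' Y' := by
  rw [tt_transpose, gV_tt, tt_mul, tt_mul, hX, hY]

lemma bv_tt {X X' Y Y' : M4 F} (hX : Xᵀ * G4 δ = G4 δ * X') (hY : Yᵀ * G4 δ = G4 δ * Y')
    (z z' : Vec F 2) : bv δ (tt X Y *ᵥ z) z' = bv δ z (tt X' Y' *ᵥ z') := bv_adj (tt_adj hX hY) z z'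

lemma bv_iso {g : MV F 2} (h : IsoV δ g) (z z' : Vec F 2) : bv δ (g *ᵥ z) (g *ᵥ z') = bv δ z z' := by
  rw [bv, bv, ← vecMul_transpose, ← dotProduct_mulVec, mulVec_mulVec, mulVec_mulVec, h]

lemma ext_bv (hδ : ¬ IsSquare δ) {c c' : Vec F 2}
    (h : ∀ x y, bv δ (pv x y) c = bv δ (pv x y) c') : c = c' := by
  funext a
  have := h (Pi.single (a 0) 1) (Pi.single (a 1) 1)
  rw [← single_eq, bv, bv, gV_diag, single_dotProduct, single_dotProduct, one_mul, one_mul,
    mulVec_diagonal, mulVec_diagonal] at this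
  exact mul_left_cancel₀ (Finset.prod_ne_zero_iff.2 fun i _ => wt_ne_zero hδ _) this

lemma ext_mulVec {g g' : MV F 2} (h : ∀ x y, g *ᵥ pv x y = g' *ᵥ pv x y) : g = g' :=
  Matrix.ext_of_mulVec_single fun a => by rw [single_eq]; exact h _ _

/-- Matrices commuting with both algebras and agreeing on one vector agree. -/
theorem Fr.eq_of_apply_eq {g g' : MV F 2}
    (hg : ∀ X Y, fr.InA X → fr.InA Y → Commute g (tt X Y))
    (hg' : ∀ X Y, fr.InA X → fr.InA Y → Commute g' (tt X Y))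
    (h : g *ᵥ pv fr.v fr.v = g' *ᵥ pv fr.v fr.v) : g = g' := by
  refine ext_mulVec fun x y => ?_
  obtain ⟨X, hX, rfl⟩ := fr.exists_inA x
  obtain ⟨Y, hY, rfl⟩ := fr.exists_inA y
  rw [← tt_mulVec, mulVec_mulVec, mulVec_mulVec, (hg X Y hX hY).eq, (hg' X Y hX hY).eq,
    ← mulVec_mulVec, ← mulVec_mulVec, h]

end Cfsg.Agent.MaxSub.OrthFour.Syl
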